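/-
Project LOW4: vocabulary and statements of the steps for groups without transvections.
-/
import Cfsg.Agent.Low4.Defs2
import Cfsg.Agent.Low5.Defs2
import Cfsg.Agent.Low.Sp4QBlk
import Cfsg.Agent.Cls.SL2Sub

set_option autoImplicit false
set_option linter.unusedSectionVars false

namespace CL.Low4

open Matrix Cfsg Cfsg.Geo CL.Asch CL.SLn CL.Low Module
open scoped commutatorElement MatrixGroups

universe u

/-! ### Group predicates -/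

section Groups

variable {H : Type u} [Group H]

/-- `t` lies in the four-group generated by `a` and `b`. -/
def E4 (a b t : H) : Prop := t = 1 ∨ t = a ∨ t = b ∨ t = a * b

/-- Three independent elements of square one. -/
def Ind3 (a b c : H) : Prop := a * a = 1 ∧ b * b = 1 ∧ c * c = 1 ∧ a ≠ 1 ∧ b ≠ 1 ∧ b ≠ a ∧ ¬ E4 a b c

/-- `x`, `y` generate a Heisenberg group of exponent three with centre `z`. -/
def Hs (x y z : H) : Prop := x ^ 3 = 1 ∧ y ^ 3 = 1 ∧ z = ⁅x, y⁆ ∧ z ≠ 1 ∧ Commute z x ∧ Commute z y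

/-- A Heisenberg group with real centre. -/
def He3 (H : Type u) [Group H] : Prop := ∃ x y z h : H, Hs x y z ∧ h * z * h⁻¹ = z⁻¹

/-- The group `2³ : 7`. -/
def EG3 (H : Type u) [Group H] : Prop :=
  ∃ a b c g : H, Ind3 a b c ∧ Commute a b ∧ Commute a c ∧ Commute b c ∧ g * a * g⁻¹ = b ∧ g * b * g⁻¹ = c ∧
    g * c * g⁻¹ = a * b

/-- Squares in a group of order eight. -/
def SQ3 (H : Type u) [Group H] : Prop :=
  ∃ a b c s t : H, Ind3 a b c ∧ s * s = a ∧ t * t = b ∧ Commute s b ∧ Commute s c ∧ Commute t c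

/-- An involution in the second derived group of the centraliser of a four-group. -/
def V5 (H : Type u) [Group H] : Prop :=
  ∃ a b x s x' s' : H, a * a = 1 ∧ b * b = 1 ∧ a ≠ 1 ∧ b ≠ 1 ∧ b ≠ a ∧ a = ⁅⁅x, s⁆, ⁅x', s'⁆⁆ ∧
    ∀ w, w = a ∨ w = b → Commute x w ∧ Commute s w ∧ Commute x' w ∧ Commute s' w

/-- The group `11 : 5`. -/
def F115 (H : Type u) [Group H] : Prop := ∃ x y : H, x ^ 11 = 1 ∧ x ≠ 1 ∧ y * x * y⁻¹ = x ^ 3

/-- The group `3² : Q₈`. -/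
def F9Q (H : Type u) [Group H] : Prop :=
  ∃ x y g h : H, x ^ 3 = 1 ∧ y ^ 3 = 1 ∧ x ≠ 1 ∧ Commute x y ∧ g * x * g⁻¹ = y ∧ g * y * g⁻¹ = x⁻¹ ∧
    h * x * h⁻¹ = x * y ∧ h * y * h⁻¹ = x * y⁻¹

/-- Generators of `PSp₄(3)`. -/
def U42D (H : Type u) [Group H] : Prop :=
  ∃ (t : Fin 4 → H) (x y : H), Function.Injective t ∧ (∀ i, t i ^ 3 = 1) ∧ t 0 * t 1 * t 0 = t 1 * t 0 * t 1 ∧
    t 1 * t 2 * t 1 = t 2 * t 1 * t 2 ∧ t 2 * t 3 * t 2 = t 3 * t 2 * t 3 ∧ Commute (t 0) (t 2) ∧ Commute (t 0) (t 3) ∧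
    Commute (t 1) (t 3) ∧ Subgroup.closure (Set.range t) = ⊤ ∧ Hs x y (t 0)

/-- The classes of `L₃(4)` relative to an elementary abelian subgroup of order sixteen. -/
def L34D (H : Type u) [Group H] : Prop :=
  ∃ (A : Subgroup H) (x : H), (∀ a ∈ A, a * a = 1) ∧ Nat.card A = 16 ∧ (∀ a ∈ A, x * a * x⁻¹ ∈ A) ∧
    (∀ B ≤ A, (∀ a ∈ B, x * a * x⁻¹ ∈ B) → B = ⊥ ∨ B = A) ∧
    ∀ g : H, g * g = 1 ∨ g ^ 3 = 1 ∨ (g ^ 7 = 1 ∧ IsConj (g ^ 3) g⁻¹) ∨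
      ∃ k, IsConj g k ∧ (∀ a ∈ A, k * a * k⁻¹ ∈ A) ∧
        ((g ^ 5 = 1 ∧ IsConj g g⁻¹ ∧ ∀ a ∈ A, Commute k a → a = 1) ∨
          (g ^ 4 = 1 ∧ g * g ≠ 1 ∧ Nat.card (A ⊓ Subgroup.centralizer {k} : Subgroup H) = 4))

/-- The abstract properties of the relation "the preimages in `GL₄` commute". -/
structure CX (C : H → H → Prop) : Prop where
  symm : ∀ {a b}, C a b → C b a
  comm : ∀ {a b}, C a b → Commute a b
  refl : ∀ a, C a a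
  one : ∀ a, C 1 a
  mul : ∀ {a b c}, C a c → C b c → C (a * b) c
  inv : ∀ {a c}, C a c → C a⁻¹ c
  conj : ∀ {a b} (g), C a b → C (g * a * g⁻¹) (g * b * g⁻¹)
  anti : ∀ {z a b}, z * z = 1 → Commute a z → Commute b z → ¬ C a z → ¬ C b z → C (a * b) z
  anti' : ∀ {c a b}, a * a = 1 → b * b = 1 → Commute c a → Commute c b → ¬ C c a → ¬ C c b → C c (a * b)
  swap : ∀ {x} (a), x * x = 1 → (C x (a * (x * a * x⁻¹)) ↔ C a (x * a * x⁻¹))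
  m3 : ∀ {a b c}, Ind3 a b c → C a b → C a c → ¬ C b c
  ab : ∀ {a b s t}, a * a = 1 → b * b = 1 → a ≠ 1 → b ≠ 1 → b ≠ a → C a b → C s a → C s b → C t a → C t b → C s t
  dih : ∀ {e f} (R : Subgroup H), e * e = 1 → f * f = 1 → Commute e f → ¬ C e f → IsPGroup 2 R →
    (∀ r ∈ R, C r e ∧ C r f) → IsCyclic R ∨ ∃ n, Nonempty (R ≃* DihedralGroup n)

namespace CX

variable {C : H → H → Prop} (h : CX C) {a b c z : H}
include h

theorem pow (hc : C a c) (n : ℕ) : C (a ^ n) c := by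
  induction n with
  | zero => simpa using h.one c
  | succ n ih => simpa [pow_succ] using h.mul ih hc

theorem zpow (hc : C a c) (n : ℤ) : C (a ^ n) c := by
  obtain ⟨m, rfl | rfl⟩ := n.eq_nat_or_neg
  · simpa using h.pow hc m
  · simpa using h.inv (h.pow hc m)

theorem mul_right (h1 : C a b) (h2 : C a c) : C a (b * c) := h.symm (h.mul (h.symm h1) (h.symm h2))

theorem mul_iff (h1 : C a c) : C (a * b) c ↔ C b c :=
  ⟨fun k => by simpa using h.mul (h.inv h1) k, h.mul h1⟩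

theorem mul_iff' (h1 : C b c) : C (a * b) c ↔ C a c :=
  ⟨fun k => by simpa using h.mul k (h.inv h1), fun k => h.mul k h1⟩

theorem conj_iff (g : H) : C (g * a * g⁻¹) (g * b * g⁻¹) ↔ C a b :=
  ⟨fun k => by simpa [mul_assoc] using h.conj g⁻¹ k, h.conj g⟩

theorem sq (hz : z * z = 1) (ha : Commute a z) : C (a * a) z :=
  (em (C a z)).elim (fun k => h.mul k k) fun k => h.anti hz ha ha k k

/-- The elements related to `c`. -/
def grp (c : H) : Subgroup H where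
  carrier := {a | C a c}
  mul_mem' := h.mul
  one_mem' := h.one c
  inv_mem' := h.inv

end CX

/-- The component of the centraliser of `z`. -/
structure Comp (C : H → H → Prop) (z : H) (L : Subgroup H) : Prop where
  iso : Nonempty (L ≃* alternatingGroup (Fin 5))
  cm : ∀ l ∈ L, C l z
  max : ∀ K : Subgroup H, ⁅K, K⁆ = K → (∀ k ∈ K, Commute k z) → K ≤ L
  anti : ∀ a ∈ L, ∀ b ∈ L, a * a = 1 → b * b = 1 → a ≠ 1 → b ≠ 1 → b ≠ a → ¬ C a b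
  inner : ∀ g, C g z → ∃ l ∈ L, ∀ m ∈ L, Commute (l⁻¹ * g) m

/-- The 2-local data at an involution `z` with a component. -/
structure LZ (C : H → H → Prop) (z e f y : H) (T R : Subgroup H) : Prop where
  zz : z * z = 1
  z1 : z ≠ 1
  pT : IsPGroup 2 T
  cT : ∀ t ∈ T, Commute t z
  zT : z ∈ T
  eT : e ∈ T
  fT : f ∈ T
  ee : e * e = 1
  ff : f * f = 1
  ef : Commute e f
  anti : ¬ C e f
  ez : C e z
  fz : C f z
  ye : y * e * y⁻¹ = f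
  yf : y * f * y⁻¹ = e * f
  memR : ∀ t, t ∈ R ↔ t ∈ T ∧ C t e ∧ C t f
  yR : ∀ r ∈ R, Commute y r
  even : ∀ t ∈ T, C t z → Commute t e ∧ Commute t f
  nrm : ∀ w ∈ R, w ≠ 1 → w * w = 1 → ∀ g, Commute g w → (∀ t ∈ T, g * t * g⁻¹ ∈ T) →
    E4 e f (g * e * g⁻¹) ∧ E4 e f (g * f * g⁻¹)
  max : ∀ w ∈ R, w ≠ 1 → w * w = 1 → ∀ Q : Subgroup H, IsPGroup 2 Q → T ≤ Q → (∀ q ∈ Q, Commute q w) → Q ≤ T

theorem LZ.zR {C : H → H → Prop} (h : CX C) {z e f y : H} {T R : Subgroup H} (l : LZ C z e f y T R) : z ∈ R :=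
  (l.memR z).2 ⟨l.zT, h.symm l.ez, h.symm l.fz⟩

/-- An element of `T` centralising `e` and `f` lies in `E × R`. -/
theorem LZ.dec {C : H → H → Prop} (h : CX C) {z e f y : H} {T R : Subgroup H} (l : LZ C z e f y T R) {t : H}
    (ht : t ∈ T) (he : Commute t e) (hf : Commute t f) : ∃ ε r, E4 e f ε ∧ r ∈ R ∧ t = ε * r := by
  have fe : ¬ C f e := fun k => l.anti (h.symm k)
  have c1 : e * (e * t) = t := by rw [← mul_assoc, l.ee, one_mul]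
  have c2 : f * (f * t) = t := by rw [← mul_assoc, l.ff, one_mul]
  by_cases k1 : C t e <;> by_cases k2 : C t f
  · exact ⟨1, t, .inl rfl, (l.memR t).2 ⟨ht, k1, k2⟩, (one_mul t).symm⟩
  · exact ⟨e, e * t, .inr (.inl rfl), (l.memR _).2 ⟨T.mul_mem l.eT ht, h.mul (h.refl e) k1,
      h.anti l.ff l.ef hf l.anti k2⟩, c1.symm⟩
  · exact ⟨f, f * t, .inr (.inr (.inl rfl)), (l.memR _).2 ⟨T.mul_mem l.fT ht, h.anti l.ee l.ef.symm he fe k1,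
      h.mul (h.refl f) k2⟩, c2.symm⟩
  · refine ⟨e * f, f * (e * t), .inr (.inr (.inr rfl)), (l.memR _).2 ⟨T.mul_mem l.fT (T.mul_mem l.eT ht),
      h.anti l.ee l.ef.symm ((Commute.refl e).mul_left he) fe (mt (h.mul_iff (h.refl e)).1 k1),
      h.mul (h.refl f) (h.anti l.ff l.ef hf l.anti k2)⟩, ?_⟩
    rw [mul_assoc, ← mul_assoc f, l.ff, one_mul, c1]

/-- If `R` has an involution other than `z`, then `T` centralises `e` and `f`. -/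
theorem LZ.cent {C : H → H → Prop} (h : CX C) {z e f y : H} {T R : Subgroup H} (l : LZ C z e f y T R) {r : H}
    (hr : r ∈ R) (r2 : r * r = 1) (r1 : r ≠ 1) (rz : r ≠ z) :
    ¬ C r z ∧ ∀ t ∈ T, Commute t e ∧ Commute t f := by
  obtain ⟨rT, re, rf⟩ := (l.memR r).1 hr
  have k : ¬ C r z := fun k => h.m3 (a := z) (b := r) (c := e) ⟨l.zz, r2, l.ee, l.z1, r1, rz, by
    rintro (e1 | e1 | e1 | e1) <;> refine l.anti (e1 ▸ ?_)
    exacts [h.one f, h.symm l.fz, rf, h.mul (h.symm l.fz) rf]⟩ (h.symm k) (h.symm l.ez) re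
  refine ⟨k, fun t ht => (em (C t z)).elim (l.even t ht) fun k' => ?_⟩
  obtain ⟨a, b⟩ := l.even _ (T.mul_mem ht rT) (h.anti l.zz (l.cT t ht) (l.cT r rT) k' k)
  exact ⟨by simpa using a.mul_left (h.comm re).inv_left, by simpa using b.mul_left (h.comm rf).inv_left⟩

/-- The case of a cyclic group `R` with an outer automorphism. -/
structure CB (C : H → H → Prop) (z e f y s : H) (T R : Subgroup H) : Prop extends LZ C z e f y T R where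
  cyc : IsCyclic R
  sT : s ∈ T
  ss : s * s = 1
  se : Commute s e
  sf : s * f * s⁻¹ = e * f
  sz : ¬ C s z
  inv : ∀ r ∈ R, s * r * s⁻¹ = r⁻¹
  dec : ∀ t ∈ T, ∃ ε r, E4 e f ε ∧ r ∈ R ∧ (t = ε * r ∨ t = s * (ε * r))

end Groups

/-! ### Matrix groups -/

section Four

variable {F : Type u} [Field F]

/-- The traces lie in the prime field. -/
def FrL (P : Subgroup (G F)) : Prop := ∀ l ∈ P, tr l ^ ringChar F = tr l

/-- Inversion acts on the traces as the Frobenius map. -/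
def FrU (P : Subgroup (G F)) : Prop := ∀ l ∈ P, tr l ^ ringChar F = tr l⁻¹

/-- The traces of `2 A₇`. -/
def B7 (P : Subgroup (G F)) : Prop :=
  (ringChar F % 7 = 1 ∨ ringChar F % 7 = 2 ∨ ringChar F % 7 = 4 → FrL P) ∧
    (ringChar F % 7 = 3 ∨ ringChar F % 7 = 5 ∨ ringChar F % 7 = 6 → FrU P) ∧ (ringChar F = 7 → Real P)

/-- The shape of the elements of a Sylow 2-subgroup in characteristic two. -/
def utm (a b d e f : F) : Matrix (Fin 4) (Fin 4) F := !![1, a, d, f; 0, 1, b, e; 0, 0, 1, a; 0, 0, 0, 1]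

/-- A Sylow 2-subgroup in normal form. -/
structure UTS (P : Subgroup (G F)) (S : Sylow 2 P) : Prop where
  two : (2 : F) = 0
  noTv : ¬ HasTv P
  form : ∀ s ∈ (S : Subgroup P), ∃ a b d e f : F, (s : G F).val = utm a b d e f
  zz : ∃ z ∈ (S : Subgroup P), (z : G F).val = utm 0 0 1 1 0

/-- The subgroups `E` (`a = 0`) and `B` (`b = 0`). -/
def IsEB (P : Subgroup (G F)) (S E B : Subgroup P) : Prop :=
  (∀ s, s ∈ E ↔ s ∈ S ∧ (s : G F).val 0 1 = 0) ∧ ∀ s, s ∈ B ↔ s ∈ S ∧ (s : G F).val 1 2 = 0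

/-- The characteristic polynomial of an element of order seven. -/
def chi7 (b : F) (z : Matrix (Fin 4) (Fin 4) F) : Matrix (Fin 4) (Fin 4) F :=
  (z - 1) * (z ^ 3 - b • z ^ 2 - (1 + b) • z - 1)

/-- The rigid triple generating `SL₂(7)`. -/
structure T27 (P : Subgroup (G F)) (x y : G F) (b : F) : Prop where
  hb : b ^ 2 + b + 2 = 0
  xx : x * x = -1
  yy : y ^ 3 = 1
  z7 : (x * y) ^ 7 = 1
  zz : chi7 b (x * y).val = 0
  tz : tr (x * y) = 1 + b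
  tz' : tr (x * y)⁻¹ = -b
  gen : Subgroup.closure {x, y} = P
  rk : (y.val - 1).rank ≤ 2

/-- The triple in a model of `2 A₇`. -/
structure M27 (K : Subgroup (G F)) (x y : G F) (b : F) : Prop where
  perfect : ⁅K, K⁆ = K
  iso : Nonempty (PQ K ≃* alternatingGroup (Fin 7))
  mx : x ∈ K
  my : y ∈ K
  xx : x * x = -1
  yy : y ^ 3 = 1
  zz : chi7 b (x * y).val = 0
  anti : ∃ j : G F, j * x = -(x * j)
  cz : ∃ l : Dual F (V F), ∀ w : V F, (∀ k < 4, l ((x * y) ^ k • w) = 0) → w = 0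
  cy : ∃ l m : Dual F (V F), (∀ w : V F, m (y • w) = m w) ∧ ∀ w : V F, (∀ k < 3, l (y ^ k • w) = 0) → m w = 0 → w = 0

/-- Odd characteristic, no transvections, large field, all scalars. -/
structure OC (Γ : Subgroup (G F)) : Prop where
  two : (2 : F) ≠ 0
  sc : scalars (Fin 4) F ≤ Γ
  simple : IsSimpleGroup (PQ Γ)
  nonab : ¬ IsMulCommutative (PQ Γ)
  span : spanAlg Γ = ⊤
  noTv : ¬ HasTv Γ
  det4 : ∀ g ∈ Γ, ∃ c : F, g.val.det = c ^ 4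
  spl : ∀ g ∈ Γ, g.val.charpoly.Splits
  i8 : ∃ ζ : F, ζ ^ 4 = -1
  om : ∃ ω : F, ω ^ 2 + ω + 1 = 0

/-- The non-scalar involutions are `-1` on a plane and `1` on a complement. -/
def T22 (Γ : Subgroup (G F)) : Prop :=
  ∀ t ∈ Γ, t * t = 1 → t ∉ scalars (Fin 4) F → ∃ (e : Fin 2 → V F) (x : Fin 2 → Dual F (V F)), Bi e x ∧ Sc e x (-1) t

/-- Involutions lift to involutions. -/
def Lift (Γ : Subgroup (G F)) : Prop := ∀ z : PQ Γ, z * z = 1 → ∃ t : Γ, (t : PQ Γ) = z ∧ t * t = 1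

/-- The preimages commute. -/
def Cm (Γ : Subgroup (G F)) (a b : PQ Γ) : Prop := ∃ x y : Γ, (x : PQ Γ) = a ∧ (y : PQ Γ) = b ∧ Commute x y

theorem cm_mk {Γ : Subgroup (G F)} {x y : Γ} : Cm Γ x y ↔ Commute x y := by
  refine ⟨fun ⟨x', y', h1, h2, h⟩ => ?_, fun h => ⟨x, y, rfl, rfl, h⟩⟩
  have k : ∀ {a b : Γ}, (a : PQ Γ) = b → ∀ g, Commute (a⁻¹ * b) g := fun e g =>
    (Subgroup.mem_center_iff.1 (scalars_subgroupOf_le_center Γ (QuotientGroup.eq.1 e)) g).symm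
  simpa using ((h.mul_right (k h2 x').symm).mul_left (k h1 _))

/-- The quadratic group of a plane. -/
def UW (Γ : Subgroup (G F)) (W : Submodule F (V F)) : Subgroup (G F) where
  carrier := {g | g ∈ Γ ∧ (∀ w ∈ W, g • w = w) ∧ ∀ y, g • y - y ∈ W}
  mul_mem' := fun {a b} ha hb => ⟨Γ.mul_mem ha.1 hb.1, fun w hw => by rw [mul_smul, hb.2.1 w hw, ha.2.1 w hw],
    fun y => by simpa [mul_smul] using W.add_mem (ha.2.2 (b • y)) (hb.2.2 y)⟩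
  one_mem' := ⟨Γ.one_mem, fun w _ => one_smul _ w, fun y => by simp⟩
  inv_mem' := fun {a} ha => ⟨Γ.inv_mem ha.1, fun w hw => by rw [inv_smul_eq_iff, ha.2.1 w hw],
    fun y => by simpa using W.neg_mem (ha.2.2 (a⁻¹ • y))⟩

theorem mem_UW {Γ : Subgroup (G F)} {W : Submodule F (V F)} {g : G F} :
    g ∈ UW Γ W ↔ g ∈ Γ ∧ (∀ w ∈ W, g • w = w) ∧ ∀ y, g • y - y ∈ W := Iff.rfl

/-- A plane with a large quadratic group. -/
def Big (Γ : Subgroup (G F)) (W : Submodule F (V F)) : Prop := finrank F W = 2 ∧ 3 < Nat.card (UW Γ W)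

/-- No large quadratic groups. -/
def NQd (Γ : Subgroup (G F)) : Prop := ∀ W, ¬ Big Γ W

/-- The `p`-subgroups preserving two complementary planes are small. -/
def QCo (Γ : Subgroup (G F)) : Prop :=
  ∀ (e : Fin 2 → V F) (x : Fin 2 → Dual F (V F)), Bi e x → ∀ U ≤ Γ, IsPGroup (ringChar F) U →
    (∀ g ∈ U, ∀ y, pr e x (g • y) = g • pr e x y) → Nat.card U ≤ 3

/-- A perfect group acting on a plane only. -/
structure Al (Γ : Subgroup (G F)) (τ : G F) (K : Subgroup (G F)) (κ : G F) : Prop where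
  le : K ≤ Γ
  perfect : ⁅K, K⁆ = K
  mτ : τ ∈ K
  ττ : τ * τ = 1
  ns : τ ∉ scalars (Fin 4) F
  cen : ∀ k ∈ K, Commute k τ
  fix : ∀ k ∈ K, ∀ y : V F, τ • y = y → k • y = y
  mκ : κ ∈ K
  κ5 : κ ^ 5 = 1
  κ1 : κ ≠ 1
  three : (3 : F) ≠ 0
  five : (5 : F) ≠ 0

/-- A perfect group acting diagonally on two planes. -/
structure Dg2 (Γ : Subgroup (G F)) (τ : G F) (K : Subgroup (G F)) : Prop where
  mτ : τ ∈ Γ
  ττ : τ * τ = 1
  pl : ∃ (e : Fin 2 → V F) (x : Fin 2 → Dual F (V F)), Bi e x ∧ Sc e x (-1) τ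
  le : K ≤ Γ
  perfect : ⁅K, K⁆ = K
  cen : ∀ k ∈ K, Commute k τ
  max : ∀ K' ≤ Γ, ⁅K', K'⁆ = K' → (∀ k ∈ K', Commute k τ) → K' ≤ K
  rho : ∃ ρ : K →* alternatingGroup (Fin 5), Function.Surjective ρ ∧ ∀ k : K,
    (ρ k = 1 ↔ ∃ a : F, ∀ y : V F, τ • y = -y → (k : G F) • y = a • y) ∧
    (ρ k = 1 ↔ ∃ a : F, ∀ y : V F, τ • y = y → (k : G F) • y = a • y)
  inn : ∀ g ∈ Γ, Commute g τ → ∃ k ∈ K, ∃ a : F, ∀ y : V F, τ • y = -y → g • y = a • k • y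

/-- The preimage of a Sylow 2-subgroup. -/
structure Syl (Γ T : Subgroup (G F)) : Prop where
  le : T ≤ Γ
  sc : scalars (Fin 4) F ≤ T
  two : ∀ t ∈ T, ∃ n, t ^ 2 ^ n ∈ scalars (Fin 4) F
  odd : Odd (T.relIndex Γ)

/-- `T` permutes the lines of the frame `e`. -/
def MonT (T : Subgroup (G F)) (e : Fin 4 → V F) (x : Fin 4 → Dual F (V F)) : Prop :=
  Bi e x ∧ ∀ g ∈ T, ∀ i, ∃ (j : Fin 4) (c : F), g • e i = c • e j

/-- The hypotheses of the reflection case. -/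
structure RX (Γ : Subgroup (G F)) : Prop extends OC Γ where
  qe : ∀ (e : Fin 2 → V F) (x : Fin 2 → Dual F (V F)) (i : F) (h : G F), Bi e x → Sc e x i h → h ∈ Γ → i ^ 2 = -1 →
    ∀ v φ, Rf Γ v φ → (pr e x v = 0 ∧ prD e x φ = 0) ∨ In e x v φ ∨ φ (pr e x v) = 1
  mov : ∀ (e : Fin 2 → V F) (x : Fin 2 → Dual F (V F)), Bi e x →
    ∃ v φ, Rf Γ v φ ∧ ¬ (pr e x v = 0 ∧ prD e x φ = 0) ∧ ¬ In e x v φ
  nfr : ∀ (e : Fin 4 → V F) (x : Fin 4 → Dual F (V F)), Bi e x → ∃ v φ, Rf Γ v φ ∧ ¬ Mon e x v φ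
  gen : Γ ≤ RG Γ ⊔ scalars (Fin 4) F

/-- All the elements `diag (i, i, 1, 1)` lie in `Γ`. -/
def H3 (Γ : Subgroup (G F)) (e : Fin 4 → V F) (x : Fin 4 → Dual F (V F)) (i : F) : Prop :=
  Bi e x ∧ i ^ 2 = -1 ∧ ∀ j k, j ≠ k → ∃ h ∈ Γ, Sc ![e j, e k] ![x j, x k] i h

/-- The reflections of the group `G₃₁`. -/
def G31 (e : Fin 4 → V F) (x : Fin 4 → Dual F (V F)) (v : V F) (φ : Dual F (V F)) : Prop :=
  (∃ i, SameRf (e i) ((2 : F) • x i) v φ) ∨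
  (∃ (i j : Fin 4) (c : F), i ≠ j ∧ c ^ 4 = 1 ∧ SameRf (e i - c • e j) (x i - c⁻¹ • x j) v φ) ∨
  ∃ d : Fin 4 → F, (∀ i, d i ^ 4 = 1) ∧ (∏ i, d i) ^ 2 = 1 ∧
    SameRf (∑ i, d i • e i) ((2 : F)⁻¹ • ∑ i, (d i)⁻¹ • x i) v φ

/-- The quasisimple irreducible subgroups of `GL₄(F)`. -/
def D4Out (P : Subgroup (G F)) : Prop :=
  Real P ∨ LData P ∨ UData P ∨ Nonempty (PQ P ≃* alternatingGroup (Fin 7)) ∨
  ((7 : F) ≠ 0 ∧ ∃ (K : Type) (_ : Field K) (_ : Fintype K), Fintype.card K = 7 ∧ Nonempty (PQ P ≃* PSL(2, K))) ∨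
  ((2 : F) ≠ 0 ∧ (3 : F) ≠ 0 ∧ (ringChar F % 3 = 1 → FrL P) ∧ (ringChar F % 3 = 2 → FrU P) ∧
    ∃ (K : Type) (_ : Field K) (_ : Fintype K), Fintype.card K = 4 ∧ Nonempty (PQ P ≃* Cfsg.PSU 4 K 2)) ∨
  ((3 : F) = 0 ∧ FrU P ∧ ∃ (K : Type) (_ : Field K) (_ : Fintype K), Fintype.card K = 4 ∧ Nonempty (PQ P ≃* PSL(3, K)))

end Four

/-! ### Characteristic two -/

def SubB0 : Prop :=
  ∀ (F : Type u) [Field F] [Fintype F] (P : Subgroup (G F)), (2 : F) = 0 → QS P → ¬ HasTv P →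
    ∃ P' : Subgroup (G F), QS P' ∧ Nonempty (PQ P ≃* PQ P') ∧ ∃ S : Sylow 2 P', UTS P' S

def SubB1 : Prop :=
  ∀ (F : Type u) [Field F] [Fintype F] (P : Subgroup (G F)) (S : Sylow 2 P), UTS P S →
    ∃ E B : Subgroup P, IsEB P S E B ∧ Low5.UF (S : Subgroup P) E B ∧ Low5.UKey (S : Subgroup P) E B

def SubB4 : Prop :=
  ∀ (F : Type u) [Field F] [Fintype F] (P : Subgroup (G F)) (S : Sylow 2 P), QS P → UTS P S →
    ∀ E B : Subgroup P, IsEB P S E B → Low5.UF (S : Subgroup P) E B → ¬ Low5.U3D (PQ P)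

/-! ### The identified groups -/

def SubL2 : Prop :=
  ∀ (F : Type u) [Field F] [Fintype F] (P : Subgroup (G F)), QS P → ∀ (K : Type) [Field K] [Fintype K],
    4 ≤ Fintype.card K → Nonempty (PQ P ≃* PSL(2, K)) → Real P ∨ (Fintype.card K = 7 ∧ (7 : F) ≠ 0)

def SubCross : Prop :=
  ∀ (F : Type u) [Field F] [Fintype F] (P : Subgroup (G F)) (K : Type) [Field K] [Fintype K],
    ringChar F ≠ ringChar K → ∀ θ : PSL(2, K) →* PQ P, Function.Injective θ → Fintype.card K ≤ 11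

def SubA7 : Prop :=
  ∀ (F : Type u) [Field F] [Fintype F] (P : Subgroup (G F)), QS P → Nonempty (PQ P ≃* alternatingGroup (Fin 7)) → B7 P

def SubS27 : Prop :=
  ∀ (F : Type u) [Field F] [Fintype F] (P : Subgroup (G F)), QS P → (7 : F) ≠ 0 → ∀ (K : Type) [Field K] [Fintype K],
    Fintype.card K = 7 → Nonempty (PQ P ≃* PSL(2, K)) → (2 : F) ≠ 0 ∧ ∃ x y b, T27 P x y b

def SubN27 : Prop :=
  ∀ (F : Type u) [Field F] [Fintype F] (P : Subgroup (G F)), QS P → (7 : F) ≠ 0 → ∀ (K : Type) [Field K] [Fintype K],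
    Fintype.card K = 7 → Nonempty (PQ P ≃* PSL(2, K)) → ∀ x y b, T27 P x y b → SelfNorm P

def SubM27 : Prop :=
  ∀ (F : Type u) [Field F] [Fintype F] (b : F), (2 : F) ≠ 0 → b ^ 2 + b + 2 = 0 →
    ∃ (K : Subgroup (G F)) (x y : G F), M27 K x y b

def SubI27 : Prop :=
  ∀ (F : Type u) [Field F] [Fintype F] (P K : Subgroup (G F)) (x y x' y' : G F) (b : F), (2 : F) ≠ 0 → Irr P →
    T27 P x y b → M27 K x' y' b → ∃ c : G F, c * x * c⁻¹ = x' ∧ c * y * c⁻¹ = y'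

def SubU42 : Prop :=
  ∀ (F : Type u) [Field F] [Fintype F] (P : Subgroup (G F)), QS P → (3 : F) ≠ 0 → ∀ ω : F, ω ^ 2 + ω + 1 = 0 →
    U42D (PQ P) → OmData P ω

def SubL34 : Prop :=
  ∀ (F : Type u) [Field F] [Fintype F] (Γ : Subgroup (G F)), (3 : F) = 0 → OC Γ → T22 Γ → Lift Γ → CX (Cm Γ) →
    L34D (PQ Γ) → ∀ l ∈ Γ, l.val.det = 1 → tr l ^ 3 = tr l⁻¹

def DataHe : Prop :=
  ∀ (H : Type u) [Group H] (K : Type) [Field K] [Fintype K],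
    (Fintype.card K = 3 → Nonempty (H ≃* PSL(4, K)) ∨ Nonempty (H ≃* Cfsg.Lie.chevG2.group K) → He3 H) ∧
    (Fintype.card K = 9 → Nonempty (H ≃* Cfsg.PSU 4 K 3) → He3 H)

def DataEG : Prop :=
  ∀ (H : Type u) [Group H], (∃ n, 8 ≤ n ∧ Nonempty (H ≃* alternatingGroup (Fin n))) ∨ Spor.IsoM22 H → EG3 H

def DataSQ : Prop :=
  ∀ (H : Type u) [Group H], (Lie.IsoSuzuki H → SQ3 H) ∧
    ∀ (K : Type) [Field K] [Fintype K], Fintype.card K = 16 → Nonempty (H ≃* Cfsg.PSU 3 K 4) → V5 H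

def DataF9 : Prop :=
  ∀ (H : Type u) [Group H] [Finite H], (IsM11 H → F115 H ∧ F9Q H) ∧
    ∀ (K : Type) [Field K] [Fintype K], Fintype.card K = 4 → Nonempty (H ≃* PSL(3, K)) → F9Q H

def DataU42 : Prop :=
  ∀ (H : Type u) [Group H] (K : Type) [Field K] [Fintype K], Fintype.card K = 3 → Nonempty (H ≃* Cfsg.PSp 2 K) → U42D H

def DataL34 : Prop :=
  ∀ (H : Type u) [Group H] (K : Type) [Field K] [Fintype K], Fintype.card K = 4 → Nonempty (H ≃* PSL(3, K)) → L34D H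

def SubN0 : Prop :=
  ∀ (F : Type u) [Field F] [Fintype F] (U : Subgroup (G F)), (2 : F) ≠ 0 → ¬ HasTv U → IsPGroup (ringChar F) U →
    ∀ a ∈ U, ∀ b ∈ U, Commute a b

def SubHe : Prop :=
  ∀ (F : Type u) [Field F] [Fintype F] (Γ : Subgroup (G F)), (2 : F) ≠ 0 → ¬ HasTv Γ →
    ((3 : F) = 0 → ∀ x y z : PQ Γ, ¬ Hs x y z) ∧ ¬ He3 (PQ Γ)

def SubF9 : Prop :=
  ∀ (F : Type u) [Field F] [Fintype F] (Γ : Subgroup (G F)), (3 : F) ≠ 0 → ¬ F9Q (PQ Γ)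

def SubCXE : Prop :=
  ∀ (H : Type u) [Group H] (C : H → H → Prop), CX C → ¬ EG3 H ∧ ¬ SQ3 H ∧ ¬ V5 H

/-! ### Odd characteristic: generalities -/

def SubExt : Prop :=
  ∀ (F : Type u) [Field F] [Fintype F] (P : Subgroup (G F)), (2 : F) ≠ 0 → QS P → ¬ HasTv P →
    ∃ (E : Type u) (_ : Field E) (_ : Fintype E) (φ : F →+* E) (Q : Subgroup (G E)), QS Q ∧ OC (Gam Q) ∧
      Nonempty (PQ P ≃* PQ Q) ∧ Nonempty (PQ Q ≃* PQ (Gam Q)) ∧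
      ∀ l ∈ P, ∃ m ∈ Q, tr m = φ (tr l) ∧ tr m⁻¹ = φ (tr l⁻¹)

def SubPX : Prop :=
  ∀ (F : Type u) [Field F] [Fintype F] (Γ : Subgroup (G F)), OC Γ → (∀ v φ, ¬ Rf Γ v φ) → T22 Γ ∧ Lift Γ ∧ CX (Cm Γ)

def SubSR : Prop :=
  ∀ (F : Type u) [Field F] [Fintype F] (Γ : Subgroup (G F)), (2 : F) ≠ 0 → CX (Cm Γ) → SectionalPRankLE 2 4 (PQ Γ)

def SubCon : Prop :=
  ∀ (H : Type u) [Group H] [Finite H], (∀ t : H, t * t = 1 → t ≠ 1 → Group.IsSolvable (Subgroup.centralizer {t})) →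
    ∀ T : Subgroup H, IsPGroup 2 T → T ≠ ⊥ → IsPConstrained 2 (Subgroup.normalizer (T : Set H))

def SubW16 : Prop :=
  ∀ (H : Type u) [Group H] [Finite H] [IsSimpleGroup H], ¬ IsMulCommutative H → ∀ S : Sylow 2 H,
    (∀ s ∈ (S : Subgroup H), s * s = 1) → Nat.card (S : Subgroup H) = 16 →
    ∃ (K : Type) (_ : Field K) (_ : Fintype K), 4 ≤ Fintype.card K ∧ Nonempty (H ≃* PSL(2, K))

/-! ### Quadratic action -/

def SubDK : Prop :=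
  ∀ (F : Type u) [Field F] [Fintype F] (a : F) (X : Subgroup SL(2, F)), (2 : F) ≠ 0 → a ≠ 0 →
    X = Subgroup.closure {SL2.loT 1, SL2.upT a} → -1 ∈ X ∧
    ((3 : F) = 0 ∧ a ^ 2 = 1 → Group.IsSolvable X) ∧
    (¬ ((3 : F) = 0 ∧ a ^ 2 = 1) → ⁅X, X⁆ = X ∧
      ∀ N ≤ X, (∀ g ∈ X, ∀ n ∈ N, g * n * g⁻¹ ∈ N) → N = X ∨ ∀ n ∈ N, n = 1 ∨ n = -1) ∧
    (¬ ((3 : F) = 0 ∧ a ^ 2 = -1) → SL2.upT 1 ∈ X)

def SubD1 : Prop :=
  ∀ (F : Type u) [Field F] [Fintype F] (Γ : Subgroup (G F)), (2 : F) ≠ 0 → ¬ HasTv Γ → ∀ W W', Big Γ W → Big Γ W' →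
    W ⊓ W' ≠ ⊥ → ∀ a ∈ UW Γ W, ∀ b ∈ UW Γ W', Commute a b

def SubD2S : Prop :=
  ∀ (F : Type u) [Field F] [Fintype F] (Γ : Subgroup (GL I4 F)) (a b : F), (2 : F) ≠ 0 → ¬ HasTv Γ → a ≠ 0 → b ≠ 0 →
    ¬ ((3 : F) = 0 ∧ a ^ 2 = -1 ∧ b ^ 2 = -1) → (∃ g ∈ Γ, g.val = fromBlocks 1 0 1 1) →
    (∃ g ∈ Γ, g.val = fromBlocks 1 !![a, 0; 0, b] 0 1) → ∃ g ∈ Γ, g.val = fromBlocks 1 1 0 1

def SubD2J : Prop :=
  ∀ (F : Type u) [Field F] [Fintype F] (Γ : Subgroup (GL I4 F)) (a : F), (2 : F) ≠ 0 → ¬ HasTv Γ → a ≠ 0 →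
    ¬ ((3 : F) = 0 ∧ a ^ 2 = -1) → (∃ g ∈ Γ, g.val = fromBlocks 1 0 1 1) →
    (∃ g ∈ Γ, g.val = fromBlocks 1 !![a, 1; 0, a] 0 1) → ∃ g ∈ Γ, g.val = fromBlocks 1 1 0 1

def SubD2 : Prop :=
  ∀ (F : Type u) [Field F] [Fintype F] (Γ : Subgroup (G F)), OC Γ → ∀ W W' : Submodule F (V F), Big Γ W →
    finrank F W' = 2 → W ⊓ W' = ⊥ → ∀ b ∈ UW Γ W', b ≠ 1 → ∃ a ∈ UW Γ W, a ≠ 1 ∧ (a.val - 1) * (b.val - 1) * (a.val - 1) = a.val - 1

def SubQA : Prop := ∀ (F : Type u) [Field F] [Fintype F] (Γ : Subgroup (G F)), OC Γ → NQd Γ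

def SubQC : Prop := ∀ (F : Type u) [Field F] [Fintype F] (Γ : Subgroup (G F)), NQd Γ → QCo Γ

def SubDP : Prop :=
  ∀ (F : Type u) [Field F] [Fintype F] (D : Type u) [Group D] [Finite D] (π : D →* PGL(2, F)), (2 : F) ≠ 0 →
    (∀ U : Subgroup D, IsPGroup (ringChar F) U → Nat.card U ≤ 3) →
    Group.IsSolvable π.range ∨ Nonempty (π.range ≃* alternatingGroup (Fin 5))

/-! ### Reflections -/

def SubTR : Prop :=
  ∀ (F : Type u) [Field F] [Fintype F] (Γ T : Subgroup (G F)), OC Γ → Syl Γ T → (∃ v φ, Rf Γ v φ) →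
    ∀ (A : Type u) [CommGroup A] (χ : T →* A) (a : A), (∀ c : T, (c : G F) ∈ scalars (Fin 4) F → χ c = 1) →
      (∀ (r : T) (v : V F) (φ : Dual F (V F)), φ v = 2 → (∀ y, (r : G F) • y = y - φ y • v) → χ r = a) → a = 1

def SubRA : Prop :=
  ∀ (F : Type u) [Field F] [Fintype F] (Γ T : Subgroup (G F)), OC Γ → Syl Γ T → (∃ v φ, Rf Γ v φ) → Irr T

def SubMF : Prop :=
  ∀ (F : Type u) [Field F] [Fintype F] (Γ T : Subgroup (G F)), OC Γ → Syl Γ T → Irr T → ∃ e x, MonT T e x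

def SubRB : Prop :=
  ∀ (F : Type u) [Field F] [Fintype F] (Γ T : Subgroup (G F)), OC Γ → Syl Γ T → (∃ v φ, Rf Γ v φ) → Irr T →
    ∀ e x, MonT T e x → (∀ i, Rf T (e i) ((2 : F) • x i)) ∧
      ∃ d ∈ T, ∃ δ : Fin 4 → F, (∀ i, d • e i = δ i • e i) ∧ ∃ i j, δ i ^ 2 ≠ δ j ^ 2

def SubRC : Prop :=
  ∀ (F : Type u) [Field F] [Fintype F] (Γ T : Subgroup (G F)), OC Γ → Syl Γ T → Irr T → ∀ e x, MonT T e x →
    (∀ i, Rf T (e i) ((2 : F) • x i)) →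
    (∃ d ∈ T, ∃ δ : Fin 4 → F, (∀ i, d • e i = δ i • e i) ∧ ∃ i j, δ i ^ 2 ≠ δ j ^ 2) →
    ∃ (j k : Fin 4) (i : F), j ≠ k ∧ i ^ 2 = -1 ∧ ∃ h ∈ T, Sc ![e j, e k] ![x j, x k] i h

def SubR4 : Prop :=
  ∀ (F : Type u) [Field F] [Fintype F] (Γ : Subgroup (G F)), RX Γ →
    ∀ (e : Fin 2 → V F) (x : Fin 2 → Dual F (V F)) (i : F), Bi e x → i ^ 2 = -1 → (∃ h ∈ Γ, Sc e x i h) →
      Rf Γ (e 0) ((2 : F) • x 0) → ∃ e' x', H3 Γ e' x' i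

def SubR5 : Prop :=
  ∀ (F : Type u) [Field F] [Fintype F] (Γ : Subgroup (G F)), RX Γ → ∀ e x i, H3 Γ e x i →
    ∃ e' x', H3 Γ e' x' i ∧ Rf Γ (∑ j, e' j) ((2 : F)⁻¹ • ∑ j, x' j) ∧
      ∀ v φ, Rf Γ v φ → Mon e' x' v φ ∨ ∀ j, 2 * (φ (e' j) * x' j v) = 1

def SubR6 : Prop :=
  ∀ (F : Type u) [Field F] [Fintype F] (Γ : Subgroup (G F)), RX Γ → ∀ e x i, H3 Γ e x i →
    Rf Γ (∑ j, e j) ((2 : F)⁻¹ • ∑ j, x j) → (∀ v φ, Rf Γ v φ → Mon e x v φ ∨ ∀ j, 2 * (φ (e j) * x j v) = 1) →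
    ∀ v φ, Rf Γ v φ → G31 e x v φ

def SubR7 : Prop :=
  ∀ (F : Type u) [Field F] [Fintype F] (Γ : Subgroup (G F)), RX Γ → ∀ e x i, H3 Γ e x i →
    ¬ ∀ v φ, Rf Γ v φ → G31 e x v φ

/-! ### Non-solvable centralisers of involutions -/

def SubM1 : Prop :=
  ∀ (F : Type u) [Field F] [Fintype F] (Γ : Subgroup (G F)), OC Γ → T22 Γ → QCo Γ → ∀ τ : Γ, τ * τ = 1 →
    (τ : PQ Γ) ≠ 1 → ¬ Group.IsSolvable (Subgroup.centralizer {(τ : PQ Γ)}) →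
    (∃ τ' K κ, Al Γ τ' K κ) ∨ ∃ K, Dg2 Γ τ K

def SubM2 : Prop :=
  ∀ (F : Type u) [Field F] [Fintype F] (Γ : Subgroup (G F)), OC Γ → ∀ (τ : Γ) (K : Subgroup (G F)), Dg2 Γ τ K →
    ∃ L, Comp (Cm Γ) (τ : PQ Γ) L

def SubA3 : Prop :=
  ∀ (F : Type u) [Field F] [Fintype F] (X K : Subgroup (GL (Fin 3) F)) (τ κ : GL (Fin 3) F), (2 : F) ≠ 0 →
    Irr X → ⁅X, X⁆ = X → ¬ HasTv X → K ≤ X → ⁅K, K⁆ = K → τ ∈ K → τ * τ = 1 → τ ≠ 1 → (∀ k ∈ K, Commute k τ) →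
    (∀ k ∈ K, ∀ y : Fin 3 → F, τ • y = y → k • y = y) → κ ∈ K → κ ^ 5 = 1 → κ = 1

def SubAL1 : Prop :=
  ∀ (F : Type u) [Field F] [Fintype F] (Γ : Subgroup (G F)), OC Γ → T22 Γ → ∀ τ K κ, Al Γ τ K κ →
    ∃ g ∈ Γ, τ * (g * τ * g⁻¹) = -(g * τ * g⁻¹ * τ)

def SubAL2 : Prop :=
  ∀ (F : Type u) [Field F] [Fintype F] (Γ : Subgroup (G F)), OC Γ → T22 Γ → QCo Γ → ∀ τ K κ, Al Γ τ K κ →
    ∀ g ∈ Γ, τ * (g * τ * g⁻¹) ≠ -(g * τ * g⁻¹ * τ)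

def SubLZ : Prop :=
  ∀ (H : Type u) [Group H] [Finite H] (C : H → H → Prop), CX C →
    (∀ w : H, w * w = 1 → w ≠ 1 → ¬ Group.IsSolvable (Subgroup.centralizer {w}) → ∃ L, Comp C w L) →
    ∀ w : H, w * w = 1 → w ≠ 1 → ¬ Group.IsSolvable (Subgroup.centralizer {w}) → ∃ z e f y T R, LZ C z e f y T R

def SubC1 : Prop :=
  ∀ (H : Type u) [Group H] [Finite H] [IsSimpleGroup H] (C : H → H → Prop), ¬ IsMulCommutative H → CX C →
    ∀ z e f y T R, LZ C z e f y T R → IsCyclic R → ∃ e' f' s, CB C z e' f' y s T R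

def SubC2 : Prop :=
  ∀ (H : Type u) [Group H] [Finite H] (C : H → H → Prop), CX C → ∀ z e f y s T R, CB C z e f y s T R →
    (∃ S : Sylow 2 H, (S : Subgroup H) = T) ∧ ¬ IsConj z e ∧ ¬ IsConj z (e * z)

def SubC3 : Prop :=
  ∀ (H : Type u) [Group H] [Finite H] [IsSimpleGroup H] (C : H → H → Prop), ¬ IsMulCommutative H → CX C →
    ∀ z e f y s T R, CB C z e f y s T R → (∃ S : Sylow 2 H, (S : Subgroup H) = T) → IsConj z e ∨ IsConj z (e * z)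

def SubCD : Prop :=
  ∀ (H : Type u) [Group H] [Finite H] [IsSimpleGroup H] (C : H → H → Prop), ¬ IsMulCommutative H → CX C →
    ∀ z e f y T R, LZ C z e f y T R → (∃ n, Nonempty (R ≃* DihedralGroup n)) →
      IsCyclic R ∨ ∃ r, r * r = 1 ∧ r ≠ 1 ∧ r ≠ z ∧ ∀ t, t ∈ R ↔ E4 z r t

def SubCV : Prop :=
  ∀ (H : Type u) [Group H] [Finite H] (C : H → H → Prop), CX C → ∀ z e f y T R, LZ C z e f y T R →
    ∀ r, r * r = 1 → r ≠ 1 → r ≠ z → (∀ t, t ∈ R ↔ E4 z r t) →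
      ∃ S : Sylow 2 H, (∀ s ∈ (S : Subgroup H), s * s = 1) ∧ Nat.card (S : Subgroup H) = 16

end CL.Low4
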