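/-
Project LOW4: a perfect group acting on a plane only has an anticommuting conjugate involution.
-/
import Cfsg.Agent.Low4.Defs3
import Cfsg.Agent.C2Low.Basic

set_option autoImplicit false
set_option linter.unusedSectionVars false

namespace CL.Low4

open Matrix Cfsg Cfsg.Geo CL.Asch CL.SLn CL.Low Module
open scoped commutatorElement MatrixGroups

universe u

namespace AL1

variable {F : Type u} [Field F] {Γ K : Subgroup (G F)} {τ σ κ : G F}

theorem tr0 (h : T22 Γ) {t : G F} (ht : t ∈ Γ) (h2 : t * t = 1) (hn : t ∉ scalars (Fin 4) F) : tr t = 0 := by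
  obtain ⟨e, x, hb, hs⟩ := h t ht h2 hn
  have h1 : Sc e x (-1) (emb hb (-1)) := (sc_emb hb).2 fun z => by rw [neg_gsmul, one_smul, neg_one_smul]
  rw [gext fun y => (hs y).trans (h1 y).symm, tr_emb, tr_neg, tr_one]
  norm_num

theorem eig (h2 : (2 : F) ≠ 0) (hτ : τ * τ = 1) (hσ : σ * σ = 1) (hc : Commute τ σ) (t1 : tr τ = 0) (t2 : tr σ = 0)
    (t3 : tr (τ * σ) = 0) {a b : F} (ha : a * a = 1) (hb : b * b = 1) :
    ∃ (v : V F) (φ : Dual F (V F)), φ v = 1 ∧ τ • v = a • v ∧ σ • v = b • v ∧ (∀ y, φ (τ • y) = a * φ y) ∧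
      ∀ y, φ (σ • y) = b * φ y := by
  have h4 : (4 : F) ≠ 0 := by rw [show (4 : F) = 2 * 2 by norm_num]; exact mul_ne_zero h2 h2
  set M : Matrix (Fin 4) (Fin 4) F := 1 + a • τ.val + b • σ.val + (a * b) • (τ * σ).val with hM
  have e : ∀ y, M *ᵥ y = y + a • τ • y + b • σ • y + (a * b) • τ • σ • y := fun y => by
    simp only [hM, add_mulVec, smul_mulVec, one_mulVec, ← gsmul_def, mul_smul τ σ]
  have q1 : ∀ y : V F, τ • τ • y = y := fun y => by rw [← mul_smul, hτ, one_smul]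
  have q2 : ∀ y : V F, σ • σ • y = y := fun y => by rw [← mul_smul, hσ, one_smul]
  have q3 : ∀ y : V F, σ • τ • y = τ • σ • y := fun y => by rw [← mul_smul, ← hc.eq, mul_smul]
  have a1 : ∀ y, τ • (M *ᵥ y) = a • (M *ᵥ y) := fun y => by
    simp only [e, smul_add, gsmul_smul, q1, smul_smul a, ← mul_assoc, ha, one_mul, one_smul]; abel
  have a2 : ∀ y, σ • (M *ᵥ y) = b • (M *ᵥ y) := fun y => by
    simp only [e, smul_add, gsmul_smul, q2, q3, smul_smul a, smul_smul b, mul_comm b a, mul_left_comm b a, hb, mul_one,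
      one_smul]; abel
  have a3 : ∀ y, M *ᵥ (τ • y) = a • (M *ᵥ y) := fun y => by
    simp only [e, smul_add, q1, q3, smul_smul a, ← mul_assoc, ha, one_mul, one_smul]; abel
  have a4 : ∀ y, M *ᵥ (σ • y) = b • (M *ᵥ y) := fun y => by
    simp only [e, smul_add, q2, smul_smul b, mul_comm b a, mul_left_comm b a, hb, mul_one, one_smul]; abel
  have h0 : ∃ i, M i i ≠ 0 := by
    by_contra! k
    have : M.trace = 4 := by
      simp only [hM, trace_add, trace_smul, trace_one]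
      rw [show τ.val.trace = 0 from t1, show σ.val.trace = 0 from t2, show (τ * σ).val.trace = 0 from t3]
      simp
    exact h4 (by rw [← this]; simp [trace, k])
  obtain ⟨i, hi⟩ := h0
  refine ⟨M *ᵥ Pi.single i 1, (4 * M i i)⁻¹ • (LinearMap.proj i ∘ₗ M.mulVecLin), ?_, a1 _, a2 _, fun y => ?_, fun y => ?_⟩
  · have : M *ᵥ (M *ᵥ Pi.single i 1) = (4 : F) • (M *ᵥ Pi.single i 1) := by
      rw [e (M *ᵥ _), a2, gsmul_smul, a1]
      simp only [smul_smul]
      rw [ha, hb, show a * b * (b * a) = a * (b * b) * a by ring, hb, mul_one, ha]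
      module
    rw [LinearMap.smul_apply, LinearMap.comp_apply, mulVecLin_apply, this]
    simp only [LinearMap.proj_apply, Pi.smul_apply, smul_eq_mul, mulVec_single_one, col_apply]
    exact inv_mul_cancel₀ (mul_ne_zero h4 hi)
  · simp only [LinearMap.smul_apply, LinearMap.comp_apply, mulVecLin_apply, a3, map_smul, smul_eq_mul]; ring
  · simp only [LinearMap.smul_apply, LinearMap.comp_apply, mulVecLin_apply, a4, map_smul, smul_eq_mul]; ring

theorem conj (h : Al Γ τ K κ) {g : G F} (hg : g ∈ Γ) :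
    Al Γ (g * τ * g⁻¹) (K.map (MulAut.conj g).toMonoidHom) (g * κ * g⁻¹) where
  le := by rintro _ ⟨k, hk, rfl⟩; exact Γ.mul_mem (Γ.mul_mem hg (h.le hk)) (Γ.inv_mem hg)
  perfect := by rw [← Subgroup.map_commutator, h.perfect]
  mτ := ⟨τ, h.mτ, rfl⟩
  ττ := by rw [conj_mul, h.ττ, mul_one, mul_inv_cancel]
  ns := fun k => h.ns (by
    rwa [Subgroup.mem_center_iff.1 (scalars_le_center k) g |> fun e => (by
      have : g * τ = g * (g * τ * g⁻¹) := by rw [e]; group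
      exact mul_left_cancel this : τ = g * τ * g⁻¹)])
  cen := by rintro _ ⟨k, hk, rfl⟩; exact (h.cen k hk).map (MulAut.conj g)
  fix := by
    rintro _ ⟨k, hk, rfl⟩ y hy
    rw [mul_smul, mul_smul, smul_eq_iff_eq_inv_smul] at hy
    change (g * k * g⁻¹) • y = y
    rw [mul_smul, mul_smul, h.fix k hk _ hy, smul_inv_smul]
  mκ := ⟨κ, h.mκ, rfl⟩
  κ5 := by rw [conj_pow, h.κ5, mul_one, mul_inv_cancel]
  κ1 := fun e => h.κ1 (by simpa using e)
  three := h.three
  five := h.five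

theorem dfix (h2 : (2 : F) ≠ 0) (h : Al Γ τ K κ) {φ : Dual F (V F)} (hφ : ∀ y, φ (τ • y) = 1 * φ y) {k : G F}
    (hk : k ∈ K) (y : V F) : φ (k • y) = φ y := by
  have e1 : k • (y + τ • y) = y + τ • y := h.fix k hk _ (by rw [smul_add, ← mul_smul, h.ττ, one_smul, add_comm])
  have e2 := congrArg φ e1
  rw [smul_add, ← mul_smul, (h.cen k hk).eq, mul_smul, map_add, map_add, hφ, hφ] at e2
  exact mul_left_cancel₀ h2 (by linear_combination e2)

theorem moves (h2 : (2 : F) ≠ 0) (h : Al Γ τ K κ) {v : V F} (h0 : v ≠ 0) (hv : τ • v = (-1 : F) • v) :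
    ¬ ∀ k ∈ K, ∃ c : F, k • v = c • v := fun hK => by
  have : K ≤ MulAction.stabilizer (G F) v := h.perfect.ge.trans (Subgroup.commutator_le.2 fun a ha b hb => by
    obtain ⟨c, hc⟩ := hK a ha
    obtain ⟨d, hd⟩ := hK b hb
    have e1 : (b * a) • v = (c * d) • v := by rw [mul_smul, hc, gsmul_smul, hd, smul_smul]
    have e2 : (a * b) • v = (c * d) • v := by rw [mul_smul, hd, gsmul_smul, hc, smul_smul, mul_comm]
    have e3 : c * d ≠ 0 := fun e => h0 ((smul_eq_zero_iff_eq (b * a)).1 (by rw [e1, e, zero_smul]))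
    have e4 : ⁅a, b⁆ • ((b * a) • v) = (a * b) • v := by
      rw [← mul_smul, commutatorElement_def]; congr 1; group
    rw [e1, e2, gsmul_smul] at e4
    exact smul_right_injective _ e3 e4)
  have e : τ • v = v := this h.mτ
  rw [hv] at e
  exact h0 (smul_right_injective _ h2 (show (2 : F) • v = (2 : F) • 0 by
    rw [smul_zero, two_smul]; nth_rw 1 [← e]; simp))

variable {e : Fin 4 → V F} {x : Fin 4 → Dual F (V F)}

theorem bi3 (hb : Bi e x) : Bi (e ∘ Fin.castSucc) (x ∘ Fin.castSucc) := hb.comp (Fin.castSucc_injective 3)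

theorem dec (hb : Bi e x) (y : V F) : y = x 0 y • e 0 + x 1 y • e 1 + x 2 y • e 2 + x 3 y • e 3 := by
  have := hb.pr_eq_self (by simp) y
  rw [pr, Fin.sum_univ_four] at this
  exact this.symm

theorem pr3 (hb : Bi e x) (y : V F) : pr (e ∘ Fin.castSucc) (x ∘ Fin.castSucc) y = y - x 3 y • e 3 := by
  rw [pr, Fin.sum_univ_three, eq_sub_iff_add_eq]
  exact (dec hb y).symm

theorem x3up (hb : Bi e x) (a : Fin 3 → F) : x 3 (up (e ∘ Fin.castSucc) a) = 0 := by
  rw [← (bi3 hb).pr_up, pr3 hb, map_sub, map_smul, hb.diag, smul_eq_mul, mul_one, sub_self]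

theorem le_range (hb : Bi e x) (h1 : ∀ k ∈ K, k • e 3 = e 3) (h2 : ∀ k ∈ K, ∀ y, x 3 (k • y) = x 3 y) :
    K ≤ (emb (bi3 hb)).range := fun k hk => by
  let f : G F → (Fin 3 → F) →ₗ[F] (Fin 3 → F) := fun k =>
    co (x ∘ Fin.castSucc) ∘ₗ k.val.mulVecLin ∘ₗ up (e ∘ Fin.castSucc)
  have key : ∀ a : G F, ∀ b ∈ K, a * b = 1 → ∀ y, f a (f b y) = y := fun a b hb' e1 y => by
    simp only [f, LinearMap.comp_apply, mulVecLin_apply, ← gsmul_def, up_co, pr3 hb, h2 b hb', x3up hb, zero_smul,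
      sub_zero, ← mul_smul, e1, one_smul, (bi3 hb).co_up]
  obtain ⟨A, hA, -⟩ := exists_gl _ _ (key k _ (K.inv_mem hk) (mul_inv_cancel k)) (key _ k hk (inv_mul_cancel k))
  refine ⟨A, gext fun y => ?_⟩
  simp only [emb_smul, hA, f, LinearMap.comp_apply, mulVecLin_apply, ← gsmul_def, up_co, pr3 hb, h2 k hk, smul_sub,
    gsmul_smul, h1 k hk, map_sub, map_smul, hb.diag, smul_eq_mul, mul_one, sub_self, zero_smul, one_smul, smul_zero]
  abel

theorem main [Fintype F] (h3 : SubA3.{u}) (h2 : (2 : F) ≠ 0) (hT : ¬ HasTv Γ) {K' : Subgroup (G F)} {κ' : G F}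
    (h : Al Γ τ K κ) (h' : Al Γ σ K' κ') (hc : Commute τ σ) (t1 : tr τ = 0) (t2 : tr σ = 0) (t3 : tr (τ * σ) = 0) :
    False := by
  have E := fun a b => eig h2 h.ττ h'.ττ hc t1 t2 t3 (a := a) (b := b)
  obtain ⟨e0, x0, d0, a0, b0, p0, q0⟩ := E (-1) (-1) (by simp) (by simp)
  obtain ⟨e1, x1, d1, a1, b1, p1, q1⟩ := E (-1) 1 (by simp) (by simp)
  obtain ⟨e2, x2, d2, a2, b2, p2, q2⟩ := E 1 (-1) (by simp) (by simp)
  obtain ⟨e3, x3, d3, a3, b3, p3, q3⟩ := E 1 1 (by simp) (by simp)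
  have z : ∀ {t : G F} {v : V F} {φ : Dual F (V F)} {a : F}, a * a = 1 → t • v = a • v →
      (∀ y, φ (t • y) = -a * φ y) → φ v = 0 := fun {t v φ a} ha k1 k2 => by
    have := k2 v
    rw [k1, map_smul, smul_eq_mul] at this
    exact mul_left_cancel₀ h2 (by linear_combination a * this - 2 * φ v * ha)
  have n1 : (1 : F) * 1 = 1 := mul_one 1
  have n2 : (-1 : F) * -1 = 1 := by simp
  have m : ∀ {t : G F} {φ : Dual F (V F)}, (∀ y, φ (t • y) = 1 * φ y) → ∀ y, φ (t • y) = -(-1) * φ y :=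
    fun k y => by rw [neg_neg, k]
  have hb : Bi ![e0, e1, e2, e3] ![x0, x1, x2, x3] := ⟨fun i => by fin_cases i <;> assumption, fun i j hij => by
    fin_cases i <;> fin_cases j <;> first
      | exact absurd rfl hij
      | exact z n1 b1 q0 | exact z n1 a2 p0 | exact z n1 a3 p0 | exact z n2 b0 (m q1) | exact z n1 a2 p1
      | exact z n1 a3 p1 | exact z n2 a0 (m p2) | exact z n2 a1 (m p2) | exact z n1 b3 q2 | exact z n2 a0 (m p3)
      | exact z n2 a1 (m p3) | exact z n2 b2 (m q3)⟩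
  have D : ∀ y, y = x0 y • e0 + x1 y • e1 + x2 y • e2 + x3 y • e3 := dec hb
  have o : ∀ i j, i ≠ j → ![x0, x1, x2, x3] i (![e0, e1, e2, e3] j) = 0 := hb.off
  have r1 := le_range hb (fun k hk => h.fix k hk e3 (a3.trans (one_smul _ _))) fun k hk => dfix h2 h p3 hk
  have r2 := le_range hb (fun k hk => h'.fix k hk e3 (b3.trans (one_smul _ _))) fun k hk => dfix h2 h' q3 hk
  set ι := emb (bi3 hb)
  have hi : Function.Injective ι := emb_injective _
  have pf : ∀ {L : Subgroup (G F)}, ⁅L, L⁆ = L → L ≤ ι.range → ⁅L.comap ι, L.comap ι⁆ = L.comap ι := fun k1 k2 =>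
    Subgroup.map_injective hi (by rw [Subgroup.map_commutator, Subgroup.map_comap_eq_self k2, k1])
  obtain ⟨τ0, hτ⟩ := r1 h.mτ
  obtain ⟨κ0, hκ⟩ := r1 h.mκ
  have nz : ∀ {v : V F} {φ : Dual F (V F)}, φ v = 1 → v ≠ 0 := fun k e => by simp [e] at k
  refine h.κ1 (hκ.symm.trans (ι.map_one ▸ congrArg ι
    (h3 F (K.comap ι ⊔ K'.comap ι) (K.comap ι) τ0 κ0 h2 ?_ ?_ ?_ le_sup_left (pf h.perfect r1)
      (show ι τ0 ∈ K from hτ ▸ h.mτ) (hi (by rw [map_mul, hτ, h.ττ, map_one]))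
      (fun e => h.ns (by rw [← hτ, e, map_one]; exact Subgroup.one_mem _))
      (fun k hk => hi (by rw [map_mul, map_mul, hτ]; exact h.cen _ hk)) (fun k hk y hy => ?_)
      (show ι κ0 ∈ K from hκ ▸ h.mκ) (hi (by rw [map_pow, hκ, h.κ5, map_one])))))
  · refine irr_iff.2 fun W hW => (em (W = ⊥)).imp_right fun h0 => ?_
    set U := W.map (up (![e0, e1, e2, e3] ∘ Fin.castSucc))
    have iv : ∀ {L : Subgroup (G F)}, L ≤ ι.range → L.comap ι ≤ K.comap ι ⊔ K'.comap ι → ∀ k ∈ L, ∀ y ∈ U, k • y ∈ U := by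
      rintro L k1 k2 k hk _ ⟨a, ha, rfl⟩
      obtain ⟨A, rfl⟩ := k1 hk
      exact ⟨_, hW A (k2 hk) a ha, (emb_up _ A a).symm⟩
    have i1 := iv r1 le_sup_left
    have i2 := iv r2 le_sup_right
    have h4 : (4 : F) ≠ 0 := by rw [show (4 : F) = 2 * 2 by norm_num]; exact mul_ne_zero h2 h2
    have pj : ∀ y ∈ U, (x0 y ≠ 0 → e0 ∈ U) ∧ (x1 y ≠ 0 → e1 ∈ U) ∧ (x2 y ≠ 0 → e2 ∈ U) := fun y hy => by
      have s1 := i1 τ h.mτ y hy
      have s2 := i2 σ h'.mτ y hy
      have s3 := i1 τ h.mτ _ s2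
      have k1 : τ • y = -(x0 y • e0) - x1 y • e1 + x2 y • e2 + x3 y • e3 := by
        rw [D (τ • y), p0, p1, p2, p3]; module
      have k2 : σ • y = -(x0 y • e0) + x1 y • e1 - x2 y • e2 + x3 y • e3 := by
        rw [D (σ • y), q0, q1, q2, q3]; module
      have k3 : τ • σ • y = x0 y • e0 - x1 y • e1 - x2 y • e2 + x3 y • e3 := by
        rw [D (τ • σ • y), p0, p1, p2, p3, q0, q1, q2, q3]; module
      refine ⟨fun k => (U.smul_mem_iff (mul_ne_zero h4 k)).1 ?_, fun k => (U.smul_mem_iff (mul_ne_zero h4 k)).1 ?_,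
        fun k => (U.smul_mem_iff (mul_ne_zero h4 k)).1 ?_⟩
      · convert U.add_mem (U.sub_mem (U.sub_mem hy s1) s2) s3 using 1
        rw [k3, k1, k2]; nth_rw 2 [D y]; module
      · convert U.sub_mem (U.add_mem (U.sub_mem hy s1) s2) s3 using 1
        rw [k3, k1, k2]; nth_rw 2 [D y]; module
      · convert U.sub_mem (U.sub_mem (U.add_mem hy s1) s2) s3 using 1
        rw [k3, k1, k2]; nth_rw 2 [D y]; module
    have m01 : e0 ∈ U → e1 ∈ U := fun k => by_contra fun n => moves h2 h (nz d0) a0 fun g hg => ⟨x0 (g • e0), by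
      rw [D (g • e0), not_not.1 (mt (pj _ (i1 g hg _ k)).2.1 n), dfix h2 h p2 hg, dfix h2 h p3 hg,
        show x2 e0 = 0 from o 2 0 (by decide), show x3 e0 = 0 from o 3 0 (by decide)]
      simp [d0]⟩
    have m10 : e1 ∈ U → e0 ∈ U := fun k => by_contra fun n => moves h2 h (nz d1) a1 fun g hg => ⟨x1 (g • e1), by
      rw [D (g • e1), not_not.1 (mt (pj _ (i1 g hg _ k)).1 n), dfix h2 h p2 hg, dfix h2 h p3 hg,
        show x2 e1 = 0 from o 2 1 (by decide), show x3 e1 = 0 from o 3 1 (by decide)]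
      simp [d1]⟩
    have m02 : e0 ∈ U → e2 ∈ U := fun k => by_contra fun n => moves h2 h' (nz d0) b0 fun g hg => ⟨x0 (g • e0), by
      rw [D (g • e0), not_not.1 (mt (pj _ (i2 g hg _ k)).2.2 n), dfix h2 h' q1 hg, dfix h2 h' q3 hg,
        show x1 e0 = 0 from o 1 0 (by decide), show x3 e0 = 0 from o 3 0 (by decide)]
      simp [d0]⟩
    have m20 : e2 ∈ U → e0 ∈ U := fun k => by_contra fun n => moves h2 h' (nz d2) b2 fun g hg => ⟨x2 (g • e2), by
      rw [D (g • e2), not_not.1 (mt (pj _ (i2 g hg _ k)).1 n), dfix h2 h' q1 hg, dfix h2 h' q3 hg,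
        show x1 e2 = 0 from o 1 2 (by decide), show x3 e2 = 0 from o 3 2 (by decide)]
      simp [d2]⟩
    obtain ⟨a, ha, a0'⟩ := Submodule.exists_mem_ne_zero_of_ne_bot h0
    have k0 : e0 ∈ U := by
      have k := pj _ ⟨a, ha, rfl⟩
      have c := (bi3 hb).co_up a
      by_contra n
      refine a0' (funext fun i => ?_)
      rw [← c]
      fin_cases i
      exacts [not_not.1 (mt k.1 n), not_not.1 (mt k.2.1 (mt m10 n)), not_not.1 (mt k.2.2 (mt m20 n))]
    refine eq_top_iff.2 fun b _ => ?_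
    obtain ⟨c, hc', e1⟩ : up (![e0, e1, e2, e3] ∘ Fin.castSucc) b ∈ U := by
      rw [up_apply, Fin.sum_univ_three]
      exact U.add_mem (U.add_mem (U.smul_mem _ k0) (U.smul_mem _ (m01 k0))) (U.smul_mem _ (m02 k0))
    rwa [← (bi3 hb).up_inj e1]
  · exact le_antisymm (Subgroup.commutator_le_self _) (sup_le
      ((pf h.perfect r1).ge.trans (Subgroup.commutator_mono le_sup_left le_sup_left))
      ((pf h'.perfect r2).ge.trans (Subgroup.commutator_mono le_sup_right le_sup_right)))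
  · rintro ⟨A, hA, a, η, k1, k2, k3, k4⟩
    exact hT ⟨_, (sup_le (Subgroup.comap_mono h.le) (Subgroup.comap_mono h'.le) : _ ≤ Γ.comap ι) hA, _,
      η ∘ₗ co _, fun k => k1 ((bi3 hb).up_inj (by simpa using k)), (bi3 hb).comp_co_ne k2,
      by simp [(bi3 hb).co_up, k3], (emb_rank_one (bi3 hb)).1 k4⟩
  · exact (bi3 hb).up_inj (by rw [← emb_up (bi3 hb)]; exact h.fix _ hk _ (by rw [← hτ, emb_up, hy]))

end AL1

theorem subAL1 (h3 : SubA3.{u}) : SubAL1.{u} := by
  intro F _ _ Γ hΓ hT τ K κ h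
  have := hΓ.simple
  let t : Γ := ⟨τ, h.le h.mτ⟩
  have t1 : (t : PQ Γ) ≠ 1 := mt mk_eq_one_iff.1 h.ns
  have t2 : (t : PQ Γ) * t = 1 := by rw [← QuotientGroup.mk_mul, show t * t = 1 from Subtype.ext h.ττ]; rfl
  have hz := C2Low.not_isolated_of_simple hΓ.nonab (t : PQ Γ)
  rw [IsIsolatedInvolution, not_and, not_forall] at hz
  obtain ⟨g, hg⟩ := hz (orderOf_eq_prime (by rw [pow_two, t2]) t1)
  obtain ⟨g, rfl⟩ := QuotientGroup.mk_surjective g
  obtain ⟨c, n⟩ := Classical.not_imp.1 hg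
  have h' := AL1.conj h g.2
  set σ : G F := (g : G F) * τ * (g : G F)⁻¹ with hσ
  let s : Γ := g * t * g⁻¹
  have hs : (s : PQ Γ) = g * t * (g : PQ Γ)⁻¹ := rfl
  rw [← hs] at c n
  have hz : ((t * s * (s * t)⁻¹ : Γ) : G F) ∈ scalars (Fin 4) F := mk_eq_one_iff.1 (mul_inv_eq_one.2 c.eq)
  change τ * σ * (σ * τ)⁻¹ ∈ _ at hz
  rw [← scal_range] at hz
  obtain ⟨z, hz⟩ := hz
  have zc := Subgroup.mem_center_iff.1 (scalars_le_center (scal_mem (ι := Fin 4) z))
  have e1 : τ * σ * τ⁻¹ = scal _ z * σ := by rw [hz]; group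
  have e2 : scal (Fin 4) (z * z) = scal _ 1 := by
    have : scal (Fin 4) z * σ * (scal _ z * σ) = 1 := by rw [← e1, conj_mul, h'.ττ, mul_one, mul_inv_cancel]
    rwa [mul_assoc, ← mul_assoc σ, zc, mul_assoc, h'.ττ, mul_one, ← map_mul, ← map_one (scal (Fin 4))] at this
  refine ⟨g, g.2, ?_⟩
  rcases mul_self_eq_one_iff.1 (congrArg Units.val (scal_injective e2)) with e | e
  · rw [show z = 1 from Units.ext e, map_one, one_mul, mul_inv_eq_iff_eq_mul] at e1
    have m := h'.le h'.mτ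
    refine (AL1.main h3 hΓ.two hΓ.noTv h h' e1 (AL1.tr0 hT t.2 h.ττ h.ns) (AL1.tr0 hT m h'.ττ h'.ns)
      (AL1.tr0 hT (Γ.mul_mem t.2 m) ?_ fun k => n ?_)).elim
    · rw [mul_assoc, ← mul_assoc σ, ← e1, mul_assoc, h'.ττ, mul_one, h.ττ]
    · have : (t : PQ Γ) * s = 1 := (mk_eq_one_iff (g := t * s)).2 k
      exact mul_left_cancel (this.trans t2.symm)
  · rw [mul_inv_eq_iff_eq_mul] at e1
    rw [e1, show scal (Fin 4) z = -1 from Units.ext (by rw [coe_scal, e]; simp), neg_one_mul, neg_mul]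

end CL.Low4
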