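/-
Project LOW4: a perfect group acting on a plane only admits no anticommuting conjugate of its central involution.
-/
import Cfsg.Agent.Low4.Defs3
import Cfsg.Agent.Perm.SL25Pres

set_option autoImplicit false
set_option linter.unusedSectionVars false

namespace CL.Low4

open Matrix Cfsg Cfsg.Geo CL.Asch CL.SLn CL.Low Module
open scoped commutatorElement MatrixGroups

universe u

namespace AL2

section Groups

variable {H : Type*} [Group H]

theorem small_top [Finite H] (h : Low.Small H) (A : Subgroup H) (hA : ¬ Group.IsSolvable A) : A = ⊤ := by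
  have key : Nat.card H ∣ 120 → Nat.card H ≤ 60 → A = ⊤ := fun h1 h2 => by
    by_contra hne
    refine hA (CL.Perm.isSolvable_of_card_dvd_120 (A.card_subgroup_dvd_card.trans h1) ?_)
    by_contra h3
    exact hne (Subgroup.eq_top_of_le_card A (by omega))
  rcases h with hc | ⟨n, ⟨e⟩⟩ | ⟨⟨e⟩⟩ | ⟨⟨e⟩⟩ | ⟨⟨e⟩⟩
  · have : Group.IsSolvable H := Group.isSolvable_of_comm hc.commGroup.mul_comm
    exact hA.elim inferInstance
  · have := CL.SL2.isSolvable_dihedral n
    have : Group.IsSolvable H := Group.isSolvable_of_isSolvable_injective (f := e.toMonoidHom) e.injective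
    exact hA.elim inferInstance
  · have : Nat.card H = 12 := by rw [Nat.card_congr e.toEquiv, nat_card_alternatingGroup, Nat.card_fin]; rfl
    exact key (by rw [this]; norm_num) (by omega)
  · have : Nat.card H = 24 := by rw [Nat.card_congr e.toEquiv, Nat.card_perm, Nat.card_fin]; rfl
    exact key (by rw [this]; norm_num) (by omega)
  · have : Nat.card H = 60 := by rw [Nat.card_congr e.toEquiv, nat_card_alternatingGroup, Nat.card_fin]; rfl
    exact key (by rw [this]; norm_num) (by omega)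

theorem small_comm (h : Low.Small H) {a b : H} (h10 : a ^ 10 = 1) (h5 : a ^ 5 ≠ 1) (h2 : a ^ 2 ≠ 1)
    (hb : b ^ 2 ≠ 1) : a * b = b * a := by
  have key : ∀ {n : ℕ} (f : H →* Equiv.Perm (Fin n)), Function.Injective f →
      (f a ^ 10 = 1 → f a ^ 5 = 1 ∨ f a ^ 2 = 1) → a * b = b * a := fun f hf k => by
    rcases k (by rw [← map_pow, h10, map_one]) with k | k
    · exact absurd (hf (by rw [map_pow, k, map_one])) h5
    · exact absurd (hf (by rw [map_pow, k, map_one])) h2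
  rcases h with hc | ⟨n, ⟨e⟩⟩ | ⟨⟨e⟩⟩ | ⟨⟨e⟩⟩ | ⟨⟨e⟩⟩
  · exact hc.commGroup.mul_comm _ _
  · have ha : e a * e a ≠ 1 := fun k => h2 (e.injective (by rw [pow_two, map_mul, k, map_one]))
    have hb' : e b * e b ≠ 1 := fun k => hb (e.injective (by rw [pow_two, map_mul, k, map_one]))
    apply e.injective
    rw [map_mul, map_mul]
    generalize e a = x at ha
    generalize e b = y at hb'
    rcases x with i | i
    · rcases y with j | j
      · simp [add_comm]
      · exact absurd (DihedralGroup.sr_mul_self j) hb'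
    · exact absurd (DihedralGroup.sr_mul_self i) ha
  · have : ∀ x : Equiv.Perm (Fin 4), x ^ 10 = 1 → x ^ 5 = 1 ∨ x ^ 2 = 1 := by decide +kernel
    exact key ((alternatingGroup (Fin 4)).subtype.comp e.toMonoidHom)
      (Subtype.val_injective.comp e.injective) (this _)
  · have : ∀ x : Equiv.Perm (Fin 4), x ^ 10 = 1 → x ^ 5 = 1 ∨ x ^ 2 = 1 := by decide +kernel
    exact key e.toMonoidHom e.injective (this _)
  · have : ∀ x : Equiv.Perm (Fin 5), x ^ 10 = 1 → x ^ 5 = 1 ∨ x ^ 2 = 1 := by decide +kernel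
    exact key ((alternatingGroup (Fin 5)).subtype.comp e.toMonoidHom)
      (Subtype.val_injective.comp e.injective) (this _)

theorem perfect_triv [Group.IsPerfect H] {A : Type*} [Group A] (f : H →* A)
    (h : ∀ a b, f a * f b = f b * f a) (k : H) : f k = 1 := by
  have : _root_.commutator H ≤ f.ker := Subgroup.commutator_le.2 fun a _ b _ => by
    rw [MonoidHom.mem_ker, map_commutatorElement]
    exact commutatorElement_eq_one_iff_mul_comm.2 (h a b)
  exact this Group.IsPerfect.mem_commutator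

variable {F : Type u} [Field F]

/-- A perfect group with a non-trivial image in `GL₂` fills the small image in `PGL₂`. -/
theorem fill [Finite F] [Group.IsPerfect H] {D : Type*} [Group D] (ρ : D →* GL (Fin 2) F)
    (hs : Low.Small (ProjGenLinGroup.mk.comp ρ).range) (f : H →* D) {k : H} (hk : ρ (f k) ≠ 1) (d : D) :
    ∃ k, ProjGenLinGroup.mk (ρ (f k)) = ProjGenLinGroup.mk (ρ d) := by
  let π := (ProjGenLinGroup.mk.comp ρ).rangeRestrict.comp f
  have h1 : π.range = ⊤ := by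
    refine small_top hs _ fun hsol => hk (perfect_triv (ρ.comp f) (fun a b => ?_) k)
    have := Group.IsPerfect.range π
    have hsub : Subsingleton π.range := by
      by_contra hn
      rw [not_subsingleton_iff_nontrivial] at hn
      exact Group.IsPerfect.not_isSolvable _ hsol
    have h2 : π a = 1 := congrArg Subtype.val (hsub.elim ⟨π a, a, rfl⟩ 1)
    have h3 : ProjGenLinGroup.mk (ρ (f a)) = 1 := congrArg Subtype.val h2
    exact (Subgroup.mem_center_iff.1 (ProjGenLinGroup.mk_eq_one.1 h3) _).symm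
  obtain ⟨k, e⟩ : (⟨_, d, rfl⟩ : (ProjGenLinGroup.mk.comp ρ).range) ∈ π.range := h1 ▸ Subgroup.mem_top _
  exact ⟨k, congrArg Subtype.val e⟩

theorem sq_one {A : GL (Fin 2) F} (h : ProjGenLinGroup.mk A = 1) (hd : GeneralLinearGroup.det A = 1) :
    A * A = 1 := by
  obtain ⟨c, hc⟩ := CL.GL2.isScal_iff.1 (CL.SL2.pgl_mk_eq_one_iff_isScal.1 h)
  have h1 : (A : Matrix (Fin 2) (Fin 2) F).det = 1 := congrArg Units.val hd
  rw [hc, det_smul, det_one, mul_one, Fintype.card_fin] at h1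
  ext1
  rw [Units.val_mul, hc, smul_mul_smul_comm, one_mul, ← pow_two, h1, one_smul, Units.val_one]

end Groups

section Lin

variable {F : Type u} [Field F] {Γ : Subgroup (G F)}

/-- The elements preserving two complementary planes. -/
def CP (Γ : Subgroup (G F)) (e : Fin 2 → V F) (x : Fin 2 → Dual F (V F)) : Subgroup (G F) where
  carrier := {g | g ∈ Γ ∧ ∀ y, pr e x (g • y) = g • pr e x y}
  mul_mem' := fun {a b} ha hb => ⟨Γ.mul_mem ha.1 hb.1, fun y => by rw [mul_smul, ha.2, hb.2, mul_smul]⟩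
  one_mem' := ⟨Γ.one_mem, fun y => by rw [one_smul, one_smul]⟩
  inv_mem' := fun {a} ha => ⟨Γ.inv_mem ha.1, fun y => by rw [eq_inv_smul_iff, ← ha.2, smul_inv_smul]⟩

theorem plane [Fintype F] (h2 : (2 : F) ≠ 0) (h3 : (3 : F) ≠ 0) (hQ : QCo Γ) {e : Fin 2 → V F}
    {x : Fin 2 → Dual F (V F)} (hb : Bi e x) :
    ∃ ρ : CP Γ e x →* GL (Fin 2) F, Low.Small (ProjGenLinGroup.mk.comp ρ).range ∧
      (∀ g, ρ g = 1 ↔ ∀ w, pr e x w = w → (g : G F) • w = w) ∧
      ∀ g, ProjGenLinGroup.mk (ρ g) = 1 ↔ ∃ a : F, ∀ w, pr e x w = w → (g : G F) • w = a • w := by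
  have hr : US e x = LinearMap.range (up e) := by
    ext y
    exact ⟨fun h => ⟨co x y, (up_co y).trans h⟩, fun ⟨a, h⟩ => h ▸ hb.pr_up a⟩
  have hW : finrank F (US e x) = 2 := by
    rw [hr, LinearMap.finrank_range_of_inj hb.up_inj]
    simp
  obtain ⟨ρ, k1, k2⟩ := exists_plane_pgl (CP Γ e x) hW (fun g hg w hw => by
    rw [mem_US] at hw ⊢
    rw [hg.2, hw])
  refine ⟨ρ, ?_, k1, k2⟩
  have hp : (ringChar F).Prime := CharP.char_is_prime F _
  have := Fact.mk hp
  refine small_range (ringChar F) _ fun hd => ?_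
  obtain ⟨g, hg⟩ := exists_prime_orderOf_dvd_card' (ringChar F) hd
  have hc : Nat.card (Subgroup.zpowers (g : G F)) = ringChar F := by
    rw [Nat.card_zpowers, Subgroup.orderOf_coe, hg]
  have hle : Subgroup.zpowers (g : G F) ≤ CP Γ e x := Subgroup.zpowers_le.2 g.2
  have := hQ e x hb _ (fun a ha => (hle ha).1) (IsPGroup.of_card (n := 1) (by rw [hc, pow_one]))
    (fun a ha => (hle ha).2)
  rw [hc] at this
  have h0 := (ringChar.spec F (ringChar F)).2 dvd_rfl
  have := hp.two_le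
  interval_cases ringChar F
  · exact h2 (by exact_mod_cast h0)
  · exact h3 (by exact_mod_cast h0)

theorem split (h2 : (2 : F) ≠ 0) {s : G F} (hs : s * s = 1) (y : V F) :
    ∃ a b : V F, s • a = a ∧ s • b = -b ∧ y = a + b := by
  refine ⟨(2 : F)⁻¹ • (y + s • y), (2 : F)⁻¹ • (y - s • y), ?_, ?_, ?_⟩
  · rw [gsmul_smul, smul_add, ← mul_smul, hs, one_smul, add_comm]
  · rw [gsmul_smul, smul_sub, ← mul_smul, hs, one_smul, ← smul_neg, neg_sub]
  · rw [← smul_add, add_add_sub_cancel, ← two_smul F y, smul_smul, inv_mul_cancel₀ h2, one_smul]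

theorem comm_split (h2 : (2 : F) ≠ 0) {s a b : G F} (hs : s * s = 1) (ha : Commute a s) (hb : Commute b s)
    (fa : ∀ y : V F, s • y = y → a • y = y) (fb : ∀ y : V F, s • y = -y → b • y = y) : Commute a b := by
  refine gext fun y => ?_
  obtain ⟨v, w, hv, hw, rfl⟩ := split h2 hs y
  have k1 : a • b • v = b • v := fa _ (by rw [← mul_smul, ← hb.eq, mul_smul, hv])
  have k2 : b • a • w = a • w := fb _ (by rw [← mul_smul, ← ha.eq, mul_smul, hw, smul_neg])
  simp only [mul_smul, smul_add, k1, k2, fa v hv, fb w hw]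

theorem eig (κ : G F) (U : Submodule F (V F)) (hU : ∀ v ∈ U, κ • v ∈ U) (s : Multiset F) :
    ∀ v ∈ U, v ≠ 0 → Polynomial.aeval κ.val (s.map (Polynomial.X - Polynomial.C ·)).prod *ᵥ v = 0 →
      ∃ r : F, ∃ u ∈ U, u ≠ 0 ∧ κ • u = r • u := by
  induction s using Multiset.induction_on with
  | empty => exact fun v _ h0 h => absurd (by simpa using h) h0
  | cons r s ih =>
    intro v hv h0 h
    by_cases k : κ • v - r • v = 0
    · exact ⟨r, v, hv, h0, sub_eq_zero.1 k⟩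
    · refine ih _ (U.sub_mem (hU v hv) (U.smul_mem r hv)) k ?_
      rw [Multiset.map_cons, Multiset.prod_cons, mul_comm, map_mul, ← mulVec_mulVec, map_sub, Polynomial.aeval_X,
        Polynomial.aeval_C, sub_mulVec, Algebra.algebraMap_eq_smul_one, smul_mulVec, one_mulVec] at h
      exact h

theorem eig5 (h5 : (5 : F) ≠ 0) {κ : G F} (hs : κ.val.charpoly.Splits) (hκ : κ ^ 5 = 1) {t : G F}
    (ht : Commute κ t) {v : V F} (hv : t • v = -v) (h0 : κ • v ≠ v) :
    ∃ (ζ : F) (u : V F), u ≠ 0 ∧ t • u = -u ∧ κ • u = ζ • u ∧ ζ ^ 5 = 1 ∧ ζ ≠ 1 := by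
  have k5 : ∀ y : V F, κ • κ • κ • κ • κ • y = y := fun y => by
    simpa only [pow_succ, pow_zero, one_mul, mul_smul, one_smul] using congrArg (· • y) hκ
  let U : Submodule F (V F) :=
    { carrier := {y | t • y = -y ∧ y + κ • y + κ • κ • y + κ • κ • κ • y + κ • κ • κ • κ • y = 0}
      add_mem' := fun {a b} ha hb => ⟨by rw [smul_add, ha.1, hb.1, neg_add], by
        simp only [smul_add]
        linear_combination ha.2 + hb.2⟩
      zero_mem' := ⟨by simp, by simp⟩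
      smul_mem' := fun c a ha => ⟨by rw [gsmul_smul, ha.1, smul_neg], by
        simp only [gsmul_smul, ← smul_add, ha.2, smul_zero]⟩ }
  have hκt : ∀ y : V F, t • y = -y → t • κ • y = -(κ • y) := fun y hy => by
    rw [← mul_smul, ← ht.eq, mul_smul, hy, smul_neg]
  obtain ⟨ζ, u, hu, hu0, e⟩ := eig κ U (fun y hy => ⟨hκt y hy.1, by
      have := congrArg (κ • ·) hy.2
      simpa only [smul_add, smul_zero] using this⟩) κ.val.charpoly.roots (κ • v - v)
    ⟨by rw [smul_sub, hκt v hv, hv, neg_sub_neg, neg_sub], by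
      simp only [smul_sub, k5]
      abel⟩ (sub_ne_zero.2 h0)
    (by rw [← hs.eq_prod_roots_of_monic (charpoly_monic _), aeval_self_charpoly, zero_mulVec])
  have h1 := hu.2
  simp only [e, gsmul_smul, smul_smul] at h1
  have h2 : (1 + ζ + ζ * ζ + ζ * ζ * ζ + ζ * ζ * ζ * ζ) • u = 0 := by
    simp only [add_smul, one_smul]
    exact h1
  have h3 := (smul_eq_zero.1 h2).resolve_right hu0
  refine ⟨ζ, u, hu0, hu.1, e, by linear_combination (ζ - 1) * h3, fun h => h5 ?_⟩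
  rw [h] at h3
  linear_combination h3

theorem left_eig (h5 : (5 : F) ≠ 0) {κ : G F} (hκ : κ ^ 5 = 1) {ζ : F} (hζ : ζ ^ 5 = 1) {u : V F} (h0 : u ≠ 0)
    (hu : κ • u = ζ • u) : ∃ φ : Dual F (V F), φ u = 1 ∧ ∀ y, φ (κ • y) = ζ * φ y := by
  have k5 : ∀ y : V F, κ • κ • κ • κ • κ • y = y := fun y => by
    simpa only [pow_succ, pow_zero, one_mul, mul_smul, one_smul] using congrArg (· • y) hκ
  obtain ⟨ψ, hψ⟩ := Module.Projective.exists_dual_eq_one F h0
  let L : V F →ₗ[F] V F := toLin' κ.val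
  have hL : ∀ y, L y = κ • y := fun _ => rfl
  refine ⟨(5 : F)⁻¹ • (ψ + ζ ^ 4 • ψ ∘ₗ L + ζ ^ 3 • ψ ∘ₗ L ∘ₗ L + ζ ^ 2 • ψ ∘ₗ L ∘ₗ L ∘ₗ L +
    ζ • ψ ∘ₗ L ∘ₗ L ∘ₗ L ∘ₗ L), ?_, fun y => ?_⟩
  · simp only [LinearMap.smul_apply, LinearMap.add_apply, LinearMap.comp_apply, hL, hu, gsmul_smul, map_smul, hψ,
      smul_eq_mul]
    field_simp
    linear_combination 4 * hζ
  · simp only [LinearMap.smul_apply, LinearMap.add_apply, LinearMap.comp_apply, hL, k5, smul_eq_mul]
    linear_combination (-(5 : F)⁻¹ * ψ (κ • y)) * hζ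

theorem ord10 {e : Fin 2 → V F} {x : Fin 2 → Dual F (V F)} (h2 : (2 : F) ≠ 0) {H : Type*} [Group H]
    (π : CP Γ e x →* H) (hπ : ∀ g, π g = 1 ↔ ∃ a : F, ∀ w, pr e x w = w → (g : G F) • w = a • w)
    {ζ : F} (hζ : ζ ^ 5 = 1) (h1 : ζ ≠ 1) (g : CP Γ e x) {a b : V F} (ha : pr e x a = a) (hb : pr e x b = b)
    (ha0 : a ≠ 0) (hb0 : b ≠ 0) (ga : (g : G F) • a = a) (gb : (g : G F) • b = (-ζ) • b)
    (hsp : ∀ w, pr e x w = w → ∃ c d : F, w = c • a + d • b) : π g ^ 10 = 1 ∧ π g ^ 5 ≠ 1 ∧ π g ^ 2 ≠ 1 := by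
  have pa : ∀ n : ℕ, (g : G F) ^ n • a = a := fun n => by
    induction n with
    | zero => rw [pow_zero, one_smul]
    | succ n ih => rw [pow_succ, mul_smul, ga, ih]
  have pb : ∀ n : ℕ, (g : G F) ^ n • b = (-ζ) ^ n • b := fun n => by
    induction n with
    | zero => rw [pow_zero, pow_zero, one_smul, one_smul]
    | succ n ih => rw [pow_succ, mul_smul, gb, gsmul_smul, ih, smul_smul, pow_succ']
  have key : ∀ n : ℕ, π g ^ n = 1 → (-ζ) ^ n = 1 := fun n h => by
    rw [← map_pow] at h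
    obtain ⟨c, hc⟩ := (hπ _).1 h
    have e1 := hc a ha
    have e2 := hc b hb
    rw [Subgroup.coe_pow, pa] at e1
    rw [Subgroup.coe_pow, pb] at e2
    have e3 : (1 : F) = c := smul_left_injective F ha0 (by simpa using e1)
    exact (smul_left_injective F hb0 e2).trans e3.symm
  refine ⟨?_, fun h => h2 ?_, fun h => h1 ?_⟩
  · rw [← map_pow]
    refine (hπ _).2 ⟨1, fun w hw => ?_⟩
    obtain ⟨c, d, rfl⟩ := hsp w hw
    have : (-ζ) ^ 10 = 1 := by linear_combination (ζ ^ 5 + 1) * hζ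
    rw [Subgroup.coe_pow, smul_add, gsmul_smul, gsmul_smul, pa, pb, this, one_smul, one_smul]
  · linear_combination -key 5 h - hζ
  · have := key 2 h
    linear_combination hζ - (ζ ^ 3 + ζ) * this

theorem final [Fintype F] (h2 : (2 : F) ≠ 0) (h3 : (3 : F) ≠ 0) (h5 : (5 : F) ≠ 0) (hQ : QCo Γ) {t s κ z : G F}
    (ht : t ∈ Γ) (hκ : κ ∈ Γ) (hz : z ∈ Γ) (tt : t * t = 1) (ss : s * s = 1) (ts : t * s = -(s * t))
    (κt : Commute κ t) (κf : ∀ y : V F, t • y = y → κ • y = y) (κ5 : κ ^ 5 = 1) (zs : Commute z s)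
    (zf : ∀ y : V F, s • y = y → z • y = y)
    (zw : ∀ w : V F, t • w = -w → z • (w - s • w) = -(κ • w - s • κ • w))
    {ζ : F} {u : V F} (u0 : u ≠ 0) (tu : t • u = -u) (κu : κ • u = ζ • u) (ζ5 : ζ ^ 5 = 1) (ζ1 : ζ ≠ 1) : False := by
  obtain ⟨φ, φu, φκ⟩ := left_eig h5 κ5 ζ5 u0 κu
  have ssy : ∀ y : V F, s • s • y = y := fun y => by rw [← mul_smul, ss, one_smul]
  have tsy : ∀ y : V F, t • s • y = -(s • t • y) := fun y => by rw [← mul_smul, ts, neg_gsmul, mul_smul]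
  have tsw : ∀ w : V F, t • w = -w → t • s • w = s • w := fun w hw => by rw [tsy, hw, smul_neg, neg_neg]
  have tκw : ∀ w : V F, t • w = -w → t • κ • w = -(κ • w) := fun w hw => by
    rw [← mul_smul, ← κt.eq, mul_smul, hw, smul_neg]
  have φ0 : ∀ w : V F, t • w = -w → φ (s • w) = 0 := fun w hw => by
    have := φκ (s • w)
    rw [κf _ (tsw w hw)] at this
    exact (mul_eq_zero.1 (show (ζ - 1) * φ (s • w) = 0 by linear_combination -this)).resolve_left (sub_ne_zero.2 ζ1)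
  let e : Fin 2 → V F := ![u, s • u]
  let x : Fin 2 → Dual F (V F) := ![φ, φ ∘ₗ toLin' s.val]
  have hpr : ∀ y, pr e x y = φ y • u + φ (s • y) • s • u := fun y => by
    rw [pr, Fin.sum_univ_two]
    rfl
  have hb : Bi e x := by
    refine ⟨fun i => ?_, fun i j hij => ?_⟩
    · fin_cases i
      · exact φu
      · exact (congrArg φ (ssy u)).trans φu
    · fin_cases i <;> fin_cases j
      · exact absurd rfl hij
      · exact φ0 u tu
      · exact φ0 u tu
      · exact absurd rfl hij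
  have p1 : ∀ w : V F, t • w = -w → pr e x w = φ w • u := fun w hw => by rw [hpr, φ0 w hw, zero_smul, add_zero]
  have p2 : ∀ w : V F, t • w = -w → pr e x (s • w) = φ w • s • u := fun w hw => by
    rw [hpr, φ0 w hw, zero_smul, zero_add, ssy]
  have ps : ∀ y, pr e x (s • y) = s • pr e x y := fun y => by
    rw [hpr, hpr, ssy, smul_add, gsmul_smul, gsmul_smul, ssy, add_comm]
  have red : ∀ g : G F, (∀ w : V F, t • w = -w → pr e x (g • w) = φ w • g • u) →
      (∀ w : V F, t • w = -w → pr e x (g • s • w) = φ w • g • s • u) → ∀ y, pr e x (g • y) = g • pr e x y := by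
    intro g k1 k2 y
    obtain ⟨a, b, ha, hb, rfl⟩ := split h2 tt y
    have ha' : t • s • a = -(s • a) := by rw [tsy, ha]
    have := k2 _ ha'
    rw [ssy] at this
    have e1 := p2 _ ha'
    rw [ssy] at e1
    rw [smul_add, pr_add, pr_add, this, k1 b hb, e1, p1 b hb, smul_add, gsmul_smul, gsmul_smul]
  have xw : ∀ w : V F, t • w = -w → (t * κ) • w = -(κ • w) := fun w hw => by rw [mul_smul, tκw w hw]
  have xsw : ∀ w : V F, t • w = -w → (t * κ) • s • w = s • w := fun w hw => by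
    rw [mul_smul, κf _ (tsw w hw), tsw w hw]
  have zp : ∀ w : V F, z • (w + s • w) = w + s • w := fun w => zf _ (by rw [smul_add, ssy, add_comm])
  have zw' : ∀ w : V F, t • w = -w → z • w = (2 : F)⁻¹ • (w + s • w - (κ • w - s • κ • w)) := fun w hw => by
    rw [← zp w, sub_eq_add_neg, ← zw w hw, ← smul_add, add_add_sub_cancel, ← two_smul F w, gsmul_smul, smul_smul,
      inv_mul_cancel₀ h2, one_smul]
  have zsy : ∀ y : V F, z • s • y = s • z • y := fun y => by rw [← mul_smul, zs.eq, mul_smul]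
  have xu : (t * κ) • u = (-ζ) • u := by rw [xw u tu, κu, neg_smul]
  have zk : ∀ w : V F, t • w = -w → pr e x (z • w) = φ w • z • u := fun w hw => by
    rw [zw' w hw, zw' u tu, pr_smul, pr_sub, pr_add, pr_sub, p1 w hw, p2 w hw, p1 _ (tκw w hw), p2 _ (tκw w hw), φκ,
      κu, gsmul_smul]
    generalize s • u = v
    module
  let X : CP Γ e x := ⟨t * κ, Γ.mul_mem ht hκ, red _ (fun w hw => by
    rw [xw w hw, xu, ← neg_one_smul F (κ • w), pr_smul, p1 _ (tκw w hw), φκ]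
    module) fun w hw => by rw [xsw w hw, xsw u tu, p2 w hw]⟩
  let Z : CP Γ e x := ⟨z, hz, red _ zk fun w hw => by rw [zsy, ps, zk w hw, gsmul_smul, zsy]⟩
  obtain ⟨ρ, hs, -, hρ⟩ := plane h2 h3 hQ hb
  have pu : pr e x u = u := hb.pr_e 0
  have psu : pr e x (s • u) = s • u := hb.pr_e 1
  have su0 : s • u ≠ 0 := fun h => u0 (by rw [← ssy u, h, smul_zero])
  have ind : ∀ c d : F, c • u + d • s • u = 0 → c = 0 ∧ d = 0 := fun c d h => by
    have e1 := congrArg φ h
    rw [map_add, map_smul, map_smul, φu, φ0 u tu, map_zero, smul_zero, add_zero, smul_eq_mul, mul_one] at e1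
    rw [e1, zero_smul, zero_add] at h
    exact ⟨e1, (smul_eq_zero.1 h).resolve_right su0⟩
  let π := (ProjGenLinGroup.mk.comp ρ).rangeRestrict
  have hπ : ∀ g, π g = 1 ↔ ∃ a : F, ∀ w, pr e x w = w → (g : G F) • w = a • w := fun g =>
    Subtype.ext_iff.trans (hρ g)
  obtain ⟨a1, a2, a3⟩ := ord10 h2 π hπ ζ5 ζ1 X psu pu su0 u0 (xsw u tu) xu
    (fun w hw => ⟨φ (s • w), φ w, by rw [add_comm, ← hpr, hw]⟩)
  obtain ⟨-, -, b3⟩ := ord10 h2 π hπ ζ5 ζ1 Z (a := u + s • u) (b := u - s • u) (by rw [pr_add, pu, psu])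
    (by rw [pr_sub, pu, psu]) (fun h => one_ne_zero (ind 1 1 (by simpa using h)).1)
    (fun h => one_ne_zero (ind 1 (-1) (by simpa [sub_eq_add_neg] using h)).1) (zp u)
    ((zw u tu).trans (by rw [κu, gsmul_smul]; generalize s • u = v; module))
    (fun w hw => ⟨(2 : F)⁻¹ * (φ w + φ (s • w)), (2 : F)⁻¹ * (φ w - φ (s • w)), by
      refine (hw.symm.trans (hpr w)).trans ?_
      generalize s • u = v
      match_scalars <;> field_simp <;> ring⟩)
  have hc := small_comm hs a1 a2 a3 b3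
  obtain ⟨c, hc⟩ := (hπ ((Z * X)⁻¹ * (X * Z))).1 (by rw [map_mul, map_inv, map_mul, map_mul, hc, inv_mul_cancel])
  have hc' : ∀ w, pr e x w = w → (t * κ) • z • w = c • z • (t * κ) • w := fun w hw => by
    have := hc w hw
    change ((z * (t * κ))⁻¹ * ((t * κ) * z)) • w = c • w at this
    rw [mul_smul, inv_smul_eq_iff, gsmul_smul, mul_smul (t * κ), mul_smul z] at this
    exact this
  have zu : z • u = ((2 : F)⁻¹ * (1 - ζ)) • u + ((2 : F)⁻¹ * (1 + ζ)) • s • u := by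
    rw [zw' u tu, κu, gsmul_smul]
    generalize s • u = v
    module
  have e1 := hc' u pu
  have e2 := hc' _ psu
  rw [xu, gsmul_smul, zu, smul_add, gsmul_smul, gsmul_smul, xu, xsw u tu] at e1
  rw [xsw u tu, zsy, zu, smul_add, gsmul_smul, gsmul_smul, ssy, smul_add, gsmul_smul, gsmul_smul, xu, xsw u tu] at e2
  have f1 := (ind ((2 : F)⁻¹ * (1 - ζ) * (-ζ) * (1 - c)) ((2 : F)⁻¹ * (1 + ζ) * (1 + c * ζ))
    (by revert e1; generalize s • u = v; intro e1; linear_combination (norm := module) e1)).2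
  have f2 := (ind ((2 : F)⁻¹ * (1 + ζ) * (-ζ - c)) ((2 : F)⁻¹ * (1 - ζ) * (1 - c))
    (by revert e2; generalize s • u = v; intro e2; linear_combination (norm := module) e2)).1
  have hζ : 1 + ζ ≠ 0 := fun h => h2 (by
    rw [show ζ = -1 by linear_combination h] at ζ5
    linear_combination -ζ5)
  have g1 := (mul_eq_zero.1 f1).resolve_left (mul_ne_zero (inv_ne_zero h2) hζ)
  have g2 := (mul_eq_zero.1 f2).resolve_left (mul_ne_zero (inv_ne_zero h2) hζ)
  have g3 : (1 + ζ) * (ζ - 1) = 0 := by linear_combination -g1 - ζ * g2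
  exact ζ1 (sub_eq_zero.1 ((mul_eq_zero.1 g3).resolve_left hζ))

end Lin

end AL2

open AL2 in
theorem subAL2 : SubAL2.{u} := by
  intro F _ _ Γ hO hT hQ τ K κ hA g hg ts
  have h2 := hO.two
  have τΓ := hA.le hA.mτ
  have tt := hA.ττ
  have sΓ : g * τ * g⁻¹ ∈ Γ := Γ.mul_mem (Γ.mul_mem hg τΓ) (Γ.inv_mem hg)
  have ss : g * τ * g⁻¹ * (g * τ * g⁻¹) = 1 := by
    rw [show g * τ * g⁻¹ * (g * τ * g⁻¹) = g * (τ * τ) * g⁻¹ by group, tt, mul_one, mul_inv_cancel]
  have c1 : ∀ k ∈ K, Commute (g * k * g⁻¹) (g * τ * g⁻¹) := fun k hk => (hA.cen k hk).map (MulAut.conj g)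
  have c2 : ∀ k ∈ K, ∀ y : V F, (g * τ * g⁻¹) • y = y → (g * k * g⁻¹) • y = y := fun k hk y hy => by
    rw [mul_smul, mul_smul, smul_eq_iff_eq_inv_smul] at hy ⊢
    exact hA.fix k hk _ hy
  obtain ⟨s, hs⟩ : ∃ s, s = g * τ * g⁻¹ := ⟨_, rfl⟩
  rw [← hs] at ts sΓ ss c1 c2
  have tty : ∀ y : V F, τ • τ • y = y := fun y => by rw [← mul_smul, tt, one_smul]
  have ssy : ∀ y : V F, s • s • y = y := fun y => by rw [← mul_smul, ss, one_smul]
  have tsy : ∀ y : V F, τ • s • y = -(s • τ • y) := fun y => by rw [← mul_smul, ts, neg_gsmul, mul_smul]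
  have sty : ∀ y : V F, s • τ • y = -(τ • s • y) := fun y => by rw [tsy, neg_neg]
  have c3 : ∀ k ∈ K, Commute (τ * (g * k * g⁻¹) * τ) s := fun k hk => gext fun y => by
    rw [mul_smul, mul_smul, mul_smul, tsy, smul_neg, smul_neg, ← mul_smul _ s, (c1 k hk).eq, mul_smul s, tsy, neg_neg,
      mul_smul s, mul_smul _ τ, mul_smul τ]
  have c4 : ∀ k ∈ K, ∀ y : V F, s • y = -y → (τ * (g * k * g⁻¹) * τ) • y = y := fun k hk y hy => by
    rw [mul_smul, mul_smul, c2 k hk _ (by rw [sty, hy, smul_neg, neg_neg]), tty]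
  have c5 : ∀ k ∈ K, ∀ l ∈ K, Commute (g * k * g⁻¹) (τ * (g * l * g⁻¹) * τ) := fun k hk l hl =>
    comm_split h2 ss (c1 k hk) (c3 l hl) (c2 k hk) (c4 l hl)
  obtain ⟨e, x, hb, hsc⟩ := hT τ τΓ tt hA.ns
  have hpr : ∀ y, pr e x y = (2 : F)⁻¹ • (y - τ • y) := fun y => by
    rw [hsc y]
    match_scalars <;> field_simp <;> ring
  have hW : ∀ w, pr e x w = w ↔ τ • w = -w := fun w => ⟨fun h => by
    rw [hsc w, h]
    module, fun h => by
    rw [hpr, h]
    match_scalars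
    field_simp
    ring⟩
  have mem : ∀ a ∈ Γ, Commute a τ → a ∈ CP Γ e x := fun a ha hc => ⟨ha, fun y => by
    rw [hpr, hpr, gsmul_smul, smul_sub a, ← mul_smul τ, ← hc.eq, mul_smul]⟩
  obtain ⟨ρ, hs', k1, k2⟩ := plane h2 hA.three hQ hb
  have := Subgroup.isPerfect_iff.2 hA.perfect
  have gΓ : ∀ k : K, g * k * g⁻¹ ∈ Γ := fun k => Γ.mul_mem (Γ.mul_mem hg (hA.le k.2)) (Γ.inv_mem hg)
  let f1 : K →* CP Γ e x := Subgroup.inclusion fun k hk => mem k (hA.le hk) (hA.cen k hk)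
  let f2 : K →* CP Γ e x := MonoidHom.mk' (fun k => ⟨g * k * g⁻¹ * (τ * (g * k * g⁻¹) * τ),
      mem _ (Γ.mul_mem (gΓ k) (Γ.mul_mem (Γ.mul_mem τΓ (gΓ k)) τΓ)) (by
        have := (c5 k k.2 k k.2).eq
        generalize g * k * g⁻¹ = a at this ⊢
        calc a * (τ * a * τ) * τ = a * τ * a * (τ * τ) := by group
          _ = (τ * τ) * a * τ * a := by rw [tt]; group
          _ = τ * (τ * a * τ * a) := by group
          _ = τ * (a * (τ * a * τ)) := by rw [this])⟩) fun k l => Subtype.ext (by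
      have := (c5 l l.2 k k.2).eq
      change g * ((k : G F) * l) * g⁻¹ * (τ * (g * ((k : G F) * l) * g⁻¹) * τ) = g * k * g⁻¹ * (τ * (g * k * g⁻¹) * τ) *
        (g * l * g⁻¹ * (τ * (g * l * g⁻¹) * τ))
      rw [show g * ((k : G F) * l) * g⁻¹ = g * k * g⁻¹ * (g * l * g⁻¹) by group]
      generalize g * k * g⁻¹ = a at this ⊢
      generalize g * l * g⁻¹ = b at this ⊢
      calc a * b * (τ * (a * b) * τ) = a * b * (τ * a * (τ * τ) * b * τ) := by rw [tt]; group
        _ = a * (b * (τ * a * τ)) * (τ * b * τ) := by group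
        _ = _ := by rw [this]; group)
  have hf2 : ∀ k : K, (f2 k : G F) = g * k * g⁻¹ * (τ * (g * k * g⁻¹) * τ) := fun _ => rfl
  have e0 := hb.e_ne 0
  have te : τ • e 0 = -e 0 := (hW _).1 (hb.pr_e 0)
  obtain ⟨k, hk⟩ := fill ρ hs' f2 (k := ⟨τ, hA.mτ⟩) (fun h => by
    have h1 := (k1 _).1 h _ (hb.pr_e 0)
    rw [hf2, ← hs, mul_smul, mul_smul, mul_smul, te, smul_neg, smul_neg, tsy, te] at h1
    simp only [smul_neg, neg_neg, ssy] at h1
    have : (2 : F) • e 0 = 0 := by linear_combination (norm := module) -h1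
    exact e0 ((smul_eq_zero.1 this).resolve_left h2)) (f1 ⟨κ, hA.mκ⟩)
  have hd : ∀ (f : K →* CP Γ e x) (k : K), GeneralLinearGroup.det (ρ (f k)) = 1 := fun f =>
    perfect_triv (GeneralLinearGroup.det.comp (ρ.comp f)) fun _ _ => mul_comm _ _
  have m1 : ProjGenLinGroup.mk (ρ ((f1 ⟨κ, hA.mκ⟩)⁻¹ * f2 k)) = 1 := by
    rw [map_mul, map_inv, map_mul, map_inv, hk, inv_mul_cancel]
  obtain ⟨a, ha⟩ := (k2 _).1 m1
  have m2 := sq_one m1 (by rw [map_mul, map_inv, map_mul, map_inv, hd, hd, inv_one, one_mul])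
  rw [← map_mul] at m2
  have m3 := (k1 _).1 m2 _ (hb.pr_e 0)
  rw [Subgroup.coe_mul, mul_smul, ha _ (hb.pr_e 0), gsmul_smul, ha _ (hb.pr_e 0), smul_smul] at m3
  have m4 : a * a = 1 := smul_left_injective F e0 (by simpa using m3)
  have m5 : ∀ w : V F, τ • w = -w → (g * k * g⁻¹) • (w - s • w) = a • (κ • w - s • κ • w) := fun w hw => by
    have h1 := ha w ((hW w).2 hw)
    change (κ⁻¹ * (f2 k : G F)) • w = a • w at h1
    rw [mul_smul, inv_smul_eq_iff, gsmul_smul] at h1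
    have h3 : Commute (f2 k : G F) s := (c1 k k.2).mul_left (c3 k k.2)
    rw [← c4 k k.2 (w - s • w) (by rw [smul_sub, ssy, neg_sub]), ← mul_smul, ← hf2, smul_sub, ← mul_smul, h3.eq,
      mul_smul, h1, gsmul_smul, smul_sub]
  obtain ⟨v, hv, hv'⟩ : ∃ v : V F, τ • v = -v ∧ κ • v ≠ v := by
    by_contra hn
    push Not at hn
    refine hA.κ1 (gext fun y => ?_)
    obtain ⟨b, c, hb', hc, rfl⟩ := split h2 tt y
    rw [smul_add, hA.fix κ hA.mκ b hb', hn c hc, one_smul]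
  obtain ⟨ζ, u, u0, tu, κu, ζ5, ζ1⟩ := eig5 hA.five (hO.spl κ (hA.le hA.mκ)) hA.κ5 (hA.cen κ hA.mκ) hv hv'
  rcases mul_self_eq_one_iff.1 m4 with rfl | rfl
  · refine final h2 hA.three hA.five hQ τΓ (hA.le hA.mκ) (Γ.mul_mem (gΓ k) sΓ) tt ss ts (hA.cen κ hA.mκ)
      (hA.fix κ hA.mκ) hA.κ5 ((c1 k k.2).mul_left (Commute.refl s)) (fun y hy => ?_) (fun w hw => ?_) u0 tu κu ζ5 ζ1
    · rw [mul_smul, hy, c2 k k.2 y hy]
    · rw [mul_smul, smul_sub s, ssy, ← neg_sub w, smul_neg, m5 w hw, one_smul]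
  · exact final h2 hA.three hA.five hQ τΓ (hA.le hA.mκ) (gΓ k) tt ss ts (hA.cen κ hA.mκ)
      (hA.fix κ hA.mκ) hA.κ5 (c1 k k.2) (c2 k k.2) (fun w hw => by rw [m5 w hw, neg_one_smul]) u0 tu κu ζ5 ζ1

end CL.Low4
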