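/-
Project LOW4, step B0: the normal form of a Sylow 2-subgroup in characteristic two without transvections.
-/
import Cfsg.Agent.Low4.Defs3
import Cfsg.Agent.Low5.B0

set_option autoImplicit false
set_option linter.unusedSectionVars false

namespace CL.Low4

open Matrix Cfsg Cfsg.Geo CL.Asch CL.SLn CL.Low Module
open scoped commutatorElement MatrixGroups

universe u

namespace B0x

variable {F : Type u} [Field F] {P : Subgroup (G F)}

theorem diag_pow {m : Matrix (Fin 4) (Fin 4) F} (h : m.BlockTriangular id) (n : ℕ) (i : Fin 4) :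
    (m ^ n) i i = m i i ^ n := by
  induction n with
  | zero => simp
  | succ n ih =>
    rw [pow_succ, pow_succ, mul_apply, Finset.sum_eq_single i (fun j _ hj => ?_) (by simp), ih]
    rcases lt_or_gt_of_ne hj with k | k
    · rw [h.pow n (show id j < id i from k), zero_mul]
    · rw [h (show id i < id j from k), mul_zero]

theorem shape (h2 : (2 : F) = 0) {m : Matrix (Fin 4) (Fin 4) F} {n : ℕ} (hn : m ^ 2 ^ n = 1)
    (hc : m * utm 0 0 1 1 0 = utm 0 0 1 1 0 * m) (h0 : m *ᵥ Pi.single 0 1 = Pi.single 0 1) :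
    ∃ a b d e f : F, m = utm a b d e f := by
  have : CharP F 2 := CharTwo.of_one_ne_zero_of_two_eq_zero one_ne_zero h2
  have c0 : ∀ i, m i 0 = (Pi.single 0 1 : Fin 4 → F) i := fun i => by simpa using congrFun h0 i
  have c := fun i j => congrFun (congrFun hc i) j
  have e10 : m 1 0 = 0 := by simpa using c0 1
  have e20 : m 2 0 = 0 := by simpa using c0 2
  have e30 : m 3 0 = 0 := by simpa using c0 3
  have e21 : m 2 1 = 0 := by simpa [utm, mul_apply, Fin.sum_univ_four] using c 2 3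
  have e31 : m 3 1 = 0 := by simpa [utm, mul_apply, Fin.sum_univ_four] using c 3 3
  have e32 : m 3 2 = 0 := by
    have := c 1 2
    simp [utm, mul_apply, Fin.sum_univ_four] at this
    linear_combination e10 - this
  have e23 : m 2 3 = m 0 1 := by
    have := c 0 3
    simp [utm, mul_apply, Fin.sum_univ_four] at this
    linear_combination -this
  have ht : m.BlockTriangular id := fun i j hij => by
    fin_cases i <;> fin_cases j <;> first | assumption | exact absurd hij (by decide)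
  have hd : ∀ i, m i i = 1 := fun i => by
    have k := diag_pow ht (2 ^ n) i
    rw [hn, one_apply_eq, eq_comm, ← sub_eq_zero, ← one_pow (2 ^ n), ← sub_pow_char_pow] at k
    exact sub_eq_zero.1 (pow_eq_zero_iff (by positivity) |>.1 k)
  refine ⟨m 0 1, m 1 2, m 0 2, m 1 3, m 0 3, ?_⟩
  ext i j
  fin_cases i <;> fin_cases j <;> first | rfl | assumption | exact hd _

theorem exists_basis [Finite F] (h2 : (2 : F) = 0) {T : Subgroup (G F)} (hT : IsPGroup 2 T) {z : G F}
    (hc : ∀ s ∈ T, s * z = z * s) (h1 : z ≠ 1) (hz : z * z = 1) (hn : ¬ IsTv z) :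
    ∃ c : G F, (c⁻¹ * z * c).val = utm 0 0 1 1 0 ∧
      ∀ s ∈ T, (c⁻¹ * s * c).val *ᵥ Pi.single 0 1 = Pi.single 0 1 := by
  have : CharP F 2 := CharTwo.of_one_ne_zero_of_two_eq_zero one_ne_zero h2
  have hsq := sq_sub_one_of_two h2 hz
  set N := z.val - 1 with hN
  let n := toLin' N
  have hnn : ∀ x, n (n x) = 0 := fun x => by simp [n, hsq]
  have r3 : finrank F (LinearMap.range n) ≠ 1 := fun e => hn (isTv_of_rank hsq e)
  have r4 : LinearMap.range n ≠ ⊥ := fun e => h1 (Units.ext (sub_eq_zero.1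
    (toLin'.injective ((LinearMap.range_eq_bot.1 e).trans (map_zero _).symm))))
  have r5 := Submodule.finrank_eq_zero.not.2 r4
  obtain ⟨_, ⟨e4, rfl⟩, k1, k2⟩ := exists_fixed 2 (T3B.rho (Fin 4) F) hT (LinearMap.range n) r4 (by
    rintro g hg _ ⟨x, rfl⟩
    refine ⟨g.val *ᵥ x, ?_⟩
    change N *ᵥ _ = g.val *ᵥ N *ᵥ x
    simp only [mulVec_mulVec, hN, mul_sub, sub_mul, mul_one, one_mul, ← Units.val_mul, hc g hg])
  obtain ⟨_, ⟨e5, rfl⟩, k3⟩ := SetLike.exists_of_lt (show F ∙ n e4 < LinearMap.range n from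
    Submodule.lt_of_le_of_finrank_lt_finrank ((Submodule.span_singleton_le_iff_mem _ _).2 ⟨e4, rfl⟩)
      (by rw [finrank_span_singleton k1]; omega))
  have k6 : ∀ r s : F, r • n e4 + s • n e5 = 0 → r = 0 ∧ s = 0 := fun r s e => by
    have hs : s = 0 := by
      by_contra hs
      exact k3 (Submodule.mem_span_singleton.2 ⟨-(s⁻¹ * r), by
        rw [← inv_smul_smul₀ hs (n e5), eq_neg_of_add_eq_zero_right e]; module⟩)
    rw [hs, zero_smul, add_zero] at e
    exact ⟨(smul_eq_zero.1 e).resolve_right k1, hs⟩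
  let C : Matrix (Fin 4) (Fin 4) F := (Matrix.of ![n e4, n e5, e4, e5])ᵀ
  have hC : ∀ x : V F, C *ᵥ x = x 0 • n e4 + x 1 • n e5 + x 2 • e4 + x 3 • e5 := fun x => by
    ext i
    simp [C, mulVec, dotProduct, Fin.sum_univ_four, mul_comm]
  have hu : C.det ≠ 0 := fun e => by
    obtain ⟨x, hx, e⟩ := exists_mulVec_eq_zero_iff.2 e
    rw [hC] at e
    have e1 := congrArg n e
    simp only [map_add, map_smul, hnn, smul_zero, zero_add, map_zero] at e1
    obtain ⟨a3, a4⟩ := k6 _ _ e1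
    rw [a3, a4, zero_smul, zero_smul, add_zero, add_zero] at e
    obtain ⟨a0, a1⟩ := k6 _ _ e
    exact hx (funext fun i => by fin_cases i <;> assumption)
  let c : G F := GeneralLinearGroup.mkOfDetNeZero C hu
  have hz' : ∀ x, z.val *ᵥ x = x + n x := fun x => by simp [n, hN]
  refine ⟨c, ?_, fun s hs => ?_⟩
  · rw [mul_assoc, Units.val_mul, Units.inv_mul_eq_iff_eq_mul, Units.val_mul]
    refine matrix_ext_mulVec fun x => ?_
    rw [← mulVec_mulVec, ← mulVec_mulVec, hz']
    change C *ᵥ x + n (C *ᵥ x) = C *ᵥ _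
    simp only [hC, map_add, map_smul, hnn]
    simp [utm, mulVec, dotProduct, Fin.sum_univ_four]
    module
  · have e0 : c • (Pi.single 0 1 : V F) = n e4 := by
      change C *ᵥ _ = _
      rw [hC]; simp
    change (c⁻¹ * s * c) • (Pi.single 0 1 : V F) = _
    rw [mul_smul, mul_smul, e0, inv_smul_eq_iff, e0]
    exact k2 s hs

end B0x

theorem subB0 : SubB0.{u} := by
  intro F _ _ P h2 hP hT
  obtain ⟨S⟩ : Nonempty (Sylow 2 P) := inferInstance
  have hS : (S : Subgroup P) ≠ ⊥ := S.ne_bot_of_dvd_card (by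
    by_contra h
    have := Cfsg.Agent.S0205.result (G := P) (Nat.odd_iff.2 (by omega))
    have := hP.simple
    exact hP.nonabelian ⟨⟨IsSimpleGroup.comm_iff_isSolvable.2 inferInstance⟩⟩)
  have := (Subgroup.nontrivial_iff_ne_bot _).2 hS
  have := S.isPGroup'.center_nontrivial
  obtain ⟨z, hz⟩ := exists_prime_orderOf_dvd_card' (G := Subgroup.center (S : Subgroup P)) 2
    (((S.isPGroup'.to_subgroup _).card_eq_or_dvd).resolve_left Finite.one_lt_card.ne')
  have hnt : ∀ g ∈ P, ¬ IsTv g := fun g hg k => hT ⟨g, hg, k⟩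
  have hzc : ∀ s ∈ (S : Subgroup P).map P.subtype, s * z.1.1.1 = z.1.1.1 * s := by
    rintro _ ⟨s, hs, rfl⟩
    exact congrArg (fun x : (S : Subgroup P) => x.1.1) (Subgroup.mem_center_iff.1 z.2 ⟨s, hs⟩)
  obtain ⟨c, c1, c2⟩ := B0x.exists_basis h2 (S.isPGroup'.map P.subtype) hzc
    (fun e => by
      rw [show z = 1 from Subtype.ext (Subtype.ext (Subtype.ext e)), orderOf_one] at hz
      omega)
    (congrArg (fun x : Subgroup.center (S : Subgroup P) => x.1.1.1) (show z * z = 1 by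
      rw [← pow_two]; exact orderOf_dvd_iff_pow_eq_one.1 hz.dvd)) (hnt _ z.1.1.2)
  let θ : G F →* G F := (MulAut.conj c⁻¹).toMonoidHom
  have hθ : ∀ g, θ g = c⁻¹ * g * c := fun g => by simp [θ]
  have hi : Function.Injective θ := (MulAut.conj c⁻¹).injective
  have hs : ∀ g, θ g ∈ scalars (Fin 4) F ↔ g ∈ scalars (Fin 4) F := fun g =>
    ⟨fun h => by
      have k := Subgroup.mem_center_iff.1 (scalars_le_center h) c
      rwa [show g = θ g from mul_right_cancel (b := c) (by rw [← k, hθ]; group)],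
    fun h => by rwa [hθ, mul_assoc, ← Subgroup.mem_center_iff.1 (scalars_le_center h), inv_mul_cancel_left]⟩
  have ht : ∀ g ∈ P, ¬ IsTv (θ g) := fun g hg k => hnt g hg (by
    have := k.conj c
    rwa [hθ, show c * (c⁻¹ * g * c) * c⁻¹ = g by group] at this)
  let L : Matrix (Fin 4) (Fin 4) F ≃ₗ[F] Matrix (Fin 4) (Fin 4) F := (conjAlg c⁻¹).toLinearEquiv
  have hL : ∀ g, (θ g).val = L g.val := fun g => by
    rw [hθ, Units.val_mul, Units.val_mul]
    exact (conjAlg_apply c⁻¹ g.val).symm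
  obtain ⟨k1, k2⟩ := Low5.B0.transport θ hi hs hP
    (Low5.B0.span_of_linear θ L L.surjective (fun g hg => ⟨g, hg, hL g⟩) hP.span)
  obtain ⟨S', hS'⟩ := Low5.B0.exists_sylow θ S
  refine ⟨_, k1, k2, S', h2, ?_, fun s hs => ?_, ⟨θ z.1.1, z.1.1, z.1.1.2, rfl⟩, (hS' _).2 ⟨z.1.1, z.1.2, rfl⟩, ?_⟩
  · rintro ⟨_, ⟨g, hg, rfl⟩, k⟩
    exact ht g hg k
  · obtain ⟨s, hs, e⟩ := (hS' s).1 hs
    rw [← e]
    obtain ⟨n, hn⟩ := S.isPGroup' ⟨s, hs⟩
    refine B0x.shape h2 (n := n) ?_ ?_ (by rw [hθ]; exact c2 _ ⟨s, hs, rfl⟩)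
    · rw [← Units.val_pow_eq_pow_val, ← map_pow,
        show (s : G F) ^ 2 ^ n = 1 from congrArg (fun x : (S : Subgroup P) => x.1.1) hn, map_one, Units.val_one]
    · rw [← c1, ← hθ, ← Units.val_mul, ← Units.val_mul, ← map_mul, ← map_mul]
      rw [hzc (s : G F) ⟨s, hs, rfl⟩]
  · change (θ _).val = _
    rw [hθ, c1]

end CL.Low4
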