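/-
Project LOW4, characteristic two: the fusion data of a Sylow 2-subgroup in normal form.
-/
import Cfsg.Agent.Low4.Defs3

set_option autoImplicit false
set_option linter.unusedSectionVars false

namespace CL.Low4

open Matrix Cfsg Cfsg.Geo CL.Asch CL.SLn CL.Low Module
open scoped commutatorElement MatrixGroups

universe u

namespace B1

variable {F : Type u} [Field F] {P : Subgroup (G F)} {S : Sylow 2 P} {s t : P} {a b d e f a' b' d' e' f' : F}

theorem utm_mul : utm a b d e f * utm a' b' d' e' f' =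
    utm (a + a') (b + b') (d + d' + a * b') (e + e' + b * a') (f + f' + a * e' + d * a') := by
  ext i j
  fin_cases i <;> fin_cases j <;> simp [utm, Matrix.mul_apply, Fin.sum_univ_four] <;> ring

theorem utm_inj (H : utm a b d e f = utm a' b' d' e' f') : a = a' ∧ b = b' ∧ d = d' ∧ e = e' ∧ f = f' :=
  ⟨congrFun₂ H 0 1, congrFun₂ H 1 2, congrFun₂ H 0 2, congrFun₂ H 1 3, congrFun₂ H 0 3⟩

theorem utm_zero : (utm 0 0 0 0 0 : Matrix (Fin 4) (Fin 4) F) = 1 := by
  ext i j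
  fin_cases i <;> fin_cases j <;> simp [utm]

theorem utm_vec (x : V F) : utm a b d e f *ᵥ x =
    x + ![a * x 1 + d * x 2 + f * x 3, b * x 2 + e * x 3, a * x 3, 0] := by
  ext i
  fin_cases i <;> simp [utm, Matrix.mulVec, dotProduct, Fin.sum_univ_four] <;> ring

/-- the matrix of `s` -/
def M (s : P) (a b d e f : F) : Prop := (s : G F).val = utm a b d e f

theorem M.mul (h1 : M s a b d e f) (h2 : M t a' b' d' e' f') :
    M (s * t) (a + a') (b + b') (d + d' + a * b') (e + e' + b * a') (f + f' + a * e' + d * a') := by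
  rw [M, ← utm_mul, ← h1, ← h2]; rfl

theorem M.inj (h1 : M s a b d e f) (h2 : M s a' b' d' e' f') : a = a' ∧ b = b' ∧ d = d' ∧ e = e' ∧ f = f' :=
  utm_inj (h1.symm.trans h2)

theorem M.one : M (1 : P) 0 0 0 0 0 := utm_zero.symm

theorem M.ext (h1 : M s a b d e f) (h2 : M t a' b' d' e' f') (H : a = a' ∧ b = b' ∧ d = d' ∧ e = e' ∧ f = f') :
    s = t := by
  obtain ⟨rfl, rfl, rfl, rfl, rfl⟩ := H
  exact Subtype.ext (Units.ext (h1.trans h2.symm))

theorem M.vec (h1 : M s a b d e f) (x : V F) :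
    (s : G F) • x = x + ![a * x 1 + d * x 2 + f * x 3, b * x 2 + e * x 3, a * x 3, 0] := by
  rw [gsmul_def, h1, utm_vec]

/-- a row as a functional -/
def row (d f : F) : Dual F (V F) := d • LinearMap.proj 2 + f • LinearMap.proj 3

theorem row_apply (x : V F) : row d f x = d * x 2 + f * x 3 := rfl

theorem M.dep (hT : ¬ HasTv P) (h1 : M s 0 b d e f) {φ : Dual F (V F)} {p q : F} (h0 : p ≠ 0 ∨ q ≠ 0)
    (hφ : φ ![p, q, 0, 0] = 0) (hp : ∀ x, row d f x = φ x * p) (hq : ∀ x, row b e x = φ x * q) : s = 1 := by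
  have h2 : ∀ x, (s : G F) • x = x + φ x • ![p, q, 0, 0] := fun x => by
    rw [h1.vec]
    congr 1
    ext i
    fin_cases i <;> simp [← hp, ← hq, row_apply]
  rcases not_tv hT s.2 hφ h2 with h3 | rfl
  · exact absurd ⟨congrFun h3 0, congrFun h3 1⟩ (not_and_or.2 h0)
  · exact Subtype.ext (gext fun x => by simp [h2])

theorem M.rng (hT : ¬ HasTv P) (h1 : M s 0 b d e f) (h0 : s ≠ 1) (p q : F) :
    ∃ x : V F, (s : G F) • x = x + ![p, q, 0, 0] := by
  obtain ⟨x, hx⟩ : ∃ x, row b e x ≠ 0 := by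
    by_contra h2
    push Not at h2
    exact h0 (h1.dep hT (φ := row d f) (p := 1) (q := 0) (Or.inl one_ne_zero) (by simp [row_apply]) (by simp)
      (by simp [h2]))
  obtain ⟨y, hy⟩ : ∃ y, row d f y * row b e x - row b e y * row d f x ≠ 0 := by
    by_contra h2
    push Not at h2
    exact h0 (h1.dep hT (φ := row b e) (p := row d f x / row b e x) (q := 1) (Or.inr one_ne_zero)
      (by simp [row_apply]) (fun y => by field_simp; linear_combination h2 y) (by simp))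
  obtain ⟨z, h3, h4⟩ : ∃ z, row d f z = p ∧ row b e z = q := by
    refine ⟨(row d f y * row b e x - row b e y * row d f x)⁻¹ • ((p * row b e x - q * row d f x) • y +
      (q * row d f y - p * row b e y) • x), ?_, ?_⟩ <;>
    · simp only [map_smul, map_add, smul_eq_mul]
      field_simp
      ring
  exact ⟨z, by rw [h1.vec, ← h3, ← h4]; simp [row_apply]⟩

theorem M.eq (hT : ¬ HasTv P) (h1 : M s a b d e f) (h2 : M t a' b' d' e' f') (H : a = a' ∧ b = b' ∧ e = e') :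
    s = t := by
  obtain ⟨rfl, rfl, rfl⟩ := H
  have h3 : M (s⁻¹ * t) 0 0 (d' - d) 0 (f' - f) := by
    have : (t : G F).val = (s : G F).val * utm 0 0 (d' - d) 0 (f' - f) := by
      rw [h1, h2, utm_mul]; simp
    change (s : G F)⁻¹.val * (t : G F).val = _
    rw [this, Units.inv_mul_cancel_left]
  exact inv_mul_eq_one.1 (h3.dep hT (φ := row (d' - d) (f' - f)) (p := 1) (q := 0) (Or.inl one_ne_zero)
    (by simp [row_apply]) (by simp) (by simp [row_apply]))

variable {E B : Subgroup P}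

theorem memE (H : IsEB P S E B) (hs : s ∈ (S : Subgroup P)) (h1 : M s a b d e f) : s ∈ E ↔ a = 0 := by
  rw [H.1, h1]; exact and_iff_right hs

theorem memB (H : IsEB P S E B) (hs : s ∈ (S : Subgroup P)) (h1 : M s a b d e f) : s ∈ B ↔ b = 0 := by
  rw [H.2, h1]; exact and_iff_right hs

theorem formE (U : UTS P S) (H : IsEB P S E B) (hs : s ∈ E) : ∃ b d e f : F, M s 0 b d e f := by
  obtain ⟨a, b, d, e, f, h1⟩ := U.form s ((H.1 s).1 hs).1
  obtain rfl := (memE H ((H.1 s).1 hs).1 h1).1 hs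
  exact ⟨b, d, e, f, h1⟩

theorem formB (U : UTS P S) (H : IsEB P S E B) (hs : s ∈ B) : ∃ a d e f : F, M s a 0 d e f := by
  obtain ⟨a, b, d, e, f, h1⟩ := U.form s ((H.2 s).1 hs).1
  obtain rfl := (memB H ((H.2 s).1 hs).1 h1).1 hs
  exact ⟨a, d, e, f, h1⟩

theorem sqE (U : UTS P S) (H : IsEB P S E B) (hs : s ∈ E) : s * s = 1 := by
  obtain ⟨b, d, e, f, h1⟩ := formE U H hs
  have := U.two
  exact (h1.mul h1).ext M.one (by grind)

theorem sqB (U : UTS P S) (H : IsEB P S E B) (hs : s ∈ B) : s * s = 1 := by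
  obtain ⟨a, d, e, f, h1⟩ := formB U H hs
  have := U.two
  exact M.eq U.noTv (h1.mul h1) M.one (by grind)

theorem img (U : UTS P S) (H : IsEB P S E B) {y δ : P} (h1 : δ ≠ 1) (h2 : y⁻¹ * δ * y ∈ E) (h3 : δ ∈ E) (hs : s ∈ E)
    (h4 : y * s * y⁻¹ ∈ (S : Subgroup P)) : y * s * y⁻¹ ∈ E := by
  obtain ⟨b, d, e, f, m1⟩ := formE U H h3
  obtain ⟨b', d', e', f', m2⟩ := formE U H h2
  obtain ⟨b'', d'', e'', f'', m3⟩ := formE U H hs
  obtain ⟨a₄, b₄, d₄, e₄, f₄, m4⟩ := U.form _ h4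
  obtain ⟨x, hx⟩ := m1.rng U.noTv h1 0 1
  have h5 := m2.vec ((y : G F)⁻¹ • x)
  rw [Subgroup.coe_mul, Subgroup.coe_mul, mul_smul, smul_inv_smul, mul_smul, hx, smul_add, Subgroup.coe_inv,
    add_right_inj] at h5
  have h6 := M.vec m4 ![0, 1, 0, 0]
  rw [Subgroup.coe_mul, Subgroup.coe_mul, mul_smul, mul_smul, Subgroup.coe_inv, m3.vec, smul_add, smul_inv_smul,
    add_right_inj, h5] at h6
  rw [memE H h4 m4]
  simpa [show (![0, 0, 0, 0] : V F) = 0 from funext fun i => by fin_cases i <;> rfl] using (congrFun h6 0).symm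

theorem key (U : UTS P S) (H : IsEB P S E B) : Low5.UKey (S : Subgroup P) E B := by
  intro y _ _ h3
  have two := U.two
  have com : ∀ ε ∈ E, ε ∉ B → ∀ {b d e f : F}, M ε 0 b d e f → ∀ δ ∈ E ⊓ B, ∃ a : F,
      M δ 0 0 (a * b) (a * b) (a * (d + e + a * b)) := fun ε hε hε' b d e f m δ hδ => by
    obtain ⟨β, hβ, rfl⟩ := h3 ε hε hε' δ hδ
    obtain ⟨a', d', e', f', m1⟩ := formB U H hβ
    have h4 := (m1.mul m1).inj (sqB U H hβ ▸ M.one)
    refine ⟨a', ?_⟩
    rw [show ⁅ε, β⁆ = ε * β * (ε * β) by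
      rw [commutatorElement_def, ← eq_inv_of_mul_eq_one_left (sqE U H hε), ← eq_inv_of_mul_eq_one_left (sqB U H hβ),
        mul_assoc]]
    convert (m.mul m1).mul (m.mul m1) using 1 <;> grind
  by_contra hc
  rw [not_or] at hc
  obtain ⟨hl, hr⟩ := hc
  push Not at hr
  obtain ⟨ε, hε, ε', hε', n1, n2, n3⟩ := hr
  obtain ⟨b, d, e, f, m⟩ := formE U H hε
  obtain ⟨b', d', e', f', m'⟩ := formE U H hε'
  rw [memB H ((H.1 _).1 (mul_mem hε hε')).1 (m.mul m')] at n3
  have hb := mt (memB H ((H.1 _).1 hε).1 m).2 n1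
  have k : ∀ δ ∈ E ⊓ B, δ ≠ 1 → ∃ a : F, M δ 0 0 (a * b) (a * b) (a * (d + e + a * b)) ∧
      a * b * (b + b') = b' * (d + e) + b * (d' + e') := fun δ hδ h4 => by
    obtain ⟨a, z⟩ := com ε hε n1 m δ hδ
    obtain ⟨a', z'⟩ := com ε' hε' n2 m' δ hδ
    have l3 := z.inj z'
    have ha : a ≠ 0 := fun e0 => h4 (z.ext M.one (by grind))
    refine ⟨a, z, mul_left_cancel₀ ha ?_⟩
    grind
  refine hl fun δ hδ δ' hδ' h4 h5 => ?_
  obtain ⟨a, n, l⟩ := k δ hδ h4
  obtain ⟨a', n', l'⟩ := k δ' hδ' h5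
  obtain rfl : a = a' := mul_right_cancel₀ hb (mul_right_cancel₀ n3 (l.trans l'.symm))
  exact Subtype.ext (Units.ext (n.trans n'.symm))

end B1

open B1 in
theorem subB1 : SubB1.{u} := by
  intro F _ _ P S U
  have h2 := U.two
  have hi : ∀ s ∈ (S : Subgroup P), ((s⁻¹ : P) : G F).val 0 1 = (s : G F).val 0 1 ∧
      ((s⁻¹ : P) : G F).val 1 2 = (s : G F).val 1 2 := fun s hs => by
    obtain ⟨a, b, d, e, f, m1⟩ := U.form s hs
    obtain ⟨a', b', d', e', f', m2⟩ := U.form _ (inv_mem hs)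
    have := (M.mul m1 m2).inj (mul_inv_cancel s ▸ M.one)
    rw [m1, m2]
    change a' = a ∧ b' = b
    grind
  have hm : ∀ s ∈ (S : Subgroup P), ∀ t ∈ (S : Subgroup P),
      ((s * t : P) : G F).val 0 1 = (s : G F).val 0 1 + (t : G F).val 0 1 ∧
      ((s * t : P) : G F).val 1 2 = (s : G F).val 1 2 + (t : G F).val 1 2 := fun s hs t ht => by
    obtain ⟨a, b, d, e, f, m1⟩ := U.form s hs
    obtain ⟨a', b', d', e', f', m2⟩ := U.form _ ht
    rw [M.mul m1 m2, m1, m2]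
    exact ⟨rfl, rfl⟩
  let E : Subgroup P :=
    { carrier := {s | s ∈ (S : Subgroup P) ∧ (s : G F).val 0 1 = 0}
      mul_mem' := fun {s t} hs ht => ⟨mul_mem hs.1 ht.1, by rw [(hm s hs.1 t ht.1).1, hs.2, ht.2, add_zero]⟩
      one_mem' := ⟨one_mem _, rfl⟩
      inv_mem' := fun {s} hs => ⟨inv_mem hs.1, (hi s hs.1).1.trans hs.2⟩ }
  let B : Subgroup P :=
    { carrier := {s | s ∈ (S : Subgroup P) ∧ (s : G F).val 1 2 = 0}
      mul_mem' := fun {s t} hs ht => ⟨mul_mem hs.1 ht.1, by rw [(hm s hs.1 t ht.1).2, hs.2, ht.2, add_zero]⟩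
      one_mem' := ⟨one_mem _, rfl⟩
      inv_mem' := fun {s} hs => ⟨inv_mem hs.1, (hi s hs.1).2.trans hs.2⟩ }
  have H : IsEB P S E B := ⟨fun _ => Iff.rfl, fun _ => Iff.rfl⟩
  refine ⟨E, B, H, ⟨fun s hs => hs.1, fun s hs => hs.1, fun s => sqE U H, fun s => sqB U H, fun δ hδ s hs => ?_,
    fun s hs t ht => ?_, fun s hs h1 => ?_, fun δ hδ h1 s hs h3 h4 => ?_, fun δ hδ h1 s hs h3 h4 => ?_, ?_,
    fun g δ hδ h1 h3 s hs h4 => ⟨fun h5 => img U H (δ := g * δ * g⁻¹) (by simpa using h1) (by simpa [mul_assoc] using hδ)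
      h3 h5 h4, fun h5 => by
        simpa [mul_assoc] using img U H (y := g⁻¹) h1 (by simpa using h3) hδ h5 (by simpa [mul_assoc] using hs)⟩⟩,
    key U H⟩
  · obtain ⟨b, d, e, f, m1⟩ := formE U H hδ.1
    obtain rfl := (memB H hδ.1.1 m1).1 hδ.2
    obtain ⟨a', b', d', e', f', m2⟩ := U.form _ hs
    exact M.eq U.noTv (m1.mul m2) (M.mul m2 m1) (by grind)
  · have hc : ⁅s, t⁆ ∈ (S : Subgroup P) := mul_mem (mul_mem (mul_mem hs ht) (inv_mem hs)) (inv_mem ht)
    have h3 := hm _ hc _ (mul_mem ht hs)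
    rw [show ⁅s, t⁆ * (t * s) = s * t by simp [commutatorElement_def]] at h3
    have h4 := hm s hs t ht
    have h5 := hm t ht s hs
    exact ⟨⟨hc, by linear_combination h4.1 - h3.1 - h5.1⟩, hc, by linear_combination h4.2 - h3.2 - h5.2⟩
  · obtain ⟨a, b, d, e, f, m1⟩ := U.form s hs
    have := (M.mul m1 m1).inj (h1 ▸ M.one)
    rw [memE H hs m1, memB H hs m1]
    grind
  · obtain ⟨b, d, e, f, m1⟩ := formE U H hδ
    obtain ⟨a', b', d', e', f', m2⟩ := U.form _ hs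
    have := (m1.mul m2).inj (h4.eq ▸ M.mul m2 m1)
    rw [memB H hδ.1 m1] at h1
    rw [memE H hs m2] at h3
    grind
  · obtain ⟨a, d, e, f, m1⟩ := formB U H hδ
    obtain ⟨a', b', d', e', f', m2⟩ := U.form _ hs
    have := (m1.mul m2).inj (h4.eq ▸ M.mul m2 m1)
    rw [memE H hδ.1 m1] at h1
    rw [memB H hs m2] at h3
    grind
  · obtain ⟨z, hz, m⟩ := U.zz
    exact ⟨z, ⟨(memE H hz m).2 rfl, (memB H hz m).2 rfl⟩, fun e => one_ne_zero (M.inj m (e ▸ M.one)).2.2.1⟩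

end CL.Low4
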