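/-
Project LOW4 (quasisimple irreducible subgroups of `GL₄`): vocabulary for groups generated by reflections
(in characteristic two: transvections), and the statements of the steps of the reflection case.
-/
import Cfsg.Agent.Low.Tools
import Cfsg.Agent.Low.Weights

set_option autoImplicit false

namespace CL.Low4

open Matrix Cfsg Cfsg.Geo CL.Asch CL.SLn CL.Low Module
open scoped commutatorElement

universe u

section Vocabulary

variable {ι : Type} [Fintype ι] [DecidableEq ι] {F : Type u} [Field F] {k : ℕ}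

/-- The reflection `y ↦ y - φ y • v` lies in `Γ` (a transvection in characteristic two). -/
structure Rf (Γ : Subgroup (GL ι F)) (v : ι → F) (φ : Dual F (ι → F)) : Prop where
  two : φ v = 2
  ne : v ≠ 0
  ne' : φ ≠ 0
  mem : ∃ g ∈ Γ, ∀ y, g • y = y - φ y • v

/-- `Γ` is generated by its reflections. -/
def RfGen (Γ : Subgroup (GL ι F)) : Prop :=
  Γ ≤ Subgroup.closure {g | ∃ v φ, Rf Γ v φ ∧ ∀ y, g • y = y - φ y • v}

/-- The two cyclic products of the triple differ. -/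
def Asym (u : ι → F) (φ : Dual F (ι → F)) (v : ι → F) (ψ : Dual F (ι → F)) (w : ι → F) (χ : Dual F (ι → F)) :
    Prop := φ v * ψ w * χ u ≠ φ w * χ v * ψ u

/-- The determinant of the Cartan matrix of three reflections. -/
def cdet (u : ι → F) (φ : Dual F (ι → F)) (v : ι → F) (ψ : Dual F (ι → F)) (w : ι → F) (χ : Dual F (ι → F)) : F :=
  8 - 2 * (φ v * ψ u + φ w * χ u + ψ w * χ v) + φ v * ψ w * χ u + φ w * χ v * ψ u

/-- The two pairings of two reflections vanish together. -/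
def ZSym (Γ : Subgroup (GL ι F)) : Prop := ∀ v φ w ψ, Rf Γ v φ → Rf Γ w ψ → φ w = 0 → ψ v = 0

/-- The two pairs give the same reflection. -/
def SameRf (v : ι → F) (φ : Dual F (ι → F)) (w : ι → F) (ψ : Dual F (ι → F)) : Prop :=
  ∃ t : F, t ≠ 0 ∧ w = t • v ∧ ψ = t⁻¹ • φ

/-- Biorthogonal systems. -/
structure Bi (e : Fin k → ι → F) (x : Fin k → Dual F (ι → F)) : Prop where
  diag : ∀ i, x i (e i) = 1
  off : ∀ i j, i ≠ j → x i (e j) = 0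

/-- The projection onto the span of `e` along the common kernel of `x`. -/
def pr (e : Fin k → ι → F) (x : Fin k → Dual F (ι → F)) (y : ι → F) : ι → F := ∑ i, x i y • e i

/-- The dual projection. -/
def prD (e : Fin k → ι → F) (x : Fin k → Dual F (ι → F)) (φ : Dual F (ι → F)) : Dual F (ι → F) :=
  ∑ i, φ (e i) • x i

/-- `v` lies in the span of `e` and `φ` in the span of `x`. -/
def In (e : Fin k → ι → F) (x : Fin k → Dual F (ι → F)) (v : ι → F) (φ : Dual F (ι → F)) : Prop :=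
  pr e x v = v ∧ prD e x φ = φ

/-- Two systems with the same projection. -/
def Same (e : Fin k → ι → F) (x : Fin k → Dual F (ι → F)) (e' : Fin k → ι → F) (x' : Fin k → Dual F (ι → F)) :
    Prop := ∀ y, pr e' x' y = pr e x y

/-- `h` is the scalar `a` on the span of `e` and the identity on the common kernel of `x`. -/
def Sc (e : Fin k → ι → F) (x : Fin k → Dual F (ι → F)) (a : F) (h : GL ι F) : Prop :=
  ∀ y, h • y = y + (a - 1) • pr e x y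

/-- `h` normalises `Γ`. -/
def Nrm (Γ : Subgroup (GL ι F)) (h : GL ι F) : Prop := ∀ g ∈ Γ, h * g * h⁻¹ ∈ Γ

/-- A monomial reflection: diagonal, or swapping two lines of the frame. -/
def Mon (e : Fin k → ι → F) (x : Fin k → Dual F (ι → F)) (v : ι → F) (φ : Dual F (ι → F)) : Prop :=
  (∃ (i : Fin k) (a : F), a ≠ 0 ∧ v = a • e i ∧ φ = (2 / a) • x i) ∨
    ∃ (i j : Fin k) (a b : F), i ≠ j ∧ a ≠ 0 ∧ b ≠ 0 ∧ v = a • e i + b • e j ∧ φ = a⁻¹ • x i + b⁻¹ • x j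

/-- The reflections of `Γ` on the span of `e` are monomial for some frame of that span. -/
def Framed (Γ : Subgroup (GL ι F)) (e : Fin k → ι → F) (x : Fin k → Dual F (ι → F)) : Prop :=
  ∃ (e' : Fin k → ι → F) (x' : Fin k → Dual F (ι → F)), Bi e' x' ∧ Same e x e' x' ∧
    ∀ v φ, Rf Γ v φ → In e x v φ → Mon e' x' v φ

/-- The group generated by the reflections of `Γ` on the span of `e`. -/
def KG (Γ : Subgroup (GL ι F)) (e : Fin k → ι → F) (x : Fin k → Dual F (ι → F)) : Subgroup (GL ι F) :=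
  Subgroup.closure {g | ∃ v φ, Rf Γ v φ ∧ In e x v φ ∧ ∀ y, g • y = y - φ y • v}

/-- The reflections on the span of `e` act irreducibly there, and some triple of them is asymmetric. -/
structure AI (Γ : Subgroup (GL ι F)) (e : Fin k → ι → F) (x : Fin k → Dual F (ι → F)) : Prop where
  bi : Bi e x
  irr : ∀ W : Submodule F (ι → F), (∀ y ∈ W, pr e x y = y) →
    (∀ v φ, Rf Γ v φ → In e x v φ → ∀ y ∈ W, φ y • v ∈ W) → W = ⊥ ∨ ∀ i, e i ∈ W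
  asym : ∃ u φ v ψ w χ, Rf Γ u φ ∧ Rf Γ v ψ ∧ Rf Γ w χ ∧ In e x u φ ∧ In e x v ψ ∧ In e x w χ ∧ Asym u φ v ψ w χ

/-- The group `G(m, m, k)` with `M = μ_m` on the frame `e`. -/
structure GCfg (Γ : Subgroup (GL ι F)) (M : Subgroup Fˣ) (e : Fin k → ι → F) (x : Fin k → Dual F (ι → F)) :
    Prop where
  bi : Bi e x
  rf : ∀ i j, i ≠ j → ∀ a ∈ M, Rf Γ (e i - (a : F) • e j) (x i - (a : F)⁻¹ • x j)

/-- The Weyl group of type `B₃` on the frame `e`. -/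
structure BCfg (Γ : Subgroup (GL ι F)) (e : Fin 3 → ι → F) (x : Fin 3 → Dual F (ι → F)) : Prop where
  bi : Bi e x
  short : ∀ i, Rf Γ (e i) ((2 : F) • x i)
  plus : ∀ i j, i ≠ j → Rf Γ (e i + e j) (x i + x j)
  minus : ∀ i j, i ≠ j → Rf Γ (e i - e j) (x i - x j)

/-- No quaternion group in the derived group. -/
def NQ (K : Subgroup (GL ι F)) : Prop :=
  ∀ a ∈ ⁅K, K⁆, ∀ b ∈ ⁅K, K⁆, a ^ 4 = 1 → b * a * b⁻¹ = a⁻¹ → b * b = a * a → a * a = 1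

/-- No homology of ratio `a` on the span of `e` normalises the reflection group there. -/
def NH (Γ : Subgroup (GL ι F)) (e : Fin k → ι → F) (x : Fin k → Dual F (ι → F)) (a : F) : Prop :=
  ∀ (c : ι → F) (ψ : Dual F (ι → F)) (g : GL ι F), In e x c ψ → ψ c = 1 →
    (∀ y, g • y = y + ((a - 1) * ψ y) • c) → ¬ Nrm (KG Γ e x) g

/-- Type `J₃(4)`: `2 × L₃(2)`. -/
def J4 (Γ : Subgroup (GL ι F)) (e : Fin 3 → ι → F) (x : Fin 3 → Dual F (ι → F)) : Prop :=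
  (7 : F) ≠ 0 ∧ (∀ i : F, i ^ 2 = -1 → NH Γ e x i) ∧
    (∀ v φ w ψ, Rf Γ v φ → Rf Γ w ψ → In e x v φ → In e x w ψ →
      φ w * ψ v = 0 ∨ φ w * ψ v = 1 ∨ φ w * ψ v = 2 ∨ SameRf v φ w ψ) ∧
    ∃ e' x', Same e x e' x' ∧ BCfg Γ e' x'

/-- Types `2 × 3 A₆` and `2 × 3 A₇`. -/
def JW (Γ : Subgroup (GL ι F)) (e : Fin 3 → ι → F) (x : Fin 3 → Dual F (ι → F)) : Prop :=
  (3 : F) ≠ 0 ∧ (∀ i : F, i ^ 2 = -1 → NH Γ e x i) ∧ (∀ ω : F, ω ^ 2 + ω + 1 = 0 → NH Γ e x ω) ∧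
    ∃ ω : F, ω ^ 2 + ω + 1 = 0 ∧ ∃ h ∈ Γ, Sc e x ω h

/-- The group `G(3, 3, 3)` on the frame `e`. -/
structure TCfg (Γ : Subgroup (GL ι F)) (ω : F) (e : Fin 3 → ι → F) (x : Fin 3 → Dual F (ι → F)) : Prop where
  hω : ω ^ 2 + ω + 1 = 0
  three : (3 : F) ≠ 0
  bi : Bi e x
  rf : ∀ i j, i ≠ j → ∀ a : F, a ^ 3 = 1 → Rf Γ (e i - a • e j) (x i - a⁻¹ • x j)

/-- All traces are real. -/
def Real (P : Subgroup (GL ι F)) : Prop := ∀ l ∈ P, tr l⁻¹ = tr l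

/-- The traces lie in `ℤ[ω]`, inversion acting as conjugation. -/
def OmData (P : Subgroup (GL ι F)) (ω : F) : Prop :=
  ∀ l ∈ P, ∃ a b : ℤ, tr l = a + b * ω ∧ tr l⁻¹ = a + b * ω ^ 2

end Vocabulary

/-- The space `F⁴`. -/
abbrev V (F : Type u) : Type u := Fin 4 → F

/-- The group `GL₄(F)`. -/
abbrev G (F : Type u) [Field F] : Type u := GL (Fin 4) F

section Contexts

variable {F : Type u} [Field F]

/-- `Γ` permutes four independent lines. -/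
def Frame (Γ : Subgroup (G F)) : Prop :=
  ∃ (e : Fin 4 → V F) (x : Fin 4 → Dual F (V F)), Bi e x ∧ ∀ g ∈ Γ, ∀ i, ∃ (j : Fin 4) (c : F), g • e i = c • e j

/-- The standing hypotheses. -/
structure Ctx (Γ : Subgroup (G F)) : Prop where
  gen : RfGen Γ
  zsym : ZSym Γ
  irr : Irr Γ
  noFrame : ¬ Frame Γ
  nirr : ∀ N : Subgroup (G F), (∀ g ∈ Γ, ∀ n ∈ N, g * n * g⁻¹ ∈ N) → (∃ v φ, Rf Γ v φ ∧ Rf N v φ) →
    ∀ g ∈ Γ, g ∈ N ∨ -g ∈ N

/-- Odd characteristic, no transvections. -/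
structure Od (Γ : Subgroup (G F)) : Prop extends Ctx Γ where
  two : (2 : F) ≠ 0
  noTv : ¬ HasTv Γ

/-- Characteristic two, all root groups of order two. -/
structure Ev (Γ : Subgroup (G F)) : Prop extends Ctx Γ where
  two : (2 : F) = 0
  small : ∀ v φ (t : F), Rf Γ v φ → Rf Γ (t • v) φ → t = 1

/-- An asymmetric triple lies in a plane or spans a non-degenerate 3-space; `A`, `B` say what holds there. -/
def Triples (Γ : Subgroup (G F)) (A : (Fin 2 → V F) → (Fin 2 → Dual F (V F)) → Prop)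
    (B : (Fin 3 → V F) → (Fin 3 → Dual F (V F)) → Prop) : Prop :=
  ∀ u φ v ψ w χ, Rf Γ u φ → Rf Γ v ψ → Rf Γ w χ → Asym u φ v ψ w χ →
    (∃ e x, AI Γ e x ∧ In e x u φ ∧ In e x v ψ ∧ In e x w χ ∧ A e x) ∨
    (cdet u φ v ψ w χ ≠ 0 ∧ ∃ e x, AI Γ e x ∧ In e x u φ ∧ In e x v ψ ∧ In e x w χ ∧ B e x)

/-- All asymmetric planes are framed. -/
def PrimFree (Γ : Subgroup (G F)) : Prop :=
  ∀ (e : Fin 2 → V F) (x : Fin 2 → Dual F (V F)), AI Γ e x → Framed Γ e x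

/-- No element is `i` on a hyperplane and `1` on a line. -/
def H4Free (Γ : Subgroup (G F)) : Prop :=
  ∀ (e : Fin 4 → V F) (x : Fin 4 → Dual F (V F)) (i : F), Bi e x → (2 : F) ≠ 0 → i ^ 2 = -1 →
    ∀ g ∈ Γ, ¬ Sc e x i g

/-- The conclusion of the lemma on quadratic elements. -/
def QEOut (Γ : Subgroup (G F)) : Prop :=
  ∀ (k : ℕ) (e : Fin k → V F) (x : Fin k → Dual F (V F)) (a : F) (h : G F), Bi e x → Sc e x a h → Nrm Γ h →
    ((a ^ 2 + a + 1 = 0 ∧ (3 : F) ≠ 0) ∨ a ^ 2 = -1) → ∀ v φ, Rf Γ v φ →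
      (pr e x v = 0 ∧ prD e x φ = 0) ∨ In e x v φ ∨ φ (pr e x v) = 1 ∨
      (a ^ 2 + a + 1 = 0 ∧ φ (pr e x v) ≠ 0 ∧ φ (pr e x v) ≠ 2 ∧ ∃ i : F, i ^ 2 = -1 ∧ ∃ g ∈ Γ, ∀ y,
        g • y = y + (i - 1) • ((prD e x φ y / φ (pr e x v)) • pr e x v +
          ((φ - prD e x φ) y / (2 - φ (pr e x v))) • (v - pr e x v)))

/-- For a pair of coordinates with different diagonal entries the reflection is monomial. -/
def PairMon (Γ : Subgroup (G F)) (e : Fin 3 → V F) (x : Fin 3 → Dual F (V F)) : Prop :=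
  ∀ v φ, Rf Γ v φ → ∀ i j, φ (e i) * x i v ≠ φ (e j) * x j v →
    (φ (e i) * x i v = 1 ∧ x j v = 0 ∧ φ (e j) = 0) ∨ (φ (e j) * x j v = 1 ∧ x i v = 0 ∧ φ (e i) = 0) ∨
      SameRf (e i) ((2 : F) • x i) v φ ∨ SameRf (e j) ((2 : F) • x j) v φ

/-- Every asymmetric triple generates `G(3, 3, 3)`, and these are all the reflections on its span. -/
def TriOnly (Γ : Subgroup (G F)) : Prop :=
  ∀ u φ v ψ w χ, Rf Γ u φ → Rf Γ v ψ → Rf Γ w χ → Asym u φ v ψ w χ →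
    ∃ (ω : F) (e : Fin 3 → V F) (x : Fin 3 → Dual F (V F)), TCfg Γ ω e x ∧
      In e x u φ ∧ In e x v ψ ∧ In e x w χ ∧ ∀ v' φ', Rf Γ v' φ' → In e x v' φ' →
        ∃ (i j : Fin 3) (a : F), i ≠ j ∧ a ^ 3 = 1 ∧ SameRf (e i - a • e j) (x i - a⁻¹ • x j) v' φ'

/-- The position of a reflection relative to `G(3, 3, 3)`. -/
def Pat (Γ : Subgroup (G F)) : Prop :=
  ∀ (ω : F) (e : Fin 3 → V F) (x : Fin 3 → Dual F (V F)), TCfg Γ ω e x → ∀ v φ, Rf Γ v φ →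
    (∀ i, x i v = 0 ∧ φ (e i) = 0) ∨
    (∃ i, φ (e i) * x i v = 1 ∧ ∀ j, j ≠ i → x j v = 0 ∧ φ (e j) = 0) ∨
    (∃ (i j l : Fin 3) (a : F), i ≠ j ∧ l ≠ i ∧ l ≠ j ∧ a ^ 3 = 1 ∧ φ (e i) * x i v = 1 ∧ x j v = -a * x i v ∧
      φ (e j) = -a⁻¹ * φ (e i) ∧ x l v = 0 ∧ φ (e l) = 0 ∧ ((2 : F) ≠ 0 → In e x v φ)) ∨
    ((∀ i, 3 * (φ (e i) * x i v) = 1) ∧ ∀ i j, x i v ^ 3 = x j v ^ 3)

/-- The 45 reflections of the group `G₃₃`. -/
structure G33 (Γ : Subgroup (G F)) (ω : F) (e : Fin 4 → V F) (x : Fin 4 → Dual F (V F)) : Prop where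
  hω : ω ^ 2 + ω + 1 = 0
  three : (3 : F) ≠ 0
  bi : Bi e x
  rf : ∀ v φ, Rf Γ v φ ↔
    (∃ (i j : Fin 4) (a : F), i ≠ j ∧ i ≠ 4 ∧ j ≠ 4 ∧ a ^ 3 = 1 ∧ SameRf (e i - a • e j) (x i - a⁻¹ • x j) v φ) ∨
    ∃ a b c d : F, a ^ 3 = 1 ∧ b ^ 3 = 1 ∧ c ^ 3 = 1 ∧ a * b * c * d = 1 ∧
      SameRf (a • e 0 + b • e 1 + c • e 2 + d • e 3 + e 4)
        ((3 : F)⁻¹ • (a⁻¹ • x 0 + b⁻¹ • x 1 + c⁻¹ • x 2 + d⁻¹ • x 3 + (2 : F) • x 4)) v φ

end Contexts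

/-! ### The steps of the reflection case -/

/-- An asymmetric plane contains `-1` and is framed or primitive. -/
def StepPlane : Prop :=
  ∀ (F : Type u) [Field F] [Fintype F] (Γ : Subgroup (G F)), (2 : F) ≠ 0 → ¬ HasTv Γ →
    ∀ (e : Fin 2 → V F) (x : Fin 2 → Dual F (V F)), AI Γ e x →
      (∃ h ∈ Γ, Sc e x (-1) h) ∧ (Framed Γ e x ∨ ¬ NQ (KG Γ e x))

/-- Degenerate asymmetric triples lie in a plane. -/
def StepTriple : Prop :=
  ∀ (F : Type u) [Field F] [Fintype F] (Γ : Subgroup (G F)), (2 : F) ≠ 0 → ¬ HasTv Γ →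
    Triples Γ (fun _ _ => True) (fun _ _ => True)

/-- Rank three, odd characteristic. -/
def StepR3 : Prop :=
  ∀ (F : Type u) [Field F] [Fintype F] (Γ : Subgroup (G F)), (2 : F) ≠ 0 → ¬ HasTv Γ →
    ∀ (e : Fin 3 → V F) (x : Fin 3 → Dual F (V F)), AI Γ e x →
      NQ (KG Γ e x) ∧ (Framed Γ e x ∨ J4 Γ e x ∨ JW Γ e x)

/-- Rank three, characteristic two. -/
def StepR3Ev : Prop :=
  ∀ (F : Type u) [Field F] [Fintype F] (Γ : Subgroup (G F)), Ev Γ → Triples Γ (fun _ _ => False) (Framed Γ)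

def StepPrim : Prop :=
  StepPlane.{u} → StepR3.{u} → ∀ (F : Type u) [Field F] [Fintype F] (Γ : Subgroup (G F)), Od Γ → PrimFree Γ

def StepQE : Prop :=
  ∀ (F : Type u) [Field F] [Fintype F] (Γ : Subgroup (G F)), Od Γ → PrimFree Γ → QEOut Γ

def StepJW : Prop :=
  ∀ (F : Type u) [Field F] [Fintype F] (Γ : Subgroup (G F)), Od Γ → QEOut Γ →
    ∀ (e : Fin 3 → V F) (x : Fin 3 → Dual F (V F)), AI Γ e x → ¬ JW Γ e x

def StepH4 : Prop :=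
  ∀ (F : Type u) [Field F] [Fintype F] (Γ : Subgroup (G F)), Od Γ → QEOut Γ → H4Free Γ

def StepJ4 : Prop :=
  ∀ (F : Type u) [Field F] [Fintype F] (Γ : Subgroup (G F)), Od Γ → H4Free Γ →
    Triples Γ (fun _ _ => True) (fun e x => Framed Γ e x ∨ J4 Γ e x) →
    ∀ (e : Fin 3 → V F) (x : Fin 3 → Dual F (V F)), AI Γ e x → ¬ J4 Γ e x

/-- The extension lemma for `G(m, m, 3)`, `m ≥ 4`. -/
def StepExt : Prop :=
  ∀ (F : Type u) [Field F] [Fintype F] (Γ : Subgroup (G F)), Od Γ ∨ Ev Γ → H4Free Γ →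
    Triples Γ (Framed Γ) (Framed Γ) → ∀ M : Subgroup Fˣ, (∃ a ∈ M, a ^ 2 ≠ 1 ∧ a ^ 3 ≠ 1) →
    (∀ (e : Fin 3 → V F) (x : Fin 3 → Dual F (V F)), GCfg Γ M e x →
      PairMon Γ e x ∧ ∀ v φ, Rf Γ v φ → In e x v φ → Mon e x v φ) →
    ∀ (e : Fin 3 → V F) (x : Fin 3 → Dual F (V F)), ¬ GCfg Γ M e x

/-- Normal form of a framed rank three group. -/
def FROut {F : Type u} [Field F] (Γ : Subgroup (G F)) : Prop :=
  ∀ (e : Fin 3 → V F) (x : Fin 3 → Dual F (V F)), AI Γ e x → ∃ (M : Subgroup Fˣ) (e' : Fin 3 → V F)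
    (x' : Fin 3 → Dual F (V F)), GCfg Γ M e' x' ∧ Same e x e' x' ∧ (∃ a ∈ M, a ^ 2 ≠ 1) ∧
      ∀ v φ, Rf Γ v φ → In e x v φ → (-1 ∈ M ∧ ∃ i, SameRf (e' i) ((2 : F) • x' i) v φ) ∨
        ∃ i j, i ≠ j ∧ ∃ a ∈ M, SameRf (e' i - (a : F) • e' j) (x' i - (a : F)⁻¹ • x' j) v φ

/-- No `G(m, m, 3)` with `m ≥ 5`; and for `m ≥ 4` the reflections on the span of the frame are monomial. -/
def Big5Out {F : Type u} [Field F] (Γ : Subgroup (G F)) : Prop :=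
  ∀ (M : Subgroup Fˣ) (e : Fin 3 → V F) (x : Fin 3 → Dual F (V F)), GCfg Γ M e x →
    (∀ a ∈ M, a ^ 3 = 1 ∨ a ^ 4 = 1) ∧
    ((∃ a ∈ M, a ^ 2 ≠ 1 ∧ a ^ 3 ≠ 1) → ∀ v φ, Rf Γ v φ → In e x v φ → Mon e x v φ)

def StepFR : Prop :=
  ∀ (F : Type u) [Field F] [Fintype F] (Γ : Subgroup (G F)),
    (∀ (e : Fin 3 → V F) (x : Fin 3 → Dual F (V F)), AI Γ e x → Framed Γ e x) → FROut Γ

def StepBig5 : Prop :=
  StepExt.{u} → ∀ (F : Type u) [Field F] [Fintype F] (Γ : Subgroup (G F)), Od Γ ∨ Ev Γ → H4Free Γ →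
    Triples Γ (Framed Γ) (Framed Γ) →
    (∀ (e : Fin 3 → V F) (x : Fin 3 → Dual F (V F)), AI Γ e x → Framed Γ e x) → Big5Out Γ

def StepBig4 : Prop :=
  StepExt.{u} → ∀ (F : Type u) [Field F] [Fintype F] (Γ : Subgroup (G F)), Od Γ ∨ Ev Γ → H4Free Γ →
    Triples Γ (Framed Γ) (Framed Γ) → FROut Γ → Big5Out Γ → TriOnly Γ

def StepPat : Prop :=
  ∀ (F : Type u) [Field F] [Fintype F] (Γ : Subgroup (G F)), Od Γ ∨ Ev Γ → TriOnly Γ → Pat Γ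

def StepOm : Prop :=
  ∀ (F : Type u) [Field F] [Fintype F] (Γ : Subgroup (G F)), Od Γ ∨ Ev Γ → Pat Γ →
    ∀ (ω : F) (e : Fin 3 → V F) (x : Fin 3 → Dual F (V F)), TCfg Γ ω e x → OmData Γ ω

def StepG33 : Prop :=
  ∀ (F : Type u) [Field F] [Fintype F] (Γ : Subgroup (G F)), Od Γ → Pat Γ →
    ∀ (ω : F) (e : Fin 3 → V F) (x : Fin 3 → Dual F (V F)), TCfg Γ ω e x → ∃ e' x', G33 Γ ω e' x'

def StepIso : Prop :=
  ∀ (F : Type u) [Field F] [Fintype F] (P Γ : Subgroup (G F)), QS P → (2 : F) ≠ 0 →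
    (∀ g, g ∈ Γ ↔ g ∈ P ∨ -g ∈ P) → ∀ (ω : F) (e : Fin 4 → V F) (x : Fin 4 → Dual F (V F)), G33 Γ ω e x →
      ∃ (K : Type) (_ : Field K) (_ : Fintype K), Fintype.card K = 4 ∧ Nonempty (PQ P ≃* Cfsg.PSU 4 K 2)

end CL.Low4
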