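/-
Project LOW4: the calculus of reflections, projections, and the lemmas on degenerate positions.
-/
import Cfsg.Agent.Low4.Defs

set_option autoImplicit false
set_option linter.unusedSectionVars false
set_option linter.unnecessarySeqFocus false

namespace CL.Low4

open Matrix Cfsg Cfsg.Geo CL.Asch CL.SLn CL.Low Module

universe u

variable {ι : Type} [Fintype ι] [DecidableEq ι] {F : Type u} [Field F] {k : ℕ} {Γ : Subgroup (GL ι F)}
  {u v w : ι → F} {φ ψ χ : Dual F (ι → F)} {e e' : Fin k → ι → F} {x x' : Fin k → Dual F (ι → F)}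

/-! ### Elements given by their action -/

theorem gext {g h : GL ι F} (e : ∀ y : ι → F, g • y = h • y) : g = h := Units.ext (matrix_ext_mulVec e)

theorem gsmul_def (g : GL ι F) (y : ι → F) : g • y = (g : Matrix ι ι F) *ᵥ y := rfl

/-- An invertible map given by a formula and its inverse. -/
theorem exists_gl (f g : (ι → F) →ₗ[F] (ι → F)) (h1 : ∀ y, f (g y) = y) (h2 : ∀ y, g (f y) = y) :
    ∃ a : GL ι F, (∀ y, a • y = f y) ∧ ∀ y, a⁻¹ • y = g y := by
  have h : ∀ y, ofEquiv (LinearEquiv.ofLinearMap f g (LinearMap.ext h1) (LinearMap.ext h2)) • y = f y :=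
    fun y => ofEquiv_smul _ _
  exact ⟨_, h, fun y => by rw [inv_smul_eq_iff, h, h1]⟩

theorem gsmul_smul (g : GL ι F) (a : F) (y : ι → F) : g • a • y = a • g • y := smul_comm g a y

theorem neg_gsmul (g : GL ι F) (y : ι → F) : (-g) • y = -(g • y) := by
  rw [gsmul_def, gsmul_def, Units.val_neg, neg_mulVec]

/-- The homology `y ↦ y + (a - 1) ψ y • c`. -/
theorem exists_homology {c : ι → F} (h : ψ c = 1) {a : F} (ha : a ≠ 0) :
    ∃ g : GL ι F, ∀ y, g • y = y + ((a - 1) * ψ y) • c := by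
  obtain ⟨g, hg, -⟩ := exists_gl (LinearMap.id + ((a - 1) • ψ).smulRight c) (LinearMap.id + ((a⁻¹ - 1) • ψ).smulRight c)
    (fun y => by
      simp only [LinearMap.add_apply, LinearMap.id_apply, LinearMap.smulRight_apply, LinearMap.smul_apply, map_add,
        map_smul, h, smul_eq_mul]
      match_scalars <;> field_simp <;> ring)
    (fun y => by
      simp only [LinearMap.add_apply, LinearMap.id_apply, LinearMap.smulRight_apply, LinearMap.smul_apply, map_add,
        map_smul, h, smul_eq_mul]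
      match_scalars <;> field_simp <;> ring)
  exact ⟨g, fun y => by simpa using hg y⟩

theorem rf_sq {g : GL ι F} (h : φ v = 2) (hg : ∀ y, g • y = y - φ y • v) : g * g = 1 :=
  gext fun y => by
    rw [mul_smul, hg, hg, one_smul, map_sub, map_smul, h, smul_eq_mul]; module

theorem rf_inv {g : GL ι F} (h : φ v = 2) (hg : ∀ y, g • y = y - φ y • v) : g⁻¹ = g :=
  inv_eq_of_mul_eq_one_right (rf_sq h hg)

theorem not_tv (hT : ¬ HasTv Γ) {g : GL ι F} (hg : g ∈ Γ) (h0 : φ v = 0) (h : ∀ y, g • y = y + φ y • v) :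
    v = 0 ∨ φ = 0 := by
  by_contra hne
  exact hT ⟨g, hg, v, φ, (not_or.1 hne).1, (not_or.1 hne).2, h0, h⟩

/-! ### Reflections -/

theorem SameRf.refl : SameRf v φ v φ := ⟨1, one_ne_zero, by simp, by simp⟩

theorem SameRf.symm (h : SameRf v φ w ψ) : SameRf w ψ v φ := by
  obtain ⟨t, ht, rfl, rfl⟩ := h
  exact ⟨t⁻¹, inv_ne_zero ht, by simp [smul_smul, ht], by simp [smul_smul, ht]⟩

theorem SameRf.trans (h : SameRf u χ v φ) (h' : SameRf v φ w ψ) : SameRf u χ w ψ := by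
  obtain ⟨t, ht, rfl, rfl⟩ := h
  obtain ⟨s, hs, rfl, rfl⟩ := h'
  exact ⟨s * t, mul_ne_zero hs ht, smul_smul _ _ _, by rw [smul_smul, mul_inv]⟩

theorem SameRf.apply (h : SameRf v φ w ψ) (y : ι → F) : ψ y • w = φ y • v := by
  obtain ⟨t, ht, rfl, rfl⟩ := h
  rw [LinearMap.smul_apply, smul_smul, smul_eq_mul, mul_comm t⁻¹, mul_assoc, inv_mul_cancel₀ ht, mul_one]

theorem SameRf.pair (h : SameRf v φ w ψ) (y : ι → F) (η : Dual F (ι → F)) : ψ y * η w = φ y * η v := by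
  simpa using congrArg η (h.apply y)

namespace Rf

theorem mono {Δ : Subgroup (GL ι F)} (h : Rf Γ v φ) (hle : Γ ≤ Δ) : Rf Δ v φ :=
  ⟨h.two, h.ne, h.ne', let ⟨g, hg, e⟩ := h.mem; ⟨g, hle hg, e⟩⟩

theorem same (h : Rf Γ v φ) (hs : SameRf v φ w ψ) : Rf Γ w ψ := by
  obtain ⟨g, hg, e⟩ := h.mem
  refine ⟨?_, ?_, ?_, g, hg, fun y => by rw [e, hs.apply]⟩ <;> obtain ⟨t, ht, rfl, rfl⟩ := hs
  · simp [h.two, ht]
  · exact smul_ne_zero ht h.ne
  · exact smul_ne_zero (inv_ne_zero ht) h.ne'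

theorem smul (h : Rf Γ v φ) {t : F} (ht : t ≠ 0) : Rf Γ (t • v) (t⁻¹ • φ) := h.same ⟨t, ht, rfl, rfl⟩

theorem neg (h : Rf Γ v φ) : Rf Γ (-v) (-φ) := 
  h.same ⟨-1, by simp, by simp, LinearMap.ext fun y => by simp⟩

theorem nrm (h : Rf Γ v φ) {g : GL ι F} (hg : Nrm Γ g) : Rf Γ (g • v) (dact g φ) := by
  obtain ⟨a, ha, e⟩ := h.mem
  refine ⟨by simp [h.two], fun e0 => h.ne (by rw [← inv_smul_smul g v, e0, smul_zero]), dact_ne_zero g h.ne',
    g * a * g⁻¹, hg a ha, fun y => ?_⟩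
  rw [mul_smul, mul_smul, e, smul_sub, smul_inv_smul, dact_apply, gsmul_smul]

/-- Conjugation, the new functional being given by its defining property. -/
theorem nrm' (h : Rf Γ v φ) {g : GL ι F} (hg : Nrm Γ g) (hψ : ∀ y, ψ (g • y) = φ y) : Rf Γ (g • v) ψ := by
  have : ψ = dact g φ := LinearMap.ext fun y => by rw [dact_apply, ← hψ, smul_inv_smul]
  rw [this]; exact h.nrm hg

end Rf

theorem nrm_of_mem {g : GL ι F} (hg : g ∈ Γ) : Nrm Γ g := fun _ ha => Γ.mul_mem (Γ.mul_mem hg ha) (Γ.inv_mem hg)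

theorem Nrm.mul {g h : GL ι F} (hg : Nrm Γ g) (hh : Nrm Γ h) : Nrm Γ (g * h) := fun a ha => by
  simpa [mul_assoc] using hg _ (hh a ha)

theorem Nrm.inv [Finite F] {g : GL ι F} (hg : Nrm Γ g) : Nrm Γ g⁻¹ := fun a ha =>
  (Subgroup.mem_normalizer_iff.1 (Subgroup.inv_mem _ (Subgroup.mem_normalizer_fintype hg)) a).1 ha

/-- An element acting as a scalar multiple of a normalising element normalises. -/
theorem Nrm.of_smul {g h : GL ι F} {a : F} (hg : Nrm Γ g) (e : ∀ y : ι → F, h • y = a • g • y) :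
    Nrm Γ h := fun b hb => by
  have : h * b * h⁻¹ = g * b * g⁻¹ := gext fun y => by
    obtain ⟨y, rfl⟩ : ∃ z, h • z = y := ⟨h⁻¹ • y, smul_inv_smul h y⟩
    rw [mul_smul, inv_smul_smul, mul_smul, e, e, mul_smul, gsmul_smul, inv_smul_smul, mul_smul, gsmul_smul,
      gsmul_smul]
  rw [this]; exact hg b hb

theorem Rf.conj (h : Rf Γ v φ) {g : GL ι F} (hg : g ∈ Γ) : Rf Γ (g • v) (dact g φ) := h.nrm (nrm_of_mem hg)

/-- Conjugating the reflection `(v, φ)` by the reflection `(w, ψ)`. -/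
theorem Rf.refl (hw : Rf Γ w ψ) (h : Rf Γ v φ) : Rf Γ (v - ψ v • w) (φ - φ w • ψ) := by
  obtain ⟨g, hg, e⟩ := hw.mem
  rw [← e]
  refine h.nrm' (nrm_of_mem hg) fun y => ?_
  simp only [e, LinearMap.sub_apply, LinearMap.smul_apply, map_sub, map_smul, hw.two, smul_eq_mul]
  ring

theorem zsym_of_noTv (hT : ¬ HasTv Γ) : ZSym Γ := fun v φ w ψ hv hw h0 => by
  obtain ⟨a, ha, ea⟩ := hv.mem
  obtain ⟨b, hb, eb⟩ := hw.mem
  rcases not_tv hT (v := (-ψ v) • w) (φ := φ) (Γ.mul_mem (Γ.mul_mem hb ha) (Γ.mul_mem hb ha)) (by simp [h0])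
    (fun y => by
      simp only [mul_smul, ea, eb, map_sub, map_smul, h0, hv.two, hw.two, smul_eq_mul]
      module) with h | h
  · exact neg_eq_zero.1 ((smul_eq_zero.1 h).resolve_right hw.ne)
  · exact absurd h hv.ne'

theorem same_of_vec (hT : ¬ HasTv Γ) (hv : Rf Γ v φ) {t : F} (hw : Rf Γ (t • v) ψ) :
    SameRf v φ (t • v) ψ := by
  have ht : t ≠ 0 := fun h => hw.ne (by rw [h, zero_smul])
  have h1 : t * ψ v = 2 := by simpa using hw.two
  obtain ⟨a, ha, ea⟩ := hv.mem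
  obtain ⟨b, hb, eb⟩ := hw.mem
  rcases not_tv hT (v := v) (φ := t • ψ - φ) (Γ.mul_mem ha hb) (by simp [h1, hv.two]) (fun y => by
      simp only [mul_smul, ea, eb, map_sub, map_smul, hv.two, smul_eq_mul, LinearMap.sub_apply, LinearMap.smul_apply]
      module) with h | h
  · exact absurd h hv.ne
  · exact ⟨t, ht, rfl, by rw [← sub_eq_zero.1 h, smul_smul, inv_mul_cancel₀ ht, one_smul]⟩

theorem same_of_fun (hT : ¬ HasTv Γ) (hv : Rf Γ v φ) {t : F} (hw : Rf Γ w (t • φ)) :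
    SameRf v φ w (t • φ) := by
  have ht : t ≠ 0 := fun h => hw.ne' (by rw [h, zero_smul])
  have h1 : t * φ w = 2 := by simpa using hw.two
  obtain ⟨a, ha, ea⟩ := hv.mem
  obtain ⟨b, hb, eb⟩ := hw.mem
  rcases not_tv hT (v := v - t • w) (φ := φ) (Γ.mul_mem ha hb) (by simp [h1, hv.two]) (fun y => by
      simp only [mul_smul, ea, eb, map_sub, map_smul, smul_eq_mul, LinearMap.smul_apply]
      match_scalars
      · ring
      · ring
      · linear_combination (φ y) * h1) with h | h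
  · exact ⟨t⁻¹, inv_ne_zero ht, by rw [sub_eq_zero.1 h, smul_smul, inv_mul_cancel₀ ht, one_smul], by rw [inv_inv]⟩
  · exact absurd h hv.ne'

theorem Asym.ne (hz : ZSym Γ) (hu : Rf Γ u φ) (hv : Rf Γ v ψ) (hw : Rf Γ w χ) (h : Asym u φ v ψ w χ) :
    (φ v ≠ 0 ∧ ψ u ≠ 0) ∧ (φ w ≠ 0 ∧ χ u ≠ 0) ∧ ψ w ≠ 0 ∧ χ v ≠ 0 := by
  refine ⟨⟨fun e => h ?_, fun e => h ?_⟩, ⟨fun e => h ?_, fun e => h ?_⟩, fun e => h ?_, fun e => h ?_⟩
  · simp [e, hz _ _ _ _ hu hv e]
  · simp [e, hz _ _ _ _ hv hu e]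
  · simp [e, hz _ _ _ _ hu hw e]
  · simp [e, hz _ _ _ _ hw hu e]
  · simp [e, hz _ _ _ _ hv hw e]
  · simp [e, hz _ _ _ _ hw hv e]

theorem Asym.rotate (h : Asym u φ v ψ w χ) : Asym v ψ w χ u φ := fun e => h (by linear_combination e)

theorem Asym.swap (h : Asym u φ v ψ w χ) : Asym v ψ u φ w χ := fun e => h (by linear_combination -e)

theorem Asym.not_same (hu : φ u = 2) (h : Asym u φ v ψ w χ) : ¬ SameRf u φ v ψ := by
  rintro ⟨t, ht, rfl, rfl⟩
  refine h ?_
  simp only [map_smul, LinearMap.smul_apply, smul_eq_mul, hu]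
  field_simp

theorem Asym.same (h : Asym u φ v ψ w χ) {u' : ι → F} {φ' : Dual F (ι → F)} (hs : SameRf u φ u' φ') :
    Asym u' φ' v ψ w χ := fun e => h (by
  have h1 := hs.pair v χ
  have h2 := hs.pair w ψ
  linear_combination e - ψ w * h1 + χ v * h2)

/-! ### Projections -/

theorem pr_add (y z : ι → F) : pr e x (y + z) = pr e x y + pr e x z := by
  simp [pr, add_smul, Finset.sum_add_distrib]

theorem pr_smul (a : F) (y : ι → F) : pr e x (a • y) = a • pr e x y := by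
  simp [pr, Finset.smul_sum, smul_smul]

theorem pr_sub (y z : ι → F) : pr e x (y - z) = pr e x y - pr e x z := by
  simp [pr, sub_smul, Finset.sum_sub_distrib]

theorem pr_zero : pr e x 0 = 0 := by simp [pr]

theorem pr_sum {α : Type*} (s : Finset α) (f : α → ι → F) : pr e x (∑ a ∈ s, f a) = ∑ a ∈ s, pr e x (f a) := by
  simp only [pr, map_sum, Finset.sum_smul]
  exact Finset.sum_comm

theorem prD_apply (φ : Dual F (ι → F)) (y : ι → F) : prD e x φ y = φ (pr e x y) := by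
  simp [pr, prD, mul_comm]

theorem apply_pr (φ : Dual F (ι → F)) (y : ι → F) : φ (pr e x y) = ∑ i, φ (e i) * x i y := by
  simp [pr, mul_comm]

theorem prD_add (φ ψ : Dual F (ι → F)) : prD e x (φ + ψ) = prD e x φ + prD e x ψ :=
  LinearMap.ext fun y => by simp [prD_apply]

theorem prD_smul (a : F) (φ : Dual F (ι → F)) : prD e x (a • φ) = a • prD e x φ :=
  LinearMap.ext fun y => by simp [prD_apply]

theorem prD_sub (φ ψ : Dual F (ι → F)) : prD e x (φ - ψ) = prD e x φ - prD e x ψ :=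
  LinearMap.ext fun y => by simp [prD_apply]

theorem prD_sum {α : Type*} (s : Finset α) (f : α → Dual F (ι → F)) :
    prD e x (∑ a ∈ s, f a) = ∑ a ∈ s, prD e x (f a) :=
  LinearMap.ext fun y => by simp [prD_apply]

namespace Bi

theorem apply (h : Bi e x) (i j : Fin k) : x i (e j) = if i = j then 1 else 0 := by
  split_ifs with hij
  · rw [hij, h.diag]
  · exact h.off i j hij

theorem x_pr (h : Bi e x) (i : Fin k) (y : ι → F) : x i (pr e x y) = x i y := by
  simp [apply_pr, h.apply]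

theorem pr_e (h : Bi e x) (i : Fin k) : pr e x (e i) = e i := by simp [pr, h.apply]

theorem pr_pr (h : Bi e x) (y : ι → F) : pr e x (pr e x y) = pr e x y := by
  conv_lhs => rw [pr]
  simp only [h.x_pr]
  rfl

theorem prD_x (h : Bi e x) (i : Fin k) : prD e x (x i) = x i :=
  LinearMap.ext fun y => by rw [prD_apply, h.x_pr]

theorem prD_e (h : Bi e x) (φ : Dual F (ι → F)) (i : Fin k) : prD e x φ (e i) = φ (e i) := by
  rw [prD_apply, h.pr_e]

theorem prD_prD (h : Bi e x) (φ : Dual F (ι → F)) : prD e x (prD e x φ) = prD e x φ :=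
  LinearMap.ext fun y => by rw [prD_apply, prD_apply, prD_apply, h.pr_pr]

theorem li (h : Bi e x) : LinearIndependent F e :=
  Fintype.linearIndependent_iff.2 fun c hc i => by simpa [h.apply] using congrArg (x i) hc

theorem le_card (h : Bi e x) : k ≤ Fintype.card ι := by simpa using h.li.fintype_card_le_finrank

theorem pr_eq_self (h : Bi e x) (hk : k = Fintype.card ι) (y : ι → F) : pr e x y = y := by
  have h1 : y ∈ Submodule.span F (Set.range e) := by
    rw [h.li.span_eq_top_of_card_eq_finrank' (by simp [hk])]; trivial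
  obtain ⟨c, rfl⟩ := (Submodule.mem_span_range_iff_exists_fun F).1 h1
  simp [pr, h.apply]

/-- Subsystems. -/
theorem comp (h : Bi e x) {m : ℕ} {f : Fin m → Fin k} (hf : Function.Injective f) : Bi (e ∘ f) (x ∘ f) :=
  ⟨fun i => h.diag (f i), fun _ _ hij => h.off _ _ (hf.ne hij)⟩

/-- Adding a vector. -/
theorem snoc (h : Bi e x) {d : ι → F} (h1 : ∀ i, x i d = 0) (h2 : ∀ i, χ (e i) = 0) (h3 : χ d = 1) :
    Bi (Fin.snoc e d : Fin (k + 1) → ι → F) (Fin.snoc x χ : Fin (k + 1) → Dual F (ι → F)) := by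
  constructor
  · intro i
    induction i using Fin.lastCases <;> simp [h3, h.diag]
  · intro i j hij
    induction i using Fin.lastCases <;> induction j using Fin.lastCases
    · exact absurd rfl hij
    · simp [h2]
    · simp [h1]
    · simpa using h.off _ _ fun e => hij (congrArg _ e)

end Bi

theorem pr_snoc (d : ι → F) (y : ι → F) :
    pr (Fin.snoc e d : Fin (k + 1) → ι → F) (Fin.snoc x χ : Fin (k + 1) → Dual F (ι → F)) y =
      pr e x y + χ y • d := by
  simp [pr, Fin.sum_univ_castSucc]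

theorem in_iff : In e x v φ ↔ pr e x v = v ∧ ∀ y, φ (pr e x y) = φ y :=
  and_congr_right fun _ => by simp only [← prD_apply]; exact LinearMap.ext_iff

theorem Same.symm (h : Same e x e' x') : Same e' x' e x := fun y => (h y).symm

theorem Same.in_iff (h : Same e x e' x') : In e' x' v φ ↔ In e x v φ := by
  simp only [CL.Low4.in_iff, h _]

theorem In.same (h : In e x v φ) (hs : SameRf v φ w ψ) : In e x w ψ := by
  obtain ⟨t, -, rfl, rfl⟩ := hs
  exact ⟨by rw [pr_smul, h.1], by rw [prD_smul, h.2]⟩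

theorem In.refl (hw : In e x w ψ) (h : In e x v φ) : In e x (v - ψ v • w) (φ - φ w • ψ) :=
  ⟨by rw [pr_sub, pr_smul, h.1, hw.1], by rw [prD_sub, prD_smul, h.2, hw.2]⟩

theorem Bi.in_swap (h : Bi e x) (i j : Fin k) (a b : F) : In e x (e i - a • e j) (x i - b • x j) :=
  ⟨by rw [pr_sub, pr_smul, h.pr_e, h.pr_e], by rw [prD_sub, prD_smul, h.prD_x, h.prD_x]⟩

theorem In.snoc (h : In e x v φ) {d : ι → F} (h1 : ∀ i, x i d = 0) (h2 : ∀ i, χ (e i) = 0) :
    In (Fin.snoc e d : Fin (k + 1) → ι → F) (Fin.snoc x χ : Fin (k + 1) → Dual F (ι → F)) v φ := by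
  have e1 : χ v = 0 := by rw [← h.1, apply_pr]; simp [h2]
  have e2 : φ d = 0 := by rw [← h.2, prD_apply, apply_pr]; simp [h1]
  refine in_iff.2 ⟨by rw [pr_snoc, e1, h.1, zero_smul, add_zero], fun y => ?_⟩
  rw [pr_snoc, map_add, map_smul, e2, smul_zero, add_zero, (in_iff.1 h).2]

/-- A pair lying in a bigger system. -/
theorem In.of_sub {m : ℕ} {e₀ : Fin m → ι → F} {x₀ : Fin m → Dual F (ι → F)} (h : In e₀ x₀ v φ)
    (h1 : ∀ i, pr e x (e₀ i) = e₀ i) (h2 : ∀ i, prD e x (x₀ i) = x₀ i) : In e x v φ := by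
  constructor
  · rw [← h.1]
    conv_lhs => rw [show pr e₀ x₀ v = ∑ i, x₀ i v • e₀ i from rfl, pr_sum]
    simp only [pr_smul, h1]
    rfl
  · rw [← h.2]
    conv_lhs => rw [show prD e₀ x₀ φ = ∑ i, φ (e₀ i) • x₀ i from rfl, prD_sum]
    simp only [prD_smul, h2]
    rfl

theorem Sc.eig {a : F} {h : GL ι F} (hs : Sc e x a h) (hy : pr e x v = v) : h • v = a • v := by
  rw [hs, hy]; module

theorem Sc.fix {a : F} {h : GL ι F} (hs : Sc e x a h) (hy : pr e x v = 0) : h • v = v := by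
  rw [hs, hy]; module

theorem KG_le : KG Γ e x ≤ Γ := (Subgroup.closure_le _).2 fun g ⟨_, _, h, _, hg⟩ => by
  obtain ⟨a, ha, ea⟩ := h.mem
  rwa [gext (g := g) (h := a) fun y => by rw [hg, ea]]

theorem Rf.KG (h : Rf Γ v φ) (hi : In e x v φ) : Rf (KG Γ e x) v φ :=
  ⟨h.two, h.ne, h.ne', let ⟨g, _, e⟩ := h.mem; ⟨g, Subgroup.subset_closure ⟨v, φ, h, hi, e⟩, e⟩⟩

theorem KG_mono {m : ℕ} {e₀ : Fin m → ι → F} {x₀ : Fin m → Dual F (ι → F)}
    (h : ∀ v φ, In e₀ x₀ v φ → In e x v φ) : KG Γ e₀ x₀ ≤ KG Γ e x :=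
  Subgroup.closure_mono fun _ ⟨v, φ, h1, h2, h3⟩ => ⟨v, φ, h1, h v φ h2, h3⟩

theorem Same.KG_eq (h : Same e x e' x') : KG Γ e' x' = KG Γ e x := by
  simp only [KG, h.in_iff]

/-- The elements of `KG` commute with the projection and fix its kernel. -/
theorem pr_smul_of_mem {g : GL ι F} (hg : g ∈ KG Γ e x) (hb : Bi e x) (y : ι → F) :
    pr e x (g • y) = g • pr e x y ∧ g • (y - pr e x y) = y - pr e x y := by
  induction hg using Subgroup.closure_induction generalizing y with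
  | mem g hg =>
    obtain ⟨v, φ, -, hi, hg⟩ := hg
    have := (in_iff.1 hi).2
    exact ⟨by rw [hg, hg, pr_sub, pr_smul, hi.1, this], by rw [hg, map_sub, this, sub_self, zero_smul, sub_zero]⟩
  | one => simp
  | mul a b _ _ ha hb' => exact ⟨by rw [mul_smul, mul_smul, (ha _).1, (hb' _).1], by
      rw [mul_smul, (hb' _).2]
      simpa [pr_sub, hb.pr_pr] using (ha (y - pr e x y)).2⟩
  | inv a _ ha => exact ⟨by rw [eq_inv_smul_iff, ← (ha _).1, smul_inv_smul], by rw [inv_smul_eq_iff, (ha _).2]⟩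

/-- An element normalising `Γ` and commuting with the projection normalises `KG`. -/
theorem Nrm.KG {g : GL ι F} (hg : Nrm Γ g) (hc : ∀ y, pr e x (g • y) = g • pr e x y) : Nrm (KG Γ e x) g := by
  intro a ha
  induction ha using Subgroup.closure_induction with
  | mem a ha =>
    obtain ⟨v, φ, h1, hi, h3⟩ := ha
    refine Subgroup.subset_closure ⟨_, _, h1.nrm hg, in_iff.2 ⟨by rw [hc, hi.1], fun y => ?_⟩, fun y => ?_⟩
    · rw [dact_apply, dact_apply, ← (in_iff.1 hi).2 (g⁻¹ • y)]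
      congr 1
      rw [inv_smul_eq_iff, ← hc, smul_inv_smul]
    · rw [mul_smul, mul_smul, h3, smul_sub, smul_inv_smul, dact_apply, gsmul_smul]
  | one => simp
  | mul a b _ _ ha hb => simpa [mul_assoc] using (CL.Low4.KG Γ e x).mul_mem ha hb
  | inv a _ ha => simpa [mul_assoc] using (CL.Low4.KG Γ e x).inv_mem ha

/-- Only the action on the span of `e` matters for normalising `KG`. -/
theorem Nrm.KG_congr {g g' : GL ι F} {a : F} (hb : Bi e x) (hg : Nrm (CL.Low4.KG Γ e x) g)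
    (hc : ∀ y, pr e x (g • y) = g • pr e x y) (hc' : ∀ y, pr e x (g' • y) = g' • pr e x y)
    (h : ∀ y, g' • pr e x y = a • g • pr e x y) : Nrm (CL.Low4.KG Γ e x) g' := fun b hb' => by
  have key : ∀ c : GL ι F, (∀ y, pr e x (c • y) = c • pr e x y) → ∀ y,
      (c * b * c⁻¹) • (c • y) = c • (y - pr e x y) + c • b • pr e x y := fun c _ y => by
    rw [mul_smul, inv_smul_smul, mul_smul, ← smul_add]
    conv_lhs => rw [← sub_add_cancel y (pr e x y), smul_add b, (pr_smul_of_mem hb' hb y).2]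
  have : g' * b * g'⁻¹ = g * b * g⁻¹ := gext fun y => by
    have h1 : ∀ c : GL ι F, (∀ y, pr e x (c • y) = c • pr e x y) →
        (c * b * c⁻¹) • y = y - pr e x y + c • b • pr e x (c⁻¹ • y) := fun c hc => by
      have := key c hc (c⁻¹ • y)
      rwa [smul_inv_smul, smul_sub, smul_inv_smul, ← hc, smul_inv_smul] at this
    have h2 : a • pr e x (g'⁻¹ • y) = pr e x (g⁻¹ • y) := by
      rw [← smul_left_cancel_iff g, gsmul_smul, ← h, ← hc, ← hc', smul_inv_smul, smul_inv_smul]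
    rw [h1 g hc, h1 g' hc', ← h2, ← (pr_smul_of_mem hb' hb _).1, h, (pr_smul_of_mem hb' hb _).1, gsmul_smul,
      gsmul_smul]
  rw [this]; exact hg b hb'

/-! ### Degenerate positions -/

/-- The commutator of two elements of the Heisenberg group of the flag `(d, χ)`. -/
theorem heis_comm {d a a' : ι → F} {f f' : Dual F (ι → F)} {t t' : F} {n n' : GL ι F} (h0 : χ d = 0) (h1 : χ a = 0)
    (h2 : χ a' = 0) (h3 : f d = 0) (h4 : f' d = 0) (hn : ∀ y, n • y = y + f y • d + χ y • a + (t * χ y) • d)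
    (hn' : ∀ y, n' • y = y + f' y • d + χ y • a' + (t' * χ y) • d) (y : ι → F) :
    (n * n' * (n' * n)⁻¹) • y = y + χ y • (f a' - f' a) • d := by
  obtain ⟨y, rfl⟩ : ∃ z, (n' * n) • z = y := ⟨(n' * n)⁻¹ • y, smul_inv_smul _ y⟩
  rw [mul_smul, inv_smul_smul]
  simp only [mul_smul, hn, hn', map_add, map_smul, h0, h1, h2, h3, h4, smul_eq_mul]
  module

/-- The product of a degenerate reflection and its conjugate. -/
theorem rf_mul_conj {d : ι → F} {a : F} {g g' : GL ι F} (ha : a ≠ 0) (h1 : ψ w = 2) (h2 : ψ d = 0) (h3 : χ w = 0)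
    (h4 : χ d = 0) (hg : ∀ y, g • y = y - (ψ + χ) y • (w + d))
    (hg' : ∀ y, g' • y = y - (a⁻¹ • ψ + χ) y • (a • w + d)) (y : ι → F) :
    (g * g') • y = y + ((1 - a⁻¹) • ψ) y • d + χ y • (a - 1) • w + (2 * (a - 1) * χ y) • d := by
  simp only [mul_smul, hg, hg', map_add, map_sub, map_smul, h1, h2, h3, h4, smul_eq_mul, LinearMap.add_apply,
    LinearMap.smul_apply]
  match_scalars <;> field_simp <;> ring

/-- `DL2`: `h` normalises `Γ`, multiplies `(w, ψ)` by `a` with `a² ≠ 1` and fixes `(d, χ)`. -/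
theorem dl2 (h2 : (2 : F) ≠ 0) (hT : ¬ HasTv Γ) {d : ι → F} {a : F} {h : GL ι F} (hh : Nrm Γ h)
    (hr : Rf Γ (w + d) (ψ + χ)) (ha : a ^ 2 ≠ 1) (hw : h • w = a • w) (hd : h • d = d) (hψ : ∀ y, ψ (h • y) = a * ψ y)
    (hχ : ∀ y, χ (h • y) = χ y) (h3 : ψ d = 0) (h4 : χ w = 0) (h5 : χ d = 0) : d = 0 ∧ χ = 0 := by
  have h1 : ψ w = 2 := by simpa [h3, h4, h5] using hr.two
  have hw0 : w ≠ 0 := fun e => h2 (by rw [← h1, e, map_zero])
  have hψ0 : ψ ≠ 0 := fun e => h2 (by rw [← h1, e, LinearMap.zero_apply])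
  have ha0 : a ≠ 0 := fun e => hw0 (by rw [← inv_smul_smul h w, hw, e, zero_smul, smul_zero])
  have ha1 : a - 1 ≠ 0 := fun e => ha (by rw [sub_eq_zero.1 e, one_pow])
  have ha2 : 1 - a⁻¹ ≠ 0 := fun e => ha1 (by field_simp at e; linear_combination e)
  obtain ⟨g, hg, eg⟩ := hr.mem
  have hr' := hr.nrm' hh (ψ := a⁻¹ • ψ + χ) fun y => by simp [hψ, hχ, ha0]
  rw [smul_add, hw, hd] at hr'
  obtain ⟨g', hg', eg'⟩ := hr'.mem
  have hn := rf_mul_conj ha0 h1 h3 h4 h5 eg eg'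
  have hm := Γ.mul_mem hg hg'
  generalize g * g' = n at hn hm
  have hn' : ∀ y, (h * n * h⁻¹) • y =
      y + (a⁻¹ • (1 - a⁻¹) • ψ) y • d + χ y • a • (a - 1) • w + (2 * (a - 1) * χ y) • d := fun y => by
    obtain ⟨y, rfl⟩ : ∃ z, h • z = y := ⟨h⁻¹ • y, smul_inv_smul h y⟩
    rw [mul_smul, inv_smul_smul, mul_smul, hn]
    simp only [smul_add, gsmul_smul, hw, hd, hψ, hχ, LinearMap.smul_apply, smul_eq_mul]
    generalize h • y = z
    match_scalars <;> field_simp
  have hc := heis_comm h5 (by simp [h4]) (by simp [h4]) (by simp [h3]) (by simp [h3]) hn hn'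
  have hm' := hh n hm
  have k := not_tv hT (Γ.mul_mem (Γ.mul_mem hm hm') (Γ.inv_mem (Γ.mul_mem hm' hm))) (by simp [h5]) hc
  have hκ : ((1 - a⁻¹) • ψ) (a • (a - 1) • w) - (a⁻¹ • (1 - a⁻¹) • ψ) ((a - 1) • w) ≠ 0 := by
    have : ((1 - a⁻¹) • ψ) (a • (a - 1) • w) - (a⁻¹ • (1 - a⁻¹) • ψ) ((a - 1) • w) =
        2 * (1 - a⁻¹) * (a - 1) * (a⁻¹ * (a ^ 2 - 1)) := by
      simp only [map_smul, LinearMap.smul_apply, h1, smul_eq_mul]; field_simp
    rw [this]
    exact mul_ne_zero (mul_ne_zero (mul_ne_zero h2 ha2) ha1) (mul_ne_zero (inv_ne_zero ha0) (sub_ne_zero.2 ha))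
  rcases k with k | rfl
  · obtain rfl : d = 0 := (smul_eq_zero.1 k).resolve_left hκ
    refine ⟨rfl, (not_tv hT (v := (a - 1) • w) hm (by simp [h4]) fun y => by simpa using hn y).resolve_left ?_⟩
    exact smul_ne_zero ha1 hw0
  · refine ⟨(not_tv hT (φ := (1 - a⁻¹) • ψ) hm (by simp [h3]) fun y => by simpa using hn y).resolve_right ?_, rfl⟩
    exact smul_ne_zero ha2 hψ0

end CL.Low4
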