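/-
Project LOW4: the embedding of `GL_k` attached to a biorthogonal system, traces of products of reflections,
and the statements of the sub-steps.
-/
import Cfsg.Agent.Low4.Basic2
import Cfsg.Agent.Cls.AschExtra

set_option autoImplicit false
set_option linter.unusedSectionVars false

namespace CL.Low4

open Matrix Cfsg Cfsg.Geo CL.Asch CL.SLn CL.Low Module
open scoped commutatorElement

universe u

variable {ι : Type} [Fintype ι] [DecidableEq ι] {F : Type u} [Field F] {k : ℕ} {Γ : Subgroup (GL ι F)}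
  {u v w : ι → F} {φ ψ χ : Dual F (ι → F)} {e : Fin k → ι → F} {x : Fin k → Dual F (ι → F)}

theorem scal_gsmul (c : Fˣ) (y : ι → F) : (scal ι c : GL ι F) • y = (c : F) • y := by
  rw [gsmul_def, coe_scal, smul_mulVec, one_mulVec]

/-- The vector with given coordinates. -/
def up (e : Fin k → ι → F) : (Fin k → F) →ₗ[F] (ι → F) := Fintype.linearCombination F e

/-- The coordinates of a vector. -/
def co (x : Fin k → Dual F (ι → F)) : (ι → F) →ₗ[F] (Fin k → F) := LinearMap.pi x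

theorem up_apply (a : Fin k → F) : up e a = ∑ i, a i • e i := rfl

@[simp] theorem co_apply (y : ι → F) (i : Fin k) : co x y i = x i y := rfl

theorem up_co (y : ι → F) : up e (co x y) = pr e x y := rfl

theorem Bi.co_up (hb : Bi e x) (a : Fin k → F) : co x (up e a) = a := funext fun i => by simp [up_apply, hb.apply]

theorem Bi.pr_up (hb : Bi e x) (a : Fin k → F) : pr e x (up e a) = up e a := by rw [← up_co, hb.co_up]

theorem Bi.co_pr (hb : Bi e x) (y : ι → F) : co x (pr e x y) = co x y := by rw [← up_co, hb.co_up]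

theorem Bi.up_inj (hb : Bi e x) : Function.Injective (up e) := Function.LeftInverse.injective hb.co_up

theorem Bi.exists_emb (hb : Bi e x) (A : GL (Fin k) F) :
    ∃ g : GL ι F, ∀ y, g • y = y - pr e x y + up e (A • co x y) := by
  let f : GL (Fin k) F → (ι → F) →ₗ[F] (ι → F) := fun A =>
    LinearMap.id - up e ∘ₗ co x + up e ∘ₗ (A : Matrix (Fin k) (Fin k) F).mulVecLin ∘ₗ co x
  have key : ∀ (A B : GL (Fin k) F), A * B = 1 → ∀ y, f A (f B y) = y := fun A B h y => by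
      simp only [f, LinearMap.add_apply, LinearMap.sub_apply, LinearMap.id_apply, LinearMap.comp_apply, mulVecLin_apply,
        map_add, map_sub, hb.co_up, sub_self, zero_add, mulVec_mulVec, ← Units.val_mul, h, Units.val_one, one_mulVec]
      abel
  obtain ⟨g, hg, -⟩ := exists_gl _ _ (key A A⁻¹ (mul_inv_cancel A)) (key A⁻¹ A (inv_mul_cancel A))
  exact ⟨g, hg⟩

/-- `A` acting on the span of `e`, the identity on the kernel of `x`. -/
noncomputable def emb (hb : Bi e x) : GL (Fin k) F →* GL ι F :=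
  MonoidHom.mk' (fun A => (hb.exists_emb A).choose) fun A B => gext fun y => by
    rw [mul_smul, (hb.exists_emb _).choose_spec, (hb.exists_emb _).choose_spec, (hb.exists_emb _).choose_spec]
    simp only [pr_add, pr_sub, hb.pr_pr, hb.pr_up, map_add, map_sub, hb.co_pr, hb.co_up, sub_self, zero_add, mul_smul]
    abel

theorem emb_smul (hb : Bi e x) (A : GL (Fin k) F) (y : ι → F) :
    emb hb A • y = y - pr e x y + up e (A • co x y) := (hb.exists_emb A).choose_spec y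

theorem emb_up (hb : Bi e x) (A : GL (Fin k) F) (a : Fin k → F) : emb hb A • up e a = up e (A • a) := by
  rw [emb_smul, hb.pr_up, hb.co_up, sub_self, zero_add]

theorem co_emb (hb : Bi e x) (A : GL (Fin k) F) (y : ι → F) : co x (emb hb A • y) = A • co x y := by
  rw [emb_smul, map_add, map_sub, hb.co_pr, hb.co_up, sub_self, zero_add]

theorem emb_injective (hb : Bi e x) : Function.Injective (emb hb) := fun A B h => gext fun a =>
  hb.up_inj (by rw [← emb_up hb, ← emb_up hb, h])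

/-- Elements of the form `1 + η ⊗ a`. -/
theorem emb_rank_one (hb : Bi e x) {A : GL (Fin k) F} {a : Fin k → F} {η : Dual F (Fin k → F)} :
    (∀ z, A • z = z + η z • a) ↔ ∀ y, emb hb A • y = y + η (co x y) • up e a :=
  ⟨fun h y => by rw [emb_smul, h, map_add, map_smul, up_co]; abel,
    fun h z => hb.up_inj (by rw [← emb_up hb, h, hb.co_up, map_add, map_smul])⟩

theorem emb_refl (hb : Bi e x) {A : GL (Fin k) F} {a : Fin k → F} {η : Dual F (Fin k → F)} :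
    (∀ z, A • z = z - η z • a) ↔ ∀ y, emb hb A • y = y - η (co x y) • up e a := by
  simpa [sub_eq_add_neg] using emb_rank_one hb (A := A) (a := -a) (η := η)

theorem sc_emb (hb : Bi e x) {A : GL (Fin k) F} {a : F} : Sc e x a (emb hb A) ↔ ∀ z : Fin k → F, A • z = a • z :=
  ⟨fun h z => hb.up_inj (by rw [← emb_up hb, h.eig (hb.pr_up z), map_smul]),
    fun h y => by rw [emb_smul, h, map_smul, up_co]; module⟩

theorem Bi.in_up (hb : Bi e x) (a : Fin k → F) (η : Dual F (Fin k → F)) : In e x (up e a) (η ∘ₗ co x) :=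
  in_iff.2 ⟨hb.pr_up a, fun y => by rw [LinearMap.comp_apply, hb.co_pr, LinearMap.comp_apply]⟩

theorem In.up_co (h : In e x v φ) : up e (co x v) = v := h.1

theorem In.comp_co (h : In e x v φ) : (φ ∘ₗ up e) ∘ₗ co x = φ := LinearMap.ext (in_iff.1 h).2

theorem Bi.comp_co_ne (hb : Bi e x) {η : Dual F (Fin k → F)} (h : η ≠ 0) : η ∘ₗ co x ≠ 0 := fun h0 =>
  h (LinearMap.ext fun a => by simpa [hb.co_up] using LinearMap.congr_fun h0 (up e a))

theorem exists_refl (h : φ v = 2) : ∃ g : GL ι F, ∀ y, g • y = y - φ y • v := by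
  let f : (ι → F) →ₗ[F] (ι → F) := LinearMap.id - φ.smulRight v
  have key : ∀ y, f (f y) = y := fun y => by
    simp only [f, LinearMap.sub_apply, LinearMap.id_apply, LinearMap.smulRight_apply, map_sub, map_smul, h]
    module
  obtain ⟨g, hg, -⟩ := exists_gl _ _ key key
  exact ⟨g, hg⟩

/-- The reflection group on the span of `e`, as a subgroup of `GL_k`. -/
noncomputable def KK (Γ : Subgroup (GL ι F)) (hb : Bi e x) : Subgroup (GL (Fin k) F) := (KG Γ e x).comap (emb hb)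

theorem mem_KK (hb : Bi e x) {A : GL (Fin k) F} : A ∈ KK Γ hb ↔ emb hb A ∈ KG Γ e x := Iff.rfl

theorem rf_KK (hb : Bi e x) {a : Fin k → F} {η : Dual F (Fin k → F)} :
    Rf (KK Γ hb) a η ↔ Rf Γ (up e a) (η ∘ₗ co x) := by
  constructor
  · rintro ⟨h1, h2, h3, A, hA, eA⟩
    exact ⟨by simp [hb.co_up, h1], fun h => h2 (hb.up_inj (by simpa using h)), hb.comp_co_ne h3, _, KG_le hA,
      (emb_refl hb).1 eA⟩
  · intro h
    have h1 : η a = 2 := by simpa [hb.co_up] using h.two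
    obtain ⟨A, eA⟩ := exists_refl h1
    exact ⟨h1, fun h0 => h.ne (by simp [h0]), fun h0 => h.ne' (by simp [h0]), A,
      Subgroup.subset_closure ⟨_, _, h, hb.in_up a η, (emb_refl hb).1 eA⟩, eA⟩

theorem Rf.KK (hb : Bi e x) (h : Rf Γ v φ) (hi : In e x v φ) : Rf (KK Γ hb) (co x v) (φ ∘ₗ up e) := by
  rwa [rf_KK, hi.up_co, hi.comp_co]

theorem KK_eq_closure (hb : Bi e x) : KG Γ e x =
    (Subgroup.closure {A | ∃ a η, Rf (KK Γ hb) a η ∧ ∀ z, A • z = z - η z • a}).map (emb hb) := by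
  rw [MonoidHom.map_closure, KG]
  congr 1
  ext g
  constructor
  · rintro ⟨v, φ, h1, h2, h3⟩
    obtain ⟨A, -, eA⟩ := (h1.KK hb h2).mem
    refine ⟨A, ⟨_, _, h1.KK hb h2, eA⟩, gext fun y => ?_⟩
    rw [(emb_refl hb).1 eA, h3, h2.up_co, LinearMap.comp_apply, up_co, (in_iff.1 h2).2]
  · rintro ⟨A, ⟨a, η, h1, eA⟩, rfl⟩
    exact ⟨_, _, (rf_KK hb).1 h1, hb.in_up a η, (emb_refl hb).1 eA⟩

theorem rfGen_KK (hb : Bi e x) : RfGen (KK Γ hb) := fun A hA => by
  rw [mem_KK, KK_eq_closure hb] at hA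
  obtain ⟨B, hB, h⟩ := hA
  rwa [← emb_injective hb h]

theorem map_KK (hb : Bi e x) : (KK Γ hb).map (emb hb) = KG Γ e x :=
  Subgroup.map_comap_eq_self (by rw [KK_eq_closure hb]; exact Subgroup.map_le_range _ _)

theorem noTv_KK (hb : Bi e x) (hT : ¬ HasTv Γ) : ¬ HasTv (KK Γ hb) := fun ⟨A, hA, a, η, h1, h2, h3, h4⟩ =>
  hT ⟨_, KG_le hA, up e a, η ∘ₗ co x, fun h => h1 (hb.up_inj (by simpa using h)), hb.comp_co_ne h2,
    by simp [hb.co_up, h3], (emb_rank_one hb).1 h4⟩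

theorem AI.irr_KK (h : AI Γ e x) : Irr (KK Γ h.bi) := irr_iff.2 fun W hW => by
  have hb := h.bi
  rcases h.irr (W.map (up e)) (by rintro _ ⟨a, -, rfl⟩; exact hb.pr_up a) (by
    rintro v φ h1 h2 _ ⟨a, ha, rfl⟩
    obtain ⟨A, hA, eA⟩ := (h1.KK hb h2).mem
    refine ⟨_, W.sub_mem ha (hW A hA a ha), ?_⟩
    rw [← gsmul_def, eA, sub_sub_cancel, map_smul, h2.up_co, LinearMap.comp_apply]) with h1 | h1
  · exact Or.inl (eq_bot_iff.2 fun a ha => hb.up_inj (by
      rw [map_zero]; exact (Submodule.mem_bot F).1 (h1 ▸ Submodule.mem_map_of_mem ha)))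
  · refine Or.inr (eq_top_iff.2 fun a _ => ?_)
    obtain ⟨b, hb', e1⟩ : up e a ∈ W.map (up e) := by
      rw [up_apply]; exact Submodule.sum_mem _ fun i _ => Submodule.smul_mem _ _ (h1 i)
    rwa [← hb.up_inj e1]

theorem AI.asym_KK (h : AI Γ e x) : ∃ u φ v ψ w χ, Rf (KK Γ h.bi) u φ ∧ Rf (KK Γ h.bi) v ψ ∧ Rf (KK Γ h.bi) w χ ∧
    Asym u φ v ψ w χ := by
  obtain ⟨u, φ, v, ψ, w, χ, a1, a2, a3, b1, b2, b3, hA⟩ := h.asym
  refine ⟨_, _, _, _, _, _, a1.KK h.bi b1, a2.KK h.bi b2, a3.KK h.bi b3, ?_⟩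
  simpa only [Asym, LinearMap.comp_apply, b1.up_co, b2.up_co, b3.up_co] using hA

theorem NQ.of_KK (hb : Bi e x) (h : NQ (KK Γ hb)) : NQ (KG Γ e x) := by
  rw [← map_KK hb, NQ, ← Subgroup.map_commutator]
  rintro _ ⟨a, ha, rfl⟩ _ ⟨b, hb', rfl⟩ h1 h2 h3
  have hi := emb_injective hb
  simpa using congrArg (emb hb) (h a ha b hb' (hi (by simpa using h1)) (hi (by simpa using h2)) (hi (by simpa using h3)))

theorem NQ.to_KK (hb : Bi e x) (h : NQ (KG Γ e x)) : NQ (KK Γ hb) := fun a ha b hb' h1 h2 h3 => by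
  rw [← map_KK hb, NQ, ← Subgroup.map_commutator] at h
  exact emb_injective hb (by
    simpa using h _ ⟨a, ha, rfl⟩ _ ⟨b, hb', rfl⟩ (by simpa using congrArg (emb hb) h1)
      (by simpa using congrArg (emb hb) h2) (by simpa using congrArg (emb hb) h3))

/-- Transport of a frame of `F^k`. -/
theorem Bi.trans (hb : Bi e x) {m : ℕ} {a : Fin m → Fin k → F} {η : Fin m → Dual F (Fin k → F)} (h : Bi a η) :
    Bi (fun i => up e (a i)) fun i => η i ∘ₗ co x :=
  ⟨fun i => by simp [hb.co_up, h.diag], fun i j hij => by simp [hb.co_up, h.off i j hij]⟩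

theorem Bi.same_trans (hb : Bi e x) {a : Fin k → Fin k → F} {η : Fin k → Dual F (Fin k → F)} (h : Bi a η) :
    Same e x (fun i => up e (a i)) fun i => η i ∘ₗ co x :=
  same_of_le hb (hb.trans h) (fun _ => hb.pr_up _) fun i => (hb.in_up (a i) (η i)).2

theorem framed_of_KK (hb : Bi e x) {a : Fin k → Fin k → F} {η : Fin k → Dual F (Fin k → F)} (h : Bi a η)
    (hm : ∀ v φ, Rf (KK Γ hb) v φ → Mon a η v φ) : Framed Γ e x := by
  refine ⟨_, _, hb.trans h, hb.same_trans h, fun v φ h1 h2 => ?_⟩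
  rw [← h2.up_co, ← h2.comp_co]
  rcases hm _ _ (h1.KK hb h2) with ⟨i, c, hc, e1, e2⟩ | ⟨i, j, c, d, hij, hc, hd, e1, e2⟩
  · exact Or.inl ⟨i, c, hc, by rw [e1, map_smul], by rw [e2, LinearMap.smul_comp]⟩
  · exact Or.inr ⟨i, j, c, d, hij, hc, hd, by rw [e1, map_add, map_smul, map_smul],
      by rw [e2, LinearMap.add_comp, LinearMap.smul_comp, LinearMap.smul_comp]⟩

/-- The standard frame. -/
theorem bi_std : Bi (fun i : Fin k => (Pi.single i 1 : Fin k → F)) fun i => LinearMap.proj i :=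
  ⟨fun i => by simp, fun i j h => by simp [h]⟩

theorem in_of_card (hb : Bi e x) (hk : k = Fintype.card ι) (v : ι → F) (φ : Dual F (ι → F)) : In e x v φ :=
  in_iff.2 ⟨hb.pr_eq_self hk v, fun y => by rw [hb.pr_eq_self hk]⟩

theorem KG_eq_of_card (hg : RfGen Γ) (hb : Bi e x) (hk : k = Fintype.card ι) : KG Γ e x = Γ :=
  le_antisymm KG_le (hg.trans (Subgroup.closure_mono fun _ ⟨v, φ, h1, h2⟩ => ⟨v, φ, h1, in_of_card hb hk v φ, h2⟩))

/-! ### Traces -/

theorem tr_rank_one {s : GL ι F} (hs : ∀ y, s • y = y - φ y • v) (g : GL ι F) : tr (s * g) = tr g - φ (g • v) := by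
  have h1 : ((s * g : GL ι F) : Matrix ι ι F) = g - vecMulVec v fun j => φ (g • (Pi.single j 1 : ι → F)) := by
    ext i j
    have := congrFun (hs (g • (Pi.single j 1 : ι → F))) i
    rw [← mul_smul, gsmul_def, gsmul_def, mulVec_single_one, mulVec_single_one] at this
    simpa [vecMulVec_apply, mul_comm, gsmul_def] using this
  have h2 : φ (g • v) = ∑ j, v j * φ (g • (Pi.single j 1 : ι → F)) := by
    conv_lhs => rw [pi_eq_sum_univ' v]
    simp only [Finset.smul_sum, gsmul_smul, map_sum, map_smul, smul_eq_mul]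
  rw [tr, h1, trace_sub, trace_vecMulVec, h2]
  rfl

theorem tr_rank_one' {s : GL ι F} (hs : ∀ y, s • y = y - φ y • v) (g : GL ι F) : tr (g * s) = tr g - φ (g • v) := by
  rw [← tr_rank_one hs, tr, tr, Units.val_mul, Units.val_mul, trace_mul_comm]

theorem tr_one : tr (1 : GL ι F) = Fintype.card ι := by simp [tr]

theorem tr_neg (g : GL ι F) : tr (-g) = -tr g := by simp [tr]

theorem tr_emb (hb : Bi e x) (A : GL (Fin k) F) : tr (emb hb A) = tr A + (Fintype.card ι - k) := by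
  let E : Matrix ι (Fin k) F := LinearMap.toMatrix' (up e)
  let X : Matrix (Fin k) ι F := LinearMap.toMatrix' (co x)
  have hE : ∀ a, E *ᵥ a = up e a := fun a => LinearMap.toMatrix'_mulVec _ _
  have hX : ∀ y, X *ᵥ y = co x y := fun y => LinearMap.toMatrix'_mulVec _ _
  have h1 : X * E = 1 := matrix_ext_mulVec fun a => by rw [← mulVec_mulVec, hE, hX, hb.co_up, one_mulVec]
  have h2 : (emb hb A : Matrix ι ι F) = 1 - E * X + E * ((A : Matrix (Fin k) (Fin k) F) * X) := matrix_ext_mulVec fun y => by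
    rw [← gsmul_def, emb_smul, add_mulVec, sub_mulVec, one_mulVec, ← mulVec_mulVec, ← mulVec_mulVec, ← mulVec_mulVec,
      hX, hE, hE, up_co, gsmul_def]
  rw [tr, h2, trace_add, trace_sub, trace_mul_comm E, trace_mul_comm E, Matrix.mul_assoc, h1, Matrix.mul_one]
  simp [add_comm]

/-- The trace lemma: `T` is a set of pairs giving elements `1 - φ ⊗ v` with inverse `1 - ε φ ⊗ v`. -/
theorem trace_lemma [Finite F] (R : Subring (F × F)) (T : Set ((ι → F) × Dual F (ι → F))) {ε : F}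
    (μ : (ι → F) × Dual F (ι → F) → F) (hμ : ∀ t ∈ T, μ t ≠ 0)
    (hT : ∀ s ∈ T, ∀ t ∈ T, (s.2 t.1, ε * (μ s / μ t) * t.2 s.1) ∈ R) {g : GL ι F}
    (hg : g ∈ Subgroup.closure {g : GL ι F | ∃ t ∈ T, (∀ y, g • y = y - t.2 y • t.1) ∧
      ∀ y, g⁻¹ • y = y - (ε * t.2 y) • t.1}) :
    (tr g, tr g⁻¹) ∈ R ∧ ∀ s ∈ T, ∀ t ∈ T, (s.2 (g • t.1), ε * (μ s / μ t) * t.2 (g⁻¹ • s.1)) ∈ R := by
  have hg' := (Subgroup.closure_toSubmonoid_of_finite (s := {g : GL ι F | ∃ t ∈ T, (∀ y, g • y = y - t.2 y • t.1) ∧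
      ∀ y, g⁻¹ • y = y - (ε * t.2 y) • t.1})).le hg
  clear hg
  induction hg' using Submonoid.closure_induction_left with
  | one => exact ⟨by rw [inv_one, tr_one]; exact natCast_mem R (Fintype.card ι), by simpa using hT⟩
  | mul_left a ha g _ ih =>
    obtain ⟨r, hr, e1, e2⟩ := ha
    have h0 := hμ r hr
    refine ⟨?_, fun s hs t ht => ?_⟩
    · convert R.sub_mem ih.1 (ih.2 r hr r hr) using 1
      rw [tr_rank_one e1, _root_.mul_inv_rev, tr_rank_one' (φ := ε • r.2) e2, div_self h0, mul_one]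
      rfl
    · convert R.sub_mem (ih.2 s hs t ht) (R.mul_mem (hT s hs r hr) (ih.2 r hr t ht)) using 1
      have h1 := hμ t ht
      simp only [_root_.mul_inv_rev, mul_smul, e1, e2, smul_sub, gsmul_smul, map_sub, map_smul, smul_eq_mul,
        Prod.mk_mul_mk, Prod.mk_sub_mk, Prod.mk.injEq]
      exact ⟨by ring, by field_simp⟩

/-! ### Statements of the sub-steps -/

/-- Equal non-zero diagonal entries are impossible for `G(m, m, 3)`, `m ≥ 4`. -/
def SubE3 : Prop :=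
  ∀ (F : Type u) [Field F] [Fintype F] (Γ : Subgroup (G F)), ZSym Γ → H4Free Γ → Triples Γ (Framed Γ) (Framed Γ) →
    ∀ M : Subgroup Fˣ, (∃ a ∈ M, a ^ 2 ≠ 1 ∧ a ^ 3 ≠ 1) → ∀ (e : Fin 3 → V F) (x : Fin 3 → Dual F (V F)),
      GCfg Γ M e x → (∀ v φ, Rf Γ v φ → In e x v φ → Mon e x v φ) →
      ∀ v φ, Rf Γ v φ → ∀ X : F, X ≠ 0 → ¬ ∀ i, φ (e i) * x i v = X

/-- The position of a reflection relative to a pair generating `W(B₂)`. -/
def B2Out {F : Type u} [Field F] (Γ : Subgroup (G F)) : Prop :=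
  ∀ u φ v ψ w χ, Rf Γ u φ → Rf Γ v ψ → Rf Γ w χ → ψ w * χ v = 2 → Asym u φ v ψ w χ →
    (∀ (e : Fin 3 → V F) (x : Fin 3 → Dual F (V F)), In e x v ψ → In e x w χ → In e x u φ) ∨
    (cdet u φ v ψ w χ ≠ 0 ∧ (φ v * ψ u = 1 ∨ φ v * ψ u = 2) ∧ (φ w * χ u = 1 ∨ φ w * χ u = 2))

/-- The explicit configurations over `W(B₃)` that cannot occur. -/
def SubJ4K : Prop :=
  ∀ (F : Type u) [Field F] [Fintype F] (Γ : Subgroup (G F)), Od Γ → H4Free Γ → B2Out Γ → (7 : F) ≠ 0 →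
    ∀ (e : Fin 3 → V F) (x : Fin 3 → Dual F (V F)), BCfg Γ e x →
      (∀ i β : F, (3 : F) = 0 → i ^ 2 = -1 → β ^ 2 + β + 2 = 0 →
        ¬ Rf Γ (e 0 + i • e 1 + β • e 2) ((2 : F)⁻¹ • (x 0 - i • x 1 + (-1 - β) • x 2))) ∧
      ∀ b : F, b ^ 2 + b + 2 = 0 → Rf Γ (e 0 + e 1 + b • e 2) ((2 : F)⁻¹ • (x 0 + x 1 + (-1 - b) • x 2)) →
        ∀ v φ (β β' : F), Rf Γ v φ → ((β ^ 2 = -1 ∧ β' = -β) ∨ (β ^ 2 + β + 2 = 0 ∧ β' = -1 - β)) →
          x 0 v = 1 → x 1 v = β → 2 * φ (e 0) = 1 → 2 * φ (e 1) = β' →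
          ¬ ((x 2 v = 0 ∧ φ (e 2) = 0) ∨ (x 2 v = β ∧ 2 * φ (e 2) = β'))

/-- The imprimitive, semilinear and extraspecial cases in dimension three. -/
def Geo3 {F : Type u} [Field F] (K : Subgroup (GL (Fin 3) F)) : Prop :=
  (∃ D : Fin 3 → Submodule F (Fin 3 → F), IsMDecomposition 1 D ∧ K ≤ decompositionStabilizer D) ∨
  (∃ A : Subalgebra F (Matrix (Fin 3) (Fin 3) F), IsFieldSubalgebra 3 A ∧ K ≤ subalgebraNormalizer A) ∨
  ∃ R : Subgroup (GL (Fin 3) F), IsHeis R ∧ (∀ a ∈ R, a ^ 3 = 1) ∧ K ≤ subgroupNormalizer R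

/-- The irreducible subgroups of `GL₃(F)`. -/
def Over3 : Prop :=
  ∀ (F : Type u) [Field F] [Fintype F] (K : Subgroup (GL (Fin 3) F)), Irr K → Geo3 K ∨
    ((2 : F) ≠ 0 ∧ ∃ b : (Fin 3 → F) → (Fin 3 → F) → F, IsSesq (RingHom.id F) 1 b ∧ K ≤ similarityGroup b) ∨
    (QS ⁅K, K⁆ ∧ (IsSLSub ⁅K, K⁆ ∨ IsSUSub ⁅K, K⁆ ∨
      ((7 : F) ≠ 0 ∧ Nonempty (PQ ⁅K, K⁆ ≃* ProjectiveSpecialLinearGroup (Fin 3) (ZMod 2))) ∨
      ((3 : F) ≠ 0 ∧ Nonempty (PQ ⁅K, K⁆ ≃* alternatingGroup (Fin 6))) ∨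
      ((5 : F) = 0 ∧ Nonempty (PQ ⁅K, K⁆ ≃* alternatingGroup (Fin 7)))))

def SubGeo : Prop :=
  ∀ (F : Type u) [Field F] [Fintype F] (K : Subgroup (GL (Fin 3) F)), RfGen K → Irr K → Geo3 K →
    NQ K ∧ ∃ (e : Fin 3 → Fin 3 → F) (x : Fin 3 → Dual F (Fin 3 → F)), Bi e x ∧ ∀ v φ, Rf K v φ → Mon e x v φ

def SubL27 : Prop :=
  L27Data.{u} → ∀ (F : Type u) [Field F] [Fintype F] (K : Subgroup (GL (Fin 3) F)), (2 : F) ≠ 0 → RfGen K →
    QS ⁅K, K⁆ → (7 : F) ≠ 0 → Nonempty (PQ ⁅K, K⁆ ≃* ProjectiveSpecialLinearGroup (Fin 3) (ZMod 2)) →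
    ∀ (e : Fin 3 → Fin 3 → F) (x : Fin 3 → Dual F (Fin 3 → F)), Bi e x → NQ K ∧ J4 K e x

def SubA67 : Prop :=
  A6Data.{u} → A7Data.{u} → ∀ (F : Type u) [Field F] [Fintype F] (K : Subgroup (GL (Fin 3) F)), (2 : F) ≠ 0 →
    RfGen K → QS ⁅K, K⁆ → ((3 : F) ≠ 0 ∧ Nonempty (PQ ⁅K, K⁆ ≃* alternatingGroup (Fin 6))) ∨
      ((5 : F) = 0 ∧ Nonempty (PQ ⁅K, K⁆ ≃* alternatingGroup (Fin 7))) →
    ∀ (e : Fin 3 → Fin 3 → F) (x : Fin 3 → Dual F (Fin 3 → F)), Bi e x → NQ K ∧ JW K e x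

end CL.Low4
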