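/-
Project LOW4: no `G(m, m, 3)` with `m ≥ 5`, and the monomial property for `m ≥ 4`.
-/
import Cfsg.Agent.Low4.Emb

set_option autoImplicit false
set_option linter.unusedSectionVars false
set_option linter.unnecessarySeqFocus false

namespace CL.Low4

open Matrix Cfsg Cfsg.Geo CL.Asch CL.SLn CL.Low Module

universe u

namespace Big5

variable {ι : Type} [Fintype ι] [DecidableEq ι] {F : Type u} [Field F] {k k' : ℕ} {Γ : Subgroup (GL ι F)}
  {u v w : ι → F} {φ ψ χ : Dual F (ι → F)} {e : Fin k → ι → F} {x : Fin k → Dual F (ι → F)}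
  {e' : Fin k' → ι → F} {x' : Fin k' → Dual F (ι → F)}

/-- A diagonal reflection. -/
def Dg (e : Fin k → ι → F) (x : Fin k → Dual F (ι → F)) (i : Fin k) (v : ι → F) (φ : Dual F (ι → F)) : Prop :=
  ∃ a : F, a ≠ 0 ∧ v = a • e i ∧ φ = (2 / a) • x i

/-- A reflection swapping two lines of the frame. -/
def Sw (e : Fin k → ι → F) (x : Fin k → Dual F (ι → F)) (i j : Fin k) (v : ι → F) (φ : Dual F (ι → F)) : Prop :=
  ∃ a b : F, a ≠ 0 ∧ b ≠ 0 ∧ v = a • e i + b • e j ∧ φ = a⁻¹ • x i + b⁻¹ • x j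

theorem mon_iff : Mon e x v φ ↔ (∃ i, Dg e x i v φ) ∨ ∃ i j, i ≠ j ∧ Sw e x i j v φ :=
  or_congr Iff.rfl ⟨fun ⟨i, j, a, b, h1, h2⟩ => ⟨i, j, h1, a, b, h2⟩, fun ⟨i, j, h1, a, b, h2⟩ => ⟨i, j, a, b, h1, h2⟩⟩

theorem Sw.symm {i j : Fin k} (h : Sw e x i j v φ) : Sw e x j i v φ :=
  let ⟨a, b, ha, hb, h1, h2⟩ := h
  ⟨b, a, hb, ha, by rw [h1, add_comm], by rw [h2, add_comm]⟩

theorem Dg.same {i : Fin k} (h : Dg e x i v φ) : SameRf (e i) ((2 : F) • x i) v φ :=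
  let ⟨a, ha, h1, h2⟩ := h
  ⟨a, ha, h1, by rw [h2, smul_smul, div_eq_inv_mul]⟩

theorem dg_of_same {i : Fin k} (h : SameRf (e i) ((2 : F) • x i) v φ) : Dg e x i v φ :=
  let ⟨a, ha, h1, h2⟩ := h
  ⟨a, ha, h1, by rw [h2, smul_smul, div_eq_inv_mul]⟩

theorem Sw.same {i j : Fin k} (h : Sw e x i j v φ) :
    ∃ a : F, a ≠ 0 ∧ SameRf (e i - a • e j) (x i - a⁻¹ • x j) v φ := by
  obtain ⟨a, b, ha, hb, rfl, rfl⟩ := h
  refine ⟨-(b / a), neg_ne_zero.2 (div_ne_zero hb ha), a, ha, ?_, ?_⟩ <;> match_scalars <;> field_simp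

theorem sw_of_same {i j : Fin k} {a : F} (ha : a ≠ 0) (h : SameRf (e i - a • e j) (x i - a⁻¹ • x j) v φ) :
    Sw e x i j v φ := by
  obtain ⟨t, ht, rfl, rfl⟩ := h
  refine ⟨t, -(t * a), ht, neg_ne_zero.2 (mul_ne_zero ht ha), ?_, ?_⟩ <;> match_scalars <;> field_simp

theorem Dg.off (hb : Bi e x) {i p : Fin k} (h : Dg e x i v φ) (hp : p ≠ i) : x p v = 0 ∧ φ (e p) = 0 := by
  obtain ⟨a, -, rfl, rfl⟩ := h
  simp [hb.off p i hp, hb.off i p hp.symm]

theorem Sw.off (hb : Bi e x) {i j p : Fin k} (h : Sw e x i j v φ) (h1 : p ≠ i) (h2 : p ≠ j) :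
    x p v = 0 ∧ φ (e p) = 0 := by
  obtain ⟨a, b, -, -, rfl, rfl⟩ := h
  simp [hb.off p i h1, hb.off i p h1.symm, hb.off p j h2, hb.off j p h2.symm]

theorem Sw.left (hb : Bi e x) {i j : Fin k} (hij : i ≠ j) (h : Sw e x i j v φ) : φ (e i) * x i v = 1 := by
  obtain ⟨a, b, ha, -, rfl, rfl⟩ := h
  simp [hb.diag, hb.off i j hij, hb.off j i hij.symm, ha]

theorem Sw.coord (hb : Bi e x) {i j : Fin k} (hij : i ≠ j) (h : Sw e x i j v φ) (p : Fin k) :
    φ (e p) * x p v = 1 ∨ (p ≠ i ∧ p ≠ j ∧ x p v = 0 ∧ φ (e p) = 0) := by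
  by_cases h1 : p = i
  · exact Or.inl (h1 ▸ h.left hb hij)
  by_cases h2 : p = j
  · exact Or.inl (h2 ▸ h.symm.left hb hij.symm)
  · exact Or.inr ⟨h1, h2, h.off hb h1 h2⟩

/-- Two diagonal reflections. -/
theorem dg_dg (hb : Bi e x) {i j : Fin k} (h1 : Dg e x i v φ) (h2 : Dg e x j w ψ) :
    SameRf v φ w ψ ∨ (φ w = 0 ∧ ψ v = 0) := by
  by_cases hij : i = j
  · subst hij
    exact Or.inl (h1.same.symm.trans h2.same)
  · obtain ⟨a, -, rfl, rfl⟩ := h1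
    obtain ⟨b, -, rfl, rfl⟩ := h2
    exact Or.inr (by simp [hb.off i j hij, hb.off j i (Ne.symm hij)])

theorem dg_sw_two (hb : Bi e x) {i j : Fin k} (hij : i ≠ j) (h1 : Dg e x i v φ) (h2 : Sw e x i j w ψ) :
    φ w * ψ v = 2 := by
  obtain ⟨a, ha, rfl, rfl⟩ := h1
  obtain ⟨b, c, hb', -, rfl, rfl⟩ := h2
  simp only [map_add, map_smul, LinearMap.add_apply, LinearMap.smul_apply, hb.diag, hb.off i j hij,
    hb.off j i hij.symm, smul_eq_mul]
  field_simp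
  ring

theorem dg_sw_zero (hb : Bi e x) {i j l : Fin k} (hj : i ≠ j) (hl : i ≠ l) (h1 : Dg e x i v φ)
    (h2 : Sw e x j l w ψ) : φ w = 0 ∧ ψ v = 0 := by
  obtain ⟨a, ha, rfl, rfl⟩ := h1
  simp [(h2.off hb hj hl).1, (h2.off hb hj hl).2]

/-- A diagonal reflection and a swap. -/
theorem dg_sw (hb : Bi e x) {i j l : Fin k} (hjl : j ≠ l) (h1 : Dg e x i v φ) (h2 : Sw e x j l w ψ) :
    (φ w = 0 ∧ ψ v = 0) ∨ (φ w * ψ v = 2 ∧ ∃ m, i ≠ m ∧ Sw e x i m w ψ) := by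
  by_cases hj : i = j
  · subst hj
    exact Or.inr ⟨dg_sw_two hb hjl h1 h2, l, hjl, h2⟩
  by_cases hl : i = l
  · subst hl
    exact Or.inr ⟨dg_sw_two hb hj h1 h2.symm, j, hj, h2.symm⟩
  · exact Or.inl (dg_sw_zero hb hj hl h1 h2)

theorem sw_sw_one (hb : Bi e x) {i j l : Fin k} (hij : i ≠ j) (hil : i ≠ l) (hjl : j ≠ l) (h1 : Sw e x i j v φ)
    (h2 : Sw e x i l w ψ) : φ w * ψ v = 1 := by
  obtain ⟨a, b, ha, -, rfl, rfl⟩ := h1
  obtain ⟨c, d, hc, -, rfl, rfl⟩ := h2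
  simp only [map_add, map_smul, LinearMap.add_apply, LinearMap.smul_apply, hb.diag, hb.off i j hij,
    hb.off j i hij.symm, hb.off i l hil, hb.off l i hil.symm, hb.off j l hjl, hb.off l j hjl.symm, smul_eq_mul]
  field_simp
  ring

/-- Two swaps. -/
theorem sw_sw (hb : Bi e x) {i j l m : Fin k} (hij : i ≠ j) (hlm : l ≠ m) (h1 : Sw e x i j v φ)
    (h2 : Sw e x l m w ψ) : φ w * ψ v = 0 ∨ φ w * ψ v = 1 ∨ Sw e x i j w ψ := by
  by_cases a1 : i = l
  · subst a1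
    by_cases a2 : j = m
    · exact Or.inr (Or.inr (a2 ▸ h2))
    · exact Or.inr (Or.inl (sw_sw_one hb hij hlm a2 h1 h2))
  by_cases a2 : i = m
  · subst a2
    by_cases a3 : j = l
    · exact Or.inr (Or.inr (a3 ▸ h2.symm))
    · exact Or.inr (Or.inl (sw_sw_one hb hij a1 a3 h1 h2.symm))
  by_cases a3 : j = l
  · subst a3
    exact Or.inr (Or.inl (sw_sw_one hb hij.symm hlm a2 h1.symm h2))
  by_cases a4 : j = m
  · subst a4
    exact Or.inr (Or.inl (sw_sw_one hb hij.symm a3 a1 h1.symm h2.symm))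
  · obtain ⟨a, b, -, -, rfl, rfl⟩ := h1
    exact Or.inl (by simp [(h2.off hb a1 a2).2, (h2.off hb a3 a4).2])

/-- The `c`-values of two monomial reflections. -/
theorem pair_cases (hb : Bi e x) (h1 : Mon e x v φ) (h2 : Mon e x w ψ) :
    SameRf v φ w ψ ∨ φ w * ψ v = 0 ∨ φ w * ψ v = 1 ∨
      (∃ i j, i ≠ j ∧ ((Dg e x i v φ ∧ Sw e x i j w ψ) ∨ (Dg e x i w ψ ∧ Sw e x i j v φ))) ∨
      ∃ i j, i ≠ j ∧ Sw e x i j v φ ∧ Sw e x i j w ψ := by
  rcases mon_iff.1 h1 with ⟨i, h1⟩ | ⟨i, j, hij, h1⟩ <;> rcases mon_iff.1 h2 with ⟨l, h2⟩ | ⟨l, m, hlm, h2⟩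
  · exact (dg_dg hb h1 h2).imp id fun h => Or.inl (by rw [h.1, zero_mul])
  · rcases dg_sw hb hlm h1 h2 with h | ⟨-, m, h, h'⟩
    · exact Or.inr (Or.inl (by rw [h.1, zero_mul]))
    · exact Or.inr (Or.inr (Or.inr (Or.inl ⟨i, m, h, Or.inl ⟨h1, h'⟩⟩)))
  · rcases dg_sw hb hij h2 h1 with h | ⟨-, m, h, h'⟩
    · exact Or.inr (Or.inl (by rw [h.1, mul_zero]))
    · exact Or.inr (Or.inr (Or.inr (Or.inl ⟨l, m, h, Or.inr ⟨h2, h'⟩⟩)))
  · rcases sw_sw hb hij hlm h1 h2 with h | h | h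
    · exact Or.inr (Or.inl h)
    · exact Or.inr (Or.inr (Or.inl h))
    · exact Or.inr (Or.inr (Or.inr (Or.inr ⟨i, j, hij, h1, h⟩)))

/-- The pairings of two standard swaps on the same pair. -/
theorem std_pair (hb : Bi e x) {i j : Fin k} (hij : i ≠ j) (a b : F) :
    (x i - b • x j) (e i - a • e j) = 1 + a * b := by
  simp only [map_sub, map_smul, LinearMap.sub_apply, LinearMap.smul_apply, hb.diag, hb.off i j hij,
    hb.off j i hij.symm, smul_eq_mul]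
  ring

/-- Two swaps on the same pair of lines of another frame determine these lines. -/
theorem swap_pair (hb : Bi e x) (hb' : Bi e' x') {i j : Fin k} {p q : Fin k'} (hij : i ≠ j) (hpq : p ≠ q) {a : F}
    (ha : a ≠ 0) (ha2 : a ^ 2 ≠ 1) (h1 : Sw e' x' p q (e i - (1 : F) • e j) (x i - (1 : F)⁻¹ • x j))
    (h2 : Sw e' x' p q (e i - a • e j) (x i - a⁻¹ • x j)) :
    ∃ p q : Fin k', p ≠ q ∧ SameRf (e i) (x i) (e' p) (x' p) ∧ SameRf (e j) (x j) (e' q) (x' q) := by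
  have key : ∀ {p q : Fin k'} {a1 b1 a2 b2 : F}, a1 ≠ 0 → b1 ≠ 0 → a2 = a1 → b2 = a * b1 →
      e i - (1 : F) • e j = a1 • e' p + b1 • e' q → x i - (1 : F)⁻¹ • x j = a1⁻¹ • x' p + b1⁻¹ • x' q →
      e i - a • e j = a2 • e' p + b2 • e' q → x i - a⁻¹ • x j = a2⁻¹ • x' p + b2⁻¹ • x' q →
      SameRf (e i) (x i) (e' p) (x' p) ∧ SameRf (e j) (x j) (e' q) (x' q) := by
    rintro p q a1 b1 a2 b2 h1 h2 r1 r2 c1 d1 c2 d2
    rw [r1, r2] at c2 d2
    have h3 : a - 1 ≠ 0 := fun h => ha2 (by rw [sub_eq_zero.1 h, one_pow])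
    have h4 : a⁻¹ - 1 ≠ 0 := fun h => h3 (by field_simp at h; linear_combination -h)
    have f1 : e j = (-b1) • e' q := smul_right_injective _ h3 (by
      dsimp only
      linear_combination (norm := module) c1 - c2)
    have f2 : x j = (-b1)⁻¹ • x' q := smul_right_injective _ h4 (by
      dsimp only
      have : (a * b1)⁻¹ = a⁻¹ * b1⁻¹ := mul_inv _ _
      rw [this] at d2
      rw [inv_one] at d1
      rw [inv_neg]
      linear_combination (norm := module) d1 - d2)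
    have f3 : e i = a1 • e' p := by linear_combination (norm := module) c1 + f1
    have f4 : x i = a1⁻¹ • x' p := by
      rw [inv_one] at d1
      rw [inv_neg] at f2
      linear_combination (norm := module) d1 + f2
    exact ⟨SameRf.symm ⟨a1, h1, f3, f4⟩, SameRf.symm ⟨-b1, neg_ne_zero.2 h2, f1, f2⟩⟩
  obtain ⟨a1, b1, ha1, hb1, c1, d1⟩ := h1
  obtain ⟨a2, b2, ha2', hb2, c2, d2⟩ := h2
  have e1 := std_pair hb hij a (1 : F)⁻¹
  have e2 := std_pair hb hij 1 a⁻¹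
  rw [d1, c2] at e1
  rw [d2, c1] at e2
  simp only [map_add, map_smul, LinearMap.add_apply, LinearMap.smul_apply, hb'.diag, hb'.off p q hpq,
    hb'.off q p hpq.symm, smul_eq_mul] at e1 e2
  have h3 : a + 1 ≠ 0 := fun h => ha2 (by rw [eq_neg_of_add_eq_zero_left h]; ring)
  field_simp at e1 e2
  have e3 : a2 * b2 = a * a1 * b1 := mul_left_cancel₀ h3 (by linear_combination a * e1 - e2)
  have e4 : (a2 - a1) * (a2 - a * a1) = 0 := mul_left_cancel₀ hb1 (by linear_combination a2 * e1 - a1 * e3)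
  rcases mul_eq_zero.1 e4 with e5 | e5
  · have e6 := sub_eq_zero.1 e5
    exact ⟨p, q, hpq, key ha1 hb1 e6 (mul_left_cancel₀ ha1 (by rw [e6] at e3; linear_combination e3)) c1 d1 c2 d2⟩
  · have e6 := sub_eq_zero.1 e5
    exact ⟨q, p, hpq.symm, key (a2 := b2) hb1 ha1
      (mul_left_cancel₀ (mul_ne_zero ha ha1) (by rw [e6] at e3; linear_combination e3))
      e6 (by rw [c1, add_comm]) (by rw [d1, add_comm]) (by rw [c2, add_comm]) (by rw [d2, add_comm])⟩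

/-- A reflection with different diagonal entries is asymmetric with two swaps. -/
theorem asym_pair (hb : Bi e x) {i j : Fin k} (hij : i ≠ j) {a : F} (ha : a ≠ 0) (ha2 : a ^ 2 ≠ 1)
    (h : φ (e i) * x i v ≠ φ (e j) * x j v) :
    Asym v φ (e i - (1 : F) • e j) (x i - (1 : F)⁻¹ • x j) (e i - a • e j) (x i - a⁻¹ • x j) := fun h0 => by
  rw [std_pair hb hij, std_pair hb hij] at h0
  simp only [map_sub, map_smul, LinearMap.sub_apply, LinearMap.smul_apply, smul_eq_mul] at h0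
  field_simp at h0
  exact h (mul_left_cancel₀ (sub_ne_zero.2 ha2) (by linear_combination h0))

theorem same_x {c c' : ι → F} {η η' : Dual F (ι → F)} (h : SameRf c η c' η') :
    φ c * η v = φ c' * η' v ∧ (η' v = 0 → η v = 0) ∧ (φ c' = 0 → φ c = 0) := by
  obtain ⟨t, ht, rfl, rfl⟩ := h
  refine ⟨?_, fun h => by simpa [ht] using h, fun h => by simpa [ht] using h⟩
  simp only [map_smul, LinearMap.smul_apply, smul_eq_mul]
  field_simp

theorem same_two {c c' : ι → F} {η η' : Dual F (ι → F)} (h : SameRf c η c' η') :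
    SameRf c ((2 : F) • η) c' ((2 : F) • η') := by
  obtain ⟨t, ht, rfl, rfl⟩ := h
  exact ⟨t, ht, rfl, smul_comm _ _ _⟩

/-- The conclusion of `PairMon` once two lines belong to a frame for which the reflection is monomial. -/
theorem pair_core (hb' : Bi e' x') {c d : ι → F} {η ζ : Dual F (ι → F)} {p q : Fin k'}
    (h1 : SameRf c η (e' p) (x' p)) (h2 : SameRf d ζ (e' q) (x' q)) (hm : Mon e' x' v φ)
    (h : φ c * η v ≠ φ d * ζ v) :
    (φ c * η v = 1 ∧ ζ v = 0 ∧ φ d = 0) ∨ (φ d * ζ v = 1 ∧ η v = 0 ∧ φ c = 0) ∨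
      SameRf c ((2 : F) • η) v φ ∨ SameRf d ((2 : F) • ζ) v φ := by
  obtain ⟨a1, a2, a3⟩ := same_x (φ := φ) (v := v) h1
  obtain ⟨b1, b2, b3⟩ := same_x (φ := φ) (v := v) h2
  rcases mon_iff.1 hm with ⟨l, hm⟩ | ⟨l, m, hlm, hm⟩
  · by_cases c1 : p = l
    · exact Or.inr (Or.inr (Or.inl ((same_two h1).trans (c1 ▸ hm.same))))
    by_cases c2 : q = l
    · exact Or.inr (Or.inr (Or.inr ((same_two h2).trans (c2 ▸ hm.same))))
    · exact absurd (by rw [a1, b1, (hm.off hb' c1).1, (hm.off hb' c2).1, mul_zero, mul_zero]) h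
  · rcases hm.coord hb' hlm p with c1 | ⟨-, -, c1, c1'⟩ <;> rcases hm.coord hb' hlm q with c2 | ⟨-, -, c2, c2'⟩
    · exact absurd (by rw [a1, b1, c1, c2]) h
    · exact Or.inl ⟨a1.trans c1, b2 c2, b3 c2'⟩
    · exact Or.inr (Or.inl ⟨b1.trans c2, a2 c1, a3 c1'⟩)
    · exact absurd (by rw [a1, b1, c1, c2, mul_zero, mul_zero]) h

/-- Monomial reflections for two frames with the same lines. -/
theorem mon_transfer (hb : Bi e x) (hb' : Bi e' x') (h : ∀ p, ∃ q, SameRf (e q) (x q) (e' p) (x' p))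
    (hm : Mon e' x' v φ) : Mon e x v φ := by
  rcases mon_iff.1 hm with ⟨l, hm⟩ | ⟨l, m, hlm, a, b, ha, hb'', rfl, rfl⟩
  · obtain ⟨q, hq⟩ := h l
    exact mon_iff.2 (Or.inl ⟨q, dg_of_same ((same_two hq).trans hm.same)⟩)
  · obtain ⟨p, s, hs, e1, e2⟩ := h l
    obtain ⟨q, t, ht, e3, e4⟩ := h m
    refine mon_iff.2 (Or.inr ⟨p, q, fun hpq => ?_, a * s, b * t, mul_ne_zero ha hs, mul_ne_zero hb'' ht, ?_, ?_⟩)
    · have := hb'.off l m hlm
      rw [e2, e3, hpq] at this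
      simp [hb.diag, hs, ht] at this
    · rw [e1, e3, smul_smul, smul_smul]
    · rw [e2, e4, smul_smul, smul_smul, mul_inv, mul_inv]

/-- The third line of a frame of a `3`-space. -/
theorem third {e e' : Fin 3 → ι → F} {x x' : Fin 3 → Dual F (ι → F)} (hb' : Bi e' x') (hs : Same e x e' x')
    {p q : Fin 3} (h1 : SameRf (e 0) (x 0) (e' p) (x' p)) (h2 : SameRf (e 1) (x 1) (e' q) (x' q))
    (l : Fin 3) : ∃ m, SameRf (e m) (x m) (e' l) (x' l) := by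
  by_cases c1 : l = p
  · exact ⟨0, c1 ▸ h1⟩
  by_cases c2 : l = q
  · exact ⟨1, c2 ▸ h2⟩
  have a1 := same_x (φ := x' l) (v := e' l) h1
  have a2 := same_x (φ := x' l) (v := e' l) h2
  have b1 := a1.2.1 (hb'.off p l (Ne.symm c1))
  have b2 := a2.2.1 (hb'.off q l (Ne.symm c2))
  have b3 := a1.2.2 (hb'.off l p c1)
  have b4 := a2.2.2 (hb'.off l q c2)
  have d1 : e' l = x 2 (e' l) • e 2 := by
    have := hs (e' l)
    rw [hb'.pr_e, pr, Fin.sum_univ_three, b1, b2, zero_smul, zero_smul, zero_add, zero_add] at this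
    exact this
  have d2 : ∀ y, x' l y = x' l (e 2) * x 2 y := fun y => by
    rw [← hb'.x_pr, hs, apply_pr, Fin.sum_univ_three, b3, b4, zero_mul, zero_mul, zero_add, zero_add]
  have d3 : x' l (e 2) * x 2 (e' l) = 1 := by rw [← d2, hb'.diag]
  refine ⟨2, x 2 (e' l), right_ne_zero_of_mul_eq_one d3, d1, LinearMap.ext fun y => ?_⟩
  rw [d2, LinearMap.smul_apply, smul_eq_mul, eq_inv_of_mul_eq_one_left d3]

theorem unit_pow_ne {a : Fˣ} {n : ℕ} (h : a ^ n ≠ 1) : (a : F) ^ n ≠ 1 := fun h' =>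
  h (Units.ext (by rw [Units.val_pow_eq_pow_val, h', Units.val_one]))

/-- The group `G(m, m, 3)` is irreducible and asymmetric for `m ≥ 3`. -/
theorem ai_of_rf {e : Fin 3 → ι → F} {x : Fin 3 → Dual F (ι → F)} (hb : Bi e x) {a : F} (ha : a ≠ 0) (ha2 : a ^ 2 ≠ 1)
    (r1 : Rf Γ (e 0 - (1 : F) • e 1) (x 0 - (1 : F)⁻¹ • x 1)) (r2 : Rf Γ (e 1 - (1 : F) • e 2) (x 1 - (1 : F)⁻¹ • x 2))
    (r3 : Rf Γ (e 0 - a • e 2) (x 0 - a⁻¹ • x 2)) : AI Γ e x := by
  have i1 := hb.in_swap 0 1 1 (1 : F)⁻¹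
  have i2 := hb.in_swap 1 2 1 (1 : F)⁻¹
  have i3 := hb.in_swap 0 2 a a⁻¹
  have h3 : a - 1 ≠ 0 := fun h => ha2 (by rw [sub_eq_zero.1 h, one_pow])
  refine ⟨hb, fun W hW hR => ?_, _, _, _, _, _, _, r1, r2, r3, i1, i2, i3, fun h => ha2 ?_⟩
  · by_cases h0 : e 0 - (1 : F) • e 1 ∈ W
    · have m2 : e 1 - (1 : F) • e 2 ∈ W := (W.smul_mem_iff (by simp [hb.apply])).1 (hR _ _ r2 i2 _ h0)
      have m3 : e 0 - a • e 2 ∈ W := (W.smul_mem_iff (by simp [hb.apply])).1 (hR _ _ r3 i3 _ h0)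
      have m4 : e 2 ∈ W := (W.smul_mem_iff h3).1 (by
        convert W.sub_mem (W.add_mem h0 m2) m3 using 1
        module)
      have m5 : e 1 ∈ W := by simpa using W.add_mem m2 m4
      have m6 : e 0 ∈ W := by simpa using W.add_mem h0 m5
      exact Or.inr fun i => by fin_cases i; exacts [m6, m5, m4]
    · refine Or.inl (eq_bot_iff.2 fun y hy => ?_)
      have n2 : e 1 - (1 : F) • e 2 ∉ W := fun h => h0 ((W.smul_mem_iff (by simp [hb.apply])).1 (hR _ _ r1 i1 _ h))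
      have n3 : e 0 - a • e 2 ∉ W := fun h => h0 ((W.smul_mem_iff (by simp [hb.apply])).1 (hR _ _ r1 i1 _ h))
      have z1 := not_not.1 fun h => h0 ((W.smul_mem_iff h).1 (hR _ _ r1 i1 _ hy))
      have z2 := not_not.1 fun h => n2 ((W.smul_mem_iff h).1 (hR _ _ r2 i2 _ hy))
      have z3 := not_not.1 fun h => n3 ((W.smul_mem_iff h).1 (hR _ _ r3 i3 _ hy))
      simp only [LinearMap.sub_apply, LinearMap.smul_apply, smul_eq_mul, inv_one, one_mul] at z1 z2 z3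
      field_simp at z3
      have z4 : x 2 y = 0 := mul_left_cancel₀ h3 (by linear_combination z3 - a * z1 - a * z2)
      have z5 : x 1 y = 0 := by linear_combination z2 + z4
      have z6 : x 0 y = 0 := by linear_combination z1 + z5
      rw [← hW y hy, pr, Fin.sum_univ_three, z4, z5, z6]
      simp
  · simp [hb.apply] at h
    field_simp at h
    linear_combination h

theorem c_std (hb : Bi e x) {i j : Fin k} (hij : i ≠ j) {a : F} (ha : a ≠ 0) :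
    a * ((x i - (1 : F)⁻¹ • x j) (e i - a • e j) * (x i - a⁻¹ • x j) (e i - (1 : F) • e j)) = (a + 1) ^ 2 := by
  rw [std_pair hb hij, std_pair hb hij]
  field_simp
  ring

theorem not_same_std (hb : Bi e x) {i j : Fin k} (hij : i ≠ j) {a : F} (ha : a ≠ 1) {η ζ : Dual F (ι → F)} :
    ¬ SameRf (e i - (1 : F) • e j) η (e i - a • e j) ζ := by
  rintro ⟨t, -, h, -⟩
  have h1 := congrArg (x i) h
  have h2 := congrArg (x j) h
  simp [hb.diag, hb.off i j hij, hb.off j i hij.symm] at h1 h2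
  exact ha (h2.trans h1.symm)

/-- For `m ≥ 4` the reflections on the span of the frame of `G(m, m, 3)` are monomial. -/
theorem inMon {M : Subgroup Fˣ} {e : Fin 3 → ι → F} {x : Fin 3 → Dual F (ι → F)} (h : GCfg Γ M e x)
    (hF : AI Γ e x → Framed Γ e x) {a : Fˣ} (haM : a ∈ M) (ha2 : a ^ 2 ≠ 1) (ha3 : a ^ 3 ≠ 1) (hv : Rf Γ v φ)
    (hi : In e x v φ) : Mon e x v φ := by
  have hb := h.bi
  have b2 := unit_pow_ne ha2
  have b3 := unit_pow_ne ha3
  have b1 : (a : F) ≠ 1 := fun h => b2 (by rw [h, one_pow])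
  have r1 : ∀ i j, i ≠ j → Rf Γ (e i - (1 : F) • e j) (x i - (1 : F)⁻¹ • x j) := fun i j hij =>
    h.rf i j hij 1 M.one_mem
  obtain ⟨e', x', hb', hs, hm⟩ := hF (ai_of_rf hb a.ne_zero b2 (r1 0 1 (by decide)) (r1 1 2 (by decide))
    (h.rf 0 2 (by decide) a haM))
  have m2 := hm _ _ (r1 1 2 (by decide)) (hb.in_swap 1 2 _ _)
  have sw : ∀ c : F, c ≠ 0 → Mon e' x' (e 0 - c • e 1) (x 0 - c⁻¹ • x 1) →
      ∀ i, ¬ Dg e' x' i (e 0 - c • e 1) (x 0 - c⁻¹ • x 1) := fun c hc m1 i hd => by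
    have one : (x 0 - c⁻¹ • x 1) (e 1 - (1 : F) • e 2) * (x 1 - (1 : F)⁻¹ • x 2) (e 0 - c • e 1) = 1 := by
      simp [hb.apply, hc]
    rcases mon_iff.1 m2 with ⟨l, m2⟩ | ⟨l, m, hlm, m2⟩
    · rcases dg_dg hb' hd m2 with ⟨t, -, h1, -⟩ | h1
      · simpa [hb.apply] using congrArg (x 2) h1
      · rw [h1.1, zero_mul] at one
        exact zero_ne_one one
    · rcases dg_sw hb' hlm hd m2 with h1 | h1
      · rw [h1.1, zero_mul] at one
        exact zero_ne_one one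
      · exact zero_ne_one (α := F) (by linear_combination h1.1 - one)
  have m0 := hm _ _ (r1 0 1 (by decide)) (hb.in_swap 0 1 _ _)
  have m1 := hm _ _ (h.rf 0 1 (by decide) a haM) (hb.in_swap 0 1 _ _)
  have hc := c_std hb (i := 0) (j := 1) (by decide) a.ne_zero
  rcases pair_cases hb' m0 m1 with h1 | h1 | h1 | ⟨i, j, -, ⟨h1, -⟩ | ⟨h1, -⟩⟩ | ⟨p, q, hpq, h1, h2⟩
  · exact absurd h1 (not_same_std hb (by decide) b1)
  · rw [h1, mul_zero] at hc
    exact absurd (by linear_combination ((a : F) - 1) * eq_zero_of_pow_eq_zero hc.symm) b2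
  · rw [h1] at hc
    exact absurd (by linear_combination (1 - (a : F)) * hc) b3
  · exact absurd h1 (sw 1 one_ne_zero m0 i)
  · exact absurd h1 (sw a a.ne_zero m1 i)
  · obtain ⟨p, q, -, h1, h2⟩ := swap_pair hb hb' (by decide) hpq a.ne_zero b2 h1 h2
    exact mon_transfer hb hb' (third hb' hs h1 h2) (hm v φ hv hi)

/-- A frame for an asymmetric triple. -/
theorem frame_of_triples {Γ : Subgroup (G F)} (hT : Triples Γ (Framed Γ) (Framed Γ)) {u v w : V F}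
    {φ ψ χ : Dual F (V F)} (hu : Rf Γ u φ) (hv : Rf Γ v ψ) (hw : Rf Γ w χ) (h : Asym u φ v ψ w χ) :
    ∃ (k : ℕ) (e : Fin k → V F) (x : Fin k → Dual F (V F)), Bi e x ∧ Mon e x u φ ∧ Mon e x v ψ ∧ Mon e x w χ ∧
      (k = 2 ∨ (k = 3 ∧ cdet u φ v ψ w χ ≠ 0)) := by
  rcases hT _ _ _ _ _ _ hu hv hw h with ⟨e, x, -, a1, a2, a3, e', x', hb, -, hm⟩ |
    ⟨h0, e, x, -, a1, a2, a3, e', x', hb, -, hm⟩
  · exact ⟨2, e', x', hb, hm _ _ hu a1, hm _ _ hv a2, hm _ _ hw a3, Or.inl rfl⟩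
  · exact ⟨3, e', x', hb, hm _ _ hu a1, hm _ _ hv a2, hm _ _ hw a3, Or.inr ⟨rfl, h0⟩⟩

theorem pairMon {Γ : Subgroup (G F)} (hT : Triples Γ (Framed Γ) (Framed Γ)) {M : Subgroup Fˣ} {e : Fin 3 → V F}
    {x : Fin 3 → Dual F (V F)} (h : GCfg Γ M e x) {a : Fˣ} (haM : a ∈ M) (ha3 : a ^ 3 ≠ 1) (ha4 : a ^ 4 ≠ 1) :
    PairMon Γ e x := fun v φ hv i j hne => by
  have hb := h.bi
  have hij : i ≠ j := fun h => hne (by rw [h])
  have b3 := unit_pow_ne ha3
  have b4 := unit_pow_ne ha4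
  have b2 : (a : F) ^ 2 ≠ 1 := fun h => b4 (by linear_combination ((a : F) ^ 2 + 1) * h)
  have b1 : (a : F) ≠ 1 := fun h => b2 (by rw [h, one_pow])
  obtain ⟨k, e', x', hb', m1, m2, m3, -⟩ := frame_of_triples hT hv (h.rf i j hij 1 M.one_mem) (h.rf i j hij a haM)
    (asym_pair hb hij a.ne_zero b2 hne)
  have hc := c_std hb hij a.ne_zero
  rcases pair_cases hb' m2 m3 with h1 | h1 | h1 | ⟨p, q, hpq, ⟨h1, h2⟩ | ⟨h1, h2⟩⟩ | ⟨p, q, hpq, h1, h2⟩
  · exact absurd h1 (not_same_std hb hij b1)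
  · rw [Units.val_one] at h1
    rw [h1, mul_zero] at hc
    exact absurd (by linear_combination ((a : F) - 1) * eq_zero_of_pow_eq_zero hc.symm) b2
  · rw [Units.val_one] at h1
    rw [h1] at hc
    exact absurd (by linear_combination (1 - (a : F)) * hc) b3
  · have := dg_sw_two hb' hpq h1 h2
    rw [Units.val_one] at this
    rw [this] at hc
    exact absurd (by linear_combination (1 - (a : F) ^ 2) * hc) b4
  · have := dg_sw_two hb' hpq h1 h2
    rw [Units.val_one, mul_comm] at this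
    rw [this] at hc
    exact absurd (by linear_combination (1 - (a : F) ^ 2) * hc) b4
  · obtain ⟨p, q, -, h1, h2⟩ := swap_pair hb hb' hij hpq a.ne_zero b2 h1 h2
    exact pair_core hb' h1 h2 m1 hne

end Big5

theorem stepBig5 : StepBig5.{u} := fun hE F _ _ Γ hO hH hT hF M e x h => by
  refine ⟨fun a ha => ?_, fun ⟨a, ha, h2, h3⟩ v φ hv hi => Big5.inMon h (hF e x) ha h2 h3 hv hi⟩
  by_contra hne
  obtain ⟨h3, h4⟩ := not_or.1 hne
  have h2 : a ^ 2 ≠ 1 := fun h => h4 (by rw [show 4 = 2 * 2 from rfl, pow_mul, h, one_pow])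
  exact hE F Γ hO hH hT M ⟨a, ha, h2, h3⟩ (fun e x h => ⟨Big5.pairMon hT h ha h3 h4,
    fun v φ hv hi => Big5.inMon h (hF e x) ha h2 h3 hv hi⟩) e x h

end CL.Low4
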