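/-
Project LOW4: no `G(4, 4, 3)`; every asymmetric triple generates `G(3, 3, 3)`.
-/
import Cfsg.Agent.Low4.Big5

set_option autoImplicit false
set_option linter.unusedSectionVars false
set_option linter.unnecessarySeqFocus false

namespace CL.Low4

open Matrix Cfsg Cfsg.Geo CL.Asch CL.SLn CL.Low Module

universe u

namespace Big4

open Big5

section General

variable {ι : Type} [Fintype ι] [DecidableEq ι] {F : Type u} [Field F] {k : ℕ} {Γ : Subgroup (GL ι F)}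
  {u v w : ι → F} {φ ψ χ : Dual F (ι → F)} {e : Fin k → ι → F} {x : Fin k → Dual F (ι → F)}

/-- The normal form given by `FROut`. -/
def Nf (M : Subgroup Fˣ) (e : Fin k → ι → F) (x : Fin k → Dual F (ι → F)) (v : ι → F) (φ : Dual F (ι → F)) : Prop :=
  (-1 ∈ M ∧ ∃ i, SameRf (e i) ((2 : F) • x i) v φ) ∨
    ∃ i j, i ≠ j ∧ ∃ a ∈ M, SameRf (e i - (a : F) • e j) (x i - (a : F)⁻¹ • x j) v φ

theorem Nf.mon {M : Subgroup Fˣ} (h : Nf M e x v φ) : Mon e x v φ := by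
  rcases h with ⟨-, i, h⟩ | ⟨i, j, hij, a, -, h⟩
  · exact mon_iff.2 (Or.inl ⟨i, dg_of_same h⟩)
  · exact mon_iff.2 (Or.inr ⟨i, j, hij, sw_of_same a.ne_zero h⟩)

theorem not_dg_sw (hb : Bi e x) {i j l : Fin k} (hjl : j ≠ l) (h1 : Dg e x i v φ) (h2 : Sw e x j l v φ) : False := by
  have a1 := h2.left hb hjl
  have a2 := h2.symm.left hb hjl.symm
  by_cases h : j = i
  · rw [(h1.off hb (h ▸ hjl.symm)).1, mul_zero] at a2
    exact zero_ne_one a2
  · rw [(h1.off hb h).1, mul_zero] at a1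
    exact zero_ne_one a1

theorem Nf.dg {M : Subgroup Fˣ} (hb : Bi e x) (h : Nf M e x v φ) {i : Fin k} (hd : Dg e x i v φ) : -1 ∈ M := by
  rcases h with h | ⟨j, l, hjl, a, -, h⟩
  · exact h.1
  · exact (not_dg_sw hb hjl hd (sw_of_same a.ne_zero h)).elim

theorem same_flip {i j : Fin k} {a : F} (ha : a ≠ 0) :
    SameRf (e j - a⁻¹ • e i) (x j - a⁻¹⁻¹ • x i) (e i - a • e j) (x i - a⁻¹ • x j) :=
  ⟨-a, neg_ne_zero.2 ha, by match_scalars <;> field_simp, by match_scalars <;> field_simp⟩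

theorem Nf.sw {M : Subgroup Fˣ} (hb : Bi e x) (h : Nf M e x v φ) {i j : Fin k} (hij : i ≠ j) (hs : Sw e x i j v φ) :
    ∃ a ∈ M, SameRf (e i - (a : F) • e j) (x i - (a : F)⁻¹ • x j) v φ := by
  rcases h with ⟨-, l, h⟩ | ⟨l, m, hlm, a, ha, h⟩
  · exact (not_dg_sw hb hij (dg_of_same h) hs).elim
  have h' := sw_of_same a.ne_zero h
  have key : ∀ p, φ (e p) * x p v = 1 → p = i ∨ p = j := fun p hp => by
    by_contra hne
    rw [(hs.off hb (not_or.1 hne).1 (not_or.1 hne).2).1, mul_zero] at hp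
    exact zero_ne_one hp
  rcases key l (h'.left hb hlm) with rfl | rfl <;> rcases key m (h'.symm.left hb hlm.symm) with rfl | rfl
  · exact absurd rfl hlm
  · exact ⟨a, ha, h⟩
  · exact ⟨a⁻¹, M.inv_mem ha, by rw [Units.val_inv_eq_inv_val]; exact (same_flip a.ne_zero).trans h⟩
  · exact absurd rfl hlm

theorem c_same {v' w' : ι → F} {φ' ψ' : Dual F (ι → F)} (h1 : SameRf v φ v' φ') (h2 : SameRf w ψ w' ψ') :
    φ' w' * ψ' v' = φ w * ψ v := by
  rw [h1.pair, mul_comm, h2.pair, mul_comm]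

/-- The `c`-values of two reflections in normal form. -/
theorem cvals {M : Subgroup Fˣ} (hb : Bi e x) (h1 : Nf M e x v φ) (h2 : Nf M e x w ψ) :
    SameRf v φ w ψ ∨ φ w * ψ v = 0 ∨ φ w * ψ v = 1 ∨ (φ w * ψ v = 2 ∧ -1 ∈ M) ∨
      ∃ t ∈ M, t ≠ 1 ∧ (t : F) * (φ w * ψ v) = (t + 1) ^ 2 := by
  rcases pair_cases hb h1.mon h2.mon with h | h | h | ⟨i, j, hij, ⟨a1, a2⟩ | ⟨a1, a2⟩⟩ | ⟨i, j, hij, a1, a2⟩
  · exact Or.inl h
  · exact Or.inr (Or.inl h)
  · exact Or.inr (Or.inr (Or.inl h))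
  · exact Or.inr (Or.inr (Or.inr (Or.inl ⟨dg_sw_two hb hij a1 a2, h1.dg hb a1⟩)))
  · exact Or.inr (Or.inr (Or.inr (Or.inl ⟨by rw [mul_comm]; exact dg_sw_two hb hij a1 a2, h2.dg hb a1⟩)))
  · obtain ⟨a, ha, b1⟩ := h1.sw hb hij a1
    obtain ⟨b, hb', b2⟩ := h2.sw hb hij a2
    by_cases hab : b * a⁻¹ = 1
    · rw [mul_inv_eq_one.1 hab] at b2
      exact Or.inl (b1.symm.trans b2)
    · refine Or.inr (Or.inr (Or.inr (Or.inr ⟨_, M.mul_mem hb' (M.inv_mem ha), hab, ?_⟩)))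
      rw [c_same b1 b2, std_pair hb hij, std_pair hb hij, Units.val_mul, Units.val_inv_eq_inv_val]
      field_simp
      ring

theorem two_ne {c : ι → F} {η : Dual F (ι → F)} (h : Rf Γ c ((2 : F) • η)) : (2 : F) ≠ 0 := fun h2 =>
  h.ne' (by rw [h2, zero_smul])

/-- A diagonal reflection and two swaps on a plane. -/
structure PCfg (Γ : Subgroup (GL ι F)) (t : F) (f : Fin 2 → ι → F) (y : Fin 2 → Dual F (ι → F)) : Prop where
  bi : Bi f y
  ne : t ≠ 0
  sq : t ^ 2 ≠ 1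
  r : Rf Γ (f 0) ((2 : F) • y 0)
  s : Rf Γ (f 0 - (1 : F) • f 1) (y 0 - (1 : F)⁻¹ • y 1)
  s' : Rf Γ (f 0 - t • f 1) (y 0 - t⁻¹ • y 1)

variable {t : F} {f : Fin 2 → ι → F} {y : Fin 2 → Dual F (ι → F)}

theorem in_dg (hb : Bi e x) (i : Fin k) : In e x (e i) ((2 : F) • x i) := ⟨hb.pr_e i, by rw [prD_smul, hb.prD_x]⟩

theorem PCfg.ai (h : PCfg Γ t f y) : AI Γ f y := by
  have hb := h.bi
  have h2 := two_ne h.r
  have i0 := in_dg hb 0
  have i1 := hb.in_swap 0 1 1 (1 : F)⁻¹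
  refine ⟨hb, fun W hW hR => ?_, _, _, _, _, _, _, h.r, h.s, h.s', i0, i1, hb.in_swap _ _ _ _,
    asym_pair hb (by decide) h.ne h.sq (by simpa [hb.apply] using h2)⟩
  by_cases h0 : f 0 ∈ W
  · have m1 : f 0 - (1 : F) • f 1 ∈ W := (W.smul_mem_iff (by simp [hb.apply])).1 (hR _ _ h.s i1 _ h0)
    have m2 : f 1 ∈ W := by simpa using W.sub_mem h0 m1
    exact Or.inr fun i => by fin_cases i; exacts [h0, m2]
  · refine Or.inl (eq_bot_iff.2 fun z hz => ?_)
    have n1 : f 0 - (1 : F) • f 1 ∉ W := fun m =>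
      h0 ((W.smul_mem_iff (by simpa [hb.apply] using h2)).1 (hR _ _ h.r i0 _ m))
    have z1 := not_not.1 fun m => h0 ((W.smul_mem_iff m).1 (hR _ _ h.r i0 _ hz))
    have z2 := not_not.1 fun m => n1 ((W.smul_mem_iff m).1 (hR _ _ h.s i1 _ hz))
    simp only [LinearMap.sub_apply, LinearMap.smul_apply, smul_eq_mul, inv_one, one_mul] at z1 z2
    have z3 : y 0 z = 0 := (mul_eq_zero.1 z1).resolve_left h2
    have z4 : y 1 z = 0 := by linear_combination z3 - z2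
    rw [← hW z hz, pr, Fin.sum_univ_two, z3, z4]
    simp

theorem PCfg.neg (h : PCfg Γ t f y) : PCfg Γ (-t) f y := by
  have hb := h.bi
  refine ⟨hb, neg_ne_zero.2 h.ne, by rw [neg_sq]; exact h.sq, h.r, h.s, ?_⟩
  convert (h.r.refl h.s').neg using 1
  · simp only [map_sub, map_smul, LinearMap.smul_apply, hb.diag, hb.off 0 1 (by decide), smul_eq_mul]
    module
  · simp only [LinearMap.sub_apply, LinearMap.smul_apply, hb.diag, hb.off 1 0 (by decide), smul_eq_mul, inv_neg]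
    module

theorem PCfg.sc (h : PCfg Γ t f y) : ∃ g ∈ Γ, Sc f y (-1) g := by
  have hb := h.bi
  have r1 : Rf Γ (f 1) ((2 : F) • y 1) := by
    convert h.s.refl h.r using 1
    · simp only [LinearMap.sub_apply, LinearMap.smul_apply, hb.diag, hb.off 1 0 (by decide), smul_eq_mul]
      module
    · simp only [map_sub, map_smul, LinearMap.smul_apply, hb.diag, hb.off 0 1 (by decide), smul_eq_mul, inv_one]
      module
  obtain ⟨a, ha, ea⟩ := h.r.mem
  obtain ⟨b, hb', eb⟩ := r1.mem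
  refine ⟨a * b, Γ.mul_mem ha hb', fun z => ?_⟩
  simp only [mul_smul, ea, eb, map_sub, map_smul, LinearMap.smul_apply, hb.off 0 1 (by decide), smul_eq_mul, pr,
    Fin.sum_univ_two]
  module

/-- Normalising a diagonal reflection and two swaps on the same pair. -/
theorem exists_pcfg (hb : Bi e x) {p q : Fin k} (hpq : p ≠ q) (hu : Rf Γ u φ) (hv : Rf Γ v ψ) (hw : Rf Γ w χ)
    (h1 : Sw e x p q u φ) (h2 : Dg e x p v ψ) (h3 : Sw e x p q w χ) (hA : Asym u φ v ψ w χ) :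
    ∃ (t : F) (f : Fin 2 → ι → F) (y : Fin 2 → Dual F (ι → F)), PCfg Γ t f y ∧ SameRf (f 0) ((2 : F) • y 0) v ψ ∧
      SameRf (f 0 - (1 : F) • f 1) (y 0 - (1 : F)⁻¹ • y 1) w χ ∧ SameRf (f 0 - t • f 1) (y 0 - t⁻¹ • y 1) u φ := by
  obtain ⟨c, hc, a1⟩ := h1.same
  obtain ⟨b, hb', a3⟩ := h3.same
  have a2 := h2.same
  have hB : Bi ![e p, b • e q] ![x p, b⁻¹ • x q] :=
    ⟨fun i => by fin_cases i <;> simp [hb.diag, hb'], fun i j hij => by
      fin_cases i <;> fin_cases j <;> first | exact absurd rfl hij | simp [hb.off p q hpq, hb.off q p hpq.symm]⟩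
  have b3 : SameRf (e p - (1 : F) • b • e q) (x p - (1 : F)⁻¹ • b⁻¹ • x q) w χ := by
    rwa [inv_one, one_smul, one_smul]
  have b1 : SameRf (e p - (c / b) • b • e q) (x p - (c / b)⁻¹ • b⁻¹ • x q) u φ := by
    rwa [smul_smul, smul_smul, div_mul_cancel₀ _ hb', ← mul_inv, div_mul_cancel₀ _ hb']
  refine ⟨c / b, _, _, ⟨hB, div_ne_zero hc hb', fun h => ?_, hv.same a2.symm, hw.same b3.symm, hu.same b1.symm⟩,
    a2, b3, b1⟩
  refine ((((hA.same a1.symm).rotate.same a2.symm).rotate.same a3.symm)) ?_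
  rw [std_pair hb hpq, std_pair hb hpq]
  simp only [map_sub, map_smul, LinearMap.sub_apply, LinearMap.smul_apply, hb.diag, hb.off p q hpq,
    hb.off q p hpq.symm, smul_eq_mul]
  field_simp at h ⊢
  linear_combination 2 * h

/-- A diagonal reflection and two swaps on different pairs are symmetric. -/
theorem not_asym_three (hb : Bi e x) {p q m : Fin k} (hpq : p ≠ q) (hpm : p ≠ m) (hqm : q ≠ m)
    (h1 : Sw e x p m u φ) (h2 : Dg e x p v ψ) (h3 : Sw e x p q w χ) : ¬ Asym u φ v ψ w χ := fun h => h (by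
  obtain ⟨a, b, ha, -, rfl, rfl⟩ := h1
  obtain ⟨c, hc, rfl, rfl⟩ := h2
  obtain ⟨d, g, hd, -, rfl, rfl⟩ := h3
  simp only [map_add, map_smul, LinearMap.add_apply, LinearMap.smul_apply, hb.diag, hb.off p q hpq,
    hb.off q p hpq.symm, hb.off p m hpm, hb.off m p hpm.symm, hb.off q m hqm, hb.off m q hqm.symm, smul_eq_mul]
  field_simp
  ring)

/-- Three swaps on the same pair are symmetric. -/
theorem not_asym_sw (hb : Bi e x) {p q : Fin k} (hpq : p ≠ q)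
    (h1 : Sw e x p q u φ) (h2 : Sw e x p q v ψ) (h3 : Sw e x p q w χ) : ¬ Asym u φ v ψ w χ := fun h => h (by
  obtain ⟨a, b, ha, hb1, rfl, rfl⟩ := h1
  obtain ⟨c, c', hc, hc', rfl, rfl⟩ := h2
  obtain ⟨d, g, hd, hg, rfl, rfl⟩ := h3
  simp only [map_add, map_smul, LinearMap.add_apply, LinearMap.smul_apply, hb.diag, hb.off p q hpq,
    hb.off q p hpq.symm, smul_eq_mul]
  field_simp
  ring)

/-- The third member of an asymmetric triple with a diagonal reflection and a swap. -/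
theorem third_sw (hz : ZSym Γ) (hb : Bi e x) {p q : Fin k} (hpq : p ≠ q) (hu : Rf Γ u φ) (hv : Rf Γ v ψ)
    (hw : Rf Γ w χ) (h1 : Mon e x u φ) (h2 : Dg e x p v ψ) (h3 : Sw e x p q w χ) (hA : Asym u φ v ψ w χ) :
    Sw e x p q u φ := by
  have hne := (hA.ne hz hu hv hw).1
  rcases mon_iff.1 h1 with ⟨l, h1⟩ | ⟨l, m, hlm, h1⟩
  · exact ((dg_dg hb h1 h2).elim (hA.not_same hu.two) fun h => hne.1 h.1).elim
  · rcases dg_sw hb hlm h2 h1 with h | ⟨-, m, hm, h⟩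
    · exact absurd h.1 hne.2
    · by_cases hq : q = m
      · exact hq ▸ h
      · exact absurd hA (not_asym_three hb hpq hm hq h h2 h3)

/-- The computation in the plane of `G(4, 2, 2)`. -/
theorem solve_plane {c d f₀ f₁ : ι → F} {η ζ y₀ y₁ : Dual F (ι → F)} {a : F} (h2 : (2 : F) ≠ 0) (ha : a ^ 2 = -1)
    (ht : t ^ 2 = -1) (hp : (η - ζ) (c - a • d) = 1 + a) (b0 : y₀ f₀ = 1) (b1 : y₀ f₁ = 0)
    (s1 : SameRf f₀ ((2 : F) • y₀) (c - d) (η - ζ))
    (s2 : SameRf (f₀ - (1 : F) • f₁) (y₀ - (1 : F)⁻¹ • y₁) (c - a • d) (η - a⁻¹ • ζ)) :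
    SameRf c ((2 : F) • η) (f₀ - t • f₁) (y₀ - t⁻¹ • y₁) ∨ SameRf d ((2 : F) • ζ) (f₀ - t • f₁) (y₀ - t⁻¹ • y₁) := by
  obtain ⟨g, hg, c1, d1⟩ := s1
  obtain ⟨δ, hδ, c2, d2⟩ := s2
  rw [d1, c2] at hp
  simp only [map_sub, map_smul, LinearMap.smul_apply, b0, b1, smul_eq_mul] at hp
  field_simp at hp
  have ha0 : a ≠ 0 := fun h => by simp [h] at ha
  have hai : a⁻¹ = -a := inv_eq_of_mul_eq_one_right (by linear_combination -ha)
  have h1a : 1 + a ≠ 0 := fun h => h2 (by linear_combination (1 - a) * h + ha)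
  have hδ' : δ = g * (1 + a) / 2 := by field_simp; linear_combination hp
  have e0 : f₀ = g⁻¹ • (c - d) := by rw [c1, smul_smul, inv_mul_cancel₀ hg, one_smul]
  have e1 : f₁ = f₀ - δ⁻¹ • (c - a • d) := by rw [c2, smul_smul, inv_mul_cancel₀ hδ]; module
  have e2 : y₀ = (g / 2) • (η - ζ) := by rw [d1]; match_scalars; field_simp
  have e3 : y₁ = y₀ - δ • (η - a⁻¹ • ζ) := by rw [d2, smul_smul, mul_inv_cancel₀ hδ, inv_one]; module
  have hδi : δ⁻¹ = g⁻¹ * (1 - a) := inv_eq_of_mul_eq_one_right (by rw [hδ']; field_simp; linear_combination -ha)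
  rw [hδi] at e1
  rw [hδ', hai] at e3
  rcases sq_eq_sq_iff_eq_or_eq_neg.1 (ht.trans ha.symm) with rfl | rfl
  · refine Or.inl ⟨2 / g, div_ne_zero h2 hg, ?_, ?_⟩
    · rw [e1, e0]
      match_scalars
      · field_simp; linear_combination -ha
      · field_simp; linear_combination (t - 1) * ha
    · rw [e3, e2, hai]
      match_scalars
      · field_simp; linear_combination -ha
      · field_simp; linear_combination -g * (1 + t) * ha
  · refine Or.inr ⟨-(2 / g), neg_ne_zero.2 (div_ne_zero h2 hg), ?_, ?_⟩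
    · rw [e1, e0]
      match_scalars
      · field_simp; linear_combination ha
      · field_simp; linear_combination (1 - a) * ha
    · rw [e3, e2, inv_neg, hai]
      match_scalars
      · field_simp; linear_combination g * ha
      · field_simp; linear_combination (1 + a) * ha

end General

variable {F : Type u} [Field F] {Γ : Subgroup (G F)} {t : F} {f : Fin 2 → V F} {y : Fin 2 → Dual F (V F)}

/-- The plane of a diagonal reflection and two swaps lies in an asymmetric `3`-space. -/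
theorem extend (hO : Od Γ ∨ Ev Γ) (h : PCfg Γ t f y) :
    ∃ (e : Fin 3 → V F) (x : Fin 3 → Dual F (V F)), AI Γ e x ∧ ∀ v φ, In f y v φ → In e x v φ := by
  have h2 := two_ne h.r
  have hO := hO.resolve_right fun h => h2 h.two
  obtain ⟨v, φ, hv, a1, a2⟩ := exists_moving hO.gen hO.irr h.bi two_pos (by simp)
  obtain ⟨g, hg, hs⟩ := h.sc
  obtain ⟨d, χ, b1, b2, -, b4, -⟩ := h.ai.snoc hv (fun h0 => a1 ((h.ai.pr_eq_zero_iff hO.zsym hv).1 h0)) a1
    fun h0 => a2 (dl h2 hO.noTv h.ai hs (nrm_of_mem hg) (fun h1 => h2 (by linear_combination -h1)) hv h0).1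
  exact ⟨_, _, b4, fun v φ hi => hi.snoc b1 b2⟩

theorem PCfg.cases (hO : Od Γ ∨ Ev Γ) (hF : FROut Γ) (h5 : Big5Out Γ) (h : PCfg Γ t f y) :
    t ^ 2 = -1 ∨ t ^ 2 + t + 1 = 0 := by
  obtain ⟨e, x, hA, hi⟩ := extend hO h
  obtain ⟨M, e', x', hG, -, -, hN⟩ := hF e x hA
  have hc := c_std h.bi (i := 0) (j := 1) (by decide) h.ne
  have h1 : t ≠ 1 := fun h1 => h.sq (by rw [h1, one_pow])
  have key : ∀ c : F, t * c = (t + 1) ^ 2 → c = 0 ∨ c = 1 ∨ c = 2 → t ^ 2 = -1 ∨ t ^ 2 + t + 1 = 0 := by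
    rintro c hc (rfl | rfl | rfl)
    · rw [mul_zero] at hc
      exact absurd (by linear_combination (t - 1) * eq_zero_of_pow_eq_zero hc.symm) h.sq
    · exact Or.inr (by linear_combination -hc)
    · exact Or.inl (by linear_combination -hc)
  refine key _ hc ?_
  rcases cvals (M := M) hG.bi (hN _ _ h.s (hi _ _ (h.bi.in_swap _ _ _ _))) (hN _ _ h.s' (hi _ _ (h.bi.in_swap _ _ _ _)))
    with h3 | h3 | h3 | h3 | ⟨s, hs, h3, h4⟩
  · exact absurd h3 (not_same_std h.bi (by decide) h1)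
  · exact Or.inl h3
  · exact Or.inr (Or.inl h3)
  · exact Or.inr (Or.inr h3.1)
  · have h6 : (s : F) - 1 ≠ 0 := fun h => h3 (Units.ext (sub_eq_zero.1 h))
    rcases (h5 M e' x' hG).1 s hs with h7 | h7
    · have h8 : (s : F) ^ 3 = 1 := by rw [← Units.val_pow_eq_pow_val, h7, Units.val_one]
      exact Or.inr (Or.inl (mul_left_cancel₀ (mul_ne_zero h6 s.ne_zero) (by linear_combination (s - 1) * h4 + h8)))
    · have h8 : (s : F) ^ 4 = 1 := by rw [← Units.val_pow_eq_pow_val, h7, Units.val_one]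
      have h9 : ((s : F) + 1) * (s ^ 2 + 1) = 0 := mul_left_cancel₀ h6 (by linear_combination h8)
      rcases mul_eq_zero.1 h9 with h9 | h9
      · exact Or.inl (mul_left_cancel₀ s.ne_zero (by linear_combination h4 + (s + 1) * h9))
      · exact Or.inr (Or.inr (mul_left_cancel₀ s.ne_zero (by linear_combination h4 + h9)))

theorem PCfg.sq_eq (hO : Od Γ ∨ Ev Γ) (hF : FROut Γ) (h5 : Big5Out Γ) (h : PCfg Γ t f y) : t ^ 2 = -1 := by
  rcases h.cases hO hF h5 with h1 | h1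
  · exact h1
  rcases h.neg.cases hO hF h5 with h2 | h2
  · rwa [neg_sq] at h2
  · exact absurd (mul_left_cancel₀ (two_ne h.r) (by linear_combination h1 - h2)) h.ne

theorem zsym (hO : Od Γ ∨ Ev Γ) : ZSym Γ := hO.elim (fun h => h.zsym) fun h => h.zsym

theorem pairMon (hO : Od Γ ∨ Ev Γ) (hT : Triples Γ (Framed Γ) (Framed Γ)) (hF : FROut Γ) (h5 : Big5Out Γ)
    {M : Subgroup Fˣ} {e : Fin 3 → V F} {x : Fin 3 → Dual F (V F)} (h : GCfg Γ M e x) {a : Fˣ} (haM : a ∈ M)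
    (b2 : (a : F) ^ 2 ≠ 1) (b4 : (a : F) ^ 2 = -1) : PairMon Γ e x := fun v φ hv i j hne => by
  have hb := h.bi
  have hij : i ≠ j := fun h => hne (by rw [h])
  have h2 : (2 : F) ≠ 0 := fun h => b2 (by linear_combination b4 - h)
  have b1 : (a : F) ≠ 1 := fun h => b2 (by rw [h, one_pow])
  have r1 : Rf Γ (e i - (1 : F) • e j) (x i - (1 : F)⁻¹ • x j) := h.rf i j hij 1 M.one_mem
  have r2 := h.rf i j hij a haM
  have hA := asym_pair hb hij a.ne_zero b2 hne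
  obtain ⟨k, e', x', hb', m1, m2, m3, -⟩ := frame_of_triples hT hv r1 r2 hA
  have hc := c_std hb hij a.ne_zero
  rcases pair_cases hb' m2 m3 with h1 | h1 | h1 | ⟨p, q, hpq, ⟨h1, h3⟩ | ⟨h1, h3⟩⟩ | ⟨p, q, hpq, h1, h3⟩
  · exact absurd h1 (not_same_std hb hij b1)
  · rw [h1, mul_zero] at hc
    exact absurd (by linear_combination ((a : F) - 1) * eq_zero_of_pow_eq_zero hc.symm) b2
  · rw [h1] at hc
    exact absurd (by linear_combination -hc - b4) a.ne_zero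
  · obtain ⟨t, f, y, hP, s1, s2, s3⟩ := exists_pcfg hb' hpq hv r1 r2
      (third_sw (zsym hO) hb' hpq hv r1 r2 m1 h1 h3 hA) h1 h3 hA
    rw [inv_one, one_smul, one_smul] at s1
    refine Or.inr (Or.inr ((solve_plane h2 b4 (hP.sq_eq hO hF h5) ?_ (hP.bi.diag 0) (hP.bi.off 0 1 (by decide))
      s1 s2).imp (·.trans s3) (·.trans s3)))
    simpa using std_pair hb hij a 1
  · have hA' := hA.rotate.swap.rotate.rotate
    obtain ⟨t, f, y, hP, s1, s2, s3⟩ := exists_pcfg hb' hpq hv r2 r1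
      (third_sw (zsym hO) hb' hpq hv r2 r1 m1 h1 h3 hA') h1 h3 hA'
    have s4 : SameRf (e j) ((2 : F) • x j) ((a : F) • e j) ((2 : F) • (a : F)⁻¹ • x j) :=
      same_two ⟨a, a.ne_zero, rfl, rfl⟩
    refine Or.inr (Or.inr ((solve_plane (a := (a : F)⁻¹) h2 (by rw [inv_pow, b4, inv_neg, inv_one])
      (hP.sq_eq hO hF h5) ?_ (hP.bi.diag 0) (hP.bi.off 0 1 (by decide)) s1 ?_).imp (·.trans s3)
      fun h => s4.trans (h.trans s3)))
    · rw [smul_smul, std_pair hb hij, inv_mul_cancel₀ a.ne_zero, one_mul]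
    · rw [smul_smul (a : F)⁻¹, smul_smul, inv_mul_cancel₀ a.ne_zero, inv_inv, mul_inv_cancel₀ a.ne_zero]
      rwa [inv_one] at s2 ⊢
  · obtain ⟨p, q, -, h1, h3⟩ := swap_pair hb hb' hij hpq a.ne_zero b2 h1 h3
    exact pair_core hb' h1 h3 m1 hne

variable [Fintype F]

theorem noBig4 (hE : StepExt.{u}) (hO : Od Γ ∨ Ev Γ) (hH : H4Free Γ) (hT : Triples Γ (Framed Γ) (Framed Γ))
    (hF : FROut Γ) (h5 : Big5Out Γ) {M : Subgroup Fˣ} {e : Fin 3 → V F} {x : Fin 3 → Dual F (V F)}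
    (h : GCfg Γ M e x) {a : Fˣ} (haM : a ∈ M) (h2 : a ^ 2 ≠ 1) : a ^ 3 = 1 := by
  by_contra h3
  have h4 := ((h5 M e x h).1 a haM).resolve_left h3
  have b2 := unit_pow_ne h2
  have b4 : (a : F) ^ 4 = 1 := by rw [← Units.val_pow_eq_pow_val, h4, Units.val_one]
  have b5 : (a : F) ^ 2 = -1 := mul_left_cancel₀ (sub_ne_zero.2 b2) (by linear_combination b4)
  exact hE F Γ hO hH hT M ⟨a, haM, h2, h3⟩
    (fun e x h => ⟨pairMon hO hT hF h5 h haM b2 b5, (h5 M e x h).2 ⟨a, haM, h2, h3⟩⟩) e x h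

/-- The reflections on an asymmetric `3`-space are those of `G(3, 3, 3)`. -/
theorem tri3 (hE : StepExt.{u}) (hO : Od Γ ∨ Ev Γ) (hH : H4Free Γ) (hT : Triples Γ (Framed Γ) (Framed Γ))
    (hF : FROut Γ) (h5 : Big5Out Γ) {e : Fin 3 → V F} {x : Fin 3 → Dual F (V F)} (hA : AI Γ e x) :
    ∃ (ω : F) (M : Subgroup Fˣ) (e' : Fin 3 → V F) (x' : Fin 3 → Dual F (V F)), TCfg Γ ω e' x' ∧ Same e x e' x' ∧
      (∀ b ∈ M, b ^ 3 = 1) ∧ ∀ v φ, Rf Γ v φ → In e x v φ →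
        ∃ i j, i ≠ j ∧ ∃ a ∈ M, SameRf (e' i - (a : F) • e' j) (x' i - (a : F)⁻¹ • x' j) v φ := by
  obtain ⟨M, e', x', hG, hs, ⟨a, ha, h2⟩, hN⟩ := hF e x hA
  have h3 := noBig4 hE hO hH hT hF h5 hG ha h2
  have hM : ∀ b ∈ M, b ^ 3 = 1 := fun b hb => by
    by_cases h4 : b ^ 2 = 1
    · have := noBig4 hE hO hH hT hF h5 hG (M.mul_mem ha hb) (by rwa [mul_pow, h4, mul_one])
      rwa [mul_pow, h3, one_mul] at this
    · exact noBig4 hE hO hH hT hF h5 hG hb h4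
  have b2 := unit_pow_ne h2
  have b3 : (a : F) ^ 3 = 1 := by rw [← Units.val_pow_eq_pow_val, h3, Units.val_one]
  have b1 : (a : F) - 1 ≠ 0 := fun h => b2 (by rw [sub_eq_zero.1 h, one_pow])
  have b4 : (a : F) ^ 2 + a + 1 = 0 := mul_left_cancel₀ b1 (by linear_combination b3)
  refine ⟨a, M, e', x', ⟨b4, fun h => b1 (eq_zero_of_pow_eq_zero (n := 2) (by linear_combination b4 - a * h)), hG.bi,
    fun i j hij c hc => ?_⟩, hs, hM, fun v φ hv hi => (hN v φ hv hi).resolve_left fun ⟨c1, i, c2⟩ => ?_⟩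
  · have : (c - 1) * ((c - a) * (c - a ^ 2)) = 0 := by
      linear_combination hc - (c - 1) * c * b4 + (c - 1) * b3
    rcases mul_eq_zero.1 this with h | h
    · exact sub_eq_zero.1 h ▸ hG.rf i j hij 1 M.one_mem
    rcases mul_eq_zero.1 h with h | h
    · exact sub_eq_zero.1 h ▸ hG.rf i j hij a ha
    · have := hG.rf i j hij _ (M.pow_mem ha 2)
      rwa [Units.val_pow_eq_pow_val, ← sub_eq_zero.1 h] at this
  · have : ((-1 : Fˣ) : F) ^ 3 = 1 := by rw [← Units.val_pow_eq_pow_val, hM _ c1, Units.val_one]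
    rw [Units.val_neg, Units.val_one] at this
    exact two_ne (hv.same c2.symm) (by linear_combination -this)

theorem no_pcfg (hE : StepExt.{u}) (hO : Od Γ ∨ Ev Γ) (hH : H4Free Γ) (hT : Triples Γ (Framed Γ) (Framed Γ))
    (hF : FROut Γ) (h5 : Big5Out Γ) (h : PCfg Γ t f y) : False := by
  obtain ⟨e, x, hA, hi⟩ := extend hO h
  obtain ⟨ω, M, e', x', hG, -, hM, hN⟩ := tri3 hE hO hH hT hF h5 hA
  have h2 := two_ne h.r
  have hc : ((2 : F) • y 0) (f 0 - (1 : F) • f 1) * (y 0 - (1 : F)⁻¹ • y 1) (f 0) = 2 := by simp [h.bi.apply]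
  rcases cvals (M := M) hG.bi (Or.inr (hN _ _ h.r (hi _ _ (in_dg h.bi 0))))
    (Or.inr (hN _ _ h.s (hi _ _ (h.bi.in_swap _ _ _ _)))) with h3 | h3 | h3 | h3 | ⟨s, hs, h3, h4⟩
  · obtain ⟨s, -, h3, -⟩ := h3
    simpa [h.bi.apply] using congrArg (y 1) h3
  · exact h2 (hc.symm.trans h3)
  · exact one_ne_zero (α := F) (by linear_combination h3 - hc)
  · have : ((-1 : Fˣ) : F) ^ 3 = 1 := by rw [← Units.val_pow_eq_pow_val, hM _ h3.2, Units.val_one]
    rw [Units.val_neg, Units.val_one] at this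
    exact h2 (by linear_combination -this)
  · have h6 : (s : F) - 1 ≠ 0 := fun h => h3 (Units.ext (sub_eq_zero.1 h))
    have h8 : (s : F) ^ 3 = 1 := by rw [← Units.val_pow_eq_pow_val, hM s hs, Units.val_one]
    have h9 : (s : F) ^ 2 + s + 1 = 0 := mul_left_cancel₀ h6 (by linear_combination h8)
    rw [hc] at h4
    exact s.ne_zero (by linear_combination h4 + h9)

theorem sw_two {ι : Type} [Fintype ι] [DecidableEq ι] {e : Fin 2 → ι → F} {x : Fin 2 → Dual F (ι → F)} {v : ι → F}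
    {φ : Dual F (ι → F)} {i j p q : Fin 2} (hij : i ≠ j) (hpq : p ≠ q) (h : Sw e x i j v φ) : Sw e x p q v φ := by
  rcases (by clear h; revert i j p q; decide : (i = p ∧ j = q) ∨ (i = q ∧ j = p)) with ⟨rfl, rfl⟩ | ⟨rfl, rfl⟩
  exacts [h, h.symm]

/-- No asymmetric triple is monomial on a plane. -/
theorem no_plane (hE : StepExt.{u}) (hO : Od Γ ∨ Ev Γ) (hH : H4Free Γ) (hT : Triples Γ (Framed Γ) (Framed Γ))
    (hF : FROut Γ) (h5 : Big5Out Γ) (hb : Bi f y) {u v w : V F} {φ ψ χ : Dual F (V F)} (hu : Rf Γ u φ)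
    (hv : Rf Γ v ψ) (hw : Rf Γ w χ) (m1 : Mon f y u φ) (m2 : Mon f y v ψ) (m3 : Mon f y w χ) :
    ¬ Asym u φ v ψ w χ := fun hA => by
  have key : ∀ {u v w : V F} {φ ψ χ : Dual F (V F)}, Rf Γ u φ → Rf Γ v ψ → Rf Γ w χ → Mon f y u φ →
      Mon f y w χ → Asym u φ v ψ w χ → ∀ i, ¬ Dg f y i v ψ := fun {u v w φ ψ χ} hu hv hw m1 m3 hA i hd => by
    rcases mon_iff.1 m3 with ⟨l, h1⟩ | ⟨l, m, hlm, h1⟩
    · exact (dg_dg hb hd h1).elim (hA.rotate.not_same hv.two) fun h => (hA.ne (zsym hO) hu hv hw).2.2.1 h.1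
    · obtain ⟨q, hq⟩ := exists_ne i
      have h3 := sw_two hlm hq.symm h1
      obtain ⟨t, f', y', hP, -⟩ := exists_pcfg hb hq.symm hu hv hw
        (third_sw (zsym hO) hb hq.symm hu hv hw m1 hd h3 hA) hd h3 hA
      exact no_pcfg hE hO hH hT hF h5 hP
  obtain ⟨i, j, hij, a1⟩ := (mon_iff.1 m1).resolve_left fun ⟨i, h⟩ => key hw hu hv m3 m2 hA.rotate.rotate i h
  obtain ⟨i', j', hij', a2⟩ := (mon_iff.1 m2).resolve_left fun ⟨i, h⟩ => key hu hv hw m1 m3 hA i h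
  obtain ⟨i'', j'', hij'', a3⟩ := (mon_iff.1 m3).resolve_left fun ⟨i, h⟩ => key hv hw hu m2 m1 hA.rotate i h
  exact not_asym_sw hb hij a1 (sw_two hij' hij a2) (sw_two hij'' hij a3) hA

end Big4

theorem stepBig4 : StepBig4.{u} := fun hE F _ _ Γ hO hH hT hF h5 u φ v ψ w χ hu hv hw hA => by
  rcases hT _ _ _ _ _ _ hu hv hw hA with ⟨e, x, -, a1, a2, a3, e', x', hb, -, hm⟩ | ⟨-, e, x, hI, a1, a2, a3, -⟩
  · exact absurd hA (Big4.no_plane hE hO hH hT hF h5 hb hu hv hw (hm _ _ hu a1) (hm _ _ hv a2) (hm _ _ hw a3))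
  · obtain ⟨ω, M, e', x', hG, hs, hM, hN⟩ := Big4.tri3 hE hO hH hT hF h5 hI
    refine ⟨ω, e', x', hG, hs.in_iff.2 a1, hs.in_iff.2 a2, hs.in_iff.2 a3, fun v φ hv hi => ?_⟩
    obtain ⟨i, j, hij, a, ha, h⟩ := hN v φ hv (hs.in_iff.1 hi)
    exact ⟨i, j, a, hij, by rw [← Units.val_pow_eq_pow_val, hM a ha, Units.val_one], h⟩

end CL.Low4
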