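/-
Project LOW4, job C1: the case of a cyclic group `R`.
-/
import Cfsg.Agent.Low4.Defs3
import Cfsg.Agent.Grp.SylowIn
import Cfsg.Agent.S0215

set_option autoImplicit false
set_option linter.unusedSectionVars false

namespace CL.Low4

open Matrix Cfsg Cfsg.Geo CL.Asch CL.SLn CL.Low Module
open scoped commutatorElement MatrixGroups

universe u

namespace C1h

open scoped Pointwise

variable {H : Type u} [Group H] {C : H → H → Prop} {z e f y : H} {T R : Subgroup H}

theorem e4_mul (ee : e * e = 1) (ff : f * f = 1) (ef : Commute e f) {a b : H} (ha : E4 e f a) (hb : E4 e f b) :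
    E4 e f (a * b) := by
  have h1 : e * (e * f) = f := by rw [← mul_assoc, ee, one_mul]
  have h2 : f * (e * f) = e := by rw [ef.eq, ← mul_assoc, ff, one_mul]
  have h3 : e * f * e = f := by rw [mul_assoc, ← ef.eq, h1]
  have h4 : e * f * f = e := by rw [mul_assoc, ff, mul_one]
  have h5 : e * f * (e * f) = 1 := by rw [mul_assoc, h2, ee]
  unfold E4
  rcases ha with rfl | rfl | rfl | rfl <;> rcases hb with rfl | rfl | rfl | rfl <;>
    simp only [one_mul, mul_one, ee, ff, h1, h2, h3, h4, h5, ef.symm.eq, true_or, or_true]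

theorem rot (h : CX C) (l : LZ C z e f y T R) : LZ C z f (e * f) y T R := by
  have h2 : f * (e * f) = e := by rw [l.ef.eq, ← mul_assoc, l.ff, one_mul]
  have h5 : e * f * (e * f) = 1 := by rw [mul_assoc, h2, l.ee]
  have h4 : e * f * f = e := by rw [mul_assoc, l.ff, mul_one]
  have k : ∀ {x}, E4 e f x → E4 f (e * f) x := by
    rintro x (rfl | rfl | rfl | rfl)
    · exact .inl rfl
    · exact .inr (.inr (.inr h2.symm))
    · exact .inr (.inl rfl)
    · exact .inr (.inr (.inl rfl))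
  exact
    { zz := l.zz, z1 := l.z1, pT := l.pT, cT := l.cT, zT := l.zT, eT := l.fT, fT := T.mul_mem l.eT l.fT,
      ee := l.ff, ff := h5, ef := l.ef.symm.mul_right (Commute.refl f),
      anti := fun c => l.anti ((h.mul_iff' (h.refl f)).1 (h.symm c)), ez := l.fz, fz := h.mul l.ez l.fz,
      ye := l.yf,
      yf := by rw [show y * (e * f) * y⁻¹ = y * e * y⁻¹ * (y * f * y⁻¹) by group, l.ye, l.yf]
      memR := fun t => (l.memR t).trans ⟨fun ⟨a, b, c⟩ => ⟨a, c, h.mul_right b c⟩,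
        fun ⟨a, b, c⟩ => ⟨a, h4 ▸ h.mul_right c b, b⟩⟩
      yR := l.yR
      even := fun t ht c => ⟨(l.even t ht c).2, (l.even t ht c).1.mul_right (l.even t ht c).2⟩
      nrm := fun w hw w1 ww g gw gT => by
        obtain ⟨a, b⟩ := l.nrm w hw w1 ww g gw gT
        refine ⟨k b, k ?_⟩
        have := e4_mul l.ee l.ff l.ef a b
        rwa [show g * e * g⁻¹ * (g * f * g⁻¹) = g * (e * f) * g⁻¹ by group] at this
      max := l.max }

theorem cRR (h : CX C) (hR : IsCyclic R) {r r' : H} (hr : r ∈ R) (hr' : r' ∈ R) : C r r' := by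
  obtain ⟨g, hg⟩ := hR.exists_generator
  obtain ⟨m, hm⟩ := hg ⟨r, hr⟩
  obtain ⟨n, hn⟩ := hg ⟨r', hr'⟩
  have e1 : (g : H) ^ m = r := by simpa using congrArg Subtype.val hm
  have e2 : (g : H) ^ n = r' := by simpa using congrArg Subtype.val hn
  rw [← e1, ← e2]
  exact h.zpow (h.symm (h.zpow (h.refl _) n)) m

theorem invR (h : CX C) (l : LZ C z e f y T R) (hR : IsCyclic R) {r : H} (hr : r ∈ R) (rr : r * r = 1)
    (r1 : r ≠ 1) : r = z := by
  by_contra rz
  exact (l.cent h hr rr r1 rz).1 (cRR h hR hr (l.zR h))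

theorem z_mem (h : CX C) (l : LZ C z e f y T R) (hR : IsCyclic R) {r : H} (hr : r ∈ R) (r1 : r ≠ 1) :
    ∃ n : ℕ, r ^ n = z := by
  classical
  have hex : ∃ k : ℕ, r ^ 2 ^ k = 1 := by
    obtain ⟨k, hk⟩ := l.pT ⟨r, ((l.memR r).1 hr).1⟩
    exact ⟨k, by simpa using congrArg Subtype.val hk⟩
  have h0 : Nat.find hex ≠ 0 := fun k => r1 (by have := Nat.find_spec hex; rwa [k, pow_zero, pow_one] at this)
  obtain ⟨n, hn⟩ := Nat.exists_eq_succ_of_ne_zero h0
  have h1 := Nat.find_spec hex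
  rw [hn] at h1
  refine ⟨2 ^ n, invR h l hR (R.pow_mem hr _) ?_ (Nat.find_min hex (by omega))⟩
  rw [← pow_add, ← two_mul, ← pow_succ']
  exact h1

theorem sq_one (h : CX C) (l : LZ C z e f y T R) (hR : IsCyclic R) {s : H} (sz : ¬ C s z) (hs : s * s ∈ R) :
    s * s = 1 := by
  by_contra k
  obtain ⟨n, hn⟩ := z_mem h l hR hs k
  exact sz (h.symm (hn ▸ h.pow (h.mul (h.refl s) (h.refl s)) n))

theorem caseB' (h : CX C) (l : LZ C z e f y T R) (hR : IsCyclic R) {s : H} (sT : s ∈ T) (sz : ¬ C s z)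
    (se : s * e * s⁻¹ = e) (sf : s * f * s⁻¹ = e * f) (hs : s * s ∈ R) : CB C z e f y s T R := by
  have ss := sq_one h l hR sz hs
  have nR : ∀ r ∈ R, s * r * s⁻¹ ∈ R := by
    intro r hr
    obtain ⟨a, b, c⟩ := (l.memR r).1 hr
    refine (l.memR _).2 ⟨T.mul_mem (T.mul_mem sT a) (T.inv_mem sT), se ▸ h.conj s b, ?_⟩
    have k := h.conj s (h.mul_right b c)
    have e1 : s * (e * f) * s⁻¹ = f := by
      rw [show s * (e * f) * s⁻¹ = s * e * s⁻¹ * (s * f * s⁻¹) by group, se, sf, ← mul_assoc, l.ee, one_mul]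
    rwa [e1] at k
  refine { toLZ := l, cyc := hR, sT := sT, ss := ss, se := mul_inv_eq_iff_eq_mul.1 se, sf := sf, sz := sz,
           inv := fun r hr => ?_, dec := fun t ht => ?_ }
  · have e1 : s * r * (s * r) = s * r * s⁻¹ * r := by
      rw [show s * r * (s * r) = s * r * s⁻¹ * (s * s) * r by group, ss, mul_one]
    have k := sq_one h l hR (s := s * r) (mt (h.mul_iff' (cRR h hR hr (l.zR h))).1 sz)
      (e1 ▸ R.mul_mem (nR r hr) hr)
    rw [e1] at k
    exact eq_inv_of_mul_eq_one_left k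
  · by_cases k : C t z
    · obtain ⟨ε, r, a, b, c⟩ := l.dec h ht (l.even t ht k).1 (l.even t ht k).2
      exact ⟨ε, r, a, b, .inl c⟩
    · have k' := h.anti l.zz (l.cT s sT) (l.cT t ht) sz k
      have st := T.mul_mem sT ht
      obtain ⟨ε, r, a, b, c⟩ := l.dec h st (l.even _ st k').1 (l.even _ st k').2
      exact ⟨ε, r, a, b, .inr (by rw [← c, ← mul_assoc, ss, one_mul])⟩

theorem caseB (h : CX C) (l : LZ C z e f y T R) (hR : IsCyclic R) {t : H} (tT : t ∈ T) (tz : ¬ C t z)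
    (te : t * e * t⁻¹ = e) (tf : t * f * t⁻¹ = e * f) : ∃ s, CB C z e f y s T R := by
  have tt := T.mul_mem tT tT
  have k1 : C (t * t) e := h.sq l.ee (mul_inv_eq_iff_eq_mul.1 te)
  by_cases k2 : C (t * t) f
  · exact ⟨t, caseB' h l hR tT tz te tf ((l.memR _).2 ⟨tt, k1, k2⟩)⟩
  have k3 : Commute (t * t) f := (l.even _ tt (h.sq l.zz (l.cT t tT))).2
  have e1 : t * f * (t * f) = e * (t * t) := by
    rw [show t * f * (t * f) = t * f * t⁻¹ * (t * t * f) by group, tf, k3.eq, mul_assoc, ← mul_assoc f, l.ff,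
      one_mul]
  refine ⟨t * f, caseB' h l hR (T.mul_mem tT l.fT) (mt (h.mul_iff' l.fz).1 tz) ?_ ?_ ?_⟩
  · rw [show t * f * e * (t * f)⁻¹ = t * (f * e * f⁻¹) * t⁻¹ by group, ← l.ef.eq, mul_inv_cancel_right, te]
  · rw [show t * f * f * (t * f)⁻¹ = t * f * t⁻¹ by group, tf]
  · rw [e1]
    exact (l.memR _).2 ⟨T.mul_mem l.eT tt, h.mul (h.refl e) k1, h.anti l.ff l.ef k3 l.anti k2⟩

theorem caseA [Finite H] [IsSimpleGroup H] (nab : ¬ IsMulCommutative H) (h : CX C) (l : LZ C z e f y T R)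
    (hR : IsCyclic R) (hT : ∀ t ∈ T, Commute t e ∧ Commute t f) : False := by
  have : Fact (Nat.Prime 2) := ⟨Nat.prime_two⟩
  have cz : ∀ t ∈ T, C t z := by
    intro t ht
    obtain ⟨ε, r, a, b, rfl⟩ := l.dec h ht (hT t ht).1 (hT t ht).2
    refine h.mul ?_ (cRR h hR b (l.zR h))
    rcases a with rfl | rfl | rfl | rfl
    exacts [h.one z, l.ez, l.fz, h.mul l.ez l.fz]
  have ce : ∀ t ∈ T, ∀ ε, E4 e f ε → Commute t ε := by
    rintro t ht ε (rfl | rfl | rfl | rfl)
    exacts [Commute.one_right t, (hT t ht).1, (hT t ht).2, (hT t ht).1.mul_right (hT t ht).2]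
  have ab : ∀ t ∈ T, ∀ t' ∈ T, Commute t t' := by
    intro t ht t' ht'
    obtain ⟨ε, r, a, b, e1⟩ := l.dec h ht (hT t ht).1 (hT t ht).2
    obtain ⟨ε', r', a', b', e2⟩ := l.dec h ht' (hT t' ht').1 (hT t' ht').2
    rw [e2]
    refine (ce t ht ε' a').mul_right ?_
    rw [e1]
    exact (ce r' ((l.memR _).1 b').1 ε a).symm.mul_left (h.comm (cRR h hR b b'))
  have nz : ∀ x ∈ Subgroup.normalizer (T : Set H), x * z * x⁻¹ = z := by
    intro x hx
    have hx' := Subgroup.mem_normalizer_iff.1 hx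
    have k : ∀ t ∈ T, C (x * z * x⁻¹) t := by
      intro t ht
      have h1 : x⁻¹ * t * x ∈ T := (hx' _).2 (by simpa [mul_assoc] using ht)
      have h2 := h.conj x (h.symm (cz _ h1))
      rwa [show x * (x⁻¹ * t * x) * x⁻¹ = t by group] at h2
    refine invR h l hR ((l.memR _).2 ⟨(hx' z).1 l.zT, k e l.eT, k f l.fT⟩) ?_ ?_
    · rw [show x * z * x⁻¹ * (x * z * x⁻¹) = x * (z * z) * x⁻¹ by group, l.zz]; group
    · intro k'
      exact l.z1 (by simpa using k')
  obtain ⟨P, hP⟩ := l.pT.exists_le_sylow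
  have hPT : (P : Subgroup H) = T := by
    by_contra hne
    have hlt : T < P := lt_of_le_of_ne hP (Ne.symm hne)
    have h1 := CL.Grp.lt_inf_normalizer_of_isPGroup P.isPGroup' hlt
    exact h1.not_ge (l.max z (l.zR h) l.z1 l.zz _ (P.isPGroup'.to_le inf_le_left) h1.le
      fun q hq => mul_inv_eq_iff_eq_mul.1 (nz q hq.2))
  have hS : CL.Grp.IsSylowIn 2 T ⊤ := hPT ▸ CL.Grp.isSylowIn_top P
  have oz : orderOf z = 2 := orderOf_eq_prime (by rw [pow_two, l.zz]) l.z1
  obtain ⟨N, hN, hodd, hc⟩ := Cfsg.Agent.S0215.result P z oz (show z ∈ (P : Subgroup H) from hPT ▸ l.zT) (by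
    intro g hg
    have hg' : g * z * g⁻¹ ∈ T := hPT ▸ hg
    have s1 : CL.Grp.IsSylowIn 2 T (Subgroup.centralizer {g * z * g⁻¹}) :=
      hS.of_le (fun t ht => Subgroup.mem_centralizer_singleton_iff.2 (ab t ht _ hg')) le_top
    have s2 : CL.Grp.IsSylowIn 2 (MulAut.conj g • T) (Subgroup.centralizer {g * z * g⁻¹}) := by
      refine (hS.conj_smul_of_mem (Subgroup.mem_top g)).of_le ?_ le_top
      rw [CL.Grp.conj_smul_le_iff]
      intro t ht
      rw [Subgroup.mem_centralizer_singleton_iff]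
      rw [show g * t * g⁻¹ * (g * z * g⁻¹) = g * (t * z) * g⁻¹ by group, (l.cT t ht).eq]; group
    obtain ⟨c, hc, e1⟩ := s2.exists_conj_eq s1
    rw [CL.Grp.conj_smul_conj_smul, CL.Grp.conj_smul_eq_self_iff] at e1
    have e2 := nz _ e1
    have e3 := Subgroup.mem_centralizer_singleton_iff.1 hc
    rw [show c * g * z * (c * g)⁻¹ = c * (g * z * g⁻¹) * c⁻¹ by group, e3, mul_inv_cancel_right] at e2
    exact e2)
  rcases hN.eq_bot_or_eq_top with rfl | rfl
  · have hz : z ∈ Subgroup.center H := Subgroup.mem_center_iff.2 fun g => by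
      have := Subgroup.mem_bot.1 (hc g)
      calc g * z = z * g * z⁻¹ * g⁻¹ * (g * z) := by rw [this, one_mul]
        _ = z * g := by group
    rcases (inferInstance : (Subgroup.center H).Normal).eq_bot_or_eq_top with k | k
    · rw [k, Subgroup.mem_bot] at hz; exact l.z1 hz
    · exact nab ⟨⟨fun a b => Subgroup.mem_center_iff.1 (k ▸ Subgroup.mem_top b) a⟩⟩
  · rw [Subgroup.card_top] at hodd
    have := orderOf_dvd_natCard z
    rw [oz] at this
    exact (Nat.not_even_iff_odd.2 hodd) (even_iff_two_dvd.2 this)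

end C1h

theorem subC1 : SubC1.{u} := by
  intro H _ _ _ C nab h z e f y T R l hR
  by_cases hT : ∀ t ∈ T, Commute t e ∧ Commute t f
  · exact (C1h.caseA nab h l hR hT).elim
  push Not at hT
  obtain ⟨t, tT, ht⟩ := hT
  have tz : ¬ C t z := fun k => ht (l.even t tT k).1 (l.even t tT k).2
  obtain ⟨k1, k2⟩ := l.even _ (T.mul_mem tT tT) (h.sq l.zz (l.cT t tT))
  obtain ⟨a, b⟩ := l.nrm z (l.zR h) l.z1 l.zz t (l.cT t tT)
    fun x hx => T.mul_mem (T.mul_mem tT hx) (T.inv_mem tT)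
  have e1 : e ≠ 1 := fun k => l.anti (k ▸ h.one f)
  have f1 : f ≠ 1 := fun k => l.anti (k ▸ h.symm (h.one e))
  have ef : e ≠ f := fun k => l.anti (k ▸ h.refl e)
  have q1 : t * (t * e * t⁻¹) * t⁻¹ = e := by
    rw [show t * (t * e * t⁻¹) * t⁻¹ = t * t * e * (t * t)⁻¹ by group, k1.eq, mul_inv_cancel_right]
  have m : t * (e * f) * t⁻¹ = t * e * t⁻¹ * (t * f * t⁻¹) := by group
  have h2 : f * (e * f) = e := by rw [l.ef.eq, ← mul_assoc, l.ff, one_mul]
  rcases a with a | a | a | a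
  · exact (e1 (by simpa using a)).elim
  · rcases b with b | b | b | b
    · exact (f1 (by simpa using b)).elim
    · exact (ef (by simpa using a.trans b.symm)).elim
    · exact (ht (mul_inv_eq_iff_eq_mul.1 a) (mul_inv_eq_iff_eq_mul.1 b)).elim
    · exact ⟨e, f, C1h.caseB h l hR tT tz a b⟩
  · rw [a] at q1
    refine ⟨e * f, f * (e * f), C1h.caseB h (C1h.rot h (C1h.rot h l)) hR tT tz ?_ ?_⟩
    · rw [m, a, q1, l.ef.eq]
    · rw [h2, a, mul_assoc, ← l.ef.eq, ← mul_assoc, l.ee, one_mul]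
  · have q2 : t * (e * f) * t⁻¹ = e := by rw [← a]; exact q1
    refine ⟨f, e * f, C1h.caseB h (C1h.rot h l) hR tT tz ?_ ?_⟩
    · rw [m, a] at q2
      have q3 : e * f * f = e := by rw [mul_assoc, l.ff, mul_one]
      exact mul_left_cancel (q2.trans q3.symm)
    · rw [q2, h2]

end CL.Low4
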