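/-
Project LOW4: fusion in the Sylow 2-subgroup `(E × R) ⋊ ⟨s⟩` with `R` cyclic.
-/
import Cfsg.Agent.Low4.Defs3

set_option autoImplicit false
set_option linter.unusedSectionVars false

namespace CL.Low4

open Matrix Cfsg Cfsg.Geo CL.Asch CL.SLn CL.Low Module
open scoped commutatorElement MatrixGroups

universe u

namespace C2x

variable {H : Type u} [Group H] {C : H → H → Prop} (h : CX C) {z e f y s : H} {T R : Subgroup H}
  (c : CB C z e f y s T R) {r r' t t' ε ε' x g : H}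
include h c

theorem e1 : e ≠ 1 := fun k => c.anti (k ▸ h.one f)

theorem fe : ¬ C f e := fun k => c.anti (h.symm k)

theorem rr (hr : r ∈ R) (hr' : r' ∈ R) : C r r' := by
  obtain ⟨g, hg⟩ := c.cyc.exists_zpow_surjective
  obtain ⟨i, hi⟩ := hg ⟨r, hr⟩
  obtain ⟨j, hj⟩ := hg ⟨r', hr'⟩
  have hi' : (g : H) ^ i = r := congrArg Subtype.val hi
  have hj' : (g : H) ^ j = r' := congrArg Subtype.val hj
  rw [← hi', ← hj']
  exact h.zpow (h.symm (h.zpow (h.refl _) j)) i

theorem rz (hr : r ∈ R) : C r z := rr h c hr (c.toLZ.zR h)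

theorem re (hr : r ∈ R) : C r e := ((c.memR r).1 hr).2.1

theorem inv1 (hr : r ∈ R) (r2 : r * r = 1) : r = 1 ∨ r = z := by
  by_contra k
  exact (c.toLZ.cent h hr r2 (fun e => k (.inl e)) fun e => k (.inr e)).1 (rz h c hr)

theorem eps (hε : E4 e f ε) : ε * ε = 1 ∧ C ε z ∧ Commute ε e ∧ Commute ε f ∧ ∀ r ∈ R, Commute r ε := by
  have k : ∀ r ∈ R, Commute r f := fun r hr => h.comm ((c.memR r).1 hr).2.2
  rcases hε with rfl | rfl | rfl | rfl
  · exact ⟨mul_one 1, h.one z, .one_left _, .one_left _, fun _ _ => .one_right _⟩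
  · exact ⟨c.ee, c.ez, .refl _, c.ef, fun r hr => h.comm (re h c hr)⟩
  · exact ⟨c.ff, c.fz, c.ef.symm, .refl _, k⟩
  · exact ⟨by rw [c.ef.symm.mul_mul_mul_comm, c.ee, c.ff, mul_one], h.mul c.ez c.fz, (Commute.refl e).mul_left c.ef.symm,
      c.ef.mul_left (.refl f), fun r hr => (h.comm (re h c hr)).mul_right (k r hr)⟩

theorem split (hε : E4 e f ε) :
    (s * ε * s⁻¹ = ε ∧ C ε e ∧ (ε = 1 ∨ ε = e)) ∨ (s * ε * s⁻¹ = e * ε ∧ ¬ C ε e) := by
  rcases hε with rfl | rfl | rfl | rfl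
  · exact .inl ⟨by simp, h.one e, .inl rfl⟩
  · exact .inl ⟨c.se.mul_inv_cancel, h.refl _, .inr rfl⟩
  · exact .inr ⟨c.sf, fe h c⟩
  · exact .inr ⟨by rw [← conj_mul, c.se.mul_inv_cancel, c.sf], mt (h.mul_iff (h.refl e)).1 (fe h c)⟩

theorem nse : ¬ C s e := fun k => by
  have := h.swap f c.ss
  rw [c.sf, ← mul_assoc, ← c.ef.eq, mul_assoc, c.ff, mul_one] at this
  exact c.anti ((h.mul_iff' (h.refl f)).1 (h.symm (this.1 k)))

theorem tz (ht : t ∈ T) (k : C t z) : ∃ ε r, E4 e f ε ∧ r ∈ R ∧ t = ε * r := by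
  obtain ⟨ε, r, hε, hr, rfl | rfl⟩ := c.dec t ht
  · exact ⟨ε, r, hε, hr, rfl⟩
  · exact (c.sz ((h.mul_iff' (h.mul (eps h c hε).2.1 (rz h c hr))).1 k)).elim

theorem abz (ht : t ∈ T) (ht' : t' ∈ T) (k : C t z) (k' : C t' z) : Commute t t' := by
  obtain ⟨ε, r, hε, hr, rfl⟩ := tz h c ht k
  obtain ⟨ε', r', hε', hr', rfl⟩ := tz h c ht' k'
  obtain ⟨-, -, a, b, d⟩ := eps h c hε
  have : Commute ε ε' := by
    rcases hε' with rfl | rfl | rfl | rfl
    exacts [.one_right _, a, b, a.mul_right b]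
  exact (this.mul_right (d r' hr').symm).mul_left (((eps h c hε').2.2.2.2 r hr).mul_right (h.comm (rr h c hr hr')))

theorem te (ht : t ∈ T) : Commute t e := by
  obtain ⟨ε, r, hε, hr, rfl | rfl⟩ := c.dec t ht
  · exact (eps h c hε).2.2.1.mul_left (h.comm (re h c hr))
  · exact c.se.mul_left ((eps h c hε).2.2.1.mul_left (h.comm (re h c hr)))

theorem sq (hε : E4 e f ε) (hr : r ∈ R) : s * (ε * r) * (s * (ε * r)) = s * ε * s⁻¹ * ε := by
  have k : s * (ε * r) * (s * (ε * r)) = s * ε * s⁻¹ * (s * r * s⁻¹) * (s * s) * (ε * r) := by group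
  rw [k, c.ss, c.inv r hr, mul_one, ← ((eps h c hε).2.2.2.2 r hr).eq]
  group

/-- the centre of `T` -/
theorem cen (ht : t ∈ T) (k : ∀ u ∈ T, Commute t u) : E4 e z t := by
  obtain ⟨ε, r, hε, hr, rfl | rfl⟩ := c.dec t ht
  · have a := (k s c.sT).symm.mul_inv_cancel
    rw [← conj_mul, c.inv r hr] at a
    rcases split h c hε with ⟨b, -, d⟩ | ⟨b, -⟩ <;> rw [b] at a
    · have r2 : r * r = 1 := by rw [← mul_left_cancel a, mul_left_cancel a]; exact inv_eq_iff_mul_eq_one.1 (mul_left_cancel a)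
      rcases d with rfl | rfl <;> rcases inv1 h c hr r2 with rfl | rfl <;> simp [E4]
    · rw [← (eps h c hε).2.2.1.eq, mul_assoc, mul_right_inj, mul_inv_eq_iff_eq_mul] at a
      exact (c.anti ((c.memR e).1 (a ▸ mul_mem hr hr)).2.2).elim
  · have a : Commute (ε * r) f := (eps h c hε).2.2.2.1.mul_left (h.comm ((c.memR r).1 hr).2.2)
    have b : Commute s f := by simpa only [mul_inv_cancel_right] using (k f c.fT).mul_left a.inv_left
    exact (e1 h c (mul_eq_right.1 (c.sf.symm.trans b.mul_inv_cancel))).elim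

omit h c in
theorem pre (hx : x ∈ Subgroup.normalizer (T : Set H)) (ht : t ∈ T) : ∃ u ∈ T, t = x * u * x⁻¹ :=
  ⟨x⁻¹ * t * x, (Subgroup.mem_normalizer_iff''.1 hx t).1 ht, by group⟩

theorem ab (hx : x ∈ Subgroup.normalizer (T : Set H)) (ht : t ∈ T) (ht' : t' ∈ T) (k : C t (x * z * x⁻¹))
    (k' : C t' (x * z * x⁻¹)) : Commute t t' := by
  obtain ⟨u, hu, rfl⟩ := pre hx ht
  obtain ⟨u', hu', rfl⟩ := pre hx ht'
  exact (abz h c hu hu' ((h.conj_iff x).1 k) ((h.conj_iff x).1 k')).conj x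

omit h c in
theorem cenx (hx : x ∈ Subgroup.normalizer (T : Set H)) (k : ∀ u ∈ T, Commute u t) : ∀ u ∈ T, Commute (x * t * x⁻¹) u :=
  fun u hu => by
    obtain ⟨v, hv, rfl⟩ := pre hx hu
    exact (k v hv).symm.conj x

theorem one (hx : x ∈ Subgroup.normalizer (T : Set H)) : x * z * x⁻¹ ≠ e := fun k => by
  have hf : E4 e f f := .inr (.inr (.inl rfl))
  have a : C (s * f) (x * z * x⁻¹) := k ▸ h.anti c.ee c.se c.ef.symm (nse h c) (fe h c)
  have hT := mul_mem c.sT c.fT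
  obtain ⟨u, hu, b⟩ := pre hx hT
  obtain ⟨ε, r, hε, hr, rfl⟩ := tz h c hu ((h.conj_iff x).1 (b ▸ a))
  have r2 : r * r = 1 := by
    have d := ab h c hx hT ((c.memR r).1 hr).1 a (k ▸ re h c hr)
    have d' : Commute s r := by simpa using d.mul_left (h.comm ((c.memR r).1 hr).2.2).symm.inv_left
    exact inv_eq_iff_mul_eq_one.1 ((c.inv r hr).symm.trans d'.mul_inv_cancel)
  have d := sq h c hf (one_mem R)
  rw [mul_one, c.sf, mul_assoc e, c.ff, b, conj_mul, ((eps h c hε).2.2.2.2 r hr).mul_mul_mul_comm, (eps h c hε).1, r2] at d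
  exact e1 h c (by simpa using d.symm)

theorem fixe (hx : x ∈ Subgroup.normalizer (T : Set H)) (k : x * z * x⁻¹ = e * z) : x * e * x⁻¹ = e := by
  rcases cen h c ((Subgroup.mem_normalizer_iff.1 hx e).1 c.eT) (cenx hx fun u hu => te h c hu) with a | a | a | a
  · exact (e1 h c (by simpa using a)).elim
  · exact a
  · exact (one h c (inv_mem hx) (by rw [← a]; group)).elim
  · rw [← k, mul_left_inj, mul_right_inj] at a
    exact (fe h c (a ▸ c.fz)).elim

theorem fixz (hx : x ∈ Subgroup.normalizer (T : Set H)) (k : x * z * x⁻¹ = e * z) : x * (e * z) * x⁻¹ = z := by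
  rw [← conj_mul, fixe h c hx k, k, ← mul_assoc, c.ee, one_mul]

theorem ce (hx : x ∈ Subgroup.normalizer (T : Set H)) (k : x * z * x⁻¹ = e * z) (x2 : x * x ∈ T) : C x e := by
  have xe : Commute x e := mul_inv_eq_iff_eq_mul.1 (fixe h c hx k)
  have a := h.sq c.ee xe
  have xx : x * (x * x) * x⁻¹ = x * x := by group
  have c2 : C (x * x) x := h.mul (h.refl x) (h.refl x)
  obtain ⟨ε, r, hε, hr, b | b⟩ := c.dec _ x2 <;> rcases split h c hε with ⟨d, d', d''⟩ | ⟨d, d'⟩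
  · have r2 : r * r = 1 := by
      have := ab h c hx c.sT ((c.memR r).1 hr).1 (k ▸ h.anti' c.ee c.zz c.se (c.cT s c.sT) (nse h c) c.sz)
        (k ▸ h.mul_right (re h c hr) (rz h c hr))
      exact inv_eq_iff_mul_eq_one.1 ((c.inv r hr).symm.trans this.mul_inv_cancel)
    rcases d'' with rfl | rfl <;> rcases inv1 h c hr r2 with rfl | rfl
    · have := (h.swap _ (b.trans (mul_one 1))).2 (k ▸ h.mul_right (h.symm c.ez) (h.refl _))
      rwa [k, ← mul_assoc, ← (h.comm c.ez).eq, mul_assoc, c.zz, mul_one] at this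
    · rw [b, one_mul, k] at xx
      exact (e1 h c (mul_eq_right.1 xx)).elim
    · rw [b, mul_one] at c2
      exact h.symm c2
    · rw [b, fixz h c hx k] at xx
      exact (e1 h c (mul_eq_right.1 xx.symm)).elim
  · exact (d' ((h.mul_iff' (re h c hr)).1 (b ▸ a))).elim
  · exact (nse h c ((h.mul_iff' (h.mul d' (re h c hr))).1 (b ▸ a))).elim
  · have := h.mul c2 c2
    rw [b, sq h c hε hr, d, mul_assoc, (eps h c hε).1, mul_one] at this
    exact h.symm this

theorem two (hx : x ∈ Subgroup.normalizer (T : Set H)) (x2 : x * x ∈ T) : x * z * x⁻¹ ≠ e * z := fun k => by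
  refine fe h c ((h.mul_iff (ce h c hx k x2)).1 (ce h c (mul_mem hx (Subgroup.le_normalizer c.fT)) ?_ ?_))
  · rw [← k, show x * f * z * (x * f)⁻¹ = x * (f * z * f⁻¹) * x⁻¹ by group, (c.cT f c.fT).mul_inv_cancel]
  · rw [show x * f * (x * f) = x * f * x⁻¹ * (x * x) * f by group]
    exact mul_mem (mul_mem ((Subgroup.mem_normalizer_iff.1 hx f).1 c.fT) x2) c.fT

theorem syl [Finite H] : ∃ S : Sylow 2 H, (S : Subgroup H) = T := by
  have := Fact.mk Nat.prime_two
  obtain ⟨S, hS⟩ := c.pT.exists_le_sylow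
  refine ⟨S, by_contra fun ne => ?_⟩
  obtain ⟨x0, ⟨h1, h2⟩, h3⟩ :=
    SetLike.exists_of_lt (CL.Grp.lt_inf_normalizer_of_isPGroup S.isPGroup' (hS.lt_of_ne' ne))
  obtain ⟨x, hx, hn, x1, x2⟩ : ∃ x ∈ (S : Subgroup H), x ∈ Subgroup.normalizer (T : Set H) ∧ x ∉ T ∧ x * x ∈ T := by
    obtain ⟨n, hn⟩ := S.isPGroup' ⟨x0, h1⟩
    have hn' : x0 ^ 2 ^ n ∈ T := (show x0 ^ 2 ^ n = 1 from congrArg Subtype.val hn) ▸ one_mem T
    clear hn
    induction n with
    | zero => exact (h3 (by simpa using hn')).elim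
    | succ n ih =>
      by_cases k : x0 ^ 2 ^ n ∈ T
      · exact ih k
      · exact ⟨_, pow_mem h1 _, pow_mem h2 _, k, by rwa [← pow_add, ← two_mul, ← pow_succ']⟩
  rcases cen h c ((Subgroup.mem_normalizer_iff.1 hn z).1 c.zT) (cenx hn c.cT) with a | a | a | a
  · exact c.z1 (by simpa using a)
  · exact one h c hn a
  · refine x1 (c.max z (c.toLZ.zR h) c.z1 c.zz (S ⊓ Subgroup.centralizer {z}) (S.isPGroup'.to_le inf_le_left)
      (fun t ht => ⟨hS ht, Subgroup.mem_centralizer_singleton_iff.2 (c.cT t ht)⟩)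
      (fun q hq => Subgroup.mem_centralizer_singleton_iff.1 hq.2)
      ⟨hx, Subgroup.mem_centralizer_singleton_iff.2 (mul_inv_eq_iff_eq_mul.1 a)⟩)
  · exact two h c hn x2 a

theorem four [Finite H] (S : Sylow 2 H) (hS : (S : Subgroup H) = T) (hx : x ∈ Subgroup.normalizer (T : Set H)) :
    x * z * x⁻¹ ≠ e * z := fun k => by
  have := Fact.mk Nat.prime_two
  have hm : Odd (T.relIndex (Subgroup.normalizer (T : Set H))) := by
    rw [← Nat.not_even_iff_odd, even_iff_two_dvd]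
    exact fun d => S.not_dvd_index (hS ▸ d.trans (Dvd.intro _ (Subgroup.relIndex_mul_index Subgroup.le_normalizer)))
  obtain ⟨m, hm⟩ := hm
  have a : x ^ (2 * m + 1) ∈ T := hm ▸ Subgroup.pow_index_mem (H := T.subgroupOf (Subgroup.normalizer (T : Set H))) ⟨x, hx⟩
  have b : Commute (x ^ 2) z := mul_inv_eq_iff_eq_mul.1 (by
    rw [show x ^ 2 * z * (x ^ 2)⁻¹ = x * (x * z * x⁻¹) * x⁻¹ by rw [pow_two]; group, k, fixz h c hx k])
  have d := c.cT _ a
  rw [pow_succ, pow_mul] at d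
  have d' : Commute x z := by simpa using (b.pow_left m).inv_left.mul_left d
  exact e1 h c (mul_eq_right.1 (k.symm.trans d'.mul_inv_cancel))

omit h in
theorem burn [Finite H] (S : Sylow 2 H) (hS : (S : Subgroup H) = T) (k : IsConj z t) (ht : ∀ u ∈ T, Commute u t) :
    ∃ x ∈ Subgroup.normalizer (T : Set H), x * z * x⁻¹ = t := by
  have := Fact.mk Nat.prime_two
  obtain ⟨g, rfl⟩ := isConj_iff.1 k
  subst hS
  obtain ⟨n, hn, e⟩ := S.conj_eq_normalizer_conj_of_mem_centralizer z g⁻¹ c.cT (by rw [inv_inv]; exact ht)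
  exact ⟨n⁻¹, inv_mem hn, by simpa using e.symm⟩

end C2x

open C2x in
theorem subC2 : SubC2.{u} := by
  intro H _ _ C h z e f y s T R c
  obtain ⟨S, hS⟩ := syl h c
  refine ⟨⟨S, hS⟩, fun k => ?_, fun k => ?_⟩
  · obtain ⟨x, hx, a⟩ := burn c S hS k fun u hu => te h c hu
    exact one h c hx a
  · obtain ⟨x, hx, a⟩ := burn c S hS k fun u hu => (te h c hu).mul_right (c.cT u hu)
    exact four h c S hS hx a

end CL.Low4
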