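/-
Project LOW4: fusion of `z` in the case of a cyclic group `R` with an outer automorphism.
-/
import Cfsg.Agent.Low4.Defs3
import Cfsg.Agent.Transfer.Control
import Cfsg.Agent.S0215

set_option autoImplicit false
set_option linter.unusedSectionVars false

namespace CL.Low4

open Matrix Cfsg Cfsg.Geo CL.Asch CL.SLn CL.Low Module
open scoped commutatorElement MatrixGroups Pointwise

universe u

namespace C3x

variable {H : Type u} [Group H] [Finite H]

theorem not_iso [IsSimpleGroup H] (hna : ¬ IsMulCommutative H) (S : Sylow 2 H) {w : H} (w2 : w * w = 1) (w1 : w ≠ 1)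
    (hwS : w ∈ (S : Subgroup H)) : ∃ g : H, g * w * g⁻¹ ∈ (S : Subgroup H) ∧ g * w * g⁻¹ ≠ w := by
  by_contra h
  push Not at h
  have hw : orderOf w = 2 := orderOf_eq_prime (by rw [sq, w2]) w1
  obtain ⟨N, hN, ho, hc⟩ := Cfsg.Agent.S0215.result S w hw hwS h
  rcases hN.eq_bot_or_eq_top with rfl | rfl
  · have h1 : w ∈ Subgroup.center H := Subgroup.mem_center_iff.2 fun g => by
      have := Subgroup.mem_bot.1 (hc g)
      rw [mul_inv_eq_one, mul_inv_eq_iff_eq_mul] at this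
      exact this.symm
    rcases (inferInstance : (Subgroup.center H).Normal).eq_bot_or_eq_top with e | e
    · rw [e, Subgroup.mem_bot] at h1
      exact w1 h1
    · exact hna ⟨⟨fun a b => (Subgroup.mem_center_iff.1 (e ▸ Subgroup.mem_top a) b).symm⟩⟩
  · rw [Subgroup.card_top] at ho
    exact (Nat.not_even_iff_odd.2 ho) (even_iff_two_dvd.2 (hw ▸ orderOf_dvd_natCard w))

theorem no_two [IsSimpleGroup H] (hna : ¬ IsMulCommutative H) (N : Subgroup H) (hN : N.Normal) (h : N.index = 2) :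
    False := by
  rcases hN.eq_bot_or_eq_top with rfl | rfl
  · rw [Subgroup.index_bot] at h
    haveI : IsCyclic H := isCyclic_of_prime_card (p := 2) h
    exact hna inferInstance
  · simp at h

theorem cyc_gen {R : Subgroup H} (h : IsCyclic R) : ∃ ρ : H, ∀ r ∈ R, ∃ n : ℤ, r = ρ ^ n := by
  obtain ⟨ρ, hρ⟩ := h.exists_generator
  refine ⟨ρ, fun r hr => ?_⟩
  obtain ⟨n, hn⟩ := hρ ⟨r, hr⟩
  exact ⟨n, (congrArg Subtype.val hn).symm⟩

theorem cyc_uniq {R : Subgroup H} (h : IsCyclic R) {z r : H} (hz : z ∈ R) (zz : z * z = 1) (z1 : z ≠ 1) (hr : r ∈ R)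
    (rr : r * r = 1) : r = 1 ∨ r = z := by
  classical
  by_contra hc
  push Not at hc
  haveI := Fintype.ofFinite R
  have h1 := IsCyclic.card_pow_eq_one_le (α := R) (n := 2) (by norm_num)
  have h2 : ({1, ⟨z, hz⟩, ⟨r, hr⟩} : Finset R) ⊆ Finset.univ.filter fun a : R => a ^ 2 = 1 := by
    intro a ha
    simp only [Finset.mem_insert, Finset.mem_singleton] at ha
    rcases ha with rfl | rfl | rfl <;> simp [sq, Subtype.ext_iff, zz, rr]
  have h3 := Finset.card_le_card h2
  rw [Finset.card_eq_three.2 ⟨_, _, _, by simpa [Subtype.ext_iff] using z1.symm,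
    by simpa [Subtype.ext_iff] using hc.1.symm, by simpa [Subtype.ext_iff] using hc.2.symm, rfl⟩] at h3
  omega

section
variable {C : H → H → Prop} {z e f y s : H} {T R : Subgroup H}

theorem e4_mul (ee : e * e = 1) (ff : f * f = 1) (ef : Commute e f) {a b : H} (ha : E4 e f a) (hb : E4 e f b) :
    E4 e f (a * b) := by
  have h1 : e * (e * f) = f := by rw [← mul_assoc, ee, one_mul]
  have h2 : f * (e * f) = e := by rw [ef.eq, ← mul_assoc, ff, one_mul]
  have h3 : e * f * e = f := by rw [mul_assoc, ← ef.eq, h1]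
  have h4 : e * f * f = e := by rw [mul_assoc, ff, mul_one]
  have h5 : e * f * (e * f) = 1 := by rw [← mul_assoc, h3, ff]
  unfold E4 at *
  rcases ha with rfl | rfl | rfl | rfl <;> rcases hb with rfl | rfl | rfl | rfl <;>
    simp [ee, ff, h1, h2, h3, h4, h5, ← ef.eq]

theorem e4_sq (ee : e * e = 1) (ff : f * f = 1) (ef : Commute e f) {a : H} (ha : E4 e f a) : a * a = 1 := by
  rcases ha with rfl | rfl | rfl | rfl
  exacts [one_mul _, ee, ff, by rw [mul_assoc, ← mul_assoc f, ← ef.eq, mul_assoc, ff, mul_one, ee]]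

theorem e4_comm {a b : H} (he : Commute b e) (hf : Commute b f) (ha : E4 e f a) : Commute b a := by
  rcases ha with rfl | rfl | rfl | rfl
  exacts [Commute.one_right _, he, hf, he.mul_right hf]

variable (h : CX C) (l : CB C z e f y s T R)
include h l

theorem e1 : e ≠ 1 := fun k => l.anti (k ▸ h.one f)

theorem Rz {r : H} (hr : r ∈ R) : C r z := by
  obtain ⟨ρ, hρ⟩ := cyc_gen l.cyc
  obtain ⟨n, rfl⟩ := hρ r hr
  obtain ⟨m, hm⟩ := hρ z (l.zR h)
  rw [hm]
  exact h.zpow (h.symm (h.zpow (h.refl ρ) m)) n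

theorem Rc {r r' : H} (hr : r ∈ R) (hr' : r' ∈ R) : Commute r r' := by
  obtain ⟨ρ, hρ⟩ := cyc_gen l.cyc
  obtain ⟨n, rfl⟩ := hρ r hr
  obtain ⟨m, rfl⟩ := hρ r' hr'
  exact Commute.zpow_zpow_self ρ n m

theorem Ru {r : H} (hr : r ∈ R) (rr : r * r = 1) : r = 1 ∨ r = z := cyc_uniq l.cyc (l.zR h) l.zz l.z1 hr rr

theorem RE {r a : H} (hr : r ∈ R) (ha : E4 e f a) : Commute r a :=
  e4_comm (h.comm ((l.memR r).1 hr).2.1) (h.comm ((l.memR r).1 hr).2.2) ha

theorem Ez {a : H} (ha : E4 e f a) : C a z := by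
  rcases ha with rfl | rfl | rfl | rfl
  exacts [h.one z, l.ez, l.fz, h.mul l.ez l.fz]

theorem ET {a : H} (ha : E4 e f a) : a ∈ T := by
  rcases ha with rfl | rfl | rfl | rfl
  exacts [T.one_mem, l.eT, l.fT, T.mul_mem l.eT l.fT]

theorem nse : ¬ C s e := by
  intro k
  have h1 : f * (s * f * s⁻¹) = e := by rw [l.sf, l.ef.eq, ← mul_assoc, l.ff, one_mul]
  have h2 := (h.swap f l.ss).1 (h1 ▸ k)
  rw [l.sf] at h2
  exact l.anti ((h.mul_iff' (h.refl f)).1 (h.symm h2))

theorem sef : s * (e * f) * s⁻¹ = f := by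
  rw [← conj_mul, l.sf, l.se.eq, mul_inv_cancel_right, ← mul_assoc, l.ee, one_mul]

theorem sE {a : H} (ha : E4 e f a) : E4 e f (s * a * s⁻¹) := by
  rcases ha with rfl | rfl | rfl | rfl
  · exact .inl (by simp)
  · exact .inr (.inl (by rw [l.se.eq, mul_inv_cancel_right]))
  · exact .inr (.inr (.inr l.sf))
  · exact .inr (.inr (.inl (sef h l)))

theorem fix_s {a : H} (ha : E4 e f a) (hc : s * a * s⁻¹ = a) : a = 1 ∨ a = e := by
  rcases ha with rfl | rfl | rfl | rfl
  · exact .inl rfl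
  · exact .inr rfl
  · rw [l.sf] at hc
    exact absurd (by simpa using hc) (e1 h l)
  · rw [sef h l] at hc
    exact absurd (by simpa using hc.symm) (e1 h l)

theorem sq_in {a r : H} (ha : E4 e f a) (hr : r ∈ R) (k : a * r * (a * r) = 1) : r = 1 ∨ r = z := by
  refine Ru h l hr ?_
  calc r * r = a * a * (r * r) := by rw [e4_sq l.ee l.ff l.ef ha, one_mul]
    _ = a * (a * r) * r := by group
    _ = 1 := by rw [← (RE h l hr ha).eq, ← k]; group

theorem sq_out {a r : H} (ha : E4 e f a) (hr : r ∈ R) :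
    s * (a * r) * (s * (a * r)) = s * a * s⁻¹ * a := by
  calc s * (a * r) * (s * (a * r)) = s * a * s⁻¹ * ((s * r * s⁻¹) * (s * s) * (a * r)) := by group
    _ = _ := by rw [l.inv r hr, l.ss, ← (RE h l hr ha).eq]; group

theorem sq_out' {a r : H} (ha : E4 e f a) (hr : r ∈ R) (k : s * (a * r) * (s * (a * r)) = 1) : a = 1 ∨ a = e := by
  refine fix_s h l ha ?_
  rw [sq_out h l ha hr] at k
  rw [eq_inv_of_mul_eq_one_left k, inv_eq_of_mul_eq_one_left (e4_sq l.ee l.ff l.ef ha)]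

theorem replace {a r : H} (ha : a = 1 ∨ a = e) (hr : r ∈ R) : CB C z e f y (s * (a * r)) T R := by
  have ha' : E4 e f a := ha.elim .inl fun k => .inr (.inl k)
  have sa : s * a * s⁻¹ = a := by
    rcases ha with rfl | rfl
    · simp
    · rw [l.se.eq, mul_inv_cancel_right]
  have cE : ∀ b, E4 e f b → Commute (a * r) b := fun b hb =>
    (e4_comm (e4_comm (Commute.refl e) l.ef ha').symm (e4_comm l.ef.symm (Commute.refl f) ha').symm hb).mul_left
      (RE h l hr hb)
  refine { l.toLZ with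
    cyc := l.cyc
    sT := T.mul_mem l.sT (T.mul_mem (ET h l ha') ((l.memR r).1 hr).1)
    ss := by rw [sq_out h l ha' hr, sa, e4_sq l.ee l.ff l.ef ha']
    se := l.se.mul_left (cE e (.inr (.inl rfl)))
    sf := ?_
    sz := fun k => l.sz ((h.mul_iff' (h.mul (Ez h l ha') (Rz h l hr))).1 k)
    inv := fun r' hr' => ?_
    dec := fun t ht => ?_ }
  · rw [mul_assoc s, (cE f (.inr (.inr (.inl rfl)))).eq, ← l.sf]; group
  · have : Commute (a * r) r' := (RE h l hr' ha').symm.mul_left (Rc h l hr hr')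
    rw [mul_assoc s, this.eq, ← l.inv r' hr']; group
  · obtain ⟨b, r', hb, hr', rfl | rfl⟩ := l.dec t ht
    · exact ⟨b, r', hb, hr', .inl rfl⟩
    · refine ⟨a * b, r⁻¹ * r', e4_mul l.ee l.ff l.ef ha' hb, R.mul_mem (R.inv_mem hr) hr', .inr ?_⟩
      calc s * (b * r') = s * ((a * a) * b) * r' := by rw [e4_sq l.ee l.ff l.ef ha']; group
        _ = s * (a * (r * (a * b))) * r⁻¹ * r' := by
          rw [(RE h l hr (e4_mul l.ee l.ff l.ef ha' hb)).eq]; group
        _ = _ := by group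

theorem conj_e {a : H} (ha : E4 e f a) : a = 1 ∨ ∃ g, g * e * g⁻¹ = a ∧ Commute g z := by
  have yz := l.yR z (l.zR h)
  rcases ha with rfl | rfl | rfl | rfl
  · exact .inl rfl
  · exact .inr ⟨1, by simp, Commute.one_left _⟩
  · exact .inr ⟨y, l.ye, yz⟩
  · exact .inr ⟨y * y, by rw [← l.yf, ← l.ye]; group, yz.mul_left yz⟩

theorem inner (n1 : ¬ IsConj z e) (n2 : ¬ IsConj z (e * z)) {a r : H} (ha : E4 e f a) (hr : r ∈ R)
    (k : IsConj z (a * r)) : a * r = z := by
  have k2 : a * r * (a * r) = 1 := by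
    obtain ⟨g, hg⟩ := isConj_iff.1 k
    rw [← hg, conj_mul, l.zz]; simp
  rcases sq_in h l ha hr k2 with rfl | rfl <;> rcases conj_e h l ha with rfl | ⟨g, rfl, hg⟩
  · exact absurd (isConj_one_left.1 (by simpa using k)) l.z1
  · exact absurd (k.trans (isConj_iff.2 ⟨g, by simp⟩).symm) n1
  · simp
  · refine absurd (k.trans (isConj_iff.2 ⟨g, ?_⟩).symm) n2
    rw [← conj_mul, hg.eq, mul_inv_cancel_right]

theorem fsz : f * (s * z) * f⁻¹ = s * (e * z) := by
  have fi : f⁻¹ = f := inv_eq_of_mul_eq_one_left l.ff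
  have h1 : s * f = e * f * s := by rw [← l.sf]; group
  calc f * (s * z) * f⁻¹ = f * s * (z * f) := by rw [fi]; group
    _ = f * (s * f) * z := by rw [← (h.comm l.fz).eq]; group
    _ = f * (f * e * s) * z := by rw [h1, l.ef.eq]
    _ = (f * f) * (e * s) * z := by group
    _ = _ := by rw [l.ff, ← l.se.eq]; group

theorem key (S : Sylow 2 H) (hS : (S : Subgroup H) = T) (n1 : ¬ IsConj z e) (k : IsConj s z) :
    IsConj (s * (e * z)) e := by
  obtain ⟨g₀, hg₀⟩ := isConj_iff.1 k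
  have sz : Commute s z := l.cT s l.sT
  have hA : Subgroup.closure {e, z} ≤ T := (Subgroup.closure_le _).2 (by
    rintro x (rfl | rfl)
    exacts [l.eT, l.zT])
  have hA' : Subgroup.closure {e, z} ≤ Subgroup.centralizer {s} := (Subgroup.closure_le _).2 (by
    rintro x (rfl | rfl)
    exacts [Subgroup.mem_centralizer_singleton_iff.2 l.se.symm.eq, Subgroup.mem_centralizer_singleton_iff.2 sz.symm.eq])
  obtain ⟨c, hc, hle⟩ := (CL.Grp.isSylowIn_of_le S (H := Subgroup.centralizer {z}) (fun t ht =>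
      Subgroup.mem_centralizer_singleton_iff.2 (l.cT t (hS ▸ ht)).eq)).exists_conj_le
    (CL.Grp.IsPGroup.conj_smul (l.pT.to_le hA) g₀) (by
      rintro _ ⟨x, hx, rfl⟩
      have := Subgroup.mem_centralizer_singleton_iff.1 (hA' hx)
      refine Subgroup.mem_centralizer_singleton_iff.2 ?_
      change g₀ * x * g₀⁻¹ * z = z * (g₀ * x * g₀⁻¹)
      rw [← hg₀, conj_mul, conj_mul, this])
  rw [hS] at hle
  have hc' := Subgroup.mem_centralizer_singleton_iff.1 hc
  obtain ⟨g, hg⟩ : ∃ g, g = c * g₀ := ⟨_, rfl⟩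
  have gs : g * s * g⁻¹ = z := by
    calc g * s * g⁻¹ = c * (g₀ * s * g₀⁻¹) * c⁻¹ := by rw [hg]; group
      _ = z := by rw [hg₀, hc', mul_inv_cancel_right]
  have gT : ∀ x ∈ Subgroup.closure {e, z}, g * x * g⁻¹ ∈ T := by
    intro x hx
    have := hle (CL.Grp.conj_mem_conj_smul c (CL.Grp.conj_mem_conj_smul g₀ hx))
    rwa [show c * (g₀ * x * g₀⁻¹) * c⁻¹ = g * x * g⁻¹ by rw [hg]; group] at this
  have me : e ∈ Subgroup.closure {e, z} := Subgroup.subset_closure (.inl rfl)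
  have mz : z ∈ Subgroup.closure {e, z} := Subgroup.subset_closure (.inr rfl)
  have ne' : ¬ C (g * e * g⁻¹) z := fun k => nse h l (h.symm ((h.conj_iff g).1 (gs ▸ k)))
  have uz : C (g * (e * z) * g⁻¹) z := by
    have := h.conj g (h.anti l.ss l.se.symm sz.symm (fun k => nse h l (h.symm k)) fun k => l.sz (h.symm k))
    rwa [gs] at this
  have ue : C (g * (e * z) * g⁻¹) (g * e * g⁻¹) := h.conj g (h.mul (h.refl e) (h.symm l.ez))
  have u2 : g * (e * z) * g⁻¹ * (g * (e * z) * g⁻¹) = 1 := by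
    rw [conj_mul, mul_assoc e, ← mul_assoc z, ← (h.comm l.ez).eq, mul_assoc e z z, l.zz, mul_one, l.ee]; simp
  have e2 : g * e * g⁻¹ * (g * e * g⁻¹) = 1 := by rw [conj_mul, l.ee]; simp
  obtain ⟨a, r, ha, hr, hu | hu⟩ := l.dec _ (gT _ (Subgroup.mul_mem _ me mz))
  swap
  · exact absurd ((h.mul_iff' (h.mul (Ez h l ha) (Rz h l hr))).1 (hu ▸ uz)) l.sz
  obtain ⟨b, r', hb, hr', he | he⟩ := l.dec _ (gT _ me)
  · exact absurd (he ▸ h.mul (Ez h l hb) (Rz h l hr')) ne'
  have hb' := sq_out' h l hb hr' (he ▸ e2)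
  have hr1 := sq_in h l ha hr (hu ▸ u2)
  have c1 : Commute r (g * e * g⁻¹) := by
    rcases hr1 with rfl | rfl
    exacts [Commute.one_left _, (l.cT _ (gT _ me)).symm]
  have c2 : Commute a (g * e * g⁻¹) := by
    have := (h.comm (hu ▸ ue)).mul_left c1.inv_left
    rwa [mul_inv_cancel_right] at this
  have c3 : Commute a (b * r') :=
    (e4_comm (e4_comm (Commute.refl e) l.ef ha).symm (e4_comm l.ef.symm (Commute.refl f) ha).symm hb).mul_right
      (RE h l hr' ha).symm
  have c4 : Commute a s := by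
    have := (he ▸ c2).mul_right c3.inv_right
    rwa [mul_inv_cancel_right] at this
  have hu' : g * (e * z) * g⁻¹ = e * z := by
    rcases fix_s h l ha (by rw [← c4.eq, mul_inv_cancel_right]) with rfl | rfl <;> rcases hr1 with rfl | rfl
    · exfalso
      have : e * z = 1 := by simpa using hu
      exact n1 (by rw [eq_inv_of_mul_eq_one_left this, inv_eq_of_mul_eq_one_left l.zz])
    · exact absurd (h.symm (by simpa [hu] using ue)) ne'
    · exfalso
      have k1 : C (s * (b * r')) a := h.symm (by simpa [hu, he] using ue)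
      have k2 : C (b * r') a := h.mul (by
        rcases hb' with rfl | rfl
        exacts [h.one _, h.refl _]) ((l.memR r').1 hr').2.1
      exact nse h l ((h.mul_iff' k2).1 k1)
    · exact hu
  refine isConj_iff.2 ⟨g, ?_⟩
  rw [← conj_mul, gs, hu', (h.comm l.ez).eq, ← mul_assoc, l.zz, one_mul]

theorem root : (∀ r ∈ R, r = 1 ∨ r = z) ∨ ∃ r ∈ R, r * r = z := by
  refine or_iff_not_imp_right.2 fun hn r hr => ?_
  obtain ⟨k, hk⟩ := l.pT ⟨r, ((l.memR r).1 hr).1⟩
  have hk' : r ^ 2 ^ k = 1 := congrArg Subtype.val hk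
  clear hk
  induction k generalizing r with
  | zero => exact .inl (by simpa using hk')
  | succ k ih =>
    rcases ih (r * r) (R.mul_mem hr hr) (by rw [← sq, ← pow_mul, ← pow_succ', hk']) with e' | e'
    · exact Ru h l hr e'
    · exact absurd ⟨r, hr, e'⟩ hn

theorem exM : ∃ M : Subgroup H, ∀ x, x ∈ M ↔ ∃ a, E4 e f a ∧ (x = a ∨ x = s * z * a) := by
  have si : s⁻¹ = s := inv_eq_of_mul_eq_one_left l.ss
  have sz : Commute s z := l.cT s l.sT
  have zE : ∀ a, E4 e f a → z * a = a * z := fun a ha => (h.comm (Ez h l ha)).symm.eq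
  have cj : ∀ a, E4 e f a → a * (s * z) = s * z * (s * a * s⁻¹) := by
    intro a ha
    calc a * (s * z) = (s * s) * a * s * z := by rw [l.ss]; group
      _ = s * ((s * a * s⁻¹) * z) := by rw [si]; group
      _ = _ := by rw [← zE _ (sE h l ha)]; group
  have sz2 : s * z * (s * z) = 1 := by rw [mul_assoc, ← mul_assoc z, ← sz.eq, mul_assoc, l.zz, mul_one, l.ss]
  have mm := fun {a b} (ha : E4 e f a) (hb : E4 e f b) => e4_mul l.ee l.ff l.ef ha hb
  let M : Subgroup H :=
    { carrier := {x | ∃ a, E4 e f a ∧ (x = a ∨ x = s * z * a)}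
      one_mem' := ⟨1, .inl rfl, .inl rfl⟩
      mul_mem' := by
        rintro _ _ ⟨a, ha, rfl | rfl⟩ ⟨b, hb, rfl | rfl⟩
        · exact ⟨_, mm ha hb, .inl rfl⟩
        · exact ⟨_, mm (sE h l ha) hb, .inr (by rw [← mul_assoc, cj _ ha]; group)⟩
        · exact ⟨_, mm ha hb, .inr (by group)⟩
        · refine ⟨_, mm (sE h l ha) hb, .inl ?_⟩
          calc s * z * a * (s * z * b) = s * z * (a * (s * z)) * b := by group
            _ = s * z * (s * z) * (s * a * s⁻¹ * b) := by rw [cj _ ha]; group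
            _ = _ := by rw [sz2, one_mul]
      inv_mem' := by
        rintro _ ⟨a, ha, rfl | rfl⟩
        · exact ⟨_, ha, .inl (inv_eq_of_mul_eq_one_left (e4_sq l.ee l.ff l.ef ha))⟩
        · refine ⟨_, sE h l ha, .inr ?_⟩
          rw [_root_.mul_inv_rev, inv_eq_of_mul_eq_one_left (e4_sq l.ee l.ff l.ef ha), inv_eq_of_mul_eq_one_left sz2,
            cj _ ha] }
  exact ⟨M, fun _ => Iff.rfl⟩

theorem fin [IsSimpleGroup H] (hna : ¬ IsMulCommutative H) (S : Sylow 2 H) (hS : (S : Subgroup H) = T)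
    (n1 : ¬ IsConj z e) (n2 : ¬ IsConj z (e * z)) (k : IsConj s z) : False := by
  have k1 := key h l S hS n1 k
  have k2 : IsConj (s * z) e := (isConj_iff.2 ⟨f, fsz h l⟩).trans k1
  have zi : z⁻¹ = z := inv_eq_of_mul_eq_one_left l.zz
  have si : s⁻¹ = s := inv_eq_of_mul_eq_one_left l.ss
  have sz : Commute s z := l.cT s l.sT
  rcases root h l with hR | ⟨r, hr, rr⟩
  swap
  · refine n1 (k.symm.trans ((isConj_iff.2 ⟨r, ?_⟩).trans k2))
    calc r * s * r⁻¹ = (s * s) * r * s * r⁻¹ := by rw [l.ss, one_mul]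
      _ = s * (s * r * s⁻¹) * r⁻¹ := by rw [si]; group
      _ = s * (r * r)⁻¹ := by rw [l.inv r hr]; group
      _ = s * z := by rw [rr, zi]
  have zE : ∀ a, E4 e f a → z * a = a * z := fun a ha => (h.comm (Ez h l ha)).symm.eq
  obtain ⟨M, hM'⟩ := exM h l
  have nM : ∀ g : H, g * z * g⁻¹ ∉ M := by
    intro g hg
    obtain ⟨a, ha, hx | hx⟩ := (hM' _).1 hg
    · have c : IsConj z a := isConj_iff.2 ⟨g, hx⟩
      rcases conj_e h l ha with rfl | ⟨g', rfl, -⟩
      · exact l.z1 (isConj_one_left.1 c)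
      · exact n1 (c.trans (isConj_iff.2 ⟨g', rfl⟩).symm)
    · have hx' : g * z * g⁻¹ = s * (a * z) := by rw [hx, ← zE a ha, mul_assoc]
      have c : IsConj z (s * (a * z)) := isConj_iff.2 ⟨g, hx'⟩
      rcases sq_out' h l ha (l.zR h) (by rw [← hx', conj_mul, l.zz]; simp) with rfl | rfl
      · rw [one_mul] at c
        exact n1 (c.trans k2)
      · exact n1 (c.trans k1)
  have zM : z ∉ M := fun k => nM 1 (by rwa [one_mul, inv_one, mul_one])
  have hM : M.relIndex (S : Subgroup H) = 2 := by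
    rw [hS, Subgroup.relIndex_eq_two_iff]
    refine ⟨z, l.zT, fun b hb => ?_⟩
    have nb : ¬ (b * z ∈ M ∧ b ∈ M) := fun k => zM ((M.mul_mem_cancel_left k.2).1 k.1)
    have : b * z ∈ M ∨ b ∈ M := by
      rw [hM', hM']
      obtain ⟨a, r, ha, hr, rfl | rfl⟩ := l.dec b hb <;> rcases hR r hr with rfl | rfl
      · exact .inr ⟨a, ha, .inl (mul_one _)⟩
      · exact .inl ⟨a, ha, .inl (by rw [mul_assoc, l.zz, mul_one])⟩
      · exact .inl ⟨a, ha, .inr (by rw [mul_one, mul_assoc, mul_assoc, zE a ha])⟩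
      · exact .inr ⟨a, ha, .inr (by rw [mul_assoc, zE a ha])⟩
    rcases this with k | k
    · exact .inl ⟨k, fun k' => nb ⟨k, k'⟩⟩
    · exact .inr ⟨k, fun k' => nb ⟨k', k⟩⟩
  obtain ⟨N, hN, hi, -⟩ := CL.Transfer.thompson_transfer (S : Subgroup H) M (CL.Transfer.odd_index_sylow_two S) hM z
    (by rw [sq, l.zz]) nM
  exact no_two hna N hN hi

end

end C3x

open C3x in
theorem subC3 : SubC3.{u} := by
  intro H _ _ _ C hna h z e f y s T R l ⟨S, hS⟩
  by_contra hc
  obtain ⟨n1, n2⟩ := not_or.1 hc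
  obtain ⟨g, gT, gz⟩ := not_iso hna S l.zz l.z1 (hS ▸ l.zT)
  rw [hS] at gT
  obtain ⟨a, r, ha, hr, ht | ht⟩ := l.dec _ gT
  · exact gz (ht.trans (inner h l n1 n2 ha hr (isConj_iff.2 ⟨g, ht⟩)))
  · exact fin h (replace h l (sq_out' h l ha hr (by rw [← ht, conj_mul, l.zz]; simp)) hr) hna S hS n1 n2
      (isConj_iff.2 ⟨g, ht⟩).symm

end CL.Low4
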