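/-
Project LOW4, step CV: if `R` is a four-group then the Sylow 2-subgroup is elementary abelian of order sixteen.
-/
import Cfsg.Agent.Low4.Defs3

set_option autoImplicit false
set_option linter.unusedSectionVars false

namespace CL.Low4

open Matrix Cfsg Cfsg.Geo CL.Asch CL.SLn CL.Low Module
open scoped commutatorElement MatrixGroups

universe u

namespace CVx

abbrev W2 : Type := ZMod 2 × ZMod 2
abbrev W : Type := W2 × W2

def fm2 (v w : W2) : ZMod 2 := v.1 * w.2 + v.2 * w.1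
def fm (v w : W) : ZMod 2 := fm2 v.1 w.1 + fm2 v.2 w.2
def b1 : W := ((1, 0), 0)
def b2 : W := ((0, 1), 0)
def b3 : W := (0, (1, 0))
def b4 : W := (0, (0, 1))
def lin (a b c d v : W) : W := v.1.1 • a + v.1.2 • b + v.2.1 • c + v.2.2 • d
def Y (v : W) : W := ((v.1.2, v.1.1 + v.1.2), v.2)
def U (L : W → W) (v : W) : W := L (Y (L (Y (L (Y (Y (L v)))))))

set_option synthInstance.maxSize 4096 in
set_option maxRecDepth 100000 in
theorem key : ∀ a b : W, fm a b = 1 → ∀ c, fm a c = 0 → fm b c = 0 → ∀ d, fm a d = 0 → fm b d = 0 → fm c d = 1 →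
    (∀ v, lin a b c d (lin a b c d v) = v) → (∀ w : W2, lin a b c d (0, w) = (0, w) → w = 0) →
    ((∀ τ, lin a b c d τ = τ → lin a b c d (τ.1, 0) + τ + (τ.1, 0) = 0) ∧ b1 + a ≠ 0 ∧ b2 + b ≠ 0 ∧
      b2 + b ≠ b1 + a ∧ fm (b1 + a) (b2 + b) = 0 ∧ fm b1 a = 0 ∧ fm b2 b = 0) ∨
    ∃ w : W2, w ≠ 0 ∧ U (lin a b c d) (0, w) = (0, w) ∧
      ((U (lin a b c d) b1).2 ≠ 0 ∨ (U (lin a b c d) b2).2 ≠ 0) := by decide +kernel

theorem two : ∀ i : ZMod 2, i = 0 ∨ i = 1 := by decide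

variable {H : Type u} [Group H]

def pw (a : H) (i : ZMod 2) : H := a ^ i.val
def q (a b : H) (v : W2) : H := pw a v.1 * pw b v.2

@[simp] theorem pw0 (a : H) : pw a 0 = 1 := pow_zero a
@[simp] theorem pw1 (a : H) : pw a 1 = a := pow_one a

theorem pw_add {a : H} (h : a * a = 1) (i j : ZMod 2) : pw a (i + j) = pw a i * pw a j := by
  rcases two i with rfl | rfl <;> rcases two j with rfl | rfl <;> simp [h, show (1 + 1 : ZMod 2) = 0 from rfl]

theorem q_add {a b : H} (ha : a * a = 1) (hb : b * b = 1) (h : Commute a b) (v w : W2) :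
    q a b (v + w) = q a b v * q a b w := by
  rw [q, q, q, Prod.fst_add, Prod.snd_add, pw_add ha, pw_add hb]
  exact (Commute.pow_pow h _ _).mul_mul_mul_comm _ _

theorem q0 (a b : H) : q a b 0 = 1 := by simp [q]

theorem q_mem {a b : H} {T : Subgroup H} (ha : a ∈ T) (hb : b ∈ T) (v : W2) : q a b v ∈ T :=
  mul_mem (pow_mem ha _) (pow_mem hb _)

theorem e4_iff {a b t : H} : E4 a b t ↔ ∃ v, t = q a b v := by
  refine ⟨?_, ?_⟩
  · rintro (rfl | rfl | rfl | rfl)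
    exacts [⟨(0, 0), by simp [q]⟩, ⟨(1, 0), by simp [q]⟩, ⟨(0, 1), by simp [q]⟩, ⟨(1, 1), by simp [q]⟩]
  · rintro ⟨⟨i, j⟩, rfl⟩
    rcases two i with rfl | rfl <;> rcases two j with rfl | rfl <;> simp [q, E4]

theorem q_form {C : H → H → Prop} (h : CX C) {a b : H} (n : ¬ C a b) (v w : W2) :
    C (q a b v) (q a b w) ↔ fm2 v w = 0 := by
  have n1 : ¬ C b a := fun k => n (h.symm k)
  have n2 : ¬ C (a * b) a := fun k => n1 ((h.mul_iff (h.refl a)).1 k)
  have n3 : ¬ C (a * b) b := fun k => n ((h.mul_iff' (h.refl b)).1 k)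
  have n4 : ¬ C a (a * b) := fun k => n2 (h.symm k)
  have n5 : ¬ C b (a * b) := fun k => n3 (h.symm k)
  have o : ∀ a, C a 1 := fun a => h.symm (h.one a)
  obtain ⟨i, j⟩ := v
  obtain ⟨k, l⟩ := w
  rcases two i with rfl | rfl <;> rcases two j with rfl | rfl <;> rcases two k with rfl | rfl <;>
    rcases two l with rfl | rfl <;>
    simp [q, fm2, n, n1, n2, n3, n4, n5, o, h.one, h.refl, show (1 + 1 : ZMod 2) = 0 from rfl]

/-- coordinates on `T` -/
structure Co (C : H → H → Prop) (e f y : H) (T R : Subgroup H) (θ : W → H) : Prop where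
  add : ∀ v w, θ (v + w) = θ v * θ w
  zero : θ 0 = 1
  mem : ∀ t, t ∈ T ↔ ∃ v, t = θ v
  form : ∀ v w, C (θ v) (θ w) ↔ fm v w = 0
  hE : ∀ v, θ (v, 0) = q e f v
  hR : ∀ w, θ (0, w) ∈ R
  hy : ∀ v, y * θ v * y⁻¹ = θ (Y v)

theorem exists_co {C : H → H → Prop} (h : CX C) {z e f y : H} {T R : Subgroup H} (l : LZ C z e f y T R) {r : H}
    (r2 : r * r = 1) (r1 : r ≠ 1) (rz : r ≠ z) (hR : ∀ t, t ∈ R ↔ E4 z r t) : ∃ θ, Co C e f y T R θ := by
  have rR : r ∈ R := (hR r).2 (.inr (.inr (.inl rfl)))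
  obtain ⟨n, cen⟩ := l.cent h rR r2 r1 rz
  have qR : ∀ w, q z r w ∈ R := q_mem (l.zR h) rR
  have rT : r ∈ T := ((l.memR r).1 rR).1
  have zr : Commute z r := (l.cT r rT).symm
  have RE : ∀ ρ ∈ R, ∀ v, C ρ (q e f v) := fun ρ hρ v =>
    h.symm (h.mul (h.pow (h.symm ((l.memR ρ).1 hρ).2.1) _) (h.pow (h.symm ((l.memR ρ).1 hρ).2.2) _))
  have add : ∀ v w : W, q e f (v + w).1 * q z r (v + w).2 = q e f v.1 * q z r v.2 * (q e f w.1 * q z r w.2) :=
    fun v w => by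
      rw [Prod.fst_add, Prod.snd_add, q_add l.ee l.ff l.ef, q_add l.zz r2 zr]
      exact (h.comm (RE _ (qR _) _)).symm.mul_mul_mul_comm _ _
  have sq : ∀ w : W, q e f w.1 * q z r w.2 * (q e f w.1 * q z r w.2) = 1 := fun w => by
    rw [← add, (by decide : ∀ w : W, w + w = 0) w]; simp [q0]
  refine ⟨fun v => q e f v.1 * q z r v.2, add, by simp [q0], fun t => ⟨fun ht => ?_, ?_⟩, fun v w => ?_,
    fun v => by simp [q0], fun w => by simpa [q0] using qR w, fun v => ?_⟩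
  · obtain ⟨ε, ρ, h1, h2, rfl⟩ := l.dec h ht (cen t ht).1 (cen t ht).2
    obtain ⟨v, rfl⟩ := e4_iff.1 h1
    obtain ⟨w, rfl⟩ := e4_iff.1 ((hR ρ).1 h2)
    exact ⟨(v, w), rfl⟩
  · rintro ⟨v, rfl⟩
    exact mul_mem (q_mem l.eT l.fT _) (q_mem l.zT rT _)
  · have k1 : C (q e f v.1) (q e f w.1 * q z r w.2) ↔ fm2 v.1 w.1 = 0 := by
      rw [← q_form h l.anti]
      exact ⟨fun k => h.symm ((h.mul_iff' (RE _ (qR _) _)).1 (h.symm k)), fun k => h.mul_right k (h.symm (RE _ (qR _) _))⟩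
    have k2 : C (q z r v.2) (q e f w.1 * q z r w.2) ↔ fm2 v.2 w.2 = 0 := by
      rw [← q_form h (fun k => n (h.symm k))]
      exact ⟨fun k => h.symm ((h.mul_iff (h.symm (RE _ (qR _) _))).1 (h.symm k)), fun k => h.mul_right (RE _ (qR _) _) k⟩
    have c1 : Commute (q e f v.1) (q e f w.1 * q z r w.2) := by
      refine Commute.mul_right ?_ (h.comm (RE _ (qR _) _)).symm
      rw [Commute, SemiconjBy, ← q_add l.ee l.ff l.ef, ← q_add l.ee l.ff l.ef, add_comm]
    have c2 : Commute (q z r v.2) (q e f w.1 * q z r w.2) := by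
      refine Commute.mul_right (h.comm (RE _ (qR _) _)) ?_
      rw [Commute, SemiconjBy, ← q_add l.zz r2 zr, ← q_add l.zz r2 zr, add_comm]
    rw [fm]
    by_cases a1 : fm2 v.1 w.1 = 0
    · rw [h.mul_iff (k1.2 a1), k2, a1, zero_add]
    by_cases a2 : fm2 v.2 w.2 = 0
    · rw [h.mul_iff' (k2.2 a2), k1, a2, add_zero]
    · rw [(two _).resolve_left a1, (two _).resolve_left a2]
      exact iff_of_true (h.anti (sq w) c1 c2 (mt k1.1 a1) (mt k2.1 a2)) rfl
  · obtain ⟨⟨i, j⟩, w⟩ := v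
    have e1 : y * (e * f) * y⁻¹ = e := by
      rw [← conj_mul, l.ye, l.yf, ← mul_assoc, ← l.ef.eq, mul_assoc, l.ff, mul_one]
    rw [← conj_mul, (l.yR _ (qR _)).mul_inv_cancel]
    congr 1
    rcases two i with rfl | rfl <;> rcases two j with rfl | rfl <;>
      simp [q, Y, l.ye, l.yf, e1, show (1 + 1 : ZMod 2) = 0 from rfl]

namespace Co

variable {C : H → H → Prop} {e f y : H} {T R : Subgroup H} {θ : W → H} (c : Co C e f y T R θ)
include c

theorem sq (v : W) : θ v * θ v = 1 := by rw [← c.add, (by decide : ∀ w : W, w + w = 0) v, c.zero]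

theorem inj (h : CX C) : Function.Injective θ := fun v w e => by
  have k : θ (v + w) = 1 := by rw [c.add, e, c.sq]
  exact (by decide : ∀ v w : W, (∀ u, fm (v + w) u = 0) → v = w) v w fun u => (c.form _ _).1 (k ▸ h.one _)

theorem act (h : CX C) {x : H} (hx : ∀ t ∈ T, x * t * x⁻¹ ∈ T) :
    ∃ a b c d, ∀ v, x * θ v * x⁻¹ = θ (lin a b c d v) := by
  choose X hX using fun v => (c.mem _).1 (hx _ ((c.mem _).2 ⟨v, rfl⟩))
  let X' : W →+ W := AddMonoidHom.mk' X fun v w => c.inj h (by rw [← hX, c.add, c.add, ← hX, ← hX, conj_mul])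
  refine ⟨X' b1, X' b2, X' b3, X' b4, fun v => (hX v).trans (congrArg θ ?_)⟩
  have : X' (lin b1 b2 b3 b4 v) = lin (X' b1) (X' b2) (X' b3) (X' b4) v := by
    simp only [lin, map_add, ZMod.map_smul]
  rw [← this, (by decide : ∀ v, lin b1 b2 b3 b4 v = v) v]
  rfl

end Co

theorem act_mul {θ : W → H} {g g' : H} {X X' : W → W} (h : ∀ v, g * θ v * g⁻¹ = θ (X v))
    (h' : ∀ v, g' * θ v * g'⁻¹ = θ (X' v)) (v : W) : g * g' * θ v * (g * g')⁻¹ = θ (X (X' v)) := by
  rw [← h, ← h']; group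

end CVx

open CVx in
theorem subCV : SubCV.{u} := by
  intro H _ _ C h z e f y T R l r r2 r1 rz hR
  obtain ⟨θ, c⟩ := exists_co h l r2 r1 rz hR
  have inj := c.inj h
  obtain ⟨S, hS⟩ := l.pT.exists_le_sylow
  rcases hS.eq_or_lt with hS | hlt
  · refine ⟨S, hS ▸ fun s hs => ?_, hS ▸ ?_⟩
    · obtain ⟨v, rfl⟩ := (c.mem s).1 hs
      exact c.sq v
    · rw [← Nat.card_congr (Equiv.ofBijective (fun v : W => (⟨θ v, (c.mem _).2 ⟨v, rfl⟩⟩ : T))
        ⟨fun v w e => inj (congrArg Subtype.val e), fun t => let ⟨v, e⟩ := (c.mem _).1 t.2; ⟨v, Subtype.ext e.symm⟩⟩)]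
      simp
  exfalso
  obtain ⟨x0, ⟨h1, h2⟩, h3⟩ := SetLike.exists_of_lt (CL.Grp.lt_inf_normalizer_pGroup S.isPGroup' hlt)
  obtain ⟨k, hk⟩ := S.isPGroup' ⟨x0, h1⟩
  obtain ⟨j, xT, x2⟩ := CL.Grp.exists_pow_notMem_pow_prime_mem (p := 2) (N := T) (x := x0) (k := k)
    (by rw [show x0 ^ 2 ^ k = 1 from congrArg Subtype.val hk]; exact T.one_mem) h3
  have xS : x0 ^ 2 ^ j ∈ (S : Subgroup H) := pow_mem h1 _
  have xN := fun t ht => (Subgroup.mem_normalizer_iff.1 (pow_mem h2 (2 ^ j)) t).1 ht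
  generalize x0 ^ 2 ^ j = x at xT x2 xS xN
  obtain ⟨a, b, c', d, hx⟩ := c.act h xN
  have cm : ∀ v w, θ v * θ w = θ w * θ v := fun v w => by rw [← c.add, ← c.add, add_comm]
  obtain ⟨τ, hτ⟩ := (c.mem _).1 x2
  rw [pow_two] at hτ
  have e1 : lin a b c' d b1 = a := by simp [lin, b1]
  have e2 : lin a b c' d b2 = b := by simp [lin, b2]
  have e3 : lin a b c' d b3 = c' := by simp [lin, b3]
  have e4 : lin a b c' d b4 = d := by simp [lin, b4]
  have fr : ∀ v w, fm (lin a b c' d v) (lin a b c' d w) = 0 ↔ fm v w = 0 := fun v w => by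
    rw [← c.form, ← c.form, ← hx, ← hx, h.conj_iff]
  have θe : θ b1 = e := (c.hE _).trans (by simp [q])
  have θf : θ b2 = f := (c.hE _).trans (by simp [q])
  have n1 : ∀ {w : W2}, w ≠ 0 → θ (0, w) ≠ 1 := fun hw e => hw (congrArg Prod.snd (inj (e.trans c.zero.symm)))
  have f12 := fr b1 b2
  have f13 := fr b1 b3
  have f23 := fr b2 b3
  have f14 := fr b1 b4
  have f24 := fr b2 b4
  have f34 := fr b3 b4
  simp only [e1, e2, e3, e4] at f12 f13 f23 f14 f24 f34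
  rcases key a b ((two _).resolve_left (mt f12.1 (by decide))) c' (f13.2 (by decide)) (f23.2 (by decide)) d
    (f14.2 (by decide)) (f24.2 (by decide)) ((two _).resolve_left (mt f34.1 (by decide)))
    (fun v => inj (by rw [← act_mul hx hx, hτ, cm, mul_inv_cancel_right]))
    (fun w hw => by_contra fun w0 => xT (l.max _ (c.hR w) (n1 w0) (c.sq _) (T ⊔ Subgroup.zpowers x)
      (S.isPGroup'.to_le (sup_le hS (Subgroup.zpowers_le.2 xS))) le_sup_left (fun g hg => by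
        have : T ⊔ Subgroup.zpowers x ≤ Subgroup.centralizer {θ (0, w)} := sup_le (fun t ht => by
            obtain ⟨v, rfl⟩ := (c.mem t).1 ht
            exact Subgroup.mem_centralizer_singleton_iff.2 (cm _ _))
          (Subgroup.zpowers_le.2 (Subgroup.mem_centralizer_singleton_iff.2
            (mul_inv_eq_iff_eq_mul.1 ((hx _).trans (congrArg θ hw)))))
        exact Subgroup.mem_centralizer_singleton_iff.1 (this hg))
      (Subgroup.mem_sup_right (Subgroup.mem_zpowers x)))) with ⟨k1, k2, k3, k4, k5, k6, k7⟩ | ⟨w, w0, k1, k2⟩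
  · have s1 : x * θ (τ.1, 0) * (x * θ (τ.1, 0)) = 1 := by
      rw [← c.zero, ← k1 τ (inj (by rw [← hx, ← hτ]; group)), c.add, c.add, ← hx, ← hτ]
      group
    have a1 : ∀ v, x * θ (τ.1, 0) * θ v * (x * θ (τ.1, 0))⁻¹ = θ (lin a b c' d v) := fun v => by
      rw [← hx, mul_assoc x, cm]; group
    have nT : x * θ (τ.1, 0) ∉ T := fun k => xT ((T.mul_mem_cancel_right ((c.mem _).2 ⟨_, rfl⟩)).1 k)
    generalize x * θ (τ.1, 0) = x1 at s1 a1 nT
    have sw : ∀ v, fm v (lin a b c' d v) = 0 → C (θ (v + lin a b c' d v)) x1 := fun v hv => by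
      rw [c.add, ← a1]
      exact h.symm ((h.swap _ s1).2 (by rw [a1]; exact (c.form _ _).2 hv))
    refine h.m3 (a := θ (b1 + a)) (b := θ (b2 + b)) (c := x1) ⟨c.sq _, c.sq _, s1,
      fun e => k2 (inj (e.trans c.zero.symm)), fun e => k3 (inj (e.trans c.zero.symm)), fun e => k4 (inj e),
      fun e => nT ?_⟩ ((c.form _ _).2 k5) (by simpa only [e1] using sw b1 (by rwa [e1]))
      (by simpa only [e2] using sw b2 (by rwa [e2]))
    obtain ⟨v, rfl⟩ := e4_iff.1 e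
    exact q_mem ((c.mem _).2 ⟨_, rfl⟩) ((c.mem _).2 ⟨_, rfl⟩) v
  · have hu := act_mul hx (act_mul c.hy (act_mul hx (act_mul c.hy (act_mul hx (act_mul c.hy (act_mul c.hy hx))))))
    change ∀ v, _ = θ (U (lin a b c' d) v) at hu
    generalize x * (y * (x * (y * (x * (y * (y * x)))))) = g at hu
    obtain ⟨m1, m2⟩ := l.nrm _ (c.hR w) (n1 w0) (c.sq _) g (mul_inv_eq_iff_eq_mul.1 ((hu _).trans (congrArg θ k1)))
      fun t ht => by
        obtain ⟨v, rfl⟩ := (c.mem t).1 ht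
        exact (c.mem _).2 ⟨_, hu v⟩
    have fin : ∀ v, E4 e f (g * θ v * g⁻¹) → (U (lin a b c' d) v).2 = 0 := fun v hv => by
      obtain ⟨v', e'⟩ := e4_iff.1 hv
      rw [hu, ← c.hE] at e'
      exact congrArg Prod.snd (inj e')
    exact k2.elim (fun k => k (fin _ (θe.symm ▸ m1))) fun k => k (fin _ (θf.symm ▸ m2))

end CL.Low4
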