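/-
Project LOW4, job CXE: configurations excluded by the relation `C`, and `2³ : 7` in `Aₙ` and `M₂₂`.
-/
import Cfsg.Agent.Low4.Defs3
import Cfsg.Agent.Spor.M24Perm
import Cfsg.Prelude.Def_Spor_Mathieu

set_option autoImplicit false
set_option linter.unusedSectionVars false

namespace CL.Low4

open Matrix Cfsg Cfsg.Geo CL.Asch CL.SLn CL.Low Module
open scoped commutatorElement MatrixGroups

universe u

namespace CXEx

theorem comm_rel {H : Type u} [Group H] {C : H → H → Prop} (h : CX C) {w x y : H} (hw : w * w = 1) (hx : Commute x w)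
    (hy : Commute y w) : C ⁅x, y⁆ w := by
  have ni : ∀ {a : H}, ¬ C a w → ¬ C a⁻¹ w := fun k k' => k (by simpa using h.inv k')
  rw [commutatorElement_def]
  by_cases k1 : C x w <;> by_cases k2 : C y w
  · exact h.mul (h.mul (h.mul k1 k2) (h.inv k1)) (h.inv k2)
  · exact h.anti hw ((hx.mul_left hy).mul_left hx.inv_left) hy.inv_left
      (mt (h.mul_iff' (h.inv k1)).1 (mt (h.mul_iff k1).1 k2)) (ni k2)
  · exact h.mul (h.anti hw (hx.mul_left hy) hx.inv_left (mt (h.mul_iff' k2).1 k1) (ni k1)) (h.inv k2)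
  · rw [mul_assoc]
    exact h.mul (h.anti hw hx hy k1 k2) (h.anti hw hx.inv_left hy.inv_left (ni k1) (ni k2))

/-- the relations of `2³ : 7` -/
def W {H : Type*} [Group H] (a b c g : H) : Prop :=
  (a * a = 1 ∧ b * b = 1 ∧ c * c = 1 ∧ a ≠ 1 ∧ b ≠ 1 ∧ b ≠ a ∧ ¬ (c = 1 ∨ c = a ∨ c = b ∨ c = a * b)) ∧
    a * b = b * a ∧ a * c = c * a ∧ b * c = c * b ∧ g * a = b * g ∧ g * b = c * g ∧ g * c = a * b * g

theorem W.map_iff {H K : Type*} [Group H] [Group K] (f : H →* K) (hf : Function.Injective f) {a b c g : H} :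
    W (f a) (f b) (f c) (f g) ↔ W a b c g := by
  simp only [W, ← map_mul, Ne, hf.eq_iff, (injective_iff_map_eq_one' f).1 hf]

theorem W.eg3 {H : Type u} {K : Type*} [Group H] [Group K] (e : H ≃* K) {a b c g : K} (h : W a b c g) : EG3 H := by
  obtain ⟨h0, h1, h2, h3, h4, h5, h6⟩ := (W.map_iff e.symm.toMonoidHom e.symm.injective).2 h
  exact ⟨_, _, _, _, h0, h1, h2, h3, mul_inv_eq_iff_eq_mul.2 h4, mul_inv_eq_iff_eq_mul.2 h5,
    mul_inv_eq_iff_eq_mul.2 h6⟩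

def pa : Equiv.Perm (Fin 8) := ⟨![1, 0, 3, 2, 5, 4, 7, 6], ![1, 0, 3, 2, 5, 4, 7, 6], by decide, by decide⟩
def pb : Equiv.Perm (Fin 8) := ⟨![2, 3, 0, 1, 6, 7, 4, 5], ![2, 3, 0, 1, 6, 7, 4, 5], by decide, by decide⟩
def pc : Equiv.Perm (Fin 8) := ⟨![4, 5, 6, 7, 0, 1, 2, 3], ![4, 5, 6, 7, 0, 1, 2, 3], by decide, by decide⟩
def pg : Equiv.Perm (Fin 8) := ⟨![0, 2, 4, 6, 3, 1, 7, 5], ![0, 5, 1, 4, 2, 7, 3, 6], by decide, by decide⟩

theorem w8 : W pa pb pc pg := by unfold W; decide +kernel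

theorem s8 : Equiv.Perm.sign pa = 1 ∧ Equiv.Perm.sign pb = 1 ∧ Equiv.Perm.sign pc = 1 ∧ Equiv.Perm.sign pg = 1 := by
  decide +kernel

theorem alt {n : ℕ} (hn : 8 ≤ n) : ∃ a b c g : alternatingGroup (Fin n), W a b c g := by
  let f := Equiv.Perm.viaEmbeddingHom (Fin.castLEEmb hn)
  have hs : ∀ σ, Equiv.Perm.sign σ = 1 → f σ ∈ alternatingGroup (Fin n) := fun σ h => by
    classical
    rw [Equiv.Perm.mem_alternatingGroup, ← h]
    exact @Equiv.Perm.sign_extendDomain _ _ _ _ _ _ σ _ (Classical.decPred _)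
      (Equiv.ofInjective _ (Fin.castLEEmb hn).2)
  exact ⟨⟨_, hs _ s8.1⟩, ⟨_, hs _ s8.2.1⟩, ⟨_, hs _ s8.2.2.1⟩, ⟨_, hs _ s8.2.2.2⟩,
    (W.map_iff (alternatingGroup (Fin n)).subtype Subtype.val_injective).1
      ((W.map_iff f (Equiv.Perm.viaEmbeddingHom_injective _)).2 w8)⟩

open CL.Spor in
theorem m22 : ∃ a b c g : Spor.M22, W a b c g := by
  have mem : ∀ {P : ℕ} {x : M24}, Rep P x → pf P 23 = 23 → pf P 0 = 0 → (x : Equiv.Perm GolayPt) ∈ Spor.M22 :=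
    fun {P x} h h1 h2 => ⟨⟨x.2, (h.smul_gPt (k := 23) (by norm_num)).trans (congrArg gPt h1)⟩,
      (h.smul_gPt (k := 0) (by norm_num)).trans (congrArg gPt h2)⟩
  obtain ⟨a, ha⟩ := exists_rep_of_inM24 (P := 984808064567918337519799801439391072) (by decide +kernel)
  obtain ⟨b, hb⟩ := exists_rep_of_inM24 (P := 984321324869319684017664638098442784) (by decide +kernel)
  obtain ⟨c, hc⟩ := exists_rep_of_inM24 (P := 969241353870756385364331985140518304) (by decide +kernel)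
  obtain ⟨g, hg⟩ := exists_rep_of_inM24 (P := 980944029307052241309036660937511968) (by decide +kernel)
  have w : W a b c g := by
    rw [W, Ne, Ne, Ne, (ha.mul ha).eq_iff rep_one, (hb.mul hb).eq_iff rep_one, (hc.mul hc).eq_iff rep_one,
      ha.eq_iff rep_one, hb.eq_iff rep_one, hb.eq_iff ha, hc.eq_iff rep_one, hc.eq_iff ha, hc.eq_iff hb,
      hc.eq_iff (ha.mul hb), (ha.mul hb).eq_iff (hb.mul ha), (ha.mul hc).eq_iff (hc.mul ha),
      (hb.mul hc).eq_iff (hc.mul hb), (hg.mul ha).eq_iff (hb.mul hg), (hg.mul hb).eq_iff (hc.mul hg),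
      (hg.mul hc).eq_iff ((ha.mul hb).mul hg)]
    decide +kernel
  exact ⟨⟨_, mem ha (by decide +kernel) (by decide +kernel)⟩, ⟨_, mem hb (by decide +kernel) (by decide +kernel)⟩,
    ⟨_, mem hc (by decide +kernel) (by decide +kernel)⟩, ⟨_, mem hg (by decide +kernel) (by decide +kernel)⟩,
    (W.map_iff Spor.M22.subtype Subtype.val_injective).1 ((W.map_iff M24.subtype Subtype.val_injective).2 w)⟩

end CXEx

open CXEx in
theorem subCXE : SubCXE.{u} := by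
  intro H _ C h
  refine ⟨?_, ?_, ?_⟩
  · rintro ⟨a, b, c, g, i3, ab, ac, bc, ga, gb, gc⟩
    have i1 : C a b ↔ C b c := by rw [← h.conj_iff g, ga, gb]
    have i2 : C b c ↔ C c (a * b) := by rw [← h.conj_iff g, gb, gc]
    have i4 : C a c ↔ C b (a * b) := by rw [← h.conj_iff g, ga, gc]
    have k : C a b := by
      by_contra k
      have k1 : ¬ C b c := mt i1.2 k
      have k2 : ¬ C a c := fun e => k ((h.mul_iff' (h.refl b)).1 (h.symm (i4.1 e)))
      exact k1 (i2.2 (h.anti' i3.1 i3.2.1 ac.symm bc.symm (mt h.symm k2) (mt h.symm k1)))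
    exact h.m3 i3 k ((h.mul_iff' (i1.1 k)).1 (h.symm (i2.1 (i1.1 k)))) (i1.1 k)
  · rintro ⟨a, b, c, s, t, i3, rfl, rfl, sb, sc, tc⟩
    exact h.m3 i3 (h.sq i3.2.1 sb) (h.sq i3.2.2.1 sc) (h.sq i3.2.2.1 tc)
  · rintro ⟨a, b, x, s, x', s', aa, bb, a1, b1, ba, e, hw⟩
    obtain ⟨p1, p2, p3, p4⟩ := hw a (Or.inl rfl)
    obtain ⟨q1, q2, q3, q4⟩ := hw b (Or.inr rfl)
    have cm : ∀ {u v w : H}, Commute u w → Commute v w → Commute ⁅u, v⁆ w := fun h1 h2 =>
      ((h1.mul_left h2).mul_left h1.inv_left).mul_left h2.inv_left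
    have k : C a b := e ▸ comm_rel h bb (cm q1 q2) (cm q3 q4)
    exact a1 (e.trans (commutatorElement_eq_one_iff_commute.2 (h.comm (h.ab aa bb a1 b1 ba k
      (comm_rel h aa p1 p2) (comm_rel h bb q1 q2) (comm_rel h aa p3 p4) (comm_rel h bb q3 q4)))))

open CXEx in
theorem dataEG : DataEG.{u} := by
  rintro H _ (⟨n, hn, ⟨e⟩⟩ | ⟨⟨e⟩⟩)
  · obtain ⟨a, b, c, g, h⟩ := alt hn
    exact h.eg3 e
  · obtain ⟨a, b, c, g, h⟩ := m22
    exact h.eg3 e

end CL.Low4
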