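/-
Project LOW4: the standing hypotheses for reflection groups.
-/
import Cfsg.Agent.Low4.Defs2

set_option autoImplicit false

namespace CL.Low4

open Matrix Cfsg Cfsg.Geo CL.Asch CL.SLn CL.Low Module
open scoped commutatorElement

universe u

namespace Z5Ctx

variable {F : Type u} [Field F] {P Γ N : Subgroup (G F)} {v : V F} {φ : Dual F (V F)} {g r : G F}

theorem triv (h : QS P) {A : Type*} [CommGroup A] (f : P →* A) (a : P) : f a = 1 := by
  have : ⁅P, P⁆ ≤ f.ker.map P.subtype := Subgroup.commutator_le.2 fun a ha b hb =>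
    ⟨⁅(⟨a, ha⟩ : P), ⟨b, hb⟩⁆, by
      rw [SetLike.mem_coe, MonoidHom.mem_ker, map_commutatorElement, commutatorElement_eq_one_iff_mul_comm, mul_comm],
      rfl⟩
  exact (Subgroup.mem_map_iff_mem P.subtype_injective).1 (this (h.perfect.ge a.2))

theorem det_rf' (h : φ v = 2) (hg : ∀ y, g • y = y - φ y • v) : (g : Matrix (Fin 4) (Fin 4) F).det = -1 := by
  rw [det_eq_of_smul (f := LinearMap.transvection (-φ) v) (fun x ↦ (hg x).trans (by
    rw [LinearMap.transvection.apply, LinearMap.neg_apply, neg_smul, sub_eq_add_neg]))]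
  simp [h]
  norm_num

/-- a reflection up to sign is not scalar -/
theorem nsc {η : F} (hv : v ≠ 0) (hφ : φ ≠ 0) (hη : η ≠ 0) (hg : ∀ y, g • y = η • (y - φ y • v)) :
    g ∉ scalars (Fin 4) F := fun hs => by
  obtain ⟨c, hc⟩ := mem_scalars_iff'.mp hs
  have h1 : ∀ y, (η * φ y) • v = (η - c) • y := fun y => by
    have := hg y
    rw [gsmul_def, hc, smul_mulVec, one_mulVec, smul_sub, smul_smul] at this
    rw [sub_smul, this, sub_sub_cancel]
  have a0 := congrFun (h1 (Pi.single 0 1)) 0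
  have a1 := congrFun (h1 (Pi.single 0 1)) 1
  have b0 := congrFun (h1 (Pi.single 1 1)) 0
  have b1 := congrFun (h1 (Pi.single 1 1)) 1
  simp only [Pi.smul_apply, smul_eq_mul, Pi.single_eq_same, mul_one, ne_eq, one_ne_zero, not_false_eq_true,
    Pi.single_eq_of_ne, zero_ne_one, mul_zero] at a0 a1 b0 b1
  have h2 : η - c = 0 := pow_eq_zero_iff (two_ne_zero) |>.1 (by
    linear_combination -(η - c) * a0 - η * φ (Pi.single 0 1) * v 0 * b1 + η * φ (Pi.single 1 1) * v 0 * a1)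
  refine hφ (LinearMap.ext fun y => ?_)
  have := h1 y
  rw [h2, zero_smul, smul_eq_zero] at this
  exact (mul_eq_zero.1 (this.resolve_right hv)).resolve_left hη

theorem exists_pm (hΓ : Γ ≤ Gam P) (hr : r ∈ Γ) (e : ∀ y, r • y = y - φ y • v) :
    ∃ s ∈ P, ∃ η : F, η ≠ 0 ∧ (∀ y, s • y = η • (y - φ y • v)) ∧ ∀ g : G F, ⁅g, s⁆ = ⁅g, r⁆ := by
  obtain ⟨s, hs, c, rfl⟩ := mem_sup_scalars.1 (hΓ hr)
  have hc := Subgroup.mem_center_iff.1 (scalars_le_center (scal_mem (ι := Fin 4) c))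
  refine ⟨s, hs, (c⁻¹ : Fˣ), Units.ne_zero _, fun y => ?_, fun g => ?_⟩
  · rw [← e, hc, mul_smul, gsmul_def (scal _ c), coe_scal, smul_mulVec, one_mulVec, smul_smul, Units.inv_mul, one_smul]
  · simp only [commutatorElement_def, _root_.mul_inv_rev]
    rw [← mul_assoc g s, mul_assoc (g * s) _ g⁻¹, ← hc g⁻¹]
    group

/-- a subgroup normalised by `P` and containing a reflection of `± P` contains `P` -/
theorem le_of_rf (h : QS P) (hΓ : Γ ≤ Gam P) (hN : ∀ g ∈ P, ∀ n ∈ N, g * n * g⁻¹ ∈ N) (h1 : Rf Γ v φ)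
    (h2 : r ∈ N) (e : ∀ y, r • y = y - φ y • v) : P ≤ N := by
  obtain ⟨r', hr, e'⟩ := h1.mem
  obtain rfl : r' = r := gext fun y => (e' y).trans (e y).symm
  obtain ⟨s, hs, η, hη, es, c⟩ := exists_pm hΓ hr e
  by_contra k
  have := h.simple
  have hc : ((⟨s, hs⟩ : P) : PQ P) ∈ Subgroup.center (PQ P) := Subgroup.mem_center_iff.2 fun q => by
    obtain ⟨g, rfl⟩ := QuotientGroup.mk_surjective q
    rw [← commutatorElement_eq_one_iff_mul_comm]
    change ((⁅g, (⟨s, hs⟩ : P)⁆ : P) : PQ P) = 1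
    by_contra n
    refine k (h.le_of_normal hN ?_ (⁅g, (⟨s, hs⟩ : P)⁆ : P).2 (mt mk_eq_one_iff.2 n))
    change ⁅(g : G F), s⁆ ∈ N
    rw [c]
    exact N.mul_mem (hN g g.2 _ h2) (N.inv_mem h2)
  rcases (inferInstance : (Subgroup.center (PQ P)).Normal).eq_bot_or_eq_top with e1 | e1
  · rw [e1, Subgroup.mem_bot, mk_eq_one_iff] at hc
    exact nsc h1.ne h1.ne' hη es hc
  · exact h.nonabelian ⟨⟨fun a b => (Subgroup.mem_center_iff.1 (e1.ge (Subgroup.mem_top b)) a)⟩⟩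

theorem noFrame (h : QS P) (hP : P ≤ Γ) (hΓ : Γ ≤ Gam P) (h1 : Rf Γ v φ) : ¬ Frame Γ := by
  rintro ⟨e, x, hb, hf⟩
  obtain ⟨r, hr, er⟩ := h1.mem
  obtain ⟨s, hs, η, hη, es, -⟩ := exists_pm hΓ hr er
  choose σ c hσ using fun (g : P) i => hf g (hP g.2) i
  have c0 : ∀ g i, c g i ≠ 0 := fun g i k => by
    have := hσ g i
    rw [k, zero_smul, smul_eq_zero_iff_eq] at this
    exact hb.e_ne i this
  have key : ∀ (g : P) i j, σ g i = j ↔ x j ((g : G F) • e i) ≠ 0 := fun g i j => by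
    rw [hσ, map_smul, hb.apply, smul_eq_mul, eq_comm]
    split_ifs with k <;> simp [k, c0]
  let f : P →* Function.End (Fin 4) :=
    { toFun := σ
      map_one' := funext fun i => (key 1 i i).2 (by simp [hb.diag])
      map_mul' := fun a b => funext fun i => (key _ i _).2 (by
        rw [Subgroup.coe_mul, mul_smul, hσ, gsmul_smul, map_smul]
        exact mul_ne_zero (c0 b i) ((key a _ _).1 rfl)) }
  have hπ : ∀ g i, f.toHomPerm g i = σ g i := fun _ _ => rfl
  by_cases k : f.toHomPerm ⟨s, hs⟩ = 1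
  · have h2 := h.le_of_normal (N := f.toHomPerm.ker.map P.subtype) (by
      rintro g hg _ ⟨n, hn, rfl⟩
      exact ⟨_, (MonoidHom.normal_ker _).conj_mem n hn ⟨g, hg⟩, rfl⟩) ⟨⟨s, hs⟩, k, rfl⟩ hs (nsc h1.ne h1.ne' hη es)
    have h3 : ∀ (g : P) i, (g : G F) • e i = c g i • e i := fun g i => by
      rw [hσ, ← hπ, show f.toHomPerm g = 1 from (Subgroup.mem_map_iff_mem P.subtype_injective).1 (h2 g.2)]
      rfl
    refine h.nonabelian ⟨⟨fun a b => ?_⟩⟩
    obtain ⟨a, rfl⟩ := QuotientGroup.mk_surjective a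
    obtain ⟨b, rfl⟩ := QuotientGroup.mk_surjective b
    rw [← QuotientGroup.mk_mul, ← QuotientGroup.mk_mul]
    refine congrArg _ (Subtype.ext (gext fun y => ?_))
    rw [← hb.pr_eq_self (by simp) y]
    simp only [pr, Finset.smul_sum, gsmul_smul, Subgroup.coe_mul, mul_smul, h3, smul_comm (c a _) (c b _)]
  · obtain ⟨i, hi⟩ : ∃ i, f.toHomPerm ⟨s, hs⟩ i ≠ i := by
      by_contra n
      push Not at n
      exact k (Equiv.ext n)
    have k1 : ∀ l j, f.toHomPerm ⟨s, hs⟩ l = j ↔ (if j = l then 1 else 0) - φ (e l) * x j v ≠ 0 := fun l j => by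
      rw [hπ, key, es, map_smul, map_sub, map_smul, hb.apply]
      simp [hη]
    have h2 := triv h (Equiv.Perm.sign.comp f.toHomPerm) ⟨s, hs⟩
    rw [MonoidHom.comp_apply] at h2
    generalize f.toHomPerm ⟨s, hs⟩ = π at hi k1 h2
    have a0 : φ (e i) ≠ 0 := fun k => hi ((k1 i i).2 (by simp [k]))
    have fx : ∀ l, l ≠ i → l ≠ π i → π l = l := fun l l1 l2 => (k1 l l).2 (by
      have := mt (k1 i l).2 l2.symm
      simp only [l1, if_false, zero_sub, ne_eq, neg_eq_zero, mul_eq_zero, a0, false_or, not_not] at this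
      simp [this])
    have h3 : π = Equiv.swap i (π i) := Equiv.ext fun l => by
      by_cases l1 : l = i
      · rw [l1, Equiv.swap_apply_left]
      by_cases l2 : l = π i
      · rw [l2, Equiv.swap_apply_right]
        by_contra n
        exact hi (π.injective (π.injective (fx _ n fun k => hi (π.injective k))))
      · rw [fx l l1 l2, Equiv.swap_apply_of_ne_of_ne l1 l2]
    rw [h3, Equiv.Perm.sign_swap hi.symm] at h2
    exact absurd h2 (by decide)

theorem le_RG (h : QS P) (hP : P ≤ Γ) (hΓ : Γ ≤ Gam P) (h1 : Rf Γ v φ) : P ≤ RG Γ := by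
  obtain ⟨r, hr, e⟩ := h1.mem
  exact le_of_rf h hΓ (fun g hg n hn => by
    induction hn using Subgroup.closure_induction with
    | mem y hy =>
      obtain ⟨w, ψ, h2, e2⟩ := hy
      exact Subgroup.subset_closure ⟨_, _, h2.conj (hP hg), fun z => by
        rw [mul_smul, mul_smul, e2, smul_sub, smul_inv_smul, dact_apply, gsmul_smul]⟩
    | one => simp
    | mul y z _ _ hy hz => simpa [mul_assoc] using Subgroup.mul_mem _ hy hz
    | inv y _ hy => simpa [mul_assoc] using Subgroup.inv_mem _ hy) h1 (Subgroup.subset_closure ⟨v, φ, h1, e⟩) e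

/-- two reflections of `Z P` differ by an element of `P` -/
theorem rf_mul (h : QS P) (two : (2 : F) ≠ 0) {w : V F} {ψ : Dual F (V F)} {r' : G F} (hr : r ∈ Gam P)
    (hr' : r' ∈ Gam P) (h1 : φ v = 2) (h2 : ψ w = 2) (e : ∀ y, r • y = y - φ y • v) (e' : ∀ y, r' • y = y - ψ y • w) :
    r' * r⁻¹ ∈ P := by
  have d1 := det_rf' h1 e
  have d2 := det_rf' h2 e'
  have rr : r * r = 1 := gext fun y => by
    rw [mul_smul, e, e, map_sub, map_smul, h1, one_smul, smul_eq_mul, sub_sub, ← add_smul]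
    simp [mul_two]
  obtain ⟨s, hs, c, rfl⟩ := mem_sup_scalars.1 hr
  obtain ⟨s', hs', c', rfl⟩ := mem_sup_scalars.1 hr'
  have hc := fun c : Fˣ => Subgroup.mem_center_iff.1 (scalars_le_center (scal_mem (ι := Fin 4) c))
  rw [Units.val_mul, det_mul, mem_specialLinear.1 (h.le_SL (by assumption)), coe_scal, det_smul, det_one] at d1 d2
  simp only [Fintype.card_fin, one_mul, mul_one] at d1 d2
  have m2 : scal (Fin 4) (c * c) ∈ P := by
    have : scal (Fin 4) (c * c) = (s * s)⁻¹ := eq_inv_of_mul_eq_one_right (by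
      rw [← rr, map_mul, mul_assoc s (scal _ c), ← mul_assoc (scal _ c) s, ← hc c s]; group)
    exact this ▸ P.inv_mem (P.mul_mem hs hs)
  have key : scal (Fin 4) (c' * c⁻¹) ∈ P := by
    have h4 : ((c' : F) - c) * ((c' : F) - c ^ 3) * ((c' : F) + c) * ((c' : F) + c ^ 3) = 0 := by
      linear_combination d2 + (-(c' : F) ^ 2 * c ^ 2 + c ^ 4 - 1) * d1
    have cv : ∀ a : Fˣ, (c' : F) - a * c = 0 → c' * c⁻¹ = a := fun a k =>
      mul_inv_eq_iff_eq_mul.2 (Units.ext (sub_eq_zero.1 k))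
    simp only [mul_eq_zero] at h4
    rcases h4 with ((k | k) | k) | k
    · rw [cv 1 (by simpa using k), map_one]; exact P.one_mem
    · rw [cv (c * c) (by push_cast; linear_combination k)]; exact m2
    · rw [cv (c * c * (c * c)) (by push_cast; linear_combination k - c * d1), map_mul]; exact P.mul_mem m2 m2
    · rw [cv (c * c * (c * c) * (c * c)) (by push_cast; linear_combination k - c ^ 3 * d1), map_mul, map_mul _ (c * c)]
      exact P.mul_mem (P.mul_mem m2 m2) m2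
  have : s' * scal (Fin 4) c' * (s * scal (Fin 4) c)⁻¹ = s' * scal (Fin 4) (c' * c⁻¹) * s⁻¹ := by
    rw [map_mul, map_inv]; group
  exact this ▸ P.mul_mem (P.mul_mem hs' key) (P.inv_mem hs)

theorem ctx (h : QS P) (hP : P ≤ Γ) (hΓ : Γ ≤ Gam P) (h1 : Rf Γ v φ) (hz : ZSym Γ) (hg : RfGen Γ)
    (hm : Γ ≤ P ∨ (2 : F) ≠ 0) : Ctx Γ := by
  refine ⟨hg, hz, irr_iff.2 fun W hW => irr_iff.1 h.irr W fun g hg => hW g (hP hg), noFrame h hP hΓ h1, ?_⟩
  rintro N hN ⟨w, ψ, h2, h3⟩ g hg'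
  obtain ⟨r, hr, e⟩ := h3.mem
  have := le_of_rf h hΓ (fun g hg => hN g (hP hg)) h2 hr e
  refine .inl (hm.elim (fun k => this (k hg')) fun two => (Subgroup.closure_le N).2 ?_ (hg hg'))
  rintro r' ⟨u, χ, h4, e'⟩
  obtain ⟨r1, k1, e1⟩ := h4.mem
  obtain ⟨r2, k2, e2⟩ := h2.mem
  obtain rfl : r1 = r' := gext fun y => (e1 y).trans (e' y).symm
  obtain rfl : r2 = r := gext fun y => (e2 y).trans (e y).symm
  simpa using N.mul_mem (this (rf_mul h two (hΓ k2) (hΓ k1) h2.two h4.two e e')) hr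

theorem rf_iff (two : (2 : F) = 0) : Rf P v φ ↔ Rt P v φ := by
  have e : ∀ y z : V F, y - z = y + z := fun y z => by
    rw [sub_eq_iff_eq_add, add_assoc, ← two_smul F z, two, zero_smul, add_zero]
  exact ⟨fun h => ⟨⟨h.two.trans two, by simpa only [e] using h.mem⟩, h.ne, h.ne'⟩,
    fun h => ⟨h.tv.1.trans two.symm, h.ne, h.ne', by simpa only [e] using h.tv.2⟩⟩

end Z5Ctx

open Z5Ctx

theorem subCtx : SubCtx.{u} := by
  refine fun F _ _ P h => ⟨fun two hT ⟨v, φ, h1⟩ => ?_, fun two hT hL hS => ?_⟩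
  · have hP := le_RG h le_sup_left le_rfl h1
    have hT' : ¬ HasTv (RG (Gam P)) := fun ⟨g, hg, ht⟩ => hT ⟨g, RG_le hg, ht⟩
    exact ⟨⟨ctx h hP RG_le (rf_RG.2 h1) (zsym_of_noTv hT')
      (Subgroup.closure_mono fun g ⟨v, φ, k, e⟩ => ⟨v, φ, rf_RG.2 k, e⟩) (.inr two), two, hT'⟩, hP⟩
  · obtain ⟨g, hg, ht⟩ := hT
    obtain ⟨v, φ, hv, hφ, h1⟩ := ht.tv hg
    refine ⟨ctx h le_rfl le_sup_left ((rf_iff two).2 ⟨h1, hv, hφ⟩) (fun v φ w ψ h1 h2 h0 => by_contra fun k =>
      hL ⟨w, v, ψ, φ, ((rf_iff two).1 h2).tv, ((rf_iff two).1 h1).tv, h2.ne, h1.ne', k, h0⟩)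
      (le_RG h le_rfl le_sup_left ((rf_iff two).2 ⟨h1, hv, hφ⟩)) (.inl le_rfl), two,
      fun v φ t h1 h2 => (hS v φ t ((rf_iff two).1 h1) ((rf_iff two).1 h2).tv).resolve_left ?_⟩
    rintro rfl
    exact h2.ne (zero_smul _ _)

end CL.Low4
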