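/-
Project LOW4: large quadratic groups of two planes which meet commute.
-/
import Cfsg.Agent.Low4.Defs3

set_option autoImplicit false
set_option linter.unusedSectionVars false
set_option linter.unusedVariables false
set_option linter.unusedSimpArgs false

namespace CL.Low4

open Matrix Cfsg Cfsg.Geo CL.Asch CL.SLn CL.Low Module
open scoped commutatorElement MatrixGroups

universe u

namespace D1

variable {F : Type u} [Field F] {Γ : Subgroup (G F)}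

def mA (α β γ δ : F) : Matrix (Fin 4) (Fin 4) F := !![1, 0, α, γ; 0, 1, β, δ; 0, 0, 1, 0; 0, 0, 0, 1]
def mB (α β γ δ : F) : Matrix (Fin 4) (Fin 4) F := !![1, α, 0, γ; 0, 1, 0, 0; 0, β, 1, δ; 0, 0, 0, 1]
def mK (r s t c d : F) : Matrix (Fin 4) (Fin 4) F := !![1, r, s, t; 0, 1, 0, c; 0, 0, 1, d; 0, 0, 0, 1]
def blk (A : Matrix (Fin 2) (Fin 2) F) (x : F) : Matrix (Fin 4) (Fin 4) F :=
  !![1, 0, 0, x; 0, A 0 0, A 0 1, 0; 0, A 1 0, A 1 1, 0; 0, 0, 0, 1]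

theorem eq_one_of (hT : ¬ HasTv Γ) {g : G F} (hg : g ∈ Γ) (v w : V F) (h : g.val = 1 + vecMulVec v w)
    (h0 : w ⬝ᵥ v = 0) : g = 1 := by
  by_contra h1
  refine hT ⟨g, hg, v, dotProductBilin F F w, fun e => h1 (Units.ext ?_), fun e => h1 (Units.ext ?_), h0, fun x => ?_⟩
  · rw [h, e]; simp
  · have : w = 0 := funext fun i => by simpa using LinearMap.congr_fun e (Pi.single i 1)
    rw [h, this]; simp
  · rw [gsmul_def, h, add_mulVec, one_mulVec, vecMulVec_mulVec]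
    simp

theorem val_of_mul {g h : G F} {M : Matrix (Fin 4) (Fin 4) F} (e : g.val = M * h.val) : (g * h⁻¹).val = M := by
  rw [Units.val_mul, e, mul_assoc, Units.mul_inv, mul_one]

/-- two elements of the kernel commute -/
theorem ker_comm (hT : ¬ HasTv Γ) {k k' : G F} (hk : k ∈ Γ) (hk' : k' ∈ Γ) {r s t c d r' s' t' c' d' : F}
    (e : k.val = mK r s t c d) (e' : k'.val = mK r' s' t' c' d') :
    Commute k k' ∧ r * c' + s * d' - (r' * c + s' * d) = 0 := by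
  have h : (k * k' * (k' * k)⁻¹).val = 1 + vecMulVec ![1, 0, 0, 0] ![0, 0, 0, r * c' + s * d' - (r' * c + s' * d)] :=
    val_of_mul (by
      rw [Units.val_mul, Units.val_mul, e, e']
      ext i j
      fin_cases i <;> fin_cases j <;> simp [mK, mul_apply, Fin.sum_univ_four, vecMulVec_apply, one_apply] <;> ring)
  have h1 := eq_one_of hT (mul_mem (mul_mem hk hk') (inv_mem (mul_mem hk' hk))) _ _ h (by simp)
  refine ⟨mul_inv_eq_one.1 h1, ?_⟩
  rw [h1] at h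
  simpa [vecMulVec_apply] using (congrFun (congrFun h 0) 3).symm

theorem lemK (h2 : (2 : F) ≠ 0) (hT : ¬ HasTv Γ) {k b : G F} (hk : k ∈ Γ) (hb : b ∈ Γ) {α γ δ α' β' γ' δ' : F}
    (e : k.val = mA α 0 γ δ) (e' : b.val = mB α' β' γ' δ') (h0 : β' ≠ 0) : k = 1 := by
  have h : (b * k * b⁻¹).val = mK (-(α * β')) α (γ + α' * δ - α * δ') δ (β' * δ) := val_of_mul (by
    rw [Units.val_mul, e, e']
    ext i j
    fin_cases i <;> fin_cases j <;> simp [mK, mA, mB, mul_apply, Fin.sum_univ_four] <;> ring)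
  have h1 := (ker_comm hT hk (mul_mem (mul_mem hb hk) (inv_mem hb)) (show k.val = mK 0 α γ δ 0 from e) h).2
  have h3 : 2 * β' * (α * δ) = 0 := by linear_combination h1
  rcases mul_eq_zero.1 ((mul_eq_zero.1 h3).resolve_left (mul_ne_zero h2 h0)) with rfl | rfl
  · refine eq_one_of hT hk ![γ, δ, 0, 0] ![0, 0, 0, 1] ?_ (by simp)
    rw [e]
    ext i j
    fin_cases i <;> fin_cases j <;> simp [mA, vecMulVec_apply, one_apply]
  · refine eq_one_of hT hk ![1, 0, 0, 0] ![0, 0, α, γ] ?_ (by simp)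
    rw [e]
    ext i j
    fin_cases i <;> fin_cases j <;> simp [mA, vecMulVec_apply, one_apply]

/-- `SL₂ × F` in `GL₄` -/
def phi : SL(2, F) × Multiplicative F →* G F := MonoidHom.toHomUnits
  { toFun := fun p => blk p.1.1 p.2.toAdd
    map_one' := by
      ext i j
      fin_cases i <;> fin_cases j <;> simp [blk]
    map_mul' := fun p q => by
      ext i j
      fin_cases i <;> fin_cases j <;> simp [blk, mul_apply, Fin.sum_univ_four, add_comm] }

theorem phi_val (A : SL(2, F)) (x : F) : (phi (A, Multiplicative.ofAdd x)).val = blk A.1 x := rfl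

theorem noTv_map (hT : ¬ HasTv Γ) (c : G F) : ¬ HasTv (Γ.map (MulAut.conj c).toMonoidHom) := by
  rintro ⟨_, ⟨g, hg, rfl⟩, h⟩
  exact hT ⟨g, hg, by simpa [mul_assoc] using h.conj c⁻¹⟩

theorem big [Fintype F] (hK : SubDK.{u}) (h2 : (2 : F) ≠ 0) (hT : ¬ HasTv Γ) {a b : G F} (ha : a ∈ Γ) (hb : b ∈ Γ)
    {α β γ δ α' β' γ' δ' : F} (e : a.val = mA α β γ δ) (e' : b.val = mB α' β' γ' δ') (h0 : β * β' ≠ 0)
    (h1 : (β * β') ^ 2 ≠ 1) : False := by
  obtain ⟨hβ, hβ'⟩ := mul_ne_zero_iff.1 h0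
  let D : Matrix (Fin 4) (Fin 4) F := !![1, α / β, α', 0; 0, 1, 0, -(δ' / β'); 0, 0, β', -(δ / β); 0, 0, 0, 1]
  obtain ⟨d, hd⟩ : IsUnit D := (isUnit_iff_isUnit_det _).2 (by
    rw [det_of_isUpperTriangular (by intro i j h; fin_cases i <;> fin_cases j <;> simp_all [D])]
    simp [D, Fin.prod_univ_four, hβ'])
  let H := (Γ.map (MulAut.conj d⁻¹).toMonoidHom).comap phi
  have mH : ∀ g ∈ Γ, ∀ A x, g.val * D = D * blk A.1 x → (A, Multiplicative.ofAdd x) ∈ H := fun g hg A x h =>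
    ⟨g, hg, Units.ext (by
      change (d⁻¹ * g * d⁻¹⁻¹).val = blk A.1 x
      rw [inv_inv, mul_assoc, Units.val_mul, Units.val_mul, hd, h, ← hd, Units.inv_mul_cancel_left])⟩
  have m1 := mH a ha (SL2.upT (β * β')) (γ - δ / β * α) (by
    rw [e, SL2.coe_upT]
    ext i j
    fin_cases i <;> fin_cases j <;> simp [D, mA, blk, mul_apply, Fin.sum_univ_four] <;> field_simp <;> ring)
  have m2 := mH b hb (SL2.loT 1) (γ' - δ' / β' * α') (by
    rw [e', SL2.coe_loT]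
    ext i j
    fin_cases i <;> fin_cases j <;> simp [D, mB, blk, mul_apply, Fin.sum_univ_four] <;> field_simp <;> ring)
  have hX : Subgroup.closure {SL2.loT 1, SL2.upT (β * β')} ≤ H.map (MonoidHom.fst _ _) :=
    (Subgroup.closure_le _).2 (by rintro _ (rfl | rfl); exacts [⟨_, m2, rfl⟩, ⟨_, m1, rfl⟩])
  have hp := ((hK F _ _ h2 h0 rfl).2.2.1 fun h => h1 h.2).1
  have hc : Subgroup.closure {SL2.loT 1, SL2.upT (β * β')} ≤ H.comap (MonoidHom.inl _ _) := by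
    rw [← hp]
    refine Subgroup.commutator_le.2 fun A hA B hB => ?_
    obtain ⟨p, hp, rfl⟩ := hX hA
    obtain ⟨q, hq, rfl⟩ := hX hB
    have := mul_mem (mul_mem (mul_mem hp hq) (inv_mem hp)) (inv_mem hq)
    rwa [show p * q * p⁻¹ * q⁻¹ = MonoidHom.inl _ _ ⁅p.1, q.1⁆ from
      Prod.ext rfl (commutatorElement_eq_one_iff_mul_comm.2 (mul_comm _ _))] at this
  have h3 : (phi (SL2.upT (β * β'), Multiplicative.ofAdd 0)).val = 1 + vecMulVec ![0, 1, 0, 0] ![0, 0, β * β', 0] := by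
    rw [phi_val, SL2.coe_upT]
    ext i j
    fin_cases i <;> fin_cases j <;> simp [blk, vecMulVec_apply, one_apply]
  have h4 := eq_one_of (noTv_map hT d⁻¹) (hc (Subgroup.subset_closure (by simp))) _ _ h3 (by simp)
  rw [show phi (SL2.upT (β * β'), Multiplicative.ofAdd 0) = 1 from h4] at h3
  exact h0 (by simpa [vecMulVec_apply] using (congrFun (congrFun h3 1) 2).symm)

theorem main [Fintype F] (hK : SubDK.{u}) (h2 : (2 : F) ≠ 0) (hT : ¬ HasTv Γ) {U : Subgroup (G F)} (hU : U ≤ Γ)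
    (h3 : 3 < Nat.card U) (sh : ∀ a ∈ U, ∃ α β γ δ, a.val = mA α β γ δ) {b : G F} (hb : b ∈ Γ) {α' β' γ' δ' : F}
    (e' : b.val = mB α' β' γ' δ') : β' = 0 := by
  classical
  by_contra h0
  have hm : ∀ a : U, a.1.val 1 2 * β' ∈ ({0, 1, -1} : Finset F) := fun a => by
    obtain ⟨α, β, γ, δ, e⟩ := sh a a.2
    by_contra h
    simp only [Finset.mem_insert, Finset.mem_singleton, not_or, e] at h
    exact big hK h2 hT (hU a.2) hb e e' h.1 fun k => (sq_eq_one_iff.1 k).elim h.2.1 h.2.2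
  have := Nat.card_le_card_of_injective (fun a : U => (⟨_, hm a⟩ : ({0, 1, -1} : Finset F))) fun a a' h => by
    have h' : a.1.val 1 2 = a'.1.val 1 2 := mul_right_cancel₀ h0 (congrArg Subtype.val h)
    obtain ⟨α, β, γ, δ, e⟩ := sh _ (a * a'⁻¹).2
    obtain ⟨α₁, β₁, γ₁, δ₁, e₁⟩ := sh _ a'.2
    have e2 : a.1.val = mA α β γ δ * mA α₁ β₁ γ₁ δ₁ := by rw [← e, ← e₁, ← Units.val_mul]; simp
    rw [e2, e₁] at h'
    obtain rfl : β = 0 := by simpa [mA, mul_apply, Fin.sum_univ_four] using h'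
    exact mul_inv_eq_one.1 (Subtype.ext (lemK h2 hT (hU (a * a'⁻¹).2) hb e e' h0))
  rw [Nat.card_eq_finsetCard] at this
  exact absurd (this.trans Finset.card_le_three) (not_le.2 h3)

theorem mainc [Fintype F] (hK : SubDK.{u}) (h2 : (2 : F) ≠ 0) (hT : ¬ HasTv Γ) {U : Subgroup (G F)} (hU : U ≤ Γ)
    (h3 : 3 < Nat.card U) (c : G F) (sh : ∀ a ∈ U, ∃ α β γ δ, (c * a * c⁻¹).val = mA α β γ δ) {b : G F} (hb : b ∈ Γ)
    {α' β' γ' δ' : F} (e' : (c * b * c⁻¹).val = mB α' β' γ' δ') : β' = 0 :=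
  main hK h2 (noTv_map hT c) (U := U.map (MulAut.conj c).toMonoidHom) (Subgroup.map_mono hU)
    (by rwa [Subgroup.card_map_of_injective (MulAut.conj c).injective]) (by rintro _ ⟨a, ha, rfl⟩; exact sh a ha)
    ⟨b, hb, rfl⟩ e'

/-- a frame adapted to the two planes -/
theorem frame {W W' : Submodule F (V F)} (h : finrank F W = 2) (h' : finrank F W' = 2) (h0 : W ⊓ W' ≠ ⊥) (hne : W ≠ W') :
    ∃ c : G F, ∀ t : V F, (c • t ∈ W ↔ t 2 = 0 ∧ t 3 = 0) ∧ (c • t ∈ W' ↔ t 1 = 0 ∧ t 3 = 0) := by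
  obtain ⟨v0, ⟨m0, m0'⟩, n0⟩ := Submodule.exists_mem_ne_zero_of_ne_bot h0
  obtain ⟨v1, m1, n1⟩ := SetLike.not_le_iff_exists.1 fun k => hne (Submodule.eq_of_le_of_finrank_eq k (h.trans h'.symm))
  obtain ⟨v2, m2, n2⟩ := SetLike.not_le_iff_exists.1 fun k =>
    hne (Submodule.eq_of_le_of_finrank_eq k (h'.trans h.symm)).symm
  obtain ⟨v3, -, n3⟩ := SetLike.not_le_iff_exists.1 fun k : ⊤ ≤ W ⊔ W' => by
    have h1 := Submodule.finrank_sup_add_finrank_inf_eq W W'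
    rw [top_le_iff.1 k, finrank_top, finrank_fintype_fun_eq_card, Fintype.card_fin, h, h'] at h1
    exact h0 (Submodule.finrank_eq_zero.1 (by omega))
  let C : Matrix (Fin 4) (Fin 4) F := of fun i j => ![v0, v1, v2, v3] j i
  have hC : ∀ t : V F, C *ᵥ t = t 0 • v0 + t 1 • v1 + t 2 • v2 + t 3 • v3 := fun t => funext fun i => by
    simp [C, mulVec, dotProduct, Fin.sum_univ_four, mul_comm]
  have z : ∀ {X : Submodule F (V F)} {v : V F} {a : F}, v ∉ X → a • v ∈ X → a = 0 := fun hv ha =>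
    by_contra fun k => hv ((Submodule.smul_mem_iff _ k).1 ha)
  have k3 : ∀ t : V F, C *ᵥ t ∈ W ⊔ W' → t 3 = 0 := fun t ht => z n3 (by
    rwa [hC, add_mem_cancel_left (add_mem (Submodule.mem_sup_left (add_mem (W.smul_mem _ m0) (W.smul_mem _ m1)))
      (Submodule.mem_sup_right (W'.smul_mem _ m2)))] at ht)
  have k : ∀ t : V F, (C *ᵥ t ∈ W ↔ t 2 = 0 ∧ t 3 = 0) ∧ (C *ᵥ t ∈ W' ↔ t 1 = 0 ∧ t 3 = 0) := fun t => by
    refine ⟨⟨fun ht => ?_, fun ht => ?_⟩, fun ht => ?_, fun ht => ?_⟩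
    · have e3 := k3 t (Submodule.mem_sup_left ht)
      rw [hC, e3, zero_smul, add_zero, add_mem_cancel_left (add_mem (W.smul_mem _ m0) (W.smul_mem _ m1))] at ht
      exact ⟨z n2 ht, e3⟩
    · rw [hC, ht.1, ht.2, zero_smul, zero_smul, add_zero, add_zero]
      exact add_mem (W.smul_mem _ m0) (W.smul_mem _ m1)
    · have e3 := k3 t (Submodule.mem_sup_right ht)
      rw [hC, e3, zero_smul, add_zero, add_mem_cancel_right (W'.smul_mem _ m2),
        add_mem_cancel_left (W'.smul_mem _ m0')] at ht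
      exact ⟨z n1 ht, e3⟩
    · rw [hC, ht.1, ht.2, zero_smul, zero_smul, add_zero, add_zero]
      exact add_mem (W'.smul_mem _ m0') (W'.smul_mem _ m2)
  obtain ⟨c, hc⟩ : IsUnit C := mulVec_injective_iff_isUnit.1 ((injective_iff_map_eq_zero C.mulVecLin).2 fun t ht => by
    have ht' : C *ᵥ t = 0 := ht
    obtain ⟨e2, e3⟩ := (k t).1.1 (ht' ▸ zero_mem _)
    obtain ⟨e1, -⟩ := (k t).2.1 (ht' ▸ zero_mem _)
    rw [hC, e1, e2, e3, zero_smul, zero_smul, zero_smul, add_zero, add_zero, add_zero, smul_eq_zero] at ht'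
    funext i
    fin_cases i
    exacts [ht'.resolve_right n0, e1, e2, e3])
  exact ⟨c, fun t => by rw [gsmul_def, hc]; exact k t⟩

theorem col (g : G F) (i j : Fin 4) : g.val i j = (g • (Pi.single j 1 : V F)) i := by simp [gsmul_def]

theorem shape {W : Submodule F (V F)} {c a : G F} (hc : ∀ t : V F, c • t ∈ W ↔ t 2 = 0 ∧ t 3 = 0) (ha : a ∈ UW Γ W) :
    ∃ α β γ δ, (c⁻¹ * a * c⁻¹⁻¹).val = mA α β γ δ := by
  rw [inv_inv]
  have h1 : ∀ t : V F, t 2 = 0 → t 3 = 0 → (c⁻¹ * a * c) • t = t := fun t e2 e3 => by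
    rw [mul_smul, mul_smul, ha.2.1 _ ((hc t).2 ⟨e2, e3⟩), inv_smul_smul]
  have h2 : ∀ t : V F, ((c⁻¹ * a * c) • t) 2 = t 2 ∧ ((c⁻¹ * a * c) • t) 3 = t 3 := fun t => by
    have := (hc ((c⁻¹ * a * c) • t - t)).1 (by
      rw [smul_sub, mul_smul, mul_smul, smul_inv_smul]; exact ha.2.2 _)
    exact ⟨sub_eq_zero.1 this.1, sub_eq_zero.1 this.2⟩
  generalize c⁻¹ * a * c = g at h1 h2
  refine ⟨g.val 0 2, g.val 1 2, g.val 0 3, g.val 1 3, ?_⟩
  have a0 := h1 (Pi.single 0 1) (by simp) (by simp)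
  have a1 := h1 (Pi.single 1 1) (by simp) (by simp)
  ext i j
  fin_cases i <;> fin_cases j <;> simp [mA] <;> rw [col] <;> simp [a0, a1, h2]

/-- the permutation matrix of `(1 2)` -/
def sw : G F := ⟨!![1, 0, 0, 0; 0, 0, 1, 0; 0, 1, 0, 0; 0, 0, 0, 1], !![1, 0, 0, 0; 0, 0, 1, 0; 0, 1, 0, 0; 0, 0, 0, 1],
  by ext i j; fin_cases i <;> fin_cases j <;> simp [mul_apply, Fin.sum_univ_four],
  by ext i j; fin_cases i <;> fin_cases j <;> simp [mul_apply, Fin.sum_univ_four]⟩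

theorem sw_sw : (sw * sw : G F) = 1 := Units.ext sw.val_inv

theorem sw_smul (t : V F) : ((sw : G F) • t) 1 = t 2 ∧ ((sw : G F) • t) 3 = t 3 := by
  simp [gsmul_def, sw, mulVec, dotProduct, Fin.sum_univ_four]

theorem sw_conj {g : G F} {α β γ δ : F} (e : g.val = mA α β γ δ) : (sw * g * sw⁻¹).val = mB α β γ δ := val_of_mul (by
  rw [Units.val_mul, e]
  ext i j
  fin_cases i <;> fin_cases j <;> simp [sw, mA, mB, mul_apply, Fin.sum_univ_four])

end D1

open D1 in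
theorem subD1 (h0 : SubN0.{u}) (hK : SubDK.{u}) : SubD1.{u} := by
  intro F _ _ Γ h2 hT W W' hW hW' hi a ha b hb
  by_cases hne : W = W'
  · subst hne
    refine gext fun y => ?_
    have e1 := ha.2.1 _ (hb.2.2 y)
    have e2 := hb.2.1 _ (ha.2.2 y)
    rw [smul_sub, sub_eq_iff_eq_add] at e1 e2
    rw [mul_smul, mul_smul, e1, e2]; abel
  obtain ⟨c, hc⟩ := frame hW.1 hW'.1 hi hne
  have hc' : ∀ t : V F, (c * sw) • t ∈ W' ↔ t 2 = 0 ∧ t 3 = 0 := fun t => by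
    rw [mul_smul, (hc _).2, (sw_smul t).1, (sw_smul t).2]
  have si : (sw : G F)⁻¹ = sw := inv_eq_of_mul_eq_one_right sw_sw
  obtain ⟨α, β, γ, δ, e⟩ := shape (fun t => (hc t).1) ha
  obtain ⟨α', β', γ', δ', e'⟩ := shape hc' hb
  have f := sw_conj e
  have f' := sw_conj e'
  rw [show sw * (c⁻¹ * a * c⁻¹⁻¹) * sw⁻¹ = (c * sw)⁻¹ * a * (c * sw)⁻¹⁻¹ by
    rw [inv_inv (c * sw), _root_.mul_inv_rev, si]; group] at f
  rw [show sw * ((c * sw)⁻¹ * b * (c * sw)⁻¹⁻¹) * sw⁻¹ = c⁻¹ * b * c⁻¹⁻¹ by group] at f'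
  obtain rfl := mainc hK h2 hT (U := UW Γ W) (fun _ h => h.1) hW.2 c⁻¹ (fun _ h => shape (fun t => (hc t).1) h) hb.1 f'
  obtain rfl := mainc hK h2 hT (U := UW Γ W') (fun _ h => h.1) hW'.2 (c * sw)⁻¹ (fun _ h => shape hc' h) ha.1 f
  have := (ker_comm (noTv_map hT c⁻¹) ⟨a, ha.1, rfl⟩ ⟨b, hb.1, rfl⟩ (show _ = mK 0 α γ δ 0 from e)
    (show _ = mK α' 0 γ' 0 δ' from f')).1
  exact (MulAut.conj c⁻¹).injective (by rw [map_mul, map_mul]; exact this)

end CL.Low4
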