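/-
Project LOW4: a large quadratic group and an opposite quadratic element generate a standard pair.
-/
import Cfsg.Agent.Low4.Defs3

set_option autoImplicit false
set_option linter.unusedSectionVars false

namespace CL.Low4

open Matrix Cfsg Cfsg.Geo CL.Asch CL.SLn CL.Low Module
open scoped commutatorElement MatrixGroups

universe u

namespace D2

variable {F : Type u} [Field F]

abbrev M2 (F : Type u) : Type u := Matrix (Fin 2) (Fin 2) F

/-- `Γ` contains the matrix `M` -/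
def Has (Γ : Subgroup (GL I4 F)) (M : Matrix I4 I4 F) : Prop := ∃ g ∈ Γ, g.val = M

theorem Has.mul {Γ : Subgroup (GL I4 F)} {M N : Matrix I4 I4 F} (h : Has Γ M) (h' : Has Γ N) : Has Γ (M * N) := by
  obtain ⟨g, hg, rfl⟩ := h
  obtain ⟨k, hk, rfl⟩ := h'
  exact ⟨g * k, mul_mem hg hk, rfl⟩

theorem up_mul (A B : M2 F) :
    (fromBlocks 1 A 0 1 * fromBlocks 1 B 0 1 : Matrix I4 I4 F) = fromBlocks 1 (A + B) 0 1 := by
  simp [fromBlocks_multiply, add_comm]

theorem Has.add {Γ : Subgroup (GL I4 F)} {A B : M2 F} (h : Has Γ (fromBlocks 1 A 0 1))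
    (h' : Has Γ (fromBlocks 1 B 0 1)) : Has Γ (fromBlocks 1 (A + B) 0 1) := up_mul A B ▸ h.mul h'

theorem Has.neg {Γ : Subgroup (GL I4 F)} {A : M2 F} (h : Has Γ (fromBlocks 1 A 0 1)) :
    Has Γ (fromBlocks 1 (-A) 0 1) := by
  obtain ⟨g, hg, e⟩ := h
  refine ⟨g⁻¹, inv_mem hg, Units.inv_eq_of_mul_eq_one_right ?_⟩
  rw [e, up_mul, add_neg_cancel, fromBlocks_one]

theorem tv {Γ : Subgroup (GL I4 F)} {p q : Fin 2 → F} (hp : p ≠ 0) (hq : q ≠ 0) {D : M2 F}
    (h : Has Γ (fromBlocks 1 D 0 1)) (hD : ∀ i j, D i j = p i * q j) : HasTv Γ := by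
  obtain ⟨g, hg, e⟩ := h
  refine ⟨g, hg, Sum.elim p 0, q 0 • LinearMap.proj (Sum.inr 0) + q 1 • LinearMap.proj (Sum.inr 1),
    fun e => hp (funext fun i => congrFun e (Sum.inl i)), fun e => hq (funext fun i => ?_), by simp, fun x => ?_⟩
  · have := LinearMap.congr_fun e (Pi.single (Sum.inr i) 1)
    fin_cases i <;> simpa using this
  · rw [gsmul_def, e, fromBlocks_mulVec]
    ext (i | i)
    · rw [one_mulVec]
      simp only [Sum.elim_inl, Pi.add_apply, Function.comp_apply, mulVec, dotProduct, Fin.sum_univ_two, hD,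
        LinearMap.add_apply, LinearMap.smul_apply, LinearMap.proj_apply, Pi.smul_apply, smul_eq_mul]
      ring
    · simp

theorem conjP (Γ : Subgroup (GL I4 F)) {P : M2 F} (hP : P.det ≠ 0) : ∃ Γ' : Subgroup (GL I4 F),
    (HasTv Γ' → HasTv Γ) ∧ ∀ M M', M * fromBlocks P 0 0 P = fromBlocks P 0 0 P * M' → (Has Γ M ↔ Has Γ' M') := by
  let Q : GL I4 F := GeneralLinearGroup.mkOfDetNeZero (fromBlocks P 0 0 P)
    (by rw [det_fromBlocks_zero₂₁]; exact mul_ne_zero hP hP)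
  have hQ : Q.val = fromBlocks P 0 0 P := rfl
  refine ⟨Γ.comap (MulAut.conj Q).toMonoidHom, fun ⟨g, hg, h⟩ => ⟨_, hg, h.conj Q⟩, fun M M' e => ⟨?_, ?_⟩⟩
  · rintro ⟨g, hg, rfl⟩
    refine ⟨Q⁻¹ * g * Q, by simpa [mul_assoc] using hg, ?_⟩
    rw [Units.val_mul, Units.val_mul, mul_assoc, hQ, e, ← hQ, Units.inv_mul_cancel_left]
  · rintro ⟨g, hg, rfl⟩
    refine ⟨Q * g * Q⁻¹, hg, ?_⟩
    rw [Units.val_mul, Units.val_mul, hQ, ← e, ← hQ, Units.mul_inv_cancel_right]

theorem nf1 {A : M2 F} {y : Fin 2 → F} {l : F} (hy : y ≠ 0) (h : A *ᵥ y = l • y) :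
    ∃ (P : M2 F) (c m : F), P.det ≠ 0 ∧ A * P = P * !![l, c; 0, m] := by
  have h0 := congrFun h 0
  have h1 := congrFun h 1
  simp only [mulVec, dotProduct, Fin.sum_univ_two, Pi.smul_apply, smul_eq_mul] at h0 h1
  by_cases e : y 0 = 0
  · have e1 : y 1 ≠ 0 := fun e1 => hy (funext fun i => by fin_cases i <;> assumption)
    refine ⟨!![0, 1; y 1, 0], A 1 0 / y 1, A 0 0, by simpa [det_fin_two] using e1, ?_⟩
    rw [e] at h0 h1
    ext i j
    fin_cases i <;> fin_cases j <;> simp [mul_apply, Fin.sum_univ_two]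
    · simpa using h0
    · linear_combination h1
    · field_simp
  · refine ⟨!![y 0, 0; y 1, 1], A 0 1 / y 0, A 1 1 - A 0 1 * y 1 / y 0, by simpa [det_fin_two] using e, ?_⟩
    ext i j
    fin_cases i <;> fin_cases j <;> simp [mul_apply, Fin.sum_univ_two]
    · linear_combination h0
    · field_simp
    · linear_combination h1
    · field_simp; ring

theorem nf2 (l c m : F) : ∃ P D : M2 F, P.det ≠ 0 ∧ !![l, c; 0, m] * P = P * D ∧
    (D = !![l, 0; 0, m] ∨ D = !![l, 1; 0, l]) := by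
  by_cases hc : c = 0
  · exact ⟨1, _, by simp, by simp [hc], .inl rfl⟩
  by_cases e : m = l
  · refine ⟨!![c, 0; 0, 1], _, by simpa [det_fin_two] using hc, ?_, .inr rfl⟩
    ext i j
    fin_cases i <;> fin_cases j <;> simp [mul_apply, Fin.sum_univ_two, e, mul_comm]
  · refine ⟨!![1, c / (m - l); 0, 1], _, by simp [det_fin_two], ?_, .inl rfl⟩
    have := sub_ne_zero.2 e
    ext i j
    fin_cases i <;> fin_cases j <;> simp [mul_apply, Fin.sum_univ_two]
    field_simp; ring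

theorem inv2 {A P D : M2 F} (hP : P.det ≠ 0) (h : A * P = P * D) : A.det = D.det ∧ A.trace = D.trace := by
  have k : ∀ {A D : M2 F}, A * P = P * D → A.det = D.det := fun h => by
    have := congrArg det h
    rw [det_mul, det_mul, mul_comm] at this
    exact mul_left_cancel₀ hP this
  have h1 := k h
  have h2 := k (A := A + 1) (D := D + 1) (by rw [add_mul, mul_add, h, one_mul, mul_one])
  refine ⟨h1, ?_⟩
  simp only [det_fin_two, Matrix.add_apply, one_apply_eq, trace_fin_two] at h1 h2 ⊢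
  rw [one_apply_ne (by decide), one_apply_ne (by decide)] at h2
  linear_combination h2 - h1

section Blk
variable [Fintype F] (hS : SubD2S.{u}) (hJ : SubD2J.{u}) {Γ : Subgroup (GL I4 F)} (two : (2 : F) ≠ 0)
  (nt : ¬ HasTv Γ) (ev : ∀ g ∈ Γ, ∃ (μ : F) (v : I4 → F), v ≠ 0 ∧ g.val *ᵥ v = μ • v)
  (hb : Has Γ (fromBlocks 1 0 1 1))
include hS hJ two nt ev hb

theorem one_or_bad {A : M2 F} (hA : Has Γ (fromBlocks 1 A 0 1)) (h0 : A ≠ 0) :
    Has Γ (fromBlocks 1 1 0 1) ∨ A.det = 1 + 2 * A.trace ^ 2 := by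
  obtain ⟨y, l, hy, hl⟩ : ∃ (y : Fin 2 → F) (l : F), y ≠ 0 ∧ A *ᵥ y = l • y := by
    obtain ⟨g, hg, e⟩ := hA.mul hb
    obtain ⟨μ, v, hv, h⟩ := ev g hg
    rw [e, ← mulVec_mulVec, fromBlocks_mulVec, fromBlocks_mulVec] at h
    have h1 : v ∘ Sum.inl + A *ᵥ (v ∘ Sum.inl + v ∘ Sum.inr) = μ • v ∘ Sum.inl := by
      have := congrArg (· ∘ Sum.inl) h
      simp only [one_mulVec, zero_mulVec, add_zero, Sum.elim_comp_inl, Sum.elim_comp_inr] at this
      exact this
    have h2 : v ∘ Sum.inl + v ∘ Sum.inr = μ • v ∘ Sum.inr := by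
      have := congrArg (· ∘ Sum.inr) h
      simp only [one_mulVec, zero_mulVec, zero_add, Sum.elim_comp_inl, Sum.elim_comp_inr] at this
      exact this
    have hy : v ∘ Sum.inr ≠ 0 := fun e => hv (by
      rw [e, smul_zero, add_zero] at h2
      ext (i | i)
      exacts [congrFun h2 i, congrFun e i])
    have h3 : v ∘ Sum.inl = (μ - 1) • v ∘ Sum.inr := by rw [sub_smul, ← h2, one_smul, add_sub_cancel_right]
    rw [h2, h3, mulVec_smul] at h1
    have h4 : μ • A *ᵥ v ∘ Sum.inr = ((μ - 1) ^ 2) • v ∘ Sum.inr := by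
      rw [eq_sub_of_add_eq' h1]; module
    have hμ : μ ≠ 0 := fun e => hy (by simpa [e] using h4.symm)
    exact ⟨_, (μ - 1) ^ 2 / μ, hy, by rw [div_eq_inv_mul, mul_smul, ← h4, inv_smul_smul₀ hμ]⟩
  obtain ⟨P1, c, m, d1, e1⟩ := nf1 hy hl
  obtain ⟨P2, D, d2, e2, hD⟩ := nf2 l c m
  have hP : (P1 * P2).det ≠ 0 := by rw [det_mul]; exact mul_ne_zero d1 d2
  have e : A * (P1 * P2) = P1 * P2 * D := by rw [← mul_assoc, e1, mul_assoc, e2, mul_assoc]
  obtain ⟨Γ', t, hh⟩ := conjP Γ hP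
  have nt' : ¬ HasTv Γ' := fun h => nt (t h)
  have hb' := (hh _ (fromBlocks 1 0 1 1) (by simp [fromBlocks_multiply])).1 hb
  have hA' := (hh _ (fromBlocks 1 D 0 1) (by simp [fromBlocks_multiply, e])).1 hA
  have back := (hh (fromBlocks 1 1 0 1) (fromBlocks 1 1 0 1) (by simp [fromBlocks_multiply])).2
  have D0 : D ≠ 0 := fun e0 => h0 (by
    rw [e0, mul_zero] at e
    rw [← mul_one A, ← mul_nonsing_inv _ (Ne.isUnit hP), ← mul_assoc, e, zero_mul])
  obtain ⟨k1, k2⟩ := inv2 hP e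
  rw [k1, k2]
  have n1 : (![1, 0] : Fin 2 → F) ≠ 0 := fun e => one_ne_zero (congrFun e 0)
  have n2 : (![0, 1] : Fin 2 → F) ≠ 0 := fun e => one_ne_zero (congrFun e 1)
  rcases hD with rfl | rfl
  · have l0 : l ≠ 0 := by
      rintro rfl
      refine nt' (tv (p := ![0, 1]) (q := ![0, m]) n2 (fun e => D0 ?_) hA' fun i j => by
        fin_cases i <;> fin_cases j <;> simp)
      rw [show m = 0 from congrFun e 1]; ext i j; fin_cases i <;> fin_cases j <;> rfl
    have m0 : m ≠ 0 := by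
      rintro rfl
      exact nt' (tv (p := ![1, 0]) (q := ![l, 0]) n1 (fun e => l0 (congrFun e 0)) hA' fun i j => by
        fin_cases i <;> fin_cases j <;> simp)
    by_cases bad : (3 : F) = 0 ∧ l ^ 2 = -1 ∧ m ^ 2 = -1
    · right
      simp only [det_fin_two_of, trace_fin_two_of]
      linear_combination (1 - l * m) * bad.1 - 2 * bad.2.1 - 2 * bad.2.2
    · exact .inl (back (hS F Γ' l m two nt' l0 m0 bad hb' hA'))
  · have l0 : l ≠ 0 := by
      rintro rfl
      exact nt' (tv (p := ![1, 0]) (q := ![0, 1]) n1 n2 hA' fun i j => by fin_cases i <;> fin_cases j <;> simp)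
    by_cases bad : (3 : F) = 0 ∧ l ^ 2 = -1
    · right
      simp only [det_fin_two_of, trace_fin_two_of]
      linear_combination 2 * bad.1 - 7 * bad.2
    · exact .inl (back (hJ F Γ' l two nt' l0 bad hb' hA'))

theorem blk {B C : M2 F} (hB : Has Γ (fromBlocks 1 B 0 1)) (hC : Has Γ (fromBlocks 1 C 0 1)) (b0 : B ≠ 0)
    (c0 : C ≠ 0) (p0 : B + C ≠ 0) (m0 : B + -C ≠ 0) : Has Γ (fromBlocks 1 1 0 1) := by
  by_contra h
  have k := fun A hA h0 => (one_or_bad hS hJ two nt ev hb (A := A) hA h0).resolve_left h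
  have k1 := k B hB b0
  have k2 := k C hC c0
  have k3 := k _ (hB.add hC) p0
  have k4 := k _ (hB.add hC.neg) m0
  simp only [det_fin_two, trace_fin_two, Matrix.add_apply, Matrix.neg_apply] at k1 k2 k3 k4
  exact two (by linear_combination k3 + k4 - 2 * k1 - 2 * k2)

end Blk

theorem ker_le {Γ : Subgroup (G F)} (nt : ¬ HasTv Γ) {X : Submodule F (V F)} (hX : finrank F X = 2) {g : G F}
    (hg : g ∈ UW Γ X) (h1 : g ≠ 1) {y : V F} (hy : g • y = y) : y ∈ X := by
  set N := toLin' (g.val - 1) with hN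
  have hNa : ∀ z, N z = g • z - z := fun z => by rw [hN, toLin'_apply, sub_mulVec, one_mulVec]; rfl
  have a1 : LinearMap.range N ≤ X := by rintro _ ⟨z, rfl⟩; rw [hNa]; exact hg.2.2 z
  have a2 : X ≤ LinearMap.ker N := fun z hz => by rw [LinearMap.mem_ker, hNa, hg.2.1 z hz, sub_self]
  have a3 := LinearMap.finrank_range_add_finrank_ker N
  rw [finrank_fintype_fun_eq_card, Fintype.card_fin] at a3
  have a4 : finrank F (LinearMap.range N) ≠ 0 := fun e => by
    rw [Submodule.finrank_eq_zero, LinearMap.range_eq_bot, hN, EmbeddingLike.map_eq_zero_iff, sub_eq_zero] at e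
    exact h1 (Units.ext e)
  have a5 : finrank F (LinearMap.range N) ≠ 1 := fun e => nt ⟨g, hg.1, isTv_of_rank (matrix_ext_mulVec fun z => by
    rw [← mulVec_mulVec, zero_mulVec]
    exact a2 (a1 ⟨z, rfl⟩)) e⟩
  have a6 : X = LinearMap.ker N := Submodule.eq_of_le_of_finrank_le a2 (by
    have : finrank F (LinearMap.ker N) ≤ 2 := by omega
    exact hX ▸ this)
  rw [a6, LinearMap.mem_ker, hNa, hy, sub_self]

end D2

open D2

theorem subD2 (hS : SubD2S.{u}) (hJ : SubD2J.{u}) : SubD2.{u} := by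
  intro F _ _ Γ hΓ W W' hW hW' hWW b hb b1
  let N := toLin' (b.val - 1)
  have hN : ∀ z, N z = b • z - z := fun z => by rw [toLin'_apply, sub_mulVec, one_mulVec]; rfl
  have NW : ∀ z, N z ∈ W' := fun z => hN z ▸ hb.2.2 z
  let w := finBasisOfFinrankEq F W hW.1
  have dis : ∀ z ∈ W, z ∈ W' → z = 0 := fun z h h' => (Submodule.mem_bot F).1 (hWW ▸ ⟨h, h'⟩)
  have li : LinearIndependent F (Sum.elim (fun i => (w i : V F)) fun i => N (w i)) := by
    have l1 : LinearIndependent F fun i => (w i : V F) := w.linearIndependent.map' W.subtype W.ker_subtype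
    refine l1.sum_type (w.linearIndependent.map' (N ∘ₗ W.subtype) ?_) ?_
    · refine LinearMap.ker_eq_bot'.2 fun z hz => Subtype.ext (dis z z.2 (ker_le hΓ.noTv hW' hb b1 ?_))
      exact sub_eq_zero.1 ((hN z).symm.trans hz)
    · refine Submodule.disjoint_def.2 fun z h h' => dis z ?_ ?_
      · exact Submodule.span_le.2 (by rintro _ ⟨i, rfl⟩; exact (w i).2) h
      · exact Submodule.span_le.2 (by rintro _ ⟨i, rfl⟩; exact NW _) h'
  let B := basisOfLinearIndependentOfCardEqFinrank li (by simp)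
  have B1 : ∀ i, B (.inl i) = w i := fun i => by simp [B]
  have B2 : ∀ i, B (.inr i) = N (w i) := fun i => by simp [B]
  let φ := (toLinAlgEquiv' : Matrix (Fin 4) (Fin 4) F ≃ₐ[F] _).trans (LinearMap.toMatrixAlgEquiv B)
  let Θ : G F ≃* GL I4 F := Units.mapEquiv φ.toMulEquiv
  have Θa : ∀ (g : G F) i j, (Θ g).val i j = B.repr (g • B j) i := fun g i j =>
    LinearMap.toMatrixAlgEquiv_apply B _ i j
  have Θv : ∀ (g : G F) y, (Θ g).val *ᵥ B.equivFun y = B.equivFun (g • y) := fun g y =>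
    LinearMap.toMatrix_mulVec_repr B B (toLin' g.val) y
  have nt : ¬ HasTv (Γ.map Θ.toMonoidHom) := by
    rintro ⟨_, ⟨g, hg, rfl⟩, v, ψ, hv, hψ, h0, h⟩
    refine hΓ.noTv ⟨g, hg, B.equivFun.symm v, ψ ∘ₗ B.equivFun.toLinearMap, B.equivFun.symm.map_ne_zero_iff.2 hv,
      fun e => hψ (LinearMap.ext fun x => ?_), (congrArg ψ (B.equivFun.apply_symm_apply v)).trans h0,
      fun x => B.equivFun.injective ?_⟩
    · exact (congrArg ψ (B.equivFun.apply_symm_apply x)).symm.trans (LinearMap.congr_fun e (B.equivFun.symm x))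
    · rw [← Θv, map_add, map_smul, LinearEquiv.apply_symm_apply]
      exact h _
  have ev : ∀ g ∈ Γ.map Θ.toMonoidHom, ∃ (μ : F) (v : I4 → F), v ≠ 0 ∧ g.val *ᵥ v = μ • v := by
    rintro _ ⟨g, hg, rfl⟩
    obtain ⟨μ, hμ⟩ := (hΓ.spl g hg).exists_eval_eq_zero (by rw [charpoly_degree_eq_dim]; simp)
    rw [eval_charpoly, ← exists_mulVec_eq_zero_iff] at hμ
    obtain ⟨v, hv, e⟩ := hμ
    rw [sub_mulVec, sub_eq_zero, scalar_apply, ← smul_one_eq_diagonal, smul_mulVec, one_mulVec] at e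
    exact ⟨μ, B.equivFun v, B.equivFun.map_ne_zero_iff.2 hv, (Θv g v).trans (by rw [← map_smul]; exact congrArg _ e.symm)⟩
  have hb' : Has (Γ.map Θ.toMonoidHom) (fromBlocks 1 0 1 1) := by
    refine ⟨Θ b, ⟨b, hb.1, rfl⟩, ?_⟩
    have e1 : ∀ j, b • B (.inl j) = B (.inl j) + B (.inr j) := fun j => by rw [B1, B2, hN, add_sub_cancel]
    have e2 : ∀ j, b • B (.inr j) = B (.inr j) := fun j => by rw [B2]; exact hb.2.1 _ (NW _)
    ext (i | i) (j | j) <;> simp [Θa, e1, e2, Finsupp.single_apply, one_apply, eq_comm]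
  have ha : ∀ a ∈ UW Γ W, ∃ A : M2 F, (Θ a).val = fromBlocks 1 A 0 1 := fun a ha => by
    refine ⟨of fun i j => w.repr ⟨_, ha.2.2 (B (.inr j))⟩ i, ?_⟩
    have e1 : ∀ j, a • B (.inl j) = B (.inl j) := fun j => by rw [B1]; exact ha.2.1 _ (w j).2
    have e2 : ∀ j, a • B (.inr j) = B (.inr j) + ∑ i, w.repr ⟨_, ha.2.2 (B (.inr j))⟩ i • B (.inl i) := fun j => by
      have := congrArg W.subtype (w.sum_repr ⟨_, ha.2.2 (B (.inr j))⟩)
      rw [map_sum] at this
      simp only [map_smul, Submodule.subtype_apply, ← B1] at this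
      rw [this, add_sub_cancel]
    ext (i | i) (j | j) <;> rw [Θa]
    · simp [e1, Finsupp.single_apply, one_apply, eq_comm]
    · rw [e2]; fin_cases i <;> simp
    · simp [e1]
    · rw [e2]; simp [Finsupp.single_apply, one_apply, eq_comm]
  obtain ⟨a1, a2, m1, m2, n1, n2, n3, n4⟩ : ∃ a1 a2, a1 ∈ UW Γ W ∧ a2 ∈ UW Γ W ∧ a1 ≠ 1 ∧ a2 ≠ 1 ∧ a1 * a2 ≠ 1 ∧
      a1 ≠ a2 := by
    have h3 := hW.2
    have k : ∀ a : G F, ∃ x ∈ UW Γ W, x ≠ 1 ∧ x ≠ a ∧ x ≠ a⁻¹ := fun a => by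
      by_contra h
      push Not at h
      have : (UW Γ W : Set (G F)) ⊆ {1, a, a⁻¹} := fun x hx => by
        by_cases e1 : x = 1
        · exact .inl e1
        by_cases e2 : x = a
        exacts [.inr (.inl e2), .inr (.inr (h x hx e1 e2))]
      have h1 := Set.ncard_le_ncard this
      have h2 := Set.ncard_insert_le (1 : G F) {a, a⁻¹}
      have h4 := Set.ncard_insert_le a {a⁻¹}
      rw [Set.ncard_singleton] at h4
      rw [← Nat.card_coe_set_eq] at h1
      exact absurd (h1.trans (by omega)) (not_le.2 h3)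
    obtain ⟨x, hx, x1, -⟩ := k 1
    obtain ⟨y, hy, y1, y2, y3⟩ := k x
    exact ⟨x, y, hx, hy, x1, y1, fun e => y3 (eq_inv_of_mul_eq_one_right e), y2.symm⟩
  obtain ⟨A1, e1⟩ := ha a1 m1
  obtain ⟨A2, e2⟩ := ha a2 m2
  have one : ∀ {a : G F}, (Θ a).val = fromBlocks 1 0 0 1 → a = 1 := fun h =>
    Θ.map_eq_one_iff.1 (Units.ext (h.trans fromBlocks_one))
  obtain ⟨_, ⟨g, hg, rfl⟩, e⟩ := blk hS hJ hΓ.two nt ev hb' ⟨_, ⟨a1, m1.1, rfl⟩, e1⟩ ⟨_, ⟨a2, m2.1, rfl⟩, e2⟩
    (fun e => n1 (one (e ▸ e1))) (fun e => n2 (one (e ▸ e2)))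
    (fun e => n3 (one (by rw [map_mul, Units.val_mul, e1, e2, up_mul, e])))
    (fun e => n4 (Θ.injective (Units.ext (by rw [e1, e2, add_neg_eq_zero.1 e]))))
  change (Θ g).val = _ at e
  have f1 : ∀ j, g • B (.inl j) = B (.inl j) := fun j => B.repr.injective (by
    ext (i | i) <;> simp [← Θa, e, Finsupp.single_apply, one_apply, eq_comm])
  have f2 : ∀ j, g • B (.inr j) = B (.inr j) + B (.inl j) := fun j => B.repr.injective (by
    ext (i | i) <;> simp [← Θa, e, Finsupp.single_apply, one_apply, eq_comm])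
  let E := toLin' (g.val - 1)
  have hE : ∀ z, E z = g • z - z := fun z => by rw [toLin'_apply, sub_mulVec, one_mulVec]; rfl
  have g1 : E ∘ₗ W.subtype = 0 := w.ext fun j => by
    rw [LinearMap.comp_apply, Submodule.subtype_apply, hE, ← B1, f1, sub_self, LinearMap.zero_apply]
  have g2 : E ∘ₗ N ∘ₗ W.subtype = W.subtype := w.ext fun j => by
    rw [LinearMap.comp_apply, LinearMap.comp_apply, Submodule.subtype_apply, hE, ← B2, f2, B1, add_sub_cancel_left]
  have g3 : ∀ y, E y ∈ W := fun y => by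
    have : ⊤ ≤ W.comap E := by
      rw [← B.span_eq, Submodule.span_le]
      rintro _ ⟨j | j, rfl⟩
      · change E _ ∈ W; rw [hE, f1, sub_self]; exact W.zero_mem
      · change E _ ∈ W; rw [hE, f2, add_sub_cancel_left, B1]; exact (w j).2
    exact this trivial
  refine ⟨g, ⟨hg, fun z hz => sub_eq_zero.1 ((hE z).symm.trans (LinearMap.congr_fun g1 ⟨z, hz⟩)),
    fun y => hE y ▸ g3 y⟩, ?_, matrix_ext_mulVec fun y => ?_⟩
  · rintro rfl
    have := f2 0
    rw [one_smul, left_eq_add] at this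
    exact B.ne_zero _ this
  · rw [← mulVec_mulVec, ← mulVec_mulVec]
    exact LinearMap.congr_fun g2 ⟨_, g3 y⟩

end CL.Low4
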