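/-
Project LOW4: two opposite quadratic elements generate a group containing the "missing" quadratic element.
-/
import Cfsg.Agent.Low4.Defs3

set_option autoImplicit false
set_option maxHeartbeats 400000

namespace CL.Low4

open Matrix Cfsg Cfsg.Geo CL.Asch CL.SLn CL.Low Module
open scoped commutatorElement MatrixGroups

universe u

namespace D2Sx

theorem abstr {H K : Type*} [Group H] [Group K] (ρ : H →* K) {X : Subgroup H} {U L y0 : H} {p : ℕ} (hp : Odd p)
    (hU : U ∈ X) (hL : L ∈ X) (hy : y0 ∈ X) (hLp : L ^ p = 1) (hw : ρ y0 ^ p = 1) (h1 : ρ U * ρ y0 = ρ y0 * ρ U)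
    (h2 : ρ y0 * ρ L * ρ y0 = ρ L * (ρ y0 * ρ L))
    (hk : ∀ k ∈ X, ρ k = 1 → k * k = 1 ∧ ∀ g ∈ X, Commute k g) :
    ∃ y ∈ X, U * y = y * U ∧ y * L * y = L * (y * L) := by
  have odd : ∀ k : H, k * k = 1 → k ^ p = k := fun k h => by
    obtain ⟨m, rfl⟩ := hp
    rw [pow_succ, pow_mul, pow_two, h, one_pow, one_mul]
  obtain ⟨a1, a2⟩ := hk (y0 ^ p) (pow_mem hy p) (by rw [map_pow, hw])
  have hy' : y0 * y0 ^ p ∈ X := mul_mem hy (pow_mem hy p)
  have e1 : ρ (y0 * y0 ^ p) = ρ y0 := by rw [map_mul, map_pow, hw, mul_one]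
  have e2 : (y0 * y0 ^ p) ^ p = 1 := by rw [(a2 y0 hy).symm.mul_pow, odd _ a1, a1]
  rw [← e1] at h1 h2
  generalize y0 * y0 ^ p = y at hy' e2 h1 h2
  have key : ∀ g ∈ X, ∀ z ∈ X, z ^ p = 1 → ρ g * ρ y = ρ z * ρ g → g * y = z * g := fun g hg z hz hzp h => by
    obtain ⟨b1, b2⟩ := hk (g * y * g⁻¹ * z⁻¹) (mul_mem (mul_mem (mul_mem hg hy') (inv_mem hg)) (inv_mem hz))
      (by simp only [map_mul, map_inv]; rw [h]; group)
    have h3 := (b2 z hz).mul_pow p
    rw [odd _ b1, hzp, inv_mul_cancel_right, conj_pow, e2, mul_one, mul_inv_cancel, mul_one, eq_comm,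
      mul_inv_eq_one, mul_inv_eq_iff_eq_mul] at h3
    exact h3
  exact ⟨y, hy', key U hU y hy' e2 h1, key _ (mul_mem hy' hL) L hL hLp (by rw [map_mul]; exact h2)⟩

section Ring

variable {R S : Type*} [CommRing R] [CommRing S]

/-- upper unitriangular matrices -/
def uR (c : R) : SL(2, R) := ⟨!![1, c; 0, 1], by simp [det_fin_two_of]⟩
/-- lower unitriangular matrices -/
def lR (c : R) : SL(2, R) := ⟨!![1, 0; c, 1], by simp [det_fin_two_of]⟩

theorem cu (c : R) : ((uR c : SL(2, R)) : Matrix (Fin 2) (Fin 2) R) = !![1, c; 0, 1] := rfl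
theorem cl (c : R) : ((lR c : SL(2, R)) : Matrix (Fin 2) (Fin 2) R) = !![1, 0; c, 1] := rfl
theorem uR_mul (c d : R) : uR c * uR d = uR (c + d) := Subtype.ext (by simp [cu, add_comm])
theorem lR_mul (c d : R) : lR c * lR d = lR (c + d) := Subtype.ext (by simp [cl])
theorem uR_zero : uR (0 : R) = 1 := Subtype.ext (by simp [cu, one_fin_two])
theorem lR_zero : lR (0 : R) = 1 := Subtype.ext (by simp [cl, one_fin_two])
theorem uR_inv (c : R) : (uR c)⁻¹ = uR (-c) := inv_eq_of_mul_eq_one_right (by rw [uR_mul, add_neg_cancel, uR_zero])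
theorem lR_inv (c : R) : (lR c)⁻¹ = lR (-c) := inv_eq_of_mul_eq_one_right (by rw [lR_mul, add_neg_cancel, lR_zero])
theorem uR_pow (c : R) (n : ℕ) : uR c ^ n = uR (n * c) := by
  induction n with
  | zero => simp [uR_zero]
  | succ n ih => rw [pow_succ, ih, uR_mul, Nat.cast_succ, add_one_mul]
theorem lR_pow (c : R) (n : ℕ) : lR c ^ n = lR (n * c) := by
  induction n with
  | zero => simp [lR_zero]
  | succ n ih => rw [pow_succ, ih, lR_mul, Nat.cast_succ, add_one_mul]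
theorem map_uR (f : R →+* S) (c : R) : SpecialLinearGroup.map f (uR c) = uR (f c) := by
  ext i j; fin_cases i <;> fin_cases j <;> simp [cu]
theorem map_lR (f : R →+* S) (c : R) : SpecialLinearGroup.map f (lR c) = lR (f c) := by
  ext i j; fin_cases i <;> fin_cases j <;> simp [cl]
theorem braid : uR (-1 : R) * lR 1 * uR (-1) = lR 1 * (uR (-1) * lR 1) :=
  Subtype.ext (by simp [cu, cl])

theorem eq_uR {α : R} (hα : IsUnit α) (h2 : IsUnit (2 : R)) {y : SL(2, R)} (e1 : uR α * y = y * uR α)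
    (e2 : y * lR 1 * y = lR 1 * (y * lR 1)) : y = uR (-1) := by
  have d := y.det_coe
  rw [det_fin_two] at d
  have a1 := congrArg (fun g : SL(2, R) => g.1 0 0) e1
  have a2 := congrArg (fun g : SL(2, R) => g.1 0 1) e1
  have b1 := congrArg (fun g : SL(2, R) => g.1 0 0) e2
  have b2 := congrArg (fun g : SL(2, R) => g.1 1 0) e2
  simp [cu, cl, mul_apply, Fin.sum_univ_two] at a1 a2 b1 b2
  have c1 : y.1 1 0 = 0 := hα.mul_right_eq_zero.1 a1
  have c2 : y.1 1 1 = y.1 0 0 := hα.mul_left_cancel (by linear_combination a2)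
  rw [c1, c2] at d b2
  rw [c1] at b1
  have c3 : y.1 0 0 = 1 := h2.mul_left_cancel (by linear_combination b1 + (y.1 0 0 - 1) * b2 - (y.1 0 0 - 2) * d)
  have c4 : y.1 0 1 = -1 := by rw [c3] at b2; linear_combination -b2
  ext i j; fin_cases i <;> fin_cases j <;> simp [cu, c1, c2, c3, c4]

theorem map_clo (f : R →+* S) (α : R) : (Subgroup.closure {lR 1, uR α}).map (SpecialLinearGroup.map f) =
    Subgroup.closure {lR 1, uR (f α)} := by
  rw [MonoidHom.map_closure, Set.image_pair, map_lR, map_uR, map_one]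

theorem main (f : R →+* S) {α : R} (hα : IsUnit α) {p : ℕ} (hp : Odd p) (h0 : (p : R) = 0)
    (hk : ∀ k ∈ Subgroup.closure {lR 1, uR α}, SpecialLinearGroup.map f k = 1 →
      k * k = 1 ∧ ∀ g ∈ Subgroup.closure {lR 1, uR α}, Commute k g)
    (h1 : uR 1 ∈ Subgroup.closure {lR 1, uR (f α)}) : uR 1 ∈ Subgroup.closure {lR 1, uR α} := by
  rw [← map_clo] at h1
  obtain ⟨y0, hy, e⟩ := inv_mem h1
  rw [uR_inv] at e
  have h0' : (p : S) = 0 := by rw [← map_natCast f, h0, map_zero]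
  obtain ⟨y, hy', e1, e2⟩ := abstr (SpecialLinearGroup.map f) hp (U := uR α) (L := lR 1)
    (Subgroup.subset_closure (by simp)) (Subgroup.subset_closure (by simp)) hy
    (by rw [lR_pow, h0, zero_mul, lR_zero]) (by rw [e, uR_pow, h0', zero_mul, uR_zero])
    (by rw [e, map_uR, uR_mul, uR_mul, add_comm]) (by rw [e, map_lR, map_one, braid]) hk
  have h2 : IsUnit (2 : R) := by
    obtain ⟨m, rfl⟩ := hp
    exact IsUnit.of_mul_eq_one (-m) (by push_cast at h0; linear_combination -h0)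
  have := inv_mem hy'
  rwa [eq_uR hα h2 e1 e2, uR_inv, neg_neg] at this

theorem inj2 {f f' : R →+* S} (h : ∀ r s, f r = f s → f' r = f' s → r = s) {g k : SL(2, R)}
    (h1 : SpecialLinearGroup.map f g = SpecialLinearGroup.map f k)
    (h2 : SpecialLinearGroup.map f' g = SpecialLinearGroup.map f' k) : g = k := by
  ext i j
  exact h _ _ (congrArg (fun g : SL(2, S) => g.1 i j) h1) (congrArg (fun g : SL(2, S) => g.1 i j) h2)

end Ring

variable {F : Type u} [Field F] {R : Type u} [CommRing R]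

theorem clo_eq (a : F) : Subgroup.closure {lR 1, uR a} = Subgroup.closure {SL2.loT (1 : F), SL2.upT a} := by
  rw [show SL2.loT (1 : F) = lR 1 from Subtype.ext (SL2.coe_loT 1), show SL2.upT a = uR a from Subtype.ext (SL2.coe_upT a)]

/-- block matrices -/
def δ (ι : R →+* Matrix (Fin 2) (Fin 2) F) : SL(2, R) →* GL I4 F := MonoidHom.toHomUnits
  { toFun := fun g => fromBlocks (ι (g.1 0 0)) (ι (g.1 0 1)) (ι (g.1 1 0)) (ι (g.1 1 1))
    map_one' := by simp [fromBlocks_one]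
    map_mul' := fun g h => by simp [fromBlocks_multiply, mul_apply, Fin.sum_univ_two] }

theorem δ_val (ι : R →+* Matrix (Fin 2) (Fin 2) F) (g : SL(2, R)) :
    (δ ι g).val = fromBlocks (ι (g.1 0 0)) (ι (g.1 0 1)) (ι (g.1 1 0)) (ι (g.1 1 1)) := rfl
theorem δ_uR (ι : R →+* Matrix (Fin 2) (Fin 2) F) (c : R) : (δ ι (uR c)).val = fromBlocks 1 (ι c) 0 1 := by
  simp [δ_val, cu]
theorem δ_lR (ι : R →+* Matrix (Fin 2) (Fin 2) F) (c : R) : (δ ι (lR c)).val = fromBlocks 1 0 (ι c) 1 := by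
  simp [δ_val, cl]

theorem clo_le (ι : R →+* Matrix (Fin 2) (Fin 2) F) {Γ : Subgroup (GL I4 F)} {α : R}
    (h1 : ∃ g ∈ Γ, g.val = fromBlocks 1 0 1 1) (h2 : ∃ g ∈ Γ, g.val = fromBlocks 1 (ι α) 0 1) :
    Subgroup.closure {lR 1, uR α} ≤ Γ.comap (δ ι) := by
  obtain ⟨g, hg, e⟩ := h1
  obtain ⟨g', hg', e'⟩ := h2
  rw [Subgroup.closure_le]
  rintro _ (rfl | rfl)
  · change δ ι _ ∈ Γ
    rwa [show δ ι (lR 1) = g from Units.ext (by rw [δ_lR, map_one, e])]
  · change δ ι _ ∈ Γ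
    rwa [show δ ι (uR α) = g' from Units.ext (by rw [δ_uR, e'])]

theorem tv {ι : R →+* Matrix (Fin 2) (Fin 2) F} {Γ : Subgroup (GL I4 F)} (h : ¬ HasTv Γ) {X : Subgroup SL(2, R)}
    (hX : X ≤ Γ.comap (δ ι)) (c : R) (hc : uR c ∈ X) (i j : Fin 2) (d : F) (e : ι c = single i j d) : d = 0 := by
  by_contra hd
  refine h ⟨δ ι (uR c), Subgroup.mem_comap.1 (hX hc), Pi.single (.inl i) d, LinearMap.proj (Sum.inr j), fun h0 => hd ?_, fun h0 => ?_, by simp, fun x => ?_⟩
  · simpa using congrFun h0 (.inl i)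
  · simpa using LinearMap.congr_fun h0 (Pi.single (.inr j) 1)
  · change (δ ι (uR c)).val *ᵥ x = _
    rw [δ_uR, e, fromBlocks_mulVec]
    ext (k | k)
    · by_cases hk : k = i <;> simp [single_mulVec, Pi.single_apply, Function.update_apply, hk, mul_comm]
    · simp

theorem fin {ι : R →+* Matrix (Fin 2) (Fin 2) F} {Γ : Subgroup (GL I4 F)} {X : Subgroup SL(2, R)}
    (hX : X ≤ Γ.comap (δ ι)) (h : uR 1 ∈ X) : ∃ g ∈ Γ, g.val = fromBlocks 1 1 0 1 :=
  ⟨δ ι (uR 1), Subgroup.mem_comap.1 (hX h), by rw [δ_uR, map_one]⟩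

theorem odd_char [Fintype F] (h2 : (2 : F) ≠ 0) : Odd (ringChar F) :=
  (CharP.char_is_prime F (ringChar F)).odd_of_ne_two fun h => h2 (by
    have := ringChar.Nat.cast_ringChar (R := F)
    rwa [h] at this)

theorem split [Fintype F] (hK : SubDK.{u}) (h2 : (2 : F) ≠ 0) {f f' : R →+* F}
    (h : ∀ r s, f r = f s → f' r = f' s → r = s) {α : R} (hα : IsUnit α)
    (hT : ∀ k ∈ Subgroup.closure {lR 1, uR α}, SpecialLinearGroup.map f k = 1 → ∀ c,
      SpecialLinearGroup.map f' k = uR c → c = 0)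
    (ha : ¬ ((3 : F) = 0 ∧ f α ^ 2 = -1)) (hb : ¬ ((3 : F) = 0 ∧ f' α ^ 2 = 1)) :
    uR 1 ∈ Subgroup.closure {lR 1, uR α} := by
  refine main f hα (odd_char h2) (h _ _ (by simp) (by simp)) (fun k hk e => ?_) ?_
  · obtain ⟨-, -, h3, -⟩ := hK F (f' α) _ h2 (hα.map f').ne_zero (clo_eq _)
    rw [← map_clo] at h3
    rcases (h3 hb).2 ((Subgroup.closure {lR 1, uR α} ⊓ (SpecialLinearGroup.map f).ker).map
      (SpecialLinearGroup.map f')) (Subgroup.map_mono inf_le_left) (by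
        rintro _ ⟨g, hg, rfl⟩ _ ⟨n, hn, rfl⟩
        refine ⟨g * n * g⁻¹, ⟨Subgroup.mul_mem _ (Subgroup.mul_mem _ hg hn.1) (Subgroup.inv_mem _ hg), ?_⟩, by simp only [map_mul, map_inv]⟩
        exact (MonoidHom.normal_ker _).conj_mem _ hn.2 g) with h4 | h4
    · obtain ⟨n, hn, e'⟩ := h4.ge (Subgroup.mem_map_of_mem _ (Subgroup.subset_closure (by simp : uR α ∈ _)))
      exact absurd (hT n hn.1 hn.2 _ (e'.trans (map_uR _ _))) (hα.map f').ne_zero
    · rcases h4 _ ⟨k, ⟨hk, e⟩, rfl⟩ with h5 | h5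
      · obtain rfl : k = 1 := inj2 h (by rw [e, map_one]) (by rw [h5, map_one])
        exact ⟨mul_one 1, fun g _ => Commute.one_left g⟩
      · exact ⟨inj2 h (by simp only [map_mul, e, map_one, mul_one]) (by simp [h5]),
          fun g _ => inj2 h (by simp only [map_mul, e, one_mul, mul_one]) (by simp [h5])⟩
  · have := (hK F (f α) _ h2 (hα.map f).ne_zero (clo_eq _)).2.2.2 ha
    rwa [show SL2.upT (1 : F) = uR 1 from Subtype.ext (SL2.coe_upT 1)] at this

/-- diagonal matrices -/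
def ιS : F × F →+* Matrix (Fin 2) (Fin 2) F where
  toFun r := !![r.1, 0; 0, r.2]
  map_one' := by simp [one_fin_two]
  map_mul' r s := by simp
  map_zero' := by ext i j; fin_cases i <;> fin_cases j <;> simp
  map_add' r s := by simp

theorem ιS_apply (r : F × F) : ιS r = !![r.1, 0; 0, r.2] := rfl

/-- Jordan blocks -/
def ιJ : DualNumber F →+* Matrix (Fin 2) (Fin 2) F where
  toFun r := !![r.fst, r.snd; 0, r.fst]
  map_one' := by simp [one_fin_two]
  map_mul' r s := by simp [DualNumber.snd_mul]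
  map_zero' := by ext i j; fin_cases i <;> fin_cases j <;> simp
  map_add' r s := by simp

theorem ιJ_apply (r : DualNumber F) : ιJ r = !![r.fst, r.snd; 0, r.fst] := rfl

open TrivSqZeroExt in
/-- the kernel of the reduction -/
def kk (p q r : F) : SL(2, DualNumber F) := ⟨!![1 + inr p, inr q; inr r, 1 - inr p], by
  rw [det_fin_two_of]; ext <;> simp [DualNumber.snd_mul]⟩

open TrivSqZeroExt in
theorem ck (p q r : F) : ((kk p q r : SL(2, DualNumber F)) : Matrix (Fin 2) (Fin 2) (DualNumber F)) =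
    !![1 + inr p, inr q; inr r, 1 - inr p] := rfl

open TrivSqZeroExt in
theorem kk_conj (a p q r : F) : uR (inl a + inr 1) * kk p q r =
    kk (a * r) (-2 * a * p - a * a * r) 0 * kk p q r * uR (inl a + inr 1) := by
  ext i j <;> fin_cases i <;> fin_cases j <;>
    simp [cu, ck, mul_apply, Fin.sum_univ_two, DualNumber.snd_mul] <;> ring

end D2Sx

open D2Sx in
theorem subD2S (hK : SubDK.{u}) : SubD2S.{u} := by
  intro F _ _ Γ a b h2 hΓ ha hb h3 h1 hg
  have hle := clo_le ιS (α := (a, b)) h1 hg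
  have hα : IsUnit (a, b) := Prod.isUnit_iff.2 ⟨ha.isUnit, hb.isUnit⟩
  have hi : ∀ r s : F × F, RingHom.fst F F r = RingHom.fst F F s → RingHom.snd F F r = RingHom.snd F F s → r = s :=
    fun r s => Prod.ext
  have T1 : ∀ k ∈ Subgroup.closure {lR 1, uR (a, b)}, SpecialLinearGroup.map (RingHom.fst F F) k = 1 → ∀ c,
      SpecialLinearGroup.map (RingHom.snd F F) k = uR c → c = 0 := fun k hk e c e' => by
    obtain rfl : k = uR (0, c) := inj2 hi (by rw [e, map_uR]; exact uR_zero.symm) (by rw [e', map_uR]; rfl)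
    exact tv hΓ hle _ hk 1 1 c (by ext i j; fin_cases i <;> fin_cases j <;> simp [ιS_apply])
  have T2 : ∀ k ∈ Subgroup.closure {lR 1, uR (a, b)}, SpecialLinearGroup.map (RingHom.snd F F) k = 1 → ∀ c,
      SpecialLinearGroup.map (RingHom.fst F F) k = uR c → c = 0 := fun k hk e c e' => by
    obtain rfl : k = uR (c, 0) := inj2 hi (by rw [e', map_uR]; rfl) (by rw [e, map_uR]; exact uR_zero.symm)
    exact tv hΓ hle _ hk 0 0 c (by ext i j; fin_cases i <;> fin_cases j <;> simp [ιS_apply])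
  refine fin hle ?_
  by_cases c1 : ¬ ((3 : F) = 0 ∧ a ^ 2 = -1) ∧ ¬ ((3 : F) = 0 ∧ b ^ 2 = 1)
  · exact split (f := RingHom.fst F F) (f' := RingHom.snd F F) (α := (a, b)) hK h2 hi hα T1 c1.1 c1.2
  by_cases c2 : ¬ ((3 : F) = 0 ∧ b ^ 2 = -1) ∧ ¬ ((3 : F) = 0 ∧ a ^ 2 = 1)
  · exact split (f := RingHom.snd F F) (f' := RingHom.fst F F) (α := (a, b)) hK h2 (fun r s x y => hi r s y x) hα T2
      c2.1 c2.2
  have hne : ∀ x : F, x ^ 2 = 1 → x ^ 2 = -1 → False := fun x e e' => h2 (by linear_combination e' - e)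
  obtain ⟨t, ea, eb⟩ : (3 : F) = 0 ∧ a ^ 2 = 1 ∧ b ^ 2 = 1 := by
    have n1 := hne a; have n2 := hne b
    generalize ((3 : F) = 0) = A, (a ^ 2 = 1) = B, (a ^ 2 = -1) = C, (b ^ 2 = 1) = D, (b ^ 2 = -1) = E at *
    clear * - n1 n2 c1 c2 h3
    tauto
  have hU : uR (a, b) ∈ Subgroup.closure {lR 1, uR (a, b)} := Subgroup.subset_closure (by simp)
  have hU' := inv_mem hU
  rw [uR_inv] at hU'
  have hL : lR 1 ∈ Subgroup.closure {lR 1, uR (a, b)} := Subgroup.subset_closure (by simp)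
  have bad : uR (1, -1) ∉ Subgroup.closure {lR 1, uR (a, b)} := fun h => by
    have m1 : ((lR 1)⁻¹ * uR 1 * lR 1 * lR 1 : SL(2, F)) ^ 2 = -1 := by
      rw [lR_inv, pow_two]
      ext i j; fin_cases i <;> fin_cases j <;> simp [cu, cl, mul_apply, Fin.sum_univ_two] <;> grind
    have m2 : ((lR 1)⁻¹ * uR (-1) * lR 1 * lR 1 : SL(2, F)) = -uR 1 := by
      rw [lR_inv]
      ext i j; fin_cases i <;> fin_cases j <;> simp [cu, cl, mul_apply, Fin.sum_univ_two] <;> grind
    have m3 : ∀ f : F × F →+* F, SpecialLinearGroup.map f (((lR 1)⁻¹ * uR (1, -1) * lR 1 * lR 1) ^ (2 * 2)) =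
        ((lR 1)⁻¹ * uR (f (1, -1)) * lR 1 * lR 1) ^ (2 * 2) := fun f => by
      simp only [map_pow, map_mul, map_inv, map_lR, map_uR, map_one]
    have := T1 _ (pow_mem (mul_mem (mul_mem (mul_mem (inv_mem hL) h) hL) hL) (2 * 2))
      ((m3 _).trans (by rw [RingHom.coe_fst, pow_mul, m1]; simp)) (((2 * 2 : ℕ) : F) * 1)
      ((m3 _).trans (by rw [RingHom.coe_snd, m2, Even.neg_pow (by decide), uR_pow]))
    exact h2 (by push_cast at this; linear_combination 2 * this - 2 * t)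
  rcases sq_eq_one_iff.1 ea with rfl | rfl <;> rcases sq_eq_one_iff.1 eb with rfl | rfl
  · exact hU
  · exact absurd hU bad
  · exact absurd (by simpa using hU') bad
  · rwa [show -((-1 : F), (-1 : F)) = 1 from Prod.ext (neg_neg _) (neg_neg _)] at hU'

open D2Sx TrivSqZeroExt in
theorem subD2J (hK : SubDK.{u}) : SubD2J.{u} := by
  intro F _ _ Γ a h2 hΓ ha h3 h1 hg
  have hle := clo_le ιJ (α := inl a + inr 1) h1 (by rw [ιJ_apply]; simpa using hg)
  refine fin hle ?_
  have hα : IsUnit (inl a + inr 1 : DualNumber F) :=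
    IsUnit.of_mul_eq_one (inl a⁻¹ - inr (a⁻¹ * a⁻¹)) (by ext <;> simp [ha])
  have h0 : ((ringChar F : ℕ) : DualNumber F) = 0 := by ext <;> simp
  refine main (R := DualNumber F) (S := F) (fstHom F F F).toRingHom hα (odd_char h2) h0 (fun k hk e => ?_) ?_
  · generalize hX : Subgroup.closure {lR 1, uR (inl a + inr 1 : DualNumber F)} = X at hk hle
    have hU : uR (inl a + inr 1) ∈ X := hX ▸ Subgroup.subset_closure (by simp)
    have s1 : ∀ p q r, kk p q r ∈ X → kk (a * r) (-2 * a * p - a * a * r) 0 ∈ X := fun p q r h => by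
      have := mul_mem (mul_mem (mul_mem hU h) (inv_mem hU)) (inv_mem h)
      rwa [kk_conj, mul_inv_cancel_right, mul_inv_cancel_right] at this
    have s2 : ∀ q, kk 0 q 0 ∈ X → q = 0 := fun q h => by
      rw [show kk 0 q 0 = uR (inr q) from Subtype.ext (by simp [ck, cu])] at h
      exact tv hΓ hle _ h 0 1 q (by ext i j; fin_cases i <;> fin_cases j <;> simp [ιJ_apply])
    have d0 := k.det_coe
    rw [det_fin_two] at d0
    have d := congrArg snd d0
    have a1 : (k.1 0 0).fst = 1 := congrArg (fun g : SL(2, F) => g.1 0 0) e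
    have a2 : (k.1 0 1).fst = 0 := congrArg (fun g : SL(2, F) => g.1 0 1) e
    have a3 : (k.1 1 0).fst = 0 := congrArg (fun g : SL(2, F) => g.1 1 0) e
    have a4 : (k.1 1 1).fst = 1 := congrArg (fun g : SL(2, F) => g.1 1 1) e
    simp [a1, a2, a3, a4] at d
    obtain ⟨p, q, r, rfl⟩ : ∃ p q r, k = kk p q r := ⟨(k.1 0 0).snd, (k.1 0 1).snd, (k.1 1 0).snd, by
      ext i j <;> fin_cases i <;> fin_cases j <;> simp [ck, a1, a2, a3, a4]
      linear_combination d⟩
    have b1 := s1 _ _ _ hk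
    have b2 := s1 _ _ _ b1
    rw [mul_zero] at b2
    obtain rfl : r = 0 := by simpa [ha, h2] using s2 _ b2
    rw [mul_zero] at b1
    obtain rfl : p = 0 := by simpa [ha, h2] using s2 _ b1
    obtain rfl := s2 _ hk
    rw [show kk (0 : F) 0 0 = 1 from Subtype.ext (by simp [ck, one_fin_two])]
    exact ⟨mul_one 1, fun g _ => Commute.one_left g⟩
  · have := (hK F a _ h2 ha (clo_eq _)).2.2.2 h3
    rw [show SL2.upT (1 : F) = uR 1 from Subtype.ext (SL2.coe_upT 1)] at this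
    simpa using this

end CL.Low4
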