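/-
Project LOW4: two opposite transvections of `SL₂`, images in `PGL₂` with small Sylow `p`-subgroups, and
`p`-groups preserving two complementary planes.
-/
import Cfsg.Agent.Low4.Defs3
import Cfsg.Agent.Inv.ABG.MFactS1
import Cfsg.Agent.Cls.SL2Sylow2
import Cfsg.Agent.Cls.SL2Dickson

set_option autoImplicit false
set_option linter.unusedSectionVars false

namespace CL.Low4

open Matrix Cfsg Cfsg.Geo CL.Asch CL.SLn CL.Low Module
open scoped commutatorElement MatrixGroups

universe u

namespace DK

variable {F : Type u} [Field F]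

theorem via {K : Type*} [Field K] (hK : 3 < Nat.card K) (k2 : (2 : K) ≠ 0) (h2 : (2 : F) ≠ 0)
    (ι : SL(2, K) →* SL(2, F)) (hι : Function.Injective ι) :
    ι (-1) = -1 ∧ ⁅ι.range, ι.range⁆ = ι.range ∧
      ∀ N ≤ ι.range, (∀ g ∈ ι.range, ∀ n ∈ N, g * n * g⁻¹ ∈ N) → N = ι.range ∨ ∀ n ∈ N, n = 1 ∨ n = -1 := by
  have h1 : ι (-1) = -1 := by
    refine (SL2.sl_eq_of_mul_self h2 (g := ι (-1)) (by rw [← map_mul]; simp)).resolve_left fun e => k2 ?_
    have := congrArg (fun g : SL(2, K) => g 0 0) (hι (e.trans (map_one ι).symm))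
    simp at this
    linear_combination -this
  refine ⟨h1, ?_, fun N hN hn => ?_⟩
  · rw [MonoidHom.range_eq_map, ← Subgroup.map_commutator, CL.ABG.M.sl_perfect hK]
  · have : (N.comap ι).Normal := ⟨fun n h g => by
      simpa [Subgroup.mem_comap] using hn _ ⟨g, rfl⟩ _ h⟩
    rcases CL.ABG.M.sl_normal hK (N.comap ι) with h | h
    · refine .inl (le_antisymm hN ?_)
      rintro _ ⟨g, rfl⟩
      exact (h ▸ Subgroup.mem_top g : g ∈ N.comap ι)
    · refine .inr fun n hn' => ?_
      obtain ⟨m, rfl⟩ := hN hn'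
      rcases h m hn' with rfl | rfl
      exacts [.inl (map_one ι), .inr h1]

theorem sl_solv {K : Type*} [Field K] [Fintype K] (h : Fintype.card K ≤ 3) : Group.IsSolvable SL(2, K) := by
  have := SL2.isSolvable_psl h
  have : Group.IsSolvable (Subgroup.center SL(2, K)) :=
    Group.isSolvable_of_comm fun a b => Subtype.ext (Subgroup.mem_center_iff.1 b.2 a)
  exact Group.isSolvable_of_ker_le_range (Subgroup.center SL(2, K)).subtype
    (QuotientGroup.mk' (Subgroup.center SL(2, K))) (by simp)

theorem map_upT {K : Type*} [Field K] (f : K →+* F) (b : K) :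
    SpecialLinearGroup.map (n := Fin 2) f (SL2.upT b) = SL2.upT (f b) := by
  ext i j
  fin_cases i <;> fin_cases j <;> simp [SL2.coe_upT]

theorem map_loT {K : Type*} [Field K] (f : K →+* F) (b : K) :
    SpecialLinearGroup.map (n := Fin 2) f (SL2.loT b) = SL2.loT (f b) := by
  ext i j
  fin_cases i <;> fin_cases j <;> simp [SL2.coe_loT]

theorem closure_top (a : F) : Subfield.closure ({⟨a, Subfield.subset_closure rfl⟩} : Set (Subfield.closure ({a} : Set F))) = ⊤ := by
  rw [eq_top_iff]
  rintro ⟨x, hx⟩ -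
  have h : Subfield.closure ({a} : Set F) ≤ (Subfield.closure
      ({⟨a, Subfield.subset_closure rfl⟩} : Set (Subfield.closure ({a} : Set F)))).map
        (Subfield.closure ({a} : Set F)).subtype :=
    Subfield.closure_le.2 (Set.singleton_subset_iff.2 ⟨_, Subfield.subset_closure rfl, rfl⟩)
  obtain ⟨y, hy, e⟩ := h hx
  obtain rfl : y = ⟨x, hx⟩ := Subtype.ext e
  exact hy

theorem plane [Finite F] {U : Subgroup (G F)} (hU : IsPGroup (ringChar F) U) (W : Submodule F (V F))
    (hW : finrank F W = 2) (hinv : ∀ g ∈ U, ∀ y ∈ W, g • y ∈ W) :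
    ∃ w ∈ W, w ≠ 0 ∧ ∀ g ∈ U, g • w = w ∧ ∀ y ∈ W, ∃ c : F, g • y - y = c • w := by
  have hp : Fact (ringChar F).Prime := ⟨CharP.char_is_prime F _⟩
  let _ : MulAction U W :=
    { smul := fun g y => ⟨(g : G F) • (y : V F), hinv g g.2 y y.2⟩
      one_smul := fun y => Subtype.ext (one_smul (G F) (y : V F))
      mul_smul := fun g h y => Subtype.ext (mul_smul (g : G F) (h : G F) (y : V F)) }
  have hdvd : ringChar F ∣ Nat.card W := by
    obtain ⟨y, hy, hy0⟩ := Submodule.exists_mem_ne_zero_of_ne_bot (p := W) (by rintro rfl; simp at hW)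
    have h1 : addOrderOf (⟨y, hy⟩ : W) = ringChar F := addOrderOf_eq_prime
      (by rw [← Nat.cast_smul_eq_nsmul F, CharP.cast_eq_zero, zero_smul]) (fun h => hy0 (congrArg Subtype.val h))
    exact h1 ▸ addOrderOf_dvd_natCard _
  obtain ⟨w, hw, hw0⟩ := hU.exists_fixed_point_of_prime_dvd_card_of_fixed_point (α := W) hdvd (a := 0)
    (fun g => Subtype.ext (smul_zero (g : G F)))
  have w0 : (w : V F) ≠ 0 := fun h => hw0 (Subtype.ext h.symm)
  refine ⟨w, w.2, w0, fun g hg => ?_⟩
  have gw : g • (w : V F) = w := congrArg Subtype.val (hw ⟨g, hg⟩)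
  refine ⟨gw, fun y hy => ?_⟩
  by_cases hc : ∃ c : F, y = c • (w : V F)
  · obtain ⟨c, rfl⟩ := hc
    exact ⟨0, by rw [gsmul_smul, gw, sub_self, zero_smul]⟩
  have ind : ∀ s t : F, s • (w : V F) + t • y = 0 → s = 0 ∧ t = 0 := fun s t h => by
    have ht : t = 0 := by
      by_contra ht
      refine hc ⟨-(s / t), ?_⟩
      have : t • (y - (-(s / t)) • (w : V F)) = 0 := by
        rw [← h, smul_sub, smul_smul, mul_neg, mul_div_cancel₀ _ ht]; module
      exact sub_eq_zero.1 ((smul_eq_zero.1 this).resolve_left ht)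
    rw [ht, zero_smul, add_zero] at h
    exact ⟨(smul_eq_zero.1 h).resolve_right w0, ht⟩
  have li : LinearIndependent F ![(w : V F), y] := LinearIndependent.pair_iff.2 ind
  have sp : Submodule.span F (Set.range ![(w : V F), y]) = W := by
    refine Submodule.eq_of_le_of_finrank_eq (Submodule.span_le.2 ?_) (by rw [finrank_span_eq_card li, hW]; rfl)
    rintro _ ⟨i, rfl⟩
    fin_cases i
    exacts [w.2, hy]
  have hm := hinv g hg y hy
  rw [← sp, Matrix.range_cons, Matrix.range_cons, Matrix.range_empty, Set.union_empty, Set.singleton_union,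
    Submodule.mem_span_pair] at hm
  obtain ⟨s, t, hst⟩ := hm
  have pw : ∀ n : ℕ, ∃ r : F, g ^ n • y = r • (w : V F) + t ^ n • y := fun n => by
    induction n with
    | zero => exact ⟨0, by simp⟩
    | succ n ih =>
      obtain ⟨r, hr⟩ := ih
      refine ⟨r + t ^ n * s, ?_⟩
      rw [pow_succ', mul_smul, hr, smul_add, gsmul_smul, gsmul_smul, gw, ← hst, pow_succ]
      module
  obtain ⟨n, hn⟩ := hU ⟨g, hg⟩
  obtain ⟨r, hr⟩ := pw (ringChar F ^ n)
  rw [show g ^ ringChar F ^ n = 1 from congrArg Subtype.val hn, one_smul] at hr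
  have h1 := (ind r (t ^ ringChar F ^ n - 1) (by rw [sub_smul, one_smul, ← add_sub_assoc, ← hr, sub_self])).2
  have h2 : t = 1 := by
    have : (t - 1) ^ ringChar F ^ n = 0 := by rw [sub_pow_char_pow, one_pow, h1]
    exact sub_eq_zero.1 (pow_eq_zero_iff (pow_ne_zero n hp.out.ne_zero) |>.1 this)
  exact ⟨s, by rw [← hst, h2, one_smul, add_sub_cancel_right]⟩

end DK

theorem subDK : SubDK.{u} := by
  intro F _ _ a X h2 ha hX
  by_cases h9 : (3 : F) = 0 ∧ a ^ 2 = -1
  · obtain ⟨e⟩ := SL2.nonempty_closure_loT_upT h9.1 h9.2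
    have : Fact (Nat.Prime 5) := ⟨by norm_num⟩
    rw [← hX] at e
    have hr : (X.subtype.comp e.symm.toMonoidHom).range = X := by
      rw [MonoidHom.range_comp, MonoidHom.range_eq_top.2 e.symm.surjective, ← MonoidHom.range_eq_map,
        Subgroup.range_subtype]
    obtain ⟨k1, k2, k3⟩ := DK.via (K := ZMod 5) (by simp) (by decide +revert) h2 (X.subtype.comp e.symm.toMonoidHom)
      (X.subtype_injective.comp e.symm.injective)
    have k0 : -1 ∈ (X.subtype.comp e.symm.toMonoidHom).range := ⟨_, k1⟩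
    rw [hr] at k0 k2 k3
    refine ⟨k0, fun h => (h2 ?_).elim, fun _ => ⟨k2, k3⟩, fun h => (h h9).elim⟩
    linear_combination h9.2 - h.2
  · set L := Subfield.closure ({a} : Set F) with hL
    have : Fintype L := Fintype.ofFinite L
    let a' : L := ⟨a, Subfield.subset_closure rfl⟩
    have l2 : (2 : L) ≠ 0 := fun h => h2 (congrArg Subtype.val h)
    have l3 : ∀ n, Fintype.card L = 3 ^ n → (3 : F) = 0 := fun n h => by
      have h1 : ((3 ^ n : ℕ) : L) = 0 := h ▸ FiniteField.cast_card_eq_zero L
      have h3 : (3 : L) = 0 := by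
        rw [Nat.cast_pow] at h1
        simpa using eq_zero_of_pow_eq_zero h1
      exact congrArg Subtype.val h3
    have a0 : a' ≠ 0 := fun h => ha (congrArg Subtype.val h)
    have top := SL2.closure_loT_upT_eq_top l2 a0 (DK.closure_top a) fun h =>
      h9 ⟨l3 2 h.1, by simpa using congrArg L.subtype h.2⟩
    have hr : (SpecialLinearGroup.map (n := Fin 2) L.subtype).range = X := by
      rw [MonoidHom.range_eq_map, ← top, MonoidHom.map_closure, hX, Set.image_pair, DK.map_loT, DK.map_upT, map_one]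
      rfl
    have inj := SL2.sl_map_injective L.subtype
    refine ⟨hr ▸ ⟨-1, SL2.sl_map_neg_one _⟩, fun h => ?_, fun h => ?_, fun _ => hr ▸ ⟨SL2.upT 1, ?_⟩⟩
    · have : Fact (Nat.Prime 3) := ⟨Nat.prime_three⟩
      have : CharP L 3 := (CharP.charP_iff_prime_eq_zero Nat.prime_three).2 (Subtype.ext h.1)
      have := DK.sl_solv (SL2.card_le_of_closure_eq_top (F := L) 3 1 one_ne_zero (DK.closure_top a)
        (Subtype.ext (show a ^ 3 ^ 1 = a by rw [pow_one, pow_succ, h.2, one_mul])))
      exact hr ▸ SL2.isSolvable_of_equiv ⟨(MonoidHom.ofInjective inj).symm⟩ this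
    · have hc : 3 < Nat.card L := by
        by_contra hc
        rw [Nat.card_eq_fintype_card] at hc
        have c1 : 1 < Fintype.card L := Fintype.one_lt_card
        have c2 : Fintype.card L ≠ 2 := fun e => l2 (by simpa [e] using FiniteField.cast_card_eq_zero L)
        have c3 : Fintype.card L = 3 := by omega
        refine h ⟨l3 1 c3, ?_⟩
        have := FiniteField.pow_card_sub_one_eq_one a' a0
        rw [c3] at this
        exact congrArg Subtype.val this
      exact hr ▸ (DK.via hc l2 h2 _ inj).2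
    · rw [DK.map_upT, map_one]

theorem subDP : SubDP.{u} := by
  intro F _ _ D _ _ π h2 hU
  have hp : Fact (ringChar F).Prime := ⟨CharP.char_is_prime F _⟩
  have : Finite π.range := Finite.of_surjective _ π.rangeRestrict_surjective
  rcases SL2.dickson_hom (ringChar F) π.range.subtype π.range.subtype_injective with
    ⟨x, hx⟩ | h | ⟨n, -, h⟩ | ⟨-, h | h | h⟩ | ⟨-, h⟩ | ⟨L, c, _, -, h⟩
  · exact .inl (SL2.isSolvable_of_fix _ _ π.range.subtype_injective hx)
  · have := h.1
    exact .inl (Group.isSolvable_of_comm fun a b => (IsCyclic.isMulCommutative.is_comm.comm a b))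
  · exact .inl (SL2.isSolvable_of_equiv h (SL2.isSolvable_dihedral n))
  · exact .inl (SL2.isSolvable_of_equiv h SL2.isSolvable_alt_four)
  · exact .inl (SL2.isSolvable_of_equiv h CL.Known.isSolvable_perm_fin_four)
  · exact .inr h
  · exact .inr h
  · rw [Subgroup.range_subtype] at h
    have : Fintype L := Fintype.ofFinite L
    have hle : π.range ≤ (SL2.pglEmb L c).range :=
      h.elim (fun h => h.le.trans (SL2.pslEmb_range_le_pglEmb L c)) le_of_eq
    have hge : (SL2.pslEmb L c).range ≤ π.range :=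
      h.elim ge_of_eq (fun h => (SL2.pslEmb_range_le_pglEmb L c).trans h.ge)
    have hc : Fintype.card L ≤ 3 := by
      let f : Multiplicative L →* π.range :=
        { toFun := fun t => ⟨SL2.pslEmb L c ((SL2.upT t.toAdd : SL(2, L)) : PSL(2, L)), hge ⟨_, rfl⟩⟩
          map_one' := Subtype.ext (by simp)
          map_mul' := fun s t => Subtype.ext (by simp [SL2.upT_add]) }
      have fi : Function.Injective f := by
        rw [injective_iff_map_eq_one]
        intro t ht
        have h1 : ((SL2.upT t.toAdd : SL(2, L)) : PSL(2, L)) = 1 :=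
          SL2.pslEmb_injective L c ((congrArg Subtype.val ht).trans (map_one _).symm)
        rcases SL2.psl_mk_eq_one_iff.1 h1 with e | e
        all_goals
          have := congrArg (fun g : SL(2, L) => g 0 1) e
          simpa [SL2.coe_upT] using this
      have hQ : IsPGroup (ringChar F) f.range := by
        rintro ⟨_, t, rfl⟩
        refine ⟨1, Subtype.ext ?_⟩
        have : t ^ ringChar F = 1 := by
          rw [← toAdd_eq_zero, toAdd_pow, nsmul_eq_mul]
          exact mul_eq_zero_of_left (Subtype.ext (by simp)) _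
        simp [← map_pow, this]
      obtain ⟨S, hS⟩ := hQ.exists_le_sylow
      obtain ⟨P, rfl⟩ := Sylow.mapSurjective_surjective π.rangeRestrict_surjective (ringChar F) S
      calc Fintype.card L = Nat.card f.range := by
            rw [← Nat.card_congr (MonoidHom.ofInjective fi).toEquiv]; simp
        _ ≤ Nat.card ((P : Subgroup D).map π.rangeRestrict) := Subgroup.card_le_of_le hS
        _ ≤ Nat.card (P : Subgroup D) := Nat.le_of_dvd Nat.card_pos (Subgroup.card_map_dvd _ _)
        _ ≤ 3 := hU _ P.isPGroup'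
    have := SL2.isSolvable_pgl hc
    have : Group.IsSolvable (SL2.pglEmb L c).range :=
      SL2.isSolvable_of_equiv ⟨(MonoidHom.ofInjective (SL2.pglEmb_injective L c)).symm⟩ this
    exact .inl (Group.isSolvable_of_isSolvable_injective (Subgroup.inclusion_injective hle))

theorem subQC : SubQC.{u} := by
  intro F _ _ Γ hN e x hb U hUΓ hU hpr
  have r1 : finrank F (LinearMap.range (up e)) = 2 := by rw [LinearMap.finrank_range_of_inj hb.up_inj]; simp
  have r2 : finrank F (LinearMap.ker (co x)) = 2 := by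
    have := LinearMap.finrank_range_add_finrank_ker (co x)
    rw [LinearMap.range_eq_top.2 fun a => ⟨_, hb.co_up a⟩] at this
    simp at this
    omega
  obtain ⟨w, ⟨a, rfl⟩, w0, hw⟩ := DK.plane hU _ r1 (by
    rintro g hg _ ⟨a, rfl⟩
    exact ⟨co x (g • up e a), by rw [up_co, hpr g hg, hb.pr_up]⟩)
  obtain ⟨w', m', w0', hw'⟩ := DK.plane hU _ r2 (fun g hg y hy => by
    rw [LinearMap.mem_ker] at hy ⊢
    rw [← hb.co_pr, hpr g hg, ← up_co, hy, map_zero, smul_zero, map_zero])
  rw [LinearMap.mem_ker] at m'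
  have li : LinearIndependent F ![up e a, w'] := LinearIndependent.pair_iff.2 fun s t h => by
    have h1 := congrArg (co x) h
    rw [map_add, map_smul, map_smul, m', hb.co_up, smul_zero, add_zero, map_zero] at h1
    have hs : s = 0 := (smul_eq_zero.1 h1).resolve_right fun h => w0 (by rw [h, map_zero])
    rw [hs, zero_smul, zero_add] at h
    exact ⟨hs, (smul_eq_zero.1 h).resolve_right w0'⟩
  have hle : U ≤ UW Γ (Submodule.span F (Set.range ![up e a, w'])) := fun g hg => by
    rw [Matrix.range_cons, Matrix.range_cons, Matrix.range_empty, Set.union_empty, Set.singleton_union]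
    refine ⟨hUΓ hg, fun v hv => ?_, fun y => ?_⟩
    · obtain ⟨s, t, rfl⟩ := Submodule.mem_span_pair.1 hv
      rw [smul_add, gsmul_smul, gsmul_smul, (hw g hg).1, (hw' g hg).1]
    · obtain ⟨s, hs⟩ := (hw g hg).2 (pr e x y) ⟨_, up_co y⟩
      obtain ⟨t, ht⟩ := (hw' g hg).2 (y - pr e x y) (by rw [LinearMap.mem_ker, map_sub, hb.co_pr, sub_self])
      refine Submodule.mem_span_pair.2 ⟨s, t, ?_⟩
      rw [← hs, ← ht, smul_sub]
      abel
  exact (Subgroup.card_le_of_le hle).trans (not_lt.1 fun h => hN _ ⟨by rw [finrank_span_eq_card li]; rfl, h⟩)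

end CL.Low4
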