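/-
Project LOW4: the classes of `L₃(4)`.
-/
import Cfsg.Agent.Low4.Defs3
import Cfsg.Agent.Cls.SLnCard

set_option autoImplicit false
set_option linter.unusedSectionVars false

namespace CL.Low4

open Matrix Cfsg Cfsg.Geo CL.Asch CL.SLn CL.Low Module
open scoped commutatorElement MatrixGroups

universe u

namespace DL34

theorem syl_conj {H : Type*} [Group H] [Finite H] {p k m n : ℕ} [hp : Fact p.Prime] (S : Subgroup H)
    (hS : Nat.card S = p ^ k) (hH : Nat.card H = p ^ k * m) (hm : ¬ p ∣ m) {g : H} (hg : g ^ p ^ n = 1) :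
    ∃ s ∈ S, IsConj g s := by
  have hf : (Nat.card H).factorization p = k := by
    have hm0 : m ≠ 0 := by rintro rfl; simp at hm
    rw [hH, Nat.factorization_mul (pow_ne_zero _ hp.out.ne_zero) hm0, Finsupp.add_apply,
      hp.out.factorization_pow, Finsupp.single_eq_same, Nat.factorization_eq_zero_of_not_dvd hm, add_zero]
  let P : Sylow p H := Sylow.ofCard S (by rw [hS, hf])
  have hz : IsPGroup p (Subgroup.zpowers g) := by
    rintro ⟨_, j, rfl⟩
    refine ⟨n, Subtype.ext ?_⟩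
    show (g ^ j) ^ p ^ n = 1
    rw [← zpow_natCast, ← _root_.zpow_mul, mul_comm, _root_.zpow_mul, zpow_natCast, hg, _root_.one_zpow]
  obtain ⟨Q, hQ⟩ := hz.exists_le_sylow
  obtain ⟨h, hh⟩ := MulAction.exists_smul_eq H Q P
  refine ⟨h * g * h⁻¹, ?_, isConj_iff.2 ⟨h, rfl⟩⟩
  have : h * g * h⁻¹ ∈ ((h • Q : Sylow p H) : Subgroup H) := by
    rw [Sylow.coe_subgroup_smul]
    exact Subgroup.smul_mem_pointwise_smul _ (MulAut.conj h) _ (hQ (Subgroup.mem_zpowers g))
  rwa [hh] at this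

theorem syl_conj_pow {H : Type*} [Group H] [Finite H] {p m : ℕ} [hp : Fact p.Prime] {y : H} (hy : y ^ p = 1)
    (h1 : y ≠ 1) (hH : Nat.card H = p * m) (hm : ¬ p ∣ m) {g : H} (hg : g ^ p = 1) : ∃ j : ℕ, IsConj g (y ^ j) := by
  obtain ⟨s, hs, h⟩ := syl_conj (p := p) (k := 1) (n := 1) (Subgroup.zpowers y)
    (by rw [Nat.card_zpowers, orderOf_eq_prime hy h1, pow_one]) (by rwa [pow_one]) hm (by rwa [pow_one])
  obtain ⟨j, rfl⟩ := (mem_powers_iff_mem_zpowers.2 hs)
  exact ⟨j, h⟩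

/-- Coordinates of the upper unitriangular matrix `[[1,a,c],[0,1,b],[0,0,1]]`. -/
@[ext] structure Hz (F : Type) where
  a : F
  b : F
  c : F

variable {F : Type} [Field F]

instance : Mul (Hz F) := ⟨fun x y => ⟨x.a + y.a, x.b + y.b, x.c + y.c + x.a * y.b⟩⟩
instance : One (Hz F) := ⟨⟨0, 0, 0⟩⟩
instance : Inv (Hz F) := ⟨fun x => ⟨-x.a, -x.b, -x.c + x.a * x.b⟩⟩

@[simp] theorem mul_a (x y : Hz F) : (x * y).a = x.a + y.a := rfl
@[simp] theorem mul_b (x y : Hz F) : (x * y).b = x.b + y.b := rfl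
@[simp] theorem mul_c (x y : Hz F) : (x * y).c = x.c + y.c + x.a * y.b := rfl
@[simp] theorem one_a : (1 : Hz F).a = 0 := rfl
@[simp] theorem one_b : (1 : Hz F).b = 0 := rfl
@[simp] theorem one_c : (1 : Hz F).c = 0 := rfl
@[simp] theorem inv_a (x : Hz F) : x⁻¹.a = -x.a := rfl
@[simp] theorem inv_b (x : Hz F) : x⁻¹.b = -x.b := rfl
@[simp] theorem inv_c (x : Hz F) : x⁻¹.c = -x.c + x.a * x.b := rfl

instance : Group (Hz F) :=
  Group.ofLeftAxioms (fun x y z => by ext <;> simp <;> ring) (fun x => by ext <;> simp)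
    (fun x => by ext <;> simp)

/-- The matrix. -/
def toSL : Hz F →* SL(3, F) where
  toFun x := ⟨!![1, x.a, x.c; 0, 1, x.b; 0, 0, 1], by simp [det_fin_three]⟩
  map_one' := by
    ext i j
    fin_cases i <;> fin_cases j <;> simp
  map_mul' x y := by
    apply Subtype.ext
    show _ = !![1, x.a, x.c; 0, 1, x.b; 0, 0, 1] * !![1, y.a, y.c; 0, 1, y.b; 0, 0, (1 : F)]
    ext i j
    fin_cases i <;> fin_cases j <;> simp [Matrix.mul_apply, Fin.sum_univ_three] <;> ring

theorem toSL_coe (x : Hz F) : ((toSL x : SL(3, F)) : Matrix (Fin 3) (Fin 3) F) =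
    !![1, x.a, x.c; 0, 1, x.b; 0, 0, 1] := rfl

theorem off_of_center {g : SL(3, F)} (h : g ∈ Subgroup.center SL(3, F)) {i j : Fin 3} (hij : i ≠ j) :
    g.val i j = 0 := by
  obtain ⟨r, -, hr⟩ := Matrix.SpecialLinearGroup.mem_center_iff.1 h
  rw [← hr, Matrix.scalar_apply, diagonal_apply_ne _ hij]

/-- The subgroup `b = 0`. -/
def AH (F : Type) [Field F] : Subgroup (Hz F) where
  carrier := {x | x.b = 0}
  mul_mem' := fun {x y} hx hy => by simp_all
  one_mem' := rfl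
  inv_mem' := fun {x} hx => by simp_all

theorem mem_AH {x : Hz F} : x ∈ AH F ↔ x.b = 0 := Iff.rfl

theorem card_Hz : Nat.card (Hz F) = Nat.card F * (Nat.card F * Nat.card F) := by
  rw [← Nat.card_prod, ← Nat.card_prod]
  exact Nat.card_congr ⟨fun x => (x.a, x.b, x.c), fun t => ⟨t.1, t.2.1, t.2.2⟩, fun _ => rfl, fun _ => rfl⟩

theorem card_AH : Nat.card (AH F) = Nat.card F * Nat.card F := by
  rw [← Nat.card_prod]
  exact Nat.card_congr ⟨fun x => (x.1.a, x.1.c), fun t => ⟨⟨t.1, 0, t.2⟩, rfl⟩,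
    fun x => Subtype.ext (Hz.ext rfl x.2.symm rfl), fun _ => rfl⟩

theorem card_cent {v : Hz F} (hv : v.b ≠ 0) :
    Nat.card (AH F ⊓ Subgroup.centralizer {v} : Subgroup (Hz F)) = Nat.card F := by
  have k : ∀ x : Hz F, x ∈ (AH F ⊓ Subgroup.centralizer {v} : Subgroup (Hz F)) ↔ x.b = 0 ∧ x.a = 0 := by
    intro x
    rw [Subgroup.mem_inf, mem_AH, Subgroup.mem_centralizer_singleton_iff]
    refine and_congr_right fun hb => ⟨fun h => ?_, fun h => ?_⟩
    · have := congrArg Hz.c h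
      simp only [mul_c, hb, mul_zero, add_zero] at this
      exact (mul_eq_zero.1 (by linear_combination this)).resolve_right hv
    · ext <;> simp [hb, h, add_comm]
  exact Nat.card_congr ⟨fun x => x.1.c, fun t => ⟨⟨0, 0, t⟩, (k _).2 ⟨rfl, rfl⟩⟩,
    fun x => Subtype.ext (Hz.ext ((k _).1 x.2).2.symm ((k _).1 x.2).1.symm rfl), fun _ => rfl⟩

/-- The coefficients of `X ^ (n + 2)` modulo `X³ - t X² + s X - 1`. -/
def co (t s : F) : ℕ → F × F × F
  | 0 => (1, 0, 0)
  | n + 1 => ((co t s n).1 * t + (co t s n).2.1, (co t s n).2.2 - (co t s n).1 * s, (co t s n).1)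

theorem pow_co (g : SL(3, F)) : ∃ t s : F, ∀ n, (co t s n).1 = 0 ∧ (co t s n).2.1 = 0 →
    g ^ (n + 2) ∈ Subgroup.center SL(3, F) := by
  obtain ⟨M, hM⟩ := g
  have h3 : M * M * M = (M 0 0 + M 1 1 + M 2 2) • (M * M) -
      (M 0 0 * M 1 1 - M 0 1 * M 1 0 + M 0 0 * M 2 2 - M 0 2 * M 2 0 + M 1 1 * M 2 2 - M 1 2 * M 2 1) • M +
        M.det • 1 := by
    rw [det_fin_three]
    ext i j
    fin_cases i <;> fin_cases j <;> simp [Matrix.mul_apply, Fin.sum_univ_three] <;> ring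
  rw [hM, one_smul] at h3
  generalize M 0 0 + M 1 1 + M 2 2 = t at h3
  generalize M 0 0 * M 1 1 - M 0 1 * M 1 0 + M 0 0 * M 2 2 - M 0 2 * M 2 0 + M 1 1 * M 2 2 - M 1 2 * M 2 1 = s at h3
  have key : ∀ n, M ^ (n + 2) = (co t s n).1 • (M * M) + (co t s n).2.1 • M + (co t s n).2.2 • 1 := by
    intro n
    induction n with
    | zero => simp [co, pow_two]
    | succ n ih =>
      rw [show n + 1 + 2 = n + 2 + 1 from rfl, pow_succ, ih, add_mul, add_mul, smul_mul_assoc, smul_mul_assoc, smul_mul_assoc, h3, one_mul]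
      simp only [co]
      module
  refine ⟨t, s, fun n h => Subgroup.mem_center_iff.2 fun k => Subtype.ext ?_⟩
  show k.val * M ^ (n + 2) = M ^ (n + 2) * k.val
  rw [key, h.1, h.2]
  simp

theorem co_cases [CharP F 2] {ω : F} (hω : ω ^ 2 + ω + 1 = 0) {t s : F} (ht : t = 0 ∨ t = 1 ∨ t = ω ∨ t = ω + 1)
    (hs : s = 0 ∨ s = 1 ∨ s = ω ∨ s = ω + 1) :
    ((co t s 1).1 = 0 ∧ (co t s 1).2.1 = 0) ∨ ((co t s 2).1 = 0 ∧ (co t s 2).2.1 = 0) ∨
      ((co t s 3).1 = 0 ∧ (co t s 3).2.1 = 0) ∨ ((co t s 5).1 = 0 ∧ (co t s 5).2.1 = 0) := by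
  simp only [co]
  rcases ht with ht | ht | ht | ht <;> rcases hs with hs | hs | hs | hs <;> rw [ht, hs] <;>
    first
    | exact .inl ⟨by grind, by grind⟩
    | exact .inr (.inl ⟨by grind, by grind⟩)
    | exact .inr (.inr (.inl ⟨by grind, by grind⟩))
    | exact .inr (.inr (.inr ⟨by grind, by grind⟩))

/-- An element of order seven over the prime field. -/
def y7 : SL(3, ZMod 2) := ⟨!![0, 0, 1; 1, 0, 1; 0, 1, 0], by decide⟩

/-- The Frobenius map of the field with eight elements. -/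
def c7 : SL(3, ZMod 2) := ⟨!![1, 0, 0; 0, 0, 1; 0, 1, 1], by decide⟩

theorem y7_pow : y7 ^ 7 = 1 := by decide

theorem c7_y7 : c7 * y7 = y7 ^ 2 * c7 := by decide

/-- An element of order five. -/
def x5 [CharP F 2] (ω : F) : SL(3, F) := ⟨!![1, 0, 0; 0, 0, 1; 0, 1, ω], by simp [det_fin_three, CharTwo.neg_eq]⟩

/-- An involution inverting it. -/
def w5 (F : Type) [Field F] [CharP F 2] : SL(3, F) := ⟨!![1, 0, 0; 0, 0, 1; 0, 1, 0], by simp [det_fin_three, CharTwo.neg_eq]⟩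

theorem x5_coe [CharP F 2] (ω : F) : (x5 ω).val = !![1, 0, 0; 0, 0, 1; 0, 1, ω] := rfl

theorem x5_pow [CharP F 2] {ω : F} (hω : ω ^ 2 + ω + 1 = 0) : x5 ω ^ 5 = 1 := by
  apply Subtype.ext
  show !![1, 0, 0; 0, 0, 1; 0, 1, ω] ^ 5 = 1
  simp only [pow_succ, pow_zero, one_mul, Matrix.mul_fin_three]
  ext i j
  fin_cases i <;> fin_cases j <;> simp <;> grind

theorem x5_w5 [CharP F 2] (ω : F) : x5 ω * w5 F * x5 ω = w5 F := by
  apply Subtype.ext
  show !![1, 0, 0; 0, 0, 1; 0, 1, ω] * !![1, 0, 0; 0, 0, 1; 0, 1, 0] * !![1, 0, 0; 0, 0, 1; 0, 1, ω] =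
    !![1, 0, 0; 0, 0, 1; 0, 1, (0 : F)]
  ext i j
  fin_cases i <;> fin_cases j <;> simp [Matrix.mul_apply, Fin.sum_univ_three] <;> grind

theorem x5_toSL [CharP F 2] (ω : F) {v : Hz F} (hv : v.b = 0) :
    x5 ω * toSL v * (x5 ω)⁻¹ = toSL ⟨v.c + ω * v.a, 0, v.a⟩ := by
  rw [mul_inv_eq_iff_eq_mul]
  apply Subtype.ext
  show !![1, 0, 0; 0, 0, 1; 0, 1, ω] * !![1, v.a, v.c; 0, 1, v.b; 0, 0, 1] =
    !![1, v.c + ω * v.a, v.a; 0, 1, 0; 0, 0, 1] * !![1, 0, 0; 0, 0, 1; 0, 1, ω]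
  rw [hv]
  ext i j
  fin_cases i <;> fin_cases j <;> simp [Matrix.mul_apply, Fin.sum_univ_three] <;> grind

end DL34

open DL34 in
theorem dataL34 : DataL34.{u} := by
  intro H _ K _ _ hK ⟨e⟩
  have : CharP K 2 := by
    obtain ⟨p, hp⟩ := CharP.exists K
    obtain ⟨k, hk, h⟩ := FiniteField.card K p
    have h2 : p ∣ 2 ^ 2 := by rw [show 2 ^ 2 = 4 from rfl, ← hK, h]; exact dvd_pow_self _ k.ne_zero
    obtain rfl := (Nat.prime_dvd_prime_iff_eq hk Nat.prime_two).1 (hk.dvd_of_dvd_pow h2)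
    exact hp
  have h4 : ∀ t : K, t ^ 4 = t := fun t => by rw [← hK]; exact FiniteField.pow_card t
  obtain ⟨ω, hω⟩ : ∃ ω : K, ω ^ 2 + ω + 1 = 0 := by
    classical
    obtain ⟨ω, hω⟩ : ∃ ω : K, ω ∉ ({0, 1} : Finset K) := by
      by_contra h
      push Not at h
      have h1 := Finset.card_le_card (show Finset.univ ⊆ ({0, 1} : Finset K) from fun t _ => h t)
      have h2 := Finset.card_le_two (a := (0 : K)) (b := 1)
      rw [Finset.card_univ] at h1
      omega
    simp only [Finset.mem_insert, Finset.mem_singleton, not_or] at hω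
    have h := h4 ω
    have : ω * ((ω - 1) * (ω ^ 2 + ω + 1)) = 0 := by linear_combination h
    exact ⟨ω, (mul_eq_zero.1 ((mul_eq_zero.1 this).resolve_left hω.1)).resolve_left (sub_ne_zero.2 hω.2)⟩
  have hall : ∀ t : K, t = 0 ∨ t = 1 ∨ t = ω ∨ t = ω + 1 := fun t => by
    have h := h4 t
    have : t * ((t - 1) * ((t - ω) * (t - (ω + 1)))) = 0 := by grind
    simpa only [mul_eq_zero, sub_eq_zero] using this
  have hq : Nat.card K = 4 := by rw [Nat.card_eq_fintype_card, hK]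
  have hH : Nat.card H = 20160 := by
    have := CL.SLn.card_PSL_mul (ι := Fin 3) (F := K)
    rw [CL.SLn.card_SL_three, hK, Fintype.card_fin] at this
    rw [Nat.card_congr e.toEquiv]
    norm_num at this
    omega
  have : Finite H := Nat.finite_of_card_ne_zero (by omega)
  have : Fact (Nat.Prime 5) := ⟨by decide⟩
  have : Fact (Nat.Prime 7) := ⟨by decide⟩
  let π : SL(3, K) →* H := e.symm.toMonoidHom.comp (QuotientGroup.mk' (Subgroup.center SL(3, K)))
  have hπ : ∀ g, π g = 1 ↔ g ∈ Subgroup.center SL(3, K) := fun g =>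
    (map_eq_one_iff e.symm e.symm.injective).trans (QuotientGroup.eq_one_iff g)
  have sπ : Function.Surjective π := e.symm.surjective.comp (QuotientGroup.mk'_surjective _)
  let φ : Hz K →* H := π.comp toSL
  have iφ : Function.Injective φ := by
    rw [injective_iff_map_eq_one]
    intro v hv
    have h := (hπ _).1 hv
    exact Hz.ext (off_of_center h (i := 0) (j := 1) (by decide)) (off_of_center h (i := 1) (j := 2) (by decide))
      (off_of_center h (i := 0) (j := 2) (by decide))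
  have cA : Nat.card ((AH K).map φ) = 16 := by
    rw [Subgroup.card_map_of_injective iφ, card_AH, hq]
  have hx5 : π (x5 ω) ^ 5 = 1 := by rw [← map_pow, x5_pow hω, map_one]
  have hx1 : π (x5 ω) ≠ 1 := fun h => one_ne_zero (off_of_center ((hπ _).1 h) (i := 1) (j := 2) (by decide))
  have hxA : ∀ v : Hz K, v.b = 0 → π (x5 ω) * φ v * (π (x5 ω))⁻¹ = φ ⟨v.c + ω * v.a, 0, v.a⟩ := fun v hv => by
    show _ * π (toSL v) * _ = π (toSL _)
    rw [← x5_toSL ω hv, map_mul, map_mul, map_inv]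
  have hxN : ∀ a ∈ (AH K).map φ, π (x5 ω) * a * (π (x5 ω))⁻¹ ∈ (AH K).map φ := by
    rintro _ ⟨v, hv, rfl⟩
    exact ⟨_, (mem_AH.2 rfl), (hxA v hv).symm⟩
  have hxC : ∀ a ∈ (AH K).map φ, π (x5 ω) * a * (π (x5 ω))⁻¹ = a → a = 1 := by
    rintro _ ⟨v, hv, rfl⟩ h
    rw [hxA v hv] at h
    have h1 := congrArg Hz.a (iφ h)
    have h2 := congrArg Hz.c (iφ h)
    dsimp only at h1 h2
    have h3 : v.a = 0 := by grind
    rw [show v = 1 from Hz.ext h3 hv (h2.symm.trans h3), map_one]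
  refine ⟨(AH K).map φ, π (x5 ω), ?_, cA, hxN, fun B hB hxB => ?_, fun g => ?_⟩
  · rintro _ ⟨v, hv, rfl⟩
    rw [← map_mul, show v * v = 1 by ext <;> simp [mem_AH.1 hv, CharTwo.add_self_eq_zero], map_one]
  · classical
    have := Fintype.ofFinite B
    let f : Function.End B := fun b => ⟨_, hxB b b.2⟩
    have hf : ∀ (n : ℕ) (b : B), ((f ^ n) b : H) = π (x5 ω) ^ n * b * (π (x5 ω) ^ n)⁻¹ := by
      intro n
      induction n with
      | zero => intro b; simp [Function.End.one_def]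
      | succ n ih =>
        intro b
        rw [pow_succ']
        show _ * ((f ^ n) b : H) * _ = _
        rw [ih, pow_succ']
        group
    have h5 := Equiv.Perm.card_fixedPoints_modEq (f := f) (p := 5) (n := 1) (funext fun b => Subtype.ext (by
      rw [hf, pow_one, hx5]; simp [Function.End.one_def]))
    have h1 : Fintype.card f.fixedPoints = 1 := Fintype.card_eq_one_iff.2 ⟨⟨1, Subtype.ext (by simp [f])⟩,
      fun b => Subtype.ext (Subtype.ext (hxC _ (hB b.1.2) (congrArg Subtype.val b.2)))⟩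
    rw [h1, ← Nat.card_eq_fintype_card] at h5
    have hd : Nat.card B ∣ 2 ^ 4 := by
      have := Subgroup.card_dvd_of_le hB
      rwa [cA] at this
    obtain ⟨i, hi, h⟩ := (Nat.dvd_prime_pow Nat.prime_two).1 hd
    rw [h] at h5
    interval_cases i
    · exact .inl (Subgroup.card_eq_one.1 h)
    · exact absurd h5 (by decide)
    · exact absurd h5 (by decide)
    · exact absurd h5 (by decide)
    · exact .inr (Subgroup.eq_of_le_of_card_ge hB (by rw [cA, h]; rfl))
  · by_cases g2 : g * g = 1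
    · exact .inl g2
    right
    obtain ⟨m, rfl⟩ := sπ g
    obtain ⟨t, s, hts⟩ := pow_co m
    rcases co_cases hω (hall t) (hall s) with h | h | h | h
    · exact .inl (by rw [← map_pow]; exact (hπ _).2 (hts 1 h))
    · have g4 : π m ^ 4 = 1 := by rw [← map_pow]; exact (hπ _).2 (hts 2 h)
      obtain ⟨_, ⟨v, rfl⟩, hv⟩ := syl_conj (p := 2) (k := 6) (m := 315) (n := 2) φ.range
        (by rw [← Nat.card_congr (MonoidHom.ofInjective iφ).toEquiv, card_Hz, hq]; rfl) (by rw [hH]; rfl)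
        (by decide) g4
      refine .inr (.inr ⟨φ v, hv, ?_, .inr ⟨g4, g2, ?_⟩⟩)
      · rintro _ ⟨a, ha, rfl⟩
        exact ⟨v * a * v⁻¹, mem_AH.2 (by simp [mem_AH.1 ha]), by simp⟩
      · have hb : v.b ≠ 0 := fun hb => by
          obtain ⟨c, hc⟩ := isConj_iff.1 hv.symm
          apply g2
          rw [← hc, show c * φ v * c⁻¹ * (c * φ v * c⁻¹) = c * (φ v * φ v) * c⁻¹ by group, ← map_mul,
            show v * v = 1 by ext <;> simp [hb, CharTwo.add_self_eq_zero]]
          simp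
        rw [← hq, ← card_cent hb, ← Subgroup.card_map_of_injective iφ]
        congr 2
        ext a
        simp only [Subgroup.mem_inf, Subgroup.mem_map, Subgroup.mem_centralizer_singleton_iff]
        constructor
        · rintro ⟨⟨b, hb, rfl⟩, h⟩
          exact ⟨b, ⟨hb, iφ (by simpa using h)⟩, rfl⟩
        · rintro ⟨b, ⟨hb, h⟩, rfl⟩
          exact ⟨⟨b, hb, rfl⟩, by rw [← map_mul, h, map_mul]⟩
    · have g5 : π m ^ 5 = 1 := by rw [← map_pow]; exact (hπ _).2 (hts 3 h)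
      obtain ⟨j, hj⟩ := syl_conj_pow hx5 hx1 (m := 4032) (by rw [hH]) (by decide) g5
      have hw : π (w5 K) * π (x5 ω) * (π (w5 K))⁻¹ = (π (x5 ω))⁻¹ := by
        rw [mul_inv_eq_iff_eq_mul, eq_inv_mul_iff_mul_eq, ← mul_assoc, ← map_mul, ← map_mul, x5_w5]
      refine .inr (.inr ⟨_, hj, ?_, .inl ⟨g5, ?_, fun a ha hc => hxC a ha ?_⟩⟩)
      · clear hj
        induction j with
        | zero => simp
        | succ j ih =>
          intro a ha
          have := hxN _ (ih a ha)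
          rwa [show π (x5 ω) * (π (x5 ω) ^ j * a * (π (x5 ω) ^ j)⁻¹) * (π (x5 ω))⁻¹ =
            π (x5 ω) ^ (j + 1) * a * (π (x5 ω) ^ (j + 1))⁻¹ by group] at this
      · obtain ⟨c, hc⟩ := isConj_iff.1 hj
        refine hj.trans (IsConj.trans (b := (π (x5 ω) ^ j)⁻¹) (isConj_iff.2 ⟨π (w5 K), ?_⟩)
          (isConj_iff.2 ⟨c⁻¹, by rw [← hc]; group⟩))
        rw [← conj_pow, hw, inv_pow]
      · have hj5 : j.Coprime (orderOf (π (x5 ω))) := by
          rw [orderOf_eq_prime hx5 hx1, Nat.coprime_comm, Nat.Prime.coprime_iff_not_dvd (by decide)]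
          rintro ⟨i, rfl⟩
          rw [pow_mul, hx5, one_pow, isConj_one_left] at hj
          exact g2 (by rw [hj, one_mul])
        obtain ⟨i, hi⟩ := exists_pow_eq_self_of_coprime hj5
        have := hc.pow_left i
        rw [hi] at this
        rw [this.eq, mul_inv_cancel_right]
    · have g7 : π m ^ 7 = 1 := by rw [← map_pow]; exact (hπ _).2 (hts 5 h)
      let ι : SL(3, ZMod 2) →* SL(3, K) := Matrix.SpecialLinearGroup.map (ZMod.castHom (dvd_refl 2) K)
      have hy7 : π (ι y7) ^ 7 = 1 := by rw [← map_pow, ← map_pow, y7_pow, map_one, map_one]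
      have hy1 : π (ι y7) ≠ 1 := fun h => by
        have := off_of_center ((hπ _).1 h) (i := 1) (j := 0) (by decide)
        exact one_ne_zero ((map_one (ZMod.castHom (dvd_refl 2) K)).symm.trans this)
      obtain ⟨j, hj⟩ := syl_conj_pow hy7 hy1 (m := 2880) (by rw [hH]) (by decide) g7
      have hc : π (ι c7) * π (ι y7) * (π (ι c7))⁻¹ = π (ι y7) ^ 2 := by
        rw [mul_inv_eq_iff_eq_mul, ← map_mul, ← map_mul, c7_y7, map_mul, map_mul, map_pow, map_pow]
      have h2 : IsConj (π m) (π m ^ 2) := by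
        refine hj.trans (IsConj.trans (b := (π (ι y7) ^ j) ^ 2) (isConj_iff.2 ⟨π (ι c7), ?_⟩) (hj.pow 2).symm)
        rw [← conj_pow, hc, ← pow_mul, ← pow_mul, mul_comm]
      refine .inr (.inl ⟨g7, ?_⟩)
      have h6 := h2.pow 3
      rwa [← pow_mul, show π m ^ (2 * 3) = (π m)⁻¹ from eq_inv_of_mul_eq_one_left (by rw [← pow_succ, g7])] at h6

end CL.Low4
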