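/-
Project LOW4: squares in Suzuki groups, and the centraliser of a four-group in `U₃(4)`.
-/
import Cfsg.Agent.Low4.Defs3
import Cfsg.Agent.Cit.CT
import Cfsg.Agent.Chev.U3Even

set_option autoImplicit false

namespace CL.Low4

open Matrix Cfsg Cfsg.Geo CL.Asch CL.SLn CL.Low Module
open scoped commutatorElement MatrixGroups

universe u

namespace DataSQa

variable {H : Type u} [Group H] {K : Type*} [Field K]

theorem sz [Fintype K] (M : CL.Chev.Sz.Model H K) (hq : 4 < Fintype.card K) : SQ3 H := by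
  classical
  obtain ⟨y, y0, y1⟩ := M.big
  have b0 : M.σ y * y ≠ 0 := mul_ne_zero (M.toTits.σ_ne_zero y0) y0
  have b1 : M.σ y * y ≠ 1 := fun e => y1 (M.toTits.σ_mul_self_eq_one e)
  obtain ⟨c, -, hc⟩ := Finset.exists_mem_notMem_of_card_lt_card
    (s := ({0, 1, M.σ y * y, 1 + M.σ y * y} : Finset K)) (t := Finset.univ) (Finset.card_le_four.trans_lt hq)
  simp only [Finset.mem_insert, Finset.mem_singleton] at hc
  have sq : ∀ b, M.T 0 b * M.T 0 b = 1 := fun b => by simp [M.T_mul, M.toTits.add_self]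
  have cm : ∀ a b d, Commute (M.T a b) (M.T 0 d) := fun a b d => by
    simp [Commute, SemiconjBy, M.T_mul, add_comm]
  refine ⟨M.T 0 1, M.T 0 (M.σ y * y), M.T 0 c, M.T 1 0, M.T y 0,
    ⟨sq _, sq _, sq _, by simp [M.T_eq_one], by simp [M.T_eq_one, y0], by simp [M.T_inj, b1], fun h => hc ?_⟩,
    by simp [M.T_mul, M.toTits.add_self], by simp [M.T_mul, M.toTits.add_self], cm _ _ _, cm _ _ _, cm _ _ _⟩
  simpa [E4, M.T_eq_one, M.T_inj, M.T_mul] using h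

open CL.Chev.U3 hiding UF

theorem u3 (M : Model H K) [CharP K 2] (hq : 4 ≤ M.q) : V5 H := by
  have := M.toUF.finite
  obtain ⟨l, hl⟩ := M.bar.exists_primitiveRoot
  have l1 : l * M.σ l = 1 := by rw [M.bar.norm_eq_pow, hl.pow_eq_one]
  have l0 : l ≠ 0 := fun e => by simp [e] at l1
  have c1 : M.σ l ^ 2 / l - 1 ≠ 0 := fun e => by
    have := Nat.le_of_dvd (by norm_num) (hl.dvd_of_pow_eq_one 3
      (M.toUF.pow_three_of_mem_Z0 ((M.toUF.mem_Z0_iff' (c := Units.mk0 l l0)).2 (sub_eq_zero.1 e))))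
    omega
  have key : ∀ a : K, ∃ u v : M.Q, ⁅M.D (Units.mk0 l l0), M.T u⁆ = M.T v ∧ v.a = a := fun a => by
    obtain ⟨u, hu⟩ := M.toUF.exists_Q ((M.σ l ^ 2 / l - 1)⁻¹ * a)
    refine ⟨u, Units.mk0 l l0 • u * u⁻¹, by rw [commutatorElement_def, M.D_conj_T, ← map_inv, ← map_mul], ?_⟩
    rw [Chev.U3.UF.Q.mul_a, Chev.U3.UF.Q.inv_a, Chev.U3.UF.Q.smul_a, hu, Units.val_mk0]
    linear_combination (mul_inv_cancel₀ c1) * a
  obtain ⟨a, ha⟩ := M.bar.exists_ne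
  obtain ⟨u, u', u1, u2⟩ := key 1
  obtain ⟨v, v', v1, v2⟩ := key a
  obtain ⟨ζ, hζ⟩ : ∃ ζ, ζ = ⁅u', v'⁆ := ⟨_, rfl⟩
  have z1 : ζ.a = 0 := hζ ▸ Chev.U3.UF.Q.commutator_a u' v'
  have z2 : ζ.b ≠ 0 := by rw [hζ, Chev.U3.UF.Q.commutator_b, u2, v2]; simpa using sub_ne_zero.2 ha
  have h1 : Nontrivial {x : K // x ≠ 0 ∧ M.σ x = x} := by
    rw [← Finite.one_lt_card_iff_nontrivial, M.bar.card_fixed_ne_zero]; omega
  obtain ⟨⟨b, hb, hb'⟩, hne⟩ := exists_ne (⟨ζ.b, z2, Chev.U3.UF.Q.σ_b_eq_of_a z1⟩ : {x : K // x ≠ 0 ∧ M.σ x = x})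
  obtain ⟨η, hη, e1⟩ : ∃ η : M.Q, η.a = 0 ∧ η.b = b := ⟨Chev.U3.UF.Q.z b (by rw [hb', CharTwo.neg_eq]), rfl, rfl⟩
  have sq : ∀ z : M.Q, z.a = 0 → M.T z * M.T z = 1 := fun z hz => by
    rw [← map_mul, M.T_eq_one, Chev.U3.UF.Q.mul_self_eq_one, hz]
  have cT : ∀ z : M.Q, z.a = 0 → ∀ s, Commute (M.T s) (M.T z) := fun z hz s =>
    (show Commute s z from Subgroup.mem_center_iff.1 (Chev.U3.UF.Q.mem_center.2 hz) s).map M.T
  have cD : ∀ z : M.Q, z.a = 0 → Commute (M.D (Units.mk0 l l0)) (M.T z) := fun z hz => by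
    rw [Commute, SemiconjBy, M.D_mul_T]
    congr 2
    ext <;> simp [l1, hz]
  refine ⟨M.T ζ, M.T η, M.D (Units.mk0 l l0), M.T u, M.D (Units.mk0 l l0), M.T v, sq _ z1, sq _ hη,
    fun e => z2 (congrArg Chev.U3.UF.Q.b (M.T_eq_one.1 e)),
    fun e => hb (e1.symm.trans (congrArg Chev.U3.UF.Q.b (M.T_eq_one.1 e))), fun e => hne (Subtype.ext ?_),
    by rw [u1, v1, hζ, map_commutatorElement], ?_⟩
  · rw [← mul_inv_eq_one, ← map_inv, ← map_mul, M.T_eq_one, mul_inv_eq_one] at e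
    exact e1.symm.trans (congrArg Chev.U3.UF.Q.b e)
  · rintro w (rfl | rfl)
    exacts [⟨cD _ z1, cT _ z1 _, cD _ z1, cT _ z1 _⟩, ⟨cD _ hη, cT _ hη _, cD _ hη, cT _ hη _⟩]

end DataSQa

theorem dataSQ : DataSQ.{u} := by
  intro H _
  refine ⟨fun h => ?_, fun K _ _ hK ⟨e⟩ => ?_⟩
  · obtain ⟨F, _, _, m, hm, hq, ⟨M⟩⟩ := CL.Cit.exists_model_of_isoSuzuki h
    refine DataSQa.sz M ?_
    rw [← Nat.card_eq_fintype_card, hq]
    exact (Nat.pow_lt_pow_iff_right (a := 2) (n := 2) (by norm_num)).2 (by omega)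
  · have := CL.Chev.U3.charP_two_of_card (n := 4) hK
    exact DataSQa.u3 ((CL.Chev.U3.modelPSU (q := 4) hK).ofEquiv e.symm) le_rfl

end CL.Low4
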