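/-
Project LOW4: generators of `PSp₄(3)`.
-/
import Cfsg.Agent.Low4.Defs3
import Cfsg.Agent.Cls.SpSimple
import Cfsg.Agent.Cls.SLnCard

set_option autoImplicit false

namespace CL.Low4

open Matrix Cfsg Cfsg.Geo CL.Asch CL.SLn CL.Low Module
open scoped commutatorElement MatrixGroups

universe u

namespace DU42

instance fact3 : Fact (Nat.Prime 3) := ⟨Nat.prime_three⟩

abbrev W : Type := Fin 2 ⊕ Fin 2 → ZMod 3
abbrev Sp : Type := symplecticGroup (Fin 2) (ZMod 3)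

def vec (a b c d : ZMod 3) : W := Sum.elim ![a, b] ![c, d]

theorem vec_eq (v : W) : v = vec (v (.inl 0)) (v (.inl 1)) (v (.inr 0)) (v (.inr 1)) := by
  ext (i | i) <;> fin_cases i <;> rfl

/-- the matrix of the transvection -/
def Tm (v : W) : Matrix (Fin 2 ⊕ Fin 2) (Fin 2 ⊕ Fin 2) (ZMod 3) := 1 + vecMulVec v (J (Fin 2) (ZMod 3) *ᵥ v)

theorem Tm_mem (v : W) : Tm v ∈ symplecticGroup (Fin 2) (ZMod 3) := by
  rw [vec_eq v]
  exact (by decide +kernel : ∀ a b c d : ZMod 3, Tm (vec a b c d) * J (Fin 2) (ZMod 3) * (Tm (vec a b c d))ᵀ =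
    J (Fin 2) (ZMod 3)) _ _ _ _

def T (v : W) : Sp := ⟨Tm v, Tm_mem v⟩

theorem T_conj (g : Sp) (v : W) : g * T v * g⁻¹ = T (g.1 *ᵥ v) := by
  rw [mul_inv_eq_iff_eq_mul]
  refine Subtype.ext ?_
  change g.1 * Tm v = Tm (g.1 *ᵥ v) * g.1
  rw [Tm, Tm, mul_add, add_mul, mul_one, one_mul, mul_vecMulVec, vecMulVec_mul, ← mulVec_transpose, mulVec_mulVec,
    mulVec_mulVec, SymplecticGroup.mem_iff'.1 g.2]

def vs : Fin 4 → W := ![vec 1 0 0 0, vec 0 0 1 0, vec 1 2 0 0, vec 0 0 0 1]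

/-- distance from `vs 0` -/
def ds (v : W) : ℕ := Nat.land (Nat.shiftRight 0x46577676845656475657968786857666576856745388967957787635455432434534231246a468400
  (4 * ((v (.inl 0)).val + 3 * (v (.inl 1)).val + 9 * (v (.inr 0)).val + 27 * (v (.inr 1)).val))) 15

theorem ds_ok (v : W) : v = 0 ∨ v = vs 0 ∨ ∃ i, ds (Tm (vs i) *ᵥ v) < ds v := by
  rw [vec_eq v]
  exact (by decide +kernel : ∀ a b c d : ZMod 3, vec a b c d = 0 ∨ vec a b c d = vs 0 ∨
    ∃ i, ds (Tm (vs i) *ᵥ vec a b c d) < ds (vec a b c d)) _ _ _ _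

theorem T_mem {B : Subgroup Sp} (h : ∀ i, T (vs i) ∈ B) (v : W) : T v ∈ B := by
  induction' hn : ds v using Nat.strong_induction_on with n ih generalizing v
  rcases ds_ok v with rfl | rfl | ⟨i, hi⟩
  · rw [show T 0 = 1 from Subtype.ext (by simp [T, Tm])]; exact one_mem _
  · exact h 0
  · have := ih _ (hn ▸ hi) _ rfl
    rwa [show Tm (vs i) = (T (vs i)).1 from rfl, ← T_conj, mul_mem_cancel_right (inv_mem (h i)),
      mul_mem_cancel_left (h i)] at this

def Nm (a : W) : Matrix (Fin 2 ⊕ Fin 2) (Fin 2 ⊕ Fin 2) (ZMod 3) :=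
  1 + vecMulVec a (J (Fin 2) (ZMod 3) *ᵥ vs 0) + vecMulVec (vs 0) (J (Fin 2) (ZMod 3) *ᵥ a)

def xx : Sp := ⟨Nm (vec 0 1 0 0), SymplecticGroup.mem_iff.2 (by decide +kernel)⟩
def yy : Sp := ⟨Nm (vec 0 0 0 2), SymplecticGroup.mem_iff.2 (by decide +kernel)⟩

/-- transport of `Sp` along a field isomorphism -/
def spE {R S : Type*} [CommRing R] [CommRing S] (e : R ≃+* S) :
    symplecticGroup (Fin 2) R ≃* symplecticGroup (Fin 2) S where
  toFun g := ⟨g.1.map e, SymplecticGroup.map_mem g.2 e⟩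
  invFun g := ⟨g.1.map e.symm, SymplecticGroup.map_mem g.2 e.symm⟩
  left_inv g := by ext i j; simp
  right_inv g := by ext i j; simp
  map_mul' _ _ := Subtype.ext Matrix.map_mul

theorem rel : (∀ i, T (vs i) ^ 3 = 1) ∧ T (vs 0) * T (vs 1) * T (vs 0) = T (vs 1) * T (vs 0) * T (vs 1) ∧
    T (vs 1) * T (vs 2) * T (vs 1) = T (vs 2) * T (vs 1) * T (vs 2) ∧
    T (vs 2) * T (vs 3) * T (vs 2) = T (vs 3) * T (vs 2) * T (vs 3) ∧ T (vs 0) * T (vs 2) = T (vs 2) * T (vs 0) ∧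
    T (vs 0) * T (vs 3) = T (vs 3) * T (vs 0) ∧ T (vs 1) * T (vs 3) = T (vs 3) * T (vs 1) ∧ xx ^ 3 = 1 ∧ yy ^ 3 = 1 ∧
    T (vs 0) * (yy * xx) = xx * yy ∧ T (vs 0) * xx = xx * T (vs 0) ∧ T (vs 0) * yy = yy * T (vs 0) := by
  simp only [Subtype.ext_iff, pow_three, Submonoid.coe_mul, Submonoid.coe_one]
  decide +kernel

theorem dis : (∀ i j, (((T (vs i))⁻¹ * T (vs j)).1 = 1 ∨ ((T (vs i))⁻¹ * T (vs j)).1 = -1) → i = j) ∧
    ¬ ((T (vs 0)).1 = 1 ∨ (T (vs 0)).1 = -1) := by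
  simp only [Submonoid.coe_mul, SymplecticGroup.coe_inv]
  decide +kernel

end DU42

open DU42 in
theorem dataU42 : DataU42.{u} := by
  intro H _ K _ _ hK ⟨e0⟩
  have e := e0.trans (CL.Sp.quotientCenterCongr (spE (FiniteField.ringEquivOfCardEq (K' := ZMod 3)
    (by rw [hK, ZMod.card]))))
  have hs : IsSimpleGroup H :=
    have := CL.Sp.isSimpleGroup_PSp (F := ZMod 3) 2 (by omega) (by simp)
    e.isSimpleGroup
  let f : Sp →* H := e.symm.toMonoidHom.comp (QuotientGroup.mk' _)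
  have fs : Function.Surjective f := e.symm.surjective.comp (QuotientGroup.mk'_surjective _)
  have fk : ∀ a : Sp, f a = 1 → a.1 = 1 ∨ a.1 = -1 := fun a ha =>
    (CL.Sp.mem_center_symplecticGroup_iff a).1 ((QuotientGroup.eq_one_iff a).1 (e.symm.map_eq_one_iff.1 ha))
  obtain ⟨r1, r2, r3, r4, r5, r6, r7, r8, r9, r10, r11, r12⟩ := rel
  have n0 : f (T (vs 0)) ≠ 1 := fun h => dis.2 (fk _ h)
  refine ⟨fun i => f (T (vs i)), f xx, f yy, fun i j h => dis.1 i j (fk _ (by rw [map_mul, map_inv, inv_mul_eq_one]; exact h)),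
    fun i => by rw [← map_pow, r1, map_one], by simpa using congrArg f r2, by simpa using congrArg f r3,
    by simpa using congrArg f r4, Commute.map r5 f, Commute.map r6 f,
    Commute.map r7 f, ?_, by rw [← map_pow, r8, map_one], by rw [← map_pow, r9, map_one], ?_, n0,
    Commute.map r11 f, Commute.map r12 f⟩
  · rcases hs.eq_bot_or_eq_top_of_normal (Subgroup.normalClosure {f (T (vs 0))}) inferInstance with h | h
    · exact absurd (Subgroup.mem_bot.1 (h ▸ Subgroup.subset_normalClosure rfl)) n0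
    refine top_le_iff.1 (h.ge.trans ((Subgroup.closure_le _).2 fun x hx => ?_))
    obtain ⟨_, rfl, hx⟩ := Group.mem_conjugatesOfSet_iff.1 hx
    obtain ⟨g, rfl⟩ := isConj_iff.1 hx
    obtain ⟨g, rfl⟩ := fs g
    rw [← map_inv, ← map_mul, ← map_mul, T_conj]
    exact T_mem (B := (Subgroup.closure (Set.range fun i => f (T (vs i)))).comap f)
      (fun i => Subgroup.subset_closure ⟨i, rfl⟩) _
  · have := congrArg f r10
    rw [map_mul, map_mul, map_mul] at this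
    rw [commutatorElement_def, ← this]
    group

end CL.Low4
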