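/-
Project LOW4: equal non-zero diagonal entries are impossible for `G(m, m, 3)`, `m ≥ 4`.
-/
import Cfsg.Agent.Low4.Emb

set_option autoImplicit false
set_option linter.unusedSectionVars false
set_option linter.unnecessarySeqFocus false
set_option linter.unusedSimpArgs false

namespace CL.Low4

open Matrix Cfsg Cfsg.Geo CL.Asch CL.SLn CL.Low Module

universe u

namespace E3

variable {F : Type u} [Field F]

/-- monomial reflections in coordinates -/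
def Mc (p₀ p₁ p₂ q₀ q₁ q₂ : F) : Prop :=
  (p₁ = 0 ∧ q₁ = 0 ∧ p₂ = 0 ∧ q₂ = 0 ∧ q₀ * p₀ = 2) ∨ (p₀ = 0 ∧ q₀ = 0 ∧ p₂ = 0 ∧ q₂ = 0 ∧ q₁ * p₁ = 2) ∨
  (p₀ = 0 ∧ q₀ = 0 ∧ p₁ = 0 ∧ q₁ = 0 ∧ q₂ * p₂ = 2) ∨ (p₀ = 0 ∧ q₀ = 0 ∧ q₁ * p₁ = 1 ∧ q₂ * p₂ = 1) ∨
  (p₁ = 0 ∧ q₁ = 0 ∧ q₀ * p₀ = 1 ∧ q₂ * p₂ = 1) ∨ (p₂ = 0 ∧ q₂ = 0 ∧ q₀ * p₀ = 1 ∧ q₁ * p₁ = 1)

theorem core {u₀ u₁ u₂ f₀ f₁ f₂ v₀ v₁ v₂ g₀ g₁ g₂ w₀ w₁ w₂ h₀ h₁ h₂ a a' b b' c c' : F} (hu : Mc u₀ u₁ u₂ f₀ f₁ f₂)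
    (hv : Mc v₀ v₁ v₂ g₀ g₁ g₂) (hw : Mc w₀ w₁ w₂ h₀ h₁ h₂) (ea : a = f₀ * v₀ + f₁ * v₁ + f₂ * v₂)
    (ea' : a' = g₀ * u₀ + g₁ * u₁ + g₂ * u₂) (eb : b = f₀ * w₀ + f₁ * w₁ + f₂ * w₂)
    (eb' : b' = h₀ * u₀ + h₁ * u₁ + h₂ * u₂) (ec : c = g₀ * w₀ + g₁ * w₁ + g₂ * w₂)
    (ec' : c' = h₀ * v₀ + h₁ * v₁ + h₂ * v₂) (h1 : c * c' = 1) (ha : a ≠ 0) (hb : b ≠ 0)
    (hd : u₀ * (v₁ * w₂ - v₂ * w₁) - u₁ * (v₀ * w₂ - v₂ * w₀) + u₂ * (v₀ * w₁ - v₁ * w₀) ≠ 0)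
    (hA : a * c * b' ≠ b * c' * a') : (a * a' = 1 ∧ b * b' = 1) ∨ (a * a' = 1 ∧ (a - c' * b) * (a' - c * b') = 1) ∨
      (b * b' = 1 ∧ (a - c' * b) * (a' - c * b') = 1) := by
  subst ea ea' eb eb' ec ec'
  rcases hv with ⟨rfl, rfl, rfl, rfl, h⟩ | ⟨rfl, rfl, rfl, rfl, h⟩ | ⟨rfl, rfl, rfl, rfl, h⟩ | ⟨rfl, rfl, h, k⟩ |
    ⟨rfl, rfl, h, k⟩ | ⟨rfl, rfl, h, k⟩ <;>
  rcases hw with ⟨rfl, rfl, rfl, rfl, h'⟩ | ⟨rfl, rfl, rfl, rfl, h'⟩ | ⟨rfl, rfl, rfl, rfl, h'⟩ | ⟨rfl, rfl, h', k'⟩ |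
    ⟨rfl, rfl, h', k'⟩ | ⟨rfl, rfl, h', k'⟩ <;>
  first
  | (refine absurd ?_ hd; ring1)
  | (exfalso; clear hu ha hb hd hA; grind)
  | (clear h1
     rcases hu with ⟨rfl, rfl, rfl, rfl, l⟩ | ⟨rfl, rfl, rfl, rfl, l⟩ | ⟨rfl, rfl, rfl, rfl, l⟩ | ⟨rfl, rfl, l, l'⟩ |
      ⟨rfl, rfl, l, l'⟩ | ⟨rfl, rfl, l, l'⟩ <;>
     first
     | (refine absurd ?_ hd; ring1)
     | (refine absurd ?_ ha; ring1)
     | (refine absurd ?_ hb; ring1)
     | (refine absurd ?_ hA; ring1)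
     | (clear ha hb hd hA; grind))

/-- a cubic does not vanish at four different points -/
theorem four {c₃ c₂ c₁ c₀ a t : F} (hc : c₃ ≠ 0) (ht : t ≠ 0) (h0 : a ≠ 0) (h2 : a ^ 2 ≠ 1) (h3 : a ^ 3 ≠ 1)
    (h : ∀ k : ℕ, c₃ * (a ^ k * t) ^ 3 + c₂ * (a ^ k * t) ^ 2 + c₁ * (a ^ k * t) + c₀ = 0) : False :=
  mul_ne_zero (mul_ne_zero (mul_ne_zero hc (pow_ne_zero 3 ht)) (pow_ne_zero 3 h0)) (mul_ne_zero (mul_ne_zero
    (sub_ne_zero.2 h3) (sub_ne_zero.2 h2)) (sub_ne_zero.2 fun e : a = 1 => h2 (by rw [e, one_pow])))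
    (by linear_combination h 3 - (1 + a + a ^ 2) * h 2 + (a + a ^ 2 + a ^ 3) * h 1 - a ^ 3 * h 0)

theorem count {M : Subgroup Fˣ} {a : Fˣ} (ha : a ∈ M) (h2 : a ^ 2 ≠ 1) (h3 : a ^ 3 ≠ 1) {X β γ : F} (hX : X ≠ 0)
    (hβ : β ≠ 0) (hγ : γ ≠ 0) (h : ∀ p ∈ M, ∀ q ∈ M, ∀ A B : F, A = p * β → B = q * γ → A ≠ 1 → B ≠ 1 → A * B ≠ 1 →
      X * (A - 1) ^ 2 + A = 0 ∨ (X * (B - 1) ^ 2 + B = 0 ∧ X * (A * B - 1) ^ 2 + A * B = 0)) :
    2 * X = 1 ∧ (a : F) ^ 2 = -1 ∧ (∃ p ∈ M, p = β) ∧ ∃ p ∈ M, p = γ := by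
  have a2 : (a : F) ^ 2 ≠ 1 := fun e => h2 (Units.ext (by simpa using e))
  have a3 : (a : F) ^ 3 ≠ 1 := fun e => h3 (Units.ext (by simpa using e))
  obtain ⟨k, k1, k2⟩ : ∃ k : ℕ, (a : F) ^ k * β ≠ 1 ∧ X * ((a : F) ^ k * β - 1) ^ 2 + (a : F) ^ k * β ≠ 0 := by
    by_contra! H
    refine four (c₂ := 1 - 3 * X) (c₁ := 3 * X - 1) (c₀ := -X) hX hβ a.ne_zero a2 a3 fun k => ?_
    by_cases e : (a : F) ^ k * β = 1
    · rw [e]; ring
    · linear_combination ((a : F) ^ k * β - 1) * H k e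
  obtain ⟨A, hA⟩ : ∃ A, A = (a : F) ^ k * β := ⟨_, rfl⟩
  have A0 : A ≠ 0 := hA ▸ mul_ne_zero (pow_ne_zero k a.ne_zero) hβ
  rw [← hA] at k1 k2
  have key : ∀ j : ℕ, ∀ B, B = (a : F) ^ j * γ → B = 1 ∨ A * B = 1 ∨
      (X * (B - 1) ^ 2 + B = 0 ∧ X * (A * B - 1) ^ 2 + A * B = 0) := fun j B hB =>
    or_iff_not_imp_left.2 fun e => or_iff_not_imp_left.2 fun e' =>
      (h _ (pow_mem ha k) _ (pow_mem ha j) A B (by simpa using hA) (by simpa using hB) k1 e e').resolve_left k2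
  have two : ∀ s t : F, X * (s - 1) ^ 2 + s = 0 → X * (t - 1) ^ 2 + t = 0 → s ≠ t → s * t = 1 := fun s t e e' n =>
    sub_eq_zero.1 (mul_left_cancel₀ (mul_ne_zero hX (sub_ne_zero.2 n)) (by linear_combination t * e - s * e'))
  obtain ⟨B, B', n, ⟨b1, b2⟩, b3, b4⟩ : ∃ B B' : F, B ≠ B' ∧
      (X * (B - 1) ^ 2 + B = 0 ∧ X * (A * B - 1) ^ 2 + A * B = 0) ∧
      X * (B' - 1) ^ 2 + B' = 0 ∧ X * (A * B' - 1) ^ 2 + A * B' = 0 := by
    by_contra H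
    obtain ⟨z, hz⟩ : ∃ z, ∀ B, X * (B - 1) ^ 2 + B = 0 ∧ X * (A * B - 1) ^ 2 + A * B = 0 → B = z := by
      by_cases e : ∃ z, X * (z - 1) ^ 2 + z = 0 ∧ X * (A * z - 1) ^ 2 + A * z = 0
      · exact e.imp fun z hz B hB => by_contra fun n => H ⟨B, z, n, hB, hz⟩
      · exact ⟨0, fun B hB => (e ⟨B, hB⟩).elim⟩
    refine four (c₂ := -(A + 1) - A * z) (c₁ := 1 + (A + 1) * z) (c₀ := -z) A0 hγ a.ne_zero a2 a3 fun j => ?_
    generalize hB : (a : F) ^ j * γ = B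
    rcases key j B hB.symm with e | e | e
    · rw [e]; ring
    · linear_combination (B - 1) * (B - z) * e
    · rw [hz B e]; ring
  have e1 := two _ _ b1 b3 n
  have e2 := two _ _ b2 b4 fun e => n (mul_left_cancel₀ A0 e)
  obtain rfl : A = -1 := (sq_eq_one_iff.1 (by linear_combination e2 - A ^ 2 * e1)).resolve_left k1
  have t2 : (2 : F) ≠ 0 := fun e => k1 (by linear_combination -e)
  have sq : ∀ B, X * (B - 1) ^ 2 + B = 0 → X * (-1 * B - 1) ^ 2 + -1 * B = 0 → B ^ 2 = -1 := fun B p q =>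
    eq_neg_of_add_eq_zero_left (mul_left_cancel₀ (mul_ne_zero hX t2) (by linear_combination p + q))
  have q4 : ∀ j : ℕ, ((a : F) ^ j * γ) ^ 4 = 1 := fun j => by
    generalize hB : (a : F) ^ j * γ = B
    rcases key j B hB.symm with e | e | e
    · rw [e, one_pow]
    · linear_combination (-B ^ 3 + B ^ 2 - B + 1) * e
    · linear_combination (B ^ 2 - 1) * sq B e.1 e.2
  have i2 : (a : F) ^ 2 = -1 := eq_neg_of_add_eq_zero_left (mul_left_cancel₀ (sub_ne_zero.2 a2)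
    (by linear_combination q4 1 - (a : F) ^ 4 * q4 0))
  have B0 : B ≠ 0 := left_ne_zero_of_mul_eq_one e1
  refine ⟨mul_left_cancel₀ B0 (by linear_combination X * sq B b1 b2 - b1), i2,
    ⟨(a ^ k)⁻¹ * a ^ 2, mul_mem (inv_mem (pow_mem ha k)) (pow_mem ha 2), by
      rw [Units.val_mul, Units.val_pow_eq_pow_val, i2, hA, ← Units.val_pow_eq_pow_val, Units.inv_mul_cancel_left]⟩, ?_⟩
  have : (γ - 1) * (γ - a) * (γ - a ^ 2) * (γ - a ^ 3) = 0 := by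
    have := q4 0
    grind
  simp only [mul_eq_zero, sub_eq_zero] at this
  rcases this with ((e | e) | e) | e
  exacts [⟨1, one_mem _, e.symm⟩, ⟨a, ha, e.symm⟩, ⟨_, pow_mem ha 2, by simp [e]⟩, ⟨_, pow_mem ha 3, by simp [e]⟩]

variable {ι : Type} [Fintype ι] [DecidableEq ι] {Γ : Subgroup (GL ι F)} {u v w : ι → F} {φ ψ χ : Dual F (ι → F)}

theorem ne_four {e : Fin 2 → ι → F} {x : Fin 2 → Dual F (ι → F)} (h1 : ψ v = 2) (h2 : χ w = 2) (a1 : In e x v ψ)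
    (a2 : In e x w χ) (η η' : Dual F (ι → F)) (y y' : ι → F)
    (h : (η v * η' w - η w * η' v) * (ψ y * χ y' - ψ y' * χ y) ≠ 0) : ψ w * χ v ≠ 4 := fun h4 => by
  have key : ∀ (η : Dual F (ι → F)) {y}, pr e x y = y → η y = η (e 0) * x 0 y + η (e 1) * x 1 y :=
    fun η y hy => by rw [← hy, apply_pr, hy, Fin.sum_univ_two]
  have key' : ∀ {v} {η : Dual F (ι → F)}, In e x v η → ∀ y, η y = η (e 0) * x 0 y + η (e 1) * x 1 y :=
    fun h y => by rw [← (in_iff.1 h).2 y, apply_pr, Fin.sum_univ_two]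
  have h5 : ψ v * χ w - ψ w * χ v = 0 := by rw [h1, h2, h4]; ring
  rw [key ψ a1.1, key ψ a2.1, key χ a1.1, key χ a2.1] at h5
  rw [key η a1.1, key η a2.1, key η' a1.1, key η' a2.1, key' a1 y, key' a1 y', key' a2 y, key' a2 y'] at h
  exact h (by linear_combination (η (e 0) * η' (e 1) - η (e 1) * η' (e 0)) * (x 0 y * x 1 y' - x 1 y * x 0 y') * h5)

variable {e : Fin 3 → ι → F} {x : Fin 3 → Dual F (ι → F)}

theorem mc (hb : Bi e x) (h : Mon e x v φ) : Mc (x 0 v) (x 1 v) (x 2 v) (φ (e 0)) (φ (e 1)) (φ (e 2)) := by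
  rcases h with ⟨i, a, ha, rfl, rfl⟩ | ⟨i, j, a, b, hij, ha, hb', rfl, rfl⟩
  · fin_cases i <;> simp [Mc, hb.apply, ha]
  · fin_cases i <;> fin_cases j <;> first | exact absurd rfl hij | simp [Mc, hb.apply, ha, hb']

theorem space (hb : Bi e x) (hu : Mon e x u φ) (hv : Mon e x v ψ) (hw : Mon e x w χ) (h1 : φ u = 2) (h2 : ψ v = 2)
    (h3 : χ w = 2) (hc : ψ w * χ v = 1) (ha : φ v ≠ 0) (ha' : φ w ≠ 0) (hd : cdet u φ v ψ w χ ≠ 0)
    (hA : Asym u φ v ψ w χ) : (φ v * ψ u = 1 ∧ φ w * χ u = 1) ∨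
      (φ v * ψ u = 1 ∧ (φ v - χ v * φ w) * (ψ u - ψ w * χ u) = 1) ∨
      (φ w * χ u = 1 ∧ (φ v - χ v * φ w) * (ψ u - ψ w * χ u) = 1) := by
  have key : ∀ (η : Dual F (ι → F)) {y}, pr e x y = y → η y = η (e 0) * x 0 y + η (e 1) * x 1 y + η (e 2) * x 2 y :=
    fun η y hy => by rw [← hy, apply_pr, hy, Fin.sum_univ_three]
  have a1 := (hu.in hb).1
  have a2 := (hv.in hb).1
  have a3 := (hw.in hb).1
  refine core (mc hb hu) (mc hb hv) (mc hb hw) (key φ a2) (key ψ a1) (key φ a3) (key χ a1) (key ψ a3) (key χ a2) hc ha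
    ha' (fun h => hd ?_) hA
  have : cdet u φ v ψ w χ = φ u * ψ v * χ w - φ u * ψ w * χ v - φ v * ψ u * χ w + φ v * ψ w * χ u +
      φ w * ψ u * χ v - φ w * ψ v * χ u := by rw [cdet, h1, h2, h3]; ring
  rw [this, key φ a1, key φ a2, key φ a3, key ψ a1, key ψ a2, key ψ a3, key χ a1, key χ a2, key χ a3]
  linear_combination (φ (e 0) * (ψ (e 1) * χ (e 2) - ψ (e 2) * χ (e 1)) - φ (e 1) * (ψ (e 0) * χ (e 2) -
    ψ (e 2) * χ (e 0)) + φ (e 2) * (ψ (e 0) * χ (e 1) - ψ (e 1) * χ (e 0))) * h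

theorem rs (h : Rf Γ v φ) {t t' : F} (ht : t * t' = 1) (e1 : w = t • v) (e2 : ψ = t' • φ) : Rf Γ w ψ :=
  h.same ⟨t, left_ne_zero_of_mul_eq_one ht, e1, by rw [e2, inv_eq_of_mul_eq_one_right ht]⟩

theorem dd {a b : ι → F} {η ζ : Dual F (ι → F)} {m m' : F} (hm : m * m' = 1) (h1 : η a = 1) (h2 : η b = 0) (h3 : ζ a = 0)
    (h4 : ζ b = 1) (r1 : Rf Γ (a - m • b) (η - m' • ζ)) (r2 : Rf Γ (a - (1 : F) • b) (η - (1 : F) • ζ)) :
    ∃ g ∈ Γ, ∀ y, g • y = y + ((m' - 1) * η y) • a + ((m - 1) * ζ y) • b := by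
  obtain ⟨g, hg, eg⟩ := r1.mem
  obtain ⟨g', hg', eg'⟩ := r2.mem
  refine ⟨g * g', mul_mem hg hg', fun y => ?_⟩
  simp only [mul_smul, eg, eg', map_sub, map_smul, LinearMap.sub_apply, LinearMap.smul_apply, h1, h2, h3, h4,
    smul_eq_mul]
  match_scalars <;> grind

theorem fin (hb : Bi e x) {d : ι → F} (h1 : ∀ i, x i d = 0) (h2 : ∀ i, χ (e i) = 0) (h3 : χ d = 1) {i X : F}
    (hi : i ^ 2 = -1) (hX : 2 * X = 1) (hs : ∀ j l, j ≠ l → ∀ m m' : F, m * m' = 1 → m ^ 4 = 1 →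
      Rf Γ (e j - m • e l) (x j - m' • x l)) (hu : Rf Γ (e 0 + e 1 + e 2 + d) (X • (x 0 + x 1 + x 2 + χ))) :
    ∃ g ∈ Γ, Sc (Fin.snoc e d : Fin 4 → ι → F) (Fin.snoc x χ : Fin 4 → Dual F (ι → F)) i g := by
  have ii : i * -i = 1 := by grind
  have i4 : i ^ 4 = 1 := by grind
  have r2 : Rf Γ (i • e 0 + i • e 1 - e 2 + d) (X • (-i • x 0 - i • x 1 - x 2 + χ)) := by
    refine rs ((hs 1 2 (by decide) (-i) i (by grind) (by grind)).refl ((hs 0 1 (by decide) (-i) i (by grind)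
      (by grind)).refl hu)) (one_mul 1) ?_ ?_ <;> clear hs hu <;>
    simp only [map_add, map_sub, map_smul, LinearMap.add_apply, LinearMap.sub_apply, LinearMap.smul_apply, hb.apply, h1, h2,
      h3, smul_eq_mul, Fin.reduceEq, ↓reduceIte] <;> match_scalars <;> grind
  have r3 : Rf Γ (e 2 + i • d) (x 2 - i • χ) := by
    refine rs (hu.refl r2) (t := X * (i - 1)) (t' := -1 - i) (by grind) ?_ ?_ <;> clear hs hu r2 <;>
    simp only [map_add, map_sub, map_smul, LinearMap.add_apply, LinearMap.sub_apply, LinearMap.smul_apply, hb.apply, h1, h2,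
      h3, smul_eq_mul, Fin.reduceEq, ↓reduceIte] <;> match_scalars <;> grind
  have r4 : ∀ m m' : F, m * m' = 1 → m ^ 4 = 1 → Rf Γ (e 0 - m • d) (x 0 - m' • χ) := fun m m' a b => by
    refine rs ((hs 0 2 (by decide) (i * m) (-i * m') (by grind) (by grind)).refl r3) (t := i * m) (t' := -i * m')
      (by grind) ?_ ?_ <;> clear hs hu r2 r3 <;>
    simp only [map_add, map_sub, map_smul, LinearMap.add_apply, LinearMap.sub_apply, LinearMap.smul_apply, hb.apply, h1, h2,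
      h3, smul_eq_mul, Fin.reduceEq, ↓reduceIte] <;> match_scalars <;> grind
  obtain ⟨g1, a1, b1⟩ := dd ii (hb.diag 0) (hb.off 0 1 (by decide)) (hb.off 1 0 (by decide)) (hb.diag 1)
    (hs 0 1 (by decide) _ _ ii i4) (hs 0 1 (by decide) 1 1 (by simp) (by simp))
  obtain ⟨g2, a2, b2⟩ := dd ii (hb.diag 0) (hb.off 0 2 (by decide)) (hb.off 2 0 (by decide)) (hb.diag 2)
    (hs 0 2 (by decide) _ _ ii i4) (hs 0 2 (by decide) 1 1 (by simp) (by simp))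
  obtain ⟨g3, a3, b3⟩ := dd ii (hb.diag 0) (h1 0) (h2 0) h3 (r4 _ _ ii i4) (r4 1 1 (by simp) (by simp))
  refine ⟨g1 * g2 * g3, mul_mem (mul_mem a1 a2) a3, fun y => ?_⟩
  rw [pr_snoc, pr, Fin.sum_univ_three, mul_smul, mul_smul, b1, b2, b3]
  clear * - hb h1 hi
  simp only [map_add, map_smul, hb.apply, h1, smul_eq_mul, Fin.reduceEq, ↓reduceIte]
  match_scalars <;> grind

end E3

open E3 in
theorem subE3 : SubE3.{u} := by
  rintro F _ _ Γ hz h4 hT M ⟨a, ha, a2, a3⟩ e x hc hm v φ hv X hX h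
  have hb := hc.bi
  have α0 : ∀ i, x i v ≠ 0 := fun i e => hX (by rw [← h i, e, mul_zero])
  have hφ : ∀ i, φ (e i) = X / x i v := fun i => eq_div_of_mul_eq (α0 i) (h i)
  obtain ⟨c1, c2, ⟨β, hβ, eβ⟩, γ, hγ, eγ⟩ := count ha a2 a3 hX (div_ne_zero (α0 0) (α0 1)) (div_ne_zero (α0 1) (α0 2))
    fun p hp q hq A B eA eB nA nB nC => by
      have s := hc.rf 0 1 (by decide) p hp
      have t := hc.rf 1 2 (by decide) q hq
      have p0 := p.ne_zero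
      have q0 := q.ne_zero
      have z0 := α0 0
      have z1 := α0 1
      have z2 := α0 2
      generalize (p : F) = p at *
      generalize (q : F) = q at *
      have hA : Asym v φ (e 0 - p • e 1) (x 0 - p⁻¹ • x 1) (e 1 - q • e 2) (x 1 - q⁻¹ • x 2) := fun e =>
        mul_ne_zero (mul_ne_zero hX (sub_ne_zero.2 nA)) (mul_ne_zero (sub_ne_zero.2 nB) (sub_ne_zero.2 nC)) (by
          simp [hb.apply, hφ] at e
          subst eA eB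
          field_simp at e ⊢
          grind)
      rcases hT _ _ _ _ _ _ hv s t hA with ⟨e', x', b0, b1, b2, b3, -⟩ | ⟨hd, e', x', -, b1, b2, b3, e'', x'', b4, -, b5⟩
      · have := mc hb (hm v φ hv (in_of_plane b0.bi s.two t.two (ne_four s.two t.two b2 b3 (x 0) (x 2) (e 0) (e 2)
          (by simp [hb.apply, q0])) b2 b3 b1 (hb.in_swap _ _ _ _) (hb.in_swap _ _ _ _)))
        simp [Mc, z0, z1, z2] at this
      have n := hA.ne hz hv s t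
      have := space b4 (b5 _ _ hv b1) (b5 _ _ s b2) (b5 _ _ t b3) hv.two s.two t.two (by simp [hb.apply, p0]) n.1.1
        n.2.1.1 hd hA
      simp [hb.apply, hφ] at this
      subst eA eB
      rcases this with ⟨h1, -⟩ | ⟨h1, -⟩ | ⟨h1, h2⟩
      · left; field_simp at h1 ⊢; linear_combination -h1
      · left; field_simp at h1 ⊢; linear_combination -h1
      · right; constructor <;> field_simp at h1 h2 ⊢
        exacts [by linear_combination -h1, mul_left_cancel₀ z1 (by linear_combination -h2)]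
  have hb' : Bi (fun i => x i v • e i) fun i => (x i v)⁻¹ • x i :=
    ⟨fun i => by simp [hb.diag, α0], fun i j hij => by simp [hb.off i j hij]⟩
  have hM : ∀ j l, ∃ p ∈ M, x j v = p * x l v := by
    have k : ∀ j, ∃ p ∈ M, x j v = p * x 1 v := fun j => by
      fin_cases j
      exacts [⟨β, hβ, by simp [eβ, α0]⟩, ⟨1, one_mem _, by simp⟩, ⟨γ⁻¹, inv_mem hγ, by simp [eγ, α0]⟩]
    intro j l
    obtain ⟨p, hp, e1⟩ := k j
    obtain ⟨q, hq, e2⟩ := k l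
    exact ⟨p * q⁻¹, mul_mem hp (inv_mem hq), by simp [e1, e2, mul_assoc]⟩
  have e0 : pr e x (v - pr e x v) = 0 := by rw [pr_sub, hb.pr_pr, sub_self]
  have d1 : ∀ i, ((x i v)⁻¹ • x i) (v - pr e x v) = 0 := fun i => by simp [hb.x_pr]
  have d2 : ∀ i, ((2 : F) • (φ - prD e x φ)) (x i v • e i) = 0 := fun i => by simp [hb.prD_e]
  have d3 : ((2 : F) • (φ - prD e x φ)) (v - pr e x v) = 1 := by
    rw [LinearMap.smul_apply, LinearMap.sub_apply, prD_apply, e0, map_zero, map_sub, hv.two, apply_pr,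
      Fin.sum_univ_three, h, h, h, smul_eq_mul]
    linear_combination -3 * c1
  obtain ⟨g, hg, hs⟩ := fin (Γ := Γ) hb' d1 d2 d3 c2 c1 (fun j l hjl m m' hm' m4 => by
    obtain ⟨p, hp, ep⟩ := hM l j
    obtain ⟨q, hq, rfl⟩ : ∃ q ∈ M, q = m := by
      have : (m - 1) * (m - a) * (m - a ^ 2) * (m - a ^ 3) = 0 := by grind
      simp only [mul_eq_zero, sub_eq_zero] at this
      rcases this with ((e | e) | e) | e
      exacts [⟨1, one_mem _, e.symm⟩, ⟨a, ha, e.symm⟩, ⟨_, pow_mem ha 2, by simp [e]⟩, ⟨_, pow_mem ha 3, by simp [e]⟩]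
    obtain rfl := (inv_eq_of_mul_eq_one_right hm').symm
    refine rs (hc.rf j l hjl _ (mul_mem hq hp)) (mul_inv_cancel₀ (α0 j)) ?_ ?_ <;> simp only [ep, Units.val_mul] <;>
      match_scalars <;> field_simp) (by
    convert hv using 1
    · simp [pr, Fin.sum_univ_three]
    · simp only [prD, Fin.sum_univ_three, hφ]
      match_scalars <;> grind)
  exact h4 _ _ _ (hb'.snoc d1 d2 d3) (left_ne_zero_of_mul_eq_one c1) c2 g hg hs

end CL.Low4
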