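/-
Project LOW4: extension of the field and addition of the scalars.
-/
import Cfsg.Agent.Low4.Defs3
import Cfsg.Agent.Known.GLSim3

set_option autoImplicit false
set_option linter.unusedSectionVars false

namespace CL.Low4

open Matrix Cfsg Cfsg.Geo CL.Asch CL.SLn CL.Low Module
open scoped commutatorElement MatrixGroups

universe u

namespace ExtFx

open Polynomial

variable {ι : Type} [Fintype ι] [DecidableEq ι] {F E : Type u} [Field F] [Field E]

theorem charpoly_smul' {c : F} (hc : c ≠ 0) (A : Matrix ι ι F) :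
    (c • A).charpoly = C (c ^ Fintype.card ι) * A.charpoly.comp (C c⁻¹ * X) := by
  have h1 : (c • A).charmatrix = C c • (A.charmatrix.map (compRingHom (C c⁻¹ * X))) := by
    ext1 i j
    by_cases h : i = j
    · subst h
      have : (C c * C c⁻¹ : F[X]) = 1 := by rw [← C_mul, mul_inv_cancel₀ hc, C_1]
      simp [mul_sub, ← mul_assoc, this]
    · simp [h]
  rw [charpoly, h1, det_smul, map_pow, charpoly]
  congr 1
  exact ((compRingHom (C c⁻¹ * X)).map_det A.charmatrix).symm

theorem splits_smul {c : F} (hc : c ≠ 0) {A : Matrix ι ι F} (h : A.charpoly.Splits) : (c • A).charpoly.Splits := by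
  rw [charpoly_smul' hc]
  exact (h.comp_of_natDegree_le_one ((natDegree_C_mul_le _ _).trans natDegree_X_le)).C_mul _

theorem tv_pow {g : GL ι F} {v : ι → F} {φ : Dual F (ι → F)} (h0 : φ v = 0) (h : ∀ x, g • x = x + φ x • v) (n : ℕ)
    (x : ι → F) : g ^ n • x = x + φ x • (n : F) • v := by
  induction n with
  | zero => simp
  | succ n ih =>
    rw [pow_succ', mul_smul, ih, h, map_add, map_smul, map_smul, h0]
    push_cast
    module

theorem tv_rank {g : GL ι F} (h : IsTv g) :
    ((g : Matrix ι ι F) - 1) * ((g : Matrix ι ι F) - 1) = 0 ∧ ((g : Matrix ι ι F) - 1).rank = 1 := by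
  obtain ⟨v, φ, v0, φ0, h0, h⟩ := h
  have h1 : ∀ x, ((g : Matrix ι ι F) - 1) *ᵥ x = φ x • v := fun x => by
    rw [sub_mulVec, one_mulVec, ← gsmul_def, h, add_sub_cancel_left]
  refine ⟨matrix_ext_mulVec fun x => by rw [← mulVec_mulVec, h1, h1, map_smul, h0, zero_mulVec]; simp, ?_⟩
  have h2 : LinearMap.range ((g : Matrix ι ι F) - 1).mulVecLin = Submodule.span F {v} := by
    refine le_antisymm ?_ ((Submodule.span_singleton_le_iff_mem _ _).2 ?_)
    · rintro _ ⟨x, rfl⟩
      rw [mulVecLin_apply, h1]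
      exact Submodule.smul_mem _ _ (Submodule.mem_span_singleton_self v)
    · obtain ⟨x, hx⟩ := DFunLike.ne_iff.1 φ0
      refine ⟨(φ x)⁻¹ • x, ?_⟩
      rw [mulVecLin_apply, h1, map_smul, smul_eq_mul, inv_mul_cancel₀ hx, one_smul]
  rw [Matrix.rank, h2, finrank_span_singleton v0]

variable (φ : F →+* E) {P : Subgroup (GL ι F)}

theorem map_inj : Function.Injective (GeneralLinearGroup.map φ : GL ι F →* GL ι E) := fun _ _ h =>
  Units.ext (Matrix.map_injective φ.injective (congrArg Units.val h))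

theorem map_scalar (g : GL ι F) : GeneralLinearGroup.map φ g ∈ scalars ι E ↔ g ∈ scalars ι F := by
  rw [mem_scalars_iff', mem_scalars_iff']
  refine ⟨fun ⟨c, hc⟩ => ?_, fun ⟨c, hc⟩ => ⟨φ c, ?_⟩⟩
  · refine scalar_of_comm_all fun y => Matrix.map_injective φ.injective ?_
    change (y * g.val).map φ = (g.val * y).map φ
    rw [Matrix.map_mul, Matrix.map_mul, show g.val.map φ = c • (1 : Matrix ι ι E) from hc]
    simp
  · change g.val.map φ = _
    rw [hc]
    ext i j
    by_cases h : i = j <;> simp [h]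

theorem span_map (h : spanAlg P = ⊤) : spanAlg (P.map (GeneralLinearGroup.map φ)) = ⊤ := by
  have key : ∀ y : Matrix ι ι F, y.map φ ∈ spanAlg (P.map (GeneralLinearGroup.map φ)) := fun y =>
    spanAlg_induction (L := P) (p := fun y => y.map φ ∈ spanAlg (P.map (GeneralLinearGroup.map φ)))
      (fun g hg => coe_mem_spanAlg (g := GeneralLinearGroup.map φ g) ⟨g, hg, rfl⟩) (by simp)
      (fun x y hx hy => by rw [Matrix.map_add _ (map_add _)]; exact add_mem hx hy)
      (fun a x hx => by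
        rw [show (a • x).map φ = φ a • x.map φ from by ext; simp]
        exact Subalgebra.smul_mem _ hx _) (h ▸ Algebra.mem_top)
  refine eq_top_iff.2 fun x _ => ?_
  rw [matrix_eq_sum_single x]
  refine Subalgebra.sum_mem _ fun i _ => Subalgebra.sum_mem _ fun j _ => ?_
  have := Subalgebra.smul_mem _ (key (single i j 1)) (x i j)
  rwa [Matrix.map_single, map_one, smul_single, smul_eq_mul, mul_one] at this

theorem qs_map (h : QS P) :
    QS (P.map (GeneralLinearGroup.map φ)) ∧ Nonempty (PQ P ≃* PQ (P.map (GeneralLinearGroup.map φ))) := by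
  let e : PQ P ≃* PQ (P.map (GeneralLinearGroup.map φ)) :=
    QuotientGroup.congr _ _ (P.equivMapOfInjective _ (map_inj φ)) (by
      ext x
      obtain ⟨y, rfl⟩ := (P.equivMapOfInjective _ (map_inj φ)).surjective x
      rw [Subgroup.mem_subgroupOf, Subgroup.coe_equivMapOfInjective_apply, map_scalar]
      exact (Subgroup.mem_map_iff_mem (P.equivMapOfInjective _ (map_inj φ)).injective).trans Subgroup.mem_subgroupOf)
  have := h.simple
  exact ⟨⟨by rw [← Subgroup.map_commutator, h.perfect], e.symm.isSimpleGroup, fun hc => h.nonabelian ⟨⟨fun a b =>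
    e.injective (by rw [map_mul, map_mul, hc.is_comm.comm])⟩⟩, span_map φ h.span⟩, ⟨e⟩⟩

theorem gam_equiv (Q : Subgroup (GL ι E)) : Nonempty (PQ Q ≃* PQ (Gam Q)) := by
  let f : Q →* PQ (Gam Q) := (QuotientGroup.mk' _).comp (Subgroup.inclusion le_sup_left)
  have hf : Function.Surjective f := fun x => by
    obtain ⟨⟨g, hg⟩, rfl⟩ := QuotientGroup.mk_surjective x
    obtain ⟨q, hq, c, rfl⟩ := mem_sup_scalars.1 hg
    refine ⟨⟨q, hq⟩, QuotientGroup.eq.2 ?_⟩
    change q⁻¹ * (q * scal ι c) ∈ scalars ι E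
    rw [inv_mul_cancel_left]
    exact scal_mem c
  refine ⟨(QuotientGroup.quotientMulEquivOfEq ?_).trans (QuotientGroup.quotientKerEquivOfSurjective f hf)⟩
  ext x
  exact (mk_eq_one_iff (P := Gam Q) (g := Subgroup.inclusion le_sup_left x)).symm

theorem noTv [Fintype E] (h : ¬ HasTv P) : ¬ HasTv (Gam (P.map (GeneralLinearGroup.map φ))) := by
  classical
  rintro ⟨g, hg, v, ψ, v0, ψ0, h0, hv⟩
  obtain ⟨_, ⟨l, hl, rfl⟩, c, rfl⟩ := mem_sup_scalars.1 hg
  have h1 := tv_pow h0 hv (Fintype.card Eˣ)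
  have hc : Commute (GeneralLinearGroup.map φ l) (scal ι c) :=
    Subgroup.mem_center_iff.1 (scalars_le_center (scal_mem c)) _
  rw [hc.mul_pow, ← map_pow (scal ι), pow_card_eq_one, map_one, mul_one, ← map_pow, Fintype.card_units,
    Nat.cast_sub Fintype.card_pos, FiniteField.cast_card_eq_zero] at h1
  obtain ⟨k1, k2⟩ := tv_rank (g := GeneralLinearGroup.map φ (l ^ (Fintype.card E - 1)))
    ⟨_, ψ, by simpa using v0, ψ0, by rw [map_smul, h0, smul_zero], h1⟩
  have e : ((GeneralLinearGroup.map φ (l ^ (Fintype.card E - 1)) : GL ι E) : Matrix ι ι E) - 1 =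
      (((l ^ (Fintype.card E - 1) : GL ι F) : Matrix ι ι F) - 1).map φ :=
    ((map_sub φ.mapMatrix _ 1).trans (by rw [map_one]; rfl)).symm
  rw [e] at k1 k2
  rw [CL.GLn.rank_map_ringHom] at k2
  refine h ⟨_, pow_mem hl _, isTv_of_rank (Matrix.map_injective φ.injective ?_) k2⟩
  change (_ * _ : Matrix ι ι F).map φ = (0 : Matrix ι ι F).map φ
  rw [Matrix.map_mul, k1, Matrix.map_zero _ (map_zero φ)]

end ExtFx

open ExtFx Polynomial in
theorem subExt : SubExt.{u} := by
  intro F _ _ P h2 hP hT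
  classical
  have m1 : (X ^ 4 + 1 : F[X]).Monic := by monicity!
  have m2 : (X ^ 2 + X + 1 : F[X]).Monic := by monicity!
  obtain ⟨f, hf, d1, d2, d3⟩ : ∃ f : F[X], f.Monic ∧ X ^ 4 + 1 ∣ f ∧ X ^ 2 + X + 1 ∣ f ∧
      ∀ l : P, (l : G F).val.charpoly ∣ f := by
    let _ : Fintype P := Fintype.ofFinite P
    exact ⟨(X ^ 4 + 1) * (X ^ 2 + X + 1) * ∏ l : P, (l : G F).val.charpoly,
      (m1.mul m2).mul (monic_prod_of_monic _ _ fun l _ => charpoly_monic _), (dvd_mul_right _ _).mul_right _,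
      (dvd_mul_left _ _).mul_right _, fun l =>
        Dvd.dvd.mul_left (Finset.dvd_prod_of_mem (fun l : P => (l : G F).val.charpoly) (Finset.mem_univ l)) _⟩
  let E := f.SplittingField
  have : Finite E := Module.finite_of_finite F
  let _ : Fintype E := Fintype.ofFinite E
  let φ : F →+* E := algebraMap F E
  have sp : ∀ g : F[X], g ∣ f → (g.map φ).Splits := fun g hg =>
    (SplittingField.splits f).of_dvd (hf.map φ).ne_zero (Polynomial.map_dvd φ hg)
  obtain ⟨hQ, e1⟩ := qs_map φ hP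
  obtain ⟨e2⟩ := gam_equiv (P.map (GeneralLinearGroup.map φ))
  have := hQ.simple
  refine ⟨E, inferInstance, inferInstance, φ, _, hQ, ⟨?_, le_sup_right, e2.symm.isSimpleGroup,
    fun hc => hQ.nonabelian ⟨⟨fun a b => e2.injective (by rw [map_mul, map_mul, hc.is_comm.comm])⟩⟩,
    eq_top_iff.2 (hQ.span.ge.trans (spanAlg_mono le_sup_left)), noTv φ hT, fun g hg => ?_, fun g hg => ?_, ?_, ?_⟩,
    e1, ⟨e2⟩, fun l hl => ⟨_, ⟨l, hl, rfl⟩, ?_, ?_⟩⟩
  · rw [← map_ofNat φ]; exact (_root_.map_ne_zero φ).2 h2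
  · obtain ⟨q, hq, c, rfl⟩ := mem_sup_scalars.1 hg
    refine ⟨c, ?_⟩
    have h1 : q.val.det = 1 := by
      rw [← GeneralLinearGroup.val_det_apply, MonoidHom.mem_ker.1 (hQ.le_SL hq), Units.val_one]
    rw [Units.val_mul, det_mul, h1, coe_scal, det_smul, det_one, one_mul, mul_one, Fintype.card_fin]
  · obtain ⟨_, ⟨l, hl, rfl⟩, c, rfl⟩ := mem_sup_scalars.1 hg
    rw [Units.val_mul, coe_scal, Matrix.mul_smul, Matrix.mul_one]
    refine splits_smul c.ne_zero ?_
    change (l.val.map φ).charpoly.Splits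
    rw [charpoly_map]
    exact sp _ (d3 ⟨l, hl⟩)
  · obtain ⟨z, hz⟩ := (sp _ d1).exists_eval_eq_zero (by
      rw [m1.degree_map, show (X ^ 4 + 1 : F[X]).degree = 4 by compute_degree!]; simp)
    exact ⟨z, eq_neg_of_add_eq_zero_left (by simpa using hz)⟩
  · obtain ⟨z, hz⟩ := (sp _ d2).exists_eval_eq_zero (by
      rw [m2.degree_map, show (X ^ 2 + X + 1 : F[X]).degree = 2 by compute_degree!]; simp)
    exact ⟨z, by simpa using hz⟩
  · exact (AddMonoidHom.map_trace φ l.val).symm
  · rw [← map_inv]; exact (AddMonoidHom.map_trace φ (l⁻¹).val).symm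

end CL.Low4
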