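/-
Project LOW4: the normal form of a framed rank three reflection group.
-/
import Cfsg.Agent.Low4.Emb

set_option autoImplicit false
set_option linter.unusedSectionVars false

namespace CL.Low4

open Matrix Cfsg Cfsg.Geo CL.Asch CL.SLn CL.Low Module

universe u

namespace FR

variable {ι : Type} [Fintype ι] [DecidableEq ι] {F : Type u} [Field F] {Γ : Subgroup (GL ι F)}
  {e : Fin 3 → ι → F} {x : Fin 3 → Dual F (ι → F)} {v : ι → F} {φ : Dual F (ι → F)}

/-- The swap of two frame lines is a reflection of `Γ`. -/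
def R (Γ : Subgroup (GL ι F)) (e : Fin 3 → ι → F) (x : Fin 3 → Dual F (ι → F)) (i j : Fin 3) (a : F) : Prop :=
  Rf Γ (e i - a • e j) (x i - a⁻¹ • x j)

theorem R.symm {i j : Fin 3} {a : F} (h : R Γ e x i j a) (ha : a ≠ 0) : R Γ e x j i a⁻¹ :=
  Rf.same h ⟨-a⁻¹, by simp [ha], by match_scalars <;> field_simp, by match_scalars <;> field_simp⟩

theorem R.trans (hb : Bi e x) {i j l : Fin 3} {a b : F} (hij : i ≠ j) (hjl : j ≠ l) (hil : i ≠ l)
    (h1 : R Γ e x i j a) (h2 : R Γ e x j l b) : R Γ e x i l (a * b) := by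
  have h := Rf.refl h2 h1
  have e1 : (x j - b⁻¹ • x l) (e i - a • e j) = -a := by
    simp [hb.diag, hb.off _ _ hij.symm, hb.off _ _ hil.symm, hb.off _ _ hjl.symm]
  have e2 : (x i - a⁻¹ • x j) (e j - b • e l) = -a⁻¹ := by
    simp [hb.diag, hb.off _ _ hij, hb.off _ _ hil, hb.off _ _ hjl]
  rw [e1, e2] at h
  unfold R
  convert h using 1
  · module
  · rw [mul_inv]; module

theorem R.neg (hb : Bi e x) {i j : Fin 3} {a : F} (hij : i ≠ j) (h1 : R Γ e x i j a)
    (h2 : Rf Γ (e j) ((2 : F) • x j)) : R Γ e x i j (-a) := by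
  have h := Rf.refl h2 h1
  have e1 : ((2 : F) • x j) (e i - a • e j) = -(2 * a) := by simp [hb.diag, hb.off _ _ hij.symm]
  have e2 : (x i - a⁻¹ • x j) (e j) = -a⁻¹ := by simp [hb.diag, hb.off _ _ hij]
  rw [e1, e2] at h
  unfold R
  convert h using 1
  · module
  · rw [inv_neg]; module

theorem mon_same (h : Mon e x v φ) : (∃ i, SameRf (e i) ((2 : F) • x i) v φ) ∨
    ∃ (i j : Fin 3) (t : F), i ≠ j ∧ t ≠ 0 ∧ SameRf (e i - t • e j) (x i - t⁻¹ • x j) v φ := by
  rcases h with ⟨i, a, ha, rfl, rfl⟩ | ⟨i, j, a, b, hij, ha, hb, rfl, rfl⟩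
  · exact Or.inl ⟨i, a, ha, rfl, by match_scalars; field_simp⟩
  · exact Or.inr ⟨i, j, -b / a, hij, by simp [ha, hb], a, ha, by match_scalars <;> field_simp,
      by match_scalars <;> field_simp⟩

/-- Every frame line is moved by a reflection. -/
theorem edge (h : AI Γ e x) (hm : ∀ v φ, Rf Γ v φ → In e x v φ → Mon e x v φ) (i : Fin 3) :
    ∃ j t, j ≠ i ∧ t ≠ 0 ∧ R Γ e x i j t := by
  by_contra hn
  have hb := h.bi
  rcases h.irr (Submodule.span F {e i}) (fun y hy => by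
      obtain ⟨c, rfl⟩ := Submodule.mem_span_singleton.1 hy
      rw [pr_smul, hb.pr_e]) (fun v φ hv hi y hy => by
      obtain ⟨c, rfl⟩ := Submodule.mem_span_singleton.1 hy
      rcases mon_same (hm v φ hv hi) with ⟨j, hs⟩ | ⟨j, l, t, hjl, ht, hs⟩
      · rw [hs.apply]
        by_cases hj : j = i
        · subst hj
          exact Submodule.smul_mem _ _ (Submodule.mem_span_singleton_self _)
        · simp [hb.off _ _ hj]
      · have hr : R Γ e x j l t := hv.same hs.symm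
        have h1 : j ≠ i := fun hj => hn ⟨l, t, by rw [← hj]; exact hjl.symm, ht, by rw [← hj]; exact hr⟩
        have h2 : l ≠ i := fun hl => hn ⟨j, t⁻¹, h1, inv_ne_zero ht, by rw [← hl]; exact hr.symm ht⟩
        rw [hs.apply]
        simp [hb.off _ _ h1, hb.off _ _ h2]) with h0 | h0
  · exact hb.e_ne i (by simpa using h0)
  · obtain ⟨j, hj⟩ := exists_ne i
    obtain ⟨c, hc⟩ := Submodule.mem_span_singleton.1 (h0 j)
    have := congrArg (x j) hc
    simp [hb.diag, hb.off _ _ hj] at this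

/-- Any two frame lines are swapped by a reflection. -/
theorem edges (h : AI Γ e x) (hm : ∀ v φ, Rf Γ v φ → In e x v φ → Mon e x v φ) {i j : Fin 3} (hij : i ≠ j) :
    ∃ t, t ≠ 0 ∧ R Γ e x i j t := by
  by_contra hn
  obtain ⟨l, s, hl, hs, h1⟩ := edge h hm i
  obtain ⟨m, t, hm', ht, h2⟩ := edge h hm j
  have hlj : l ≠ j := fun e => hn ⟨s, hs, e ▸ h1⟩
  have hmi : m ≠ i := fun e => hn ⟨t⁻¹, inv_ne_zero ht, e ▸ h2.symm ht⟩
  have : m = l := by omega
  subst this
  exact hn ⟨_, mul_ne_zero hs (inv_ne_zero ht), R.trans h.bi hl.symm hlj hij h1 (h2.symm ht)⟩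

theorem same_of_scale (c : Fin 3 → F) (hc : ∀ i, c i ≠ 0) :
    Same e x (fun i => c i • e i) fun i => (c i)⁻¹ • x i := fun y =>
  Finset.sum_congr rfl fun i _ => by
    simp only [LinearMap.smul_apply, smul_smul, smul_eq_mul]
    congr 1
    field_simp [hc i]

theorem bi_scale (hb : Bi e x) (c : Fin 3 → F) (hc : ∀ i, c i ≠ 0) :
    Bi (fun i => c i • e i) fun i => (c i)⁻¹ • x i :=
  ⟨fun i => by simp [hb.diag, hc i], fun i j hij => by simp [hb.off _ _ hij]⟩

theorem mon_scale (c : Fin 3 → F) (hc : ∀ i, c i ≠ 0) (h : Mon e x v φ) :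
    Mon (fun i => c i • e i) (fun i => (c i)⁻¹ • x i) v φ := by
  rcases h with ⟨i, a, ha, rfl, rfl⟩ | ⟨i, j, a, b, hij, ha, hb, rfl, rfl⟩
  · have := hc i
    exact Or.inl ⟨i, a / c i, div_ne_zero ha this, by match_scalars; field_simp, by match_scalars; field_simp⟩
  · have := hc i
    have := hc j
    exact Or.inr ⟨i, j, a / c i, b / c j, hij, div_ne_zero ha (hc i), div_ne_zero hb (hc j),
      by match_scalars <;> field_simp, by match_scalars <;> field_simp⟩

theorem R_scale (c : Fin 3 → F) (hc : ∀ i, c i ≠ 0) {i j : Fin 3} (h : R Γ e x i j (c j / c i)) :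
    R Γ (fun i => c i • e i) (fun i => (c i)⁻¹ • x i) i j 1 := by
  have := hc i
  have := hc j
  exact Rf.same h ⟨c i, hc i, by match_scalars <;> field_simp, by match_scalars <;> field_simp⟩

theorem third {i j : Fin 3} (hij : i ≠ j) : ∃ l, l ≠ i ∧ l ≠ j := by
  revert i j; decide

/-- All pairs give the same set of ratios. -/
theorem R_any (hb : Bi e x) (h1 : ∀ i j, i ≠ j → R Γ e x i j 1) {i j i' j' : Fin 3} {a : F} (hij : i ≠ j)
    (hij' : i' ≠ j') (h : R Γ e x i j a) : R Γ e x i' j' a := by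
  have right : ∀ {i j l : Fin 3}, i ≠ j → i ≠ l → R Γ e x i j a → R Γ e x i l a := fun {i j l} hij hil h => by
    by_cases hjl : j = l
    · exact hjl ▸ h
    · simpa using R.trans hb hij hjl hil h (h1 j l hjl)
  have left : ∀ {i j l : Fin 3}, i ≠ j → l ≠ j → R Γ e x i j a → R Γ e x l j a := fun {i j l} hij hlj h => by
    by_cases hli : l = i
    · exact hli ▸ h
    · simpa using R.trans hb hli hij hlj (h1 l i hli) h
  by_cases h0 : i = j'
  · obtain ⟨l, hl, hl'⟩ := third hij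
    exact left (h0 ▸ hl) hij' (right hl' (h0 ▸ hl) (left hij hl' h))
  · exact left h0 hij' (right hij h0 h)

/-- The group of ratios. -/
def ratios (hb : Bi e x) (h1 : ∀ i j, i ≠ j → R Γ e x i j 1) : Subgroup Fˣ where
  carrier := {a | R Γ e x 0 1 a}
  one_mem' := h1 0 1 (by decide)
  mul_mem' := fun {a b} ha hb' => by
    have := R.trans hb (i := 0) (j := 1) (l := 2) (by decide) (by decide) (by decide) ha
      (R_any hb h1 (by decide) (by decide) hb')
    exact R_any hb h1 (by decide) (by decide) this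
  inv_mem' := fun {a} ha => by
    have := R.symm ha a.ne_zero
    rw [← Units.val_inv_eq_inv_val] at this
    exact R_any hb h1 (by decide) (by decide) this

theorem mem_ratios (hb : Bi e x) (h1 : ∀ i j, i ≠ j → R Γ e x i j 1) {i j : Fin 3} (hij : i ≠ j) {a : Fˣ} :
    a ∈ ratios hb h1 ↔ R Γ e x i j a :=
  ⟨fun h => R_any hb h1 (by decide) hij h, fun h => R_any hb h1 hij (by decide) h⟩

/-- The standard form of the frame. -/
def form (x : Fin 3 → Dual F (ι → F)) (y z : ι → F) : F := ∑ i, x i y * x i z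

theorem form_comm (y z : ι → F) : form x y z = form x z y := by simp only [form, mul_comm]

theorem form_same {w : ι → F} {ψ : Dual F (ι → F)} (hs : SameRf v φ w ψ) (h : ∃ μ : F, ∀ y, φ y = μ * form x v y) :
    ∃ μ : F, ∀ y, ψ y = μ * form x w y := by
  obtain ⟨t, ht, rfl, rfl⟩ := hs
  obtain ⟨μ, h⟩ := h
  refine ⟨t⁻¹ * t⁻¹ * μ, fun y => ?_⟩
  simp only [LinearMap.smul_apply, h, form, map_smul, smul_eq_mul, Fin.sum_univ_three]
  field_simp

theorem form_e (hb : Bi e x) (i : Fin 3) (y : ι → F) : form x (e i) y = x i y := by simp [form, hb.apply]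

theorem form_swap (hb : Bi e x) (i j : Fin 3) (a : F) (y : ι → F) :
    form x (e i - a • e j) y = x i y - a * x j y := by
  rw [← form_e hb, ← form_e hb]
  simp only [form, map_sub, map_smul, smul_eq_mul, Fin.sum_univ_three]
  ring

theorem core (h : AI Γ e x) (hm : ∀ v φ, Rf Γ v φ → In e x v φ → Mon e x v φ)
    (h1 : ∀ i j, i ≠ j → R Γ e x i j 1) :
    ∃ M : Subgroup Fˣ, GCfg Γ M e x ∧ (∃ a ∈ M, a ^ 2 ≠ 1) ∧
      ∀ v φ, Rf Γ v φ → In e x v φ → (-1 ∈ M ∧ ∃ i, SameRf (e i) ((2 : F) • x i) v φ) ∨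
        ∃ i j, i ≠ j ∧ ∃ a ∈ M, SameRf (e i - (a : F) • e j) (x i - (a : F)⁻¹ • x j) v φ := by
  have hb := h.bi
  have key : ∀ v φ, Rf Γ v φ → In e x v φ → (-1 ∈ ratios hb h1 ∧ ∃ i, SameRf (e i) ((2 : F) • x i) v φ) ∨
      ∃ i j, i ≠ j ∧ ∃ a ∈ ratios hb h1, SameRf (e i - (a : F) • e j) (x i - (a : F)⁻¹ • x j) v φ := by
    intro v φ hv hi
    rcases mon_same (hm v φ hv hi) with ⟨j, hs⟩ | ⟨i, j, t, hij, ht, hs⟩
    · obtain ⟨i, hij⟩ := exists_ne j
      exact Or.inl ⟨(mem_ratios hb h1 hij).2 (by simpa using R.neg hb hij (h1 i j hij) (hv.same hs.symm)), j, hs⟩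
    · exact Or.inr ⟨i, j, hij, Units.mk0 t ht, (mem_ratios hb h1 hij).2 (hv.same hs.symm), hs⟩
  refine ⟨ratios hb h1, ⟨hb, fun i j hij a ha => (mem_ratios hb h1 hij).1 ha⟩, ?_, key⟩
  by_contra hn
  have hsq : ∀ a ∈ ratios hb h1, (a : F)⁻¹ = a := fun a ha => by
    have : a ^ 2 = 1 := by_contra fun h => hn ⟨a, ha, h⟩
    exact inv_eq_of_mul_eq_one_right (by rw [← Units.val_mul, ← sq, this, Units.val_one])
  have hf : ∀ v φ, Rf Γ v φ → In e x v φ → ∃ μ : F, ∀ y, φ y = μ * form x v y := fun v φ hv hi => by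
    rcases key v φ hv hi with ⟨-, i, hs⟩ | ⟨i, j, -, a, ha, hs⟩
    · exact form_same hs ⟨2, fun y => by simp [form_e hb]⟩
    · exact form_same hs ⟨1, fun y => by simp [form_swap hb, hsq a ha]⟩
  obtain ⟨u, φ, v, ψ, w, χ, hu, hv, hw, iu, iv, iw, ha⟩ := h.asym
  obtain ⟨a, ea⟩ := hf u φ hu iu
  obtain ⟨b, eb⟩ := hf v ψ hv iv
  obtain ⟨c, ec⟩ := hf w χ hw iw
  refine ha ?_
  rw [ea, ea, eb, eb, ec, ec, form_comm v u, form_comm w u, form_comm w v]
  ring

end FR

theorem stepFR : StepFR.{u} := by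
  intro F _ _ Γ hF e x h
  obtain ⟨e₁, x₁, hb, hs, hm⟩ := hF e x h
  have h₁ := h.congr hb hs
  have hm₁ : ∀ v φ, Rf Γ v φ → In e₁ x₁ v φ → Mon e₁ x₁ v φ := fun v φ hv hi => hm v φ hv (hs.in_iff.1 hi)
  obtain ⟨s, hs0, r1⟩ := FR.edges h₁ hm₁ (i := 0) (j := 1) (by decide)
  obtain ⟨t, ht0, r2⟩ := FR.edges h₁ hm₁ (i := 1) (j := 2) (by decide)
  have r3 := FR.R.trans hb (by decide) (by decide) (by decide) r1 r2
  have hc : ∀ i, (![1, s, s * t] : Fin 3 → F) i ≠ 0 := fun i => by fin_cases i <;> simp [hs0, ht0]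
  have hs' := FR.same_of_scale (e := e₁) (x := x₁) _ hc
  have hb' := FR.bi_scale hb _ hc
  have q1 := FR.R_scale (Γ := Γ) (e := e₁) (x := x₁) _ hc (i := 0) (j := 1) (by simpa using r1)
  have q2 := FR.R_scale (Γ := Γ) (e := e₁) (x := x₁) _ hc (i := 1) (j := 2) (by simpa [hs0] using r2)
  have q3 := FR.R_scale (Γ := Γ) (e := e₁) (x := x₁) _ hc (i := 0) (j := 2) (by simpa using r3)
  have q1' := q1.symm one_ne_zero
  have q2' := q2.symm one_ne_zero
  have q3' := q3.symm one_ne_zero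
  rw [inv_one] at q1' q2' q3'
  obtain ⟨M, g1, g2, g3⟩ := FR.core (h₁.congr hb' hs')
    (fun v φ hv hi => FR.mon_scale _ hc (hm₁ v φ hv (hs'.in_iff.1 hi))) (fun i j hij => by
      fin_cases i <;> fin_cases j <;> first | exact absurd rfl hij | assumption)
  exact ⟨M, _, _, g1, fun y => (hs' y).trans (hs y), g2, fun v φ hv hi =>
    g3 v φ hv (hs'.in_iff.2 (hs.in_iff.2 hi))⟩

end CL.Low4
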