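/-
Project LOW4: reflection groups of rank three in the imprimitive, semilinear and extraspecial classes are monomial.
-/
import Cfsg.Agent.Low4.Emb

set_option autoImplicit false
set_option linter.unusedSectionVars false

namespace CL.Low4

open Matrix Cfsg Cfsg.Geo CL.Asch CL.SLn CL.Low Module
open scoped commutatorElement

universe u

namespace GeoJ

section General

variable {ι : Type} [Fintype ι] [DecidableEq ι] {F : Type u} [Field F] {k : ℕ} {Γ : Subgroup (GL ι F)}
  {v y : ι → F} {φ : Dual F (ι → F)} {e : Fin k → ι → F} {x : Fin k → Dual F (ι → F)}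

theorem expand (hb : Bi e x) (hk : k = Fintype.card ι) (y : ι → F) : y = ∑ i, x i y • e i :=
  (hb.pr_eq_self hk y).symm

theorem expandD (hb : Bi e x) (hk : k = Fintype.card ι) (φ : Dual F (ι → F)) : φ = ∑ i, φ (e i) • x i :=
  (in_of_card hb hk 0 φ).2.symm

theorem ext_frame (hb : Bi e x) (hk : k = Fintype.card ι) {g h : GL ι F} (H : ∀ i, g • e i = h • e i) : g = h :=
  gext fun y => by
    rw [expand hb hk y]
    simp only [Finset.smul_sum, gsmul_smul, H]

/-- A reflection which permutes the lines of a frame is monomial. -/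
theorem lines (hb : Bi e x) (hk : k = Fintype.card ι) (h : Rf Γ v φ)
    (hp : ∀ i, ∃ (j : Fin k) (c : F), e i - φ (e i) • v = c • e j) : Mon e x v φ := by
  have off : ∀ {i j l : Fin k} {c : F}, e i - φ (e i) • v = c • e j → l ≠ i → l ≠ j → φ (e i) * x l v = 0 :=
    fun {i j l c} e1 h1 h2 => by
      have := congrArg (x l) e1
      simpa [hb.off l i h1, hb.off l j h2] using this
  have two : ∑ i, φ (e i) * x i v = 2 := by rw [← apply_pr, hb.pr_eq_self hk, h.two]
  by_cases hA : ∃ (i j : Fin k) (c : F), i ≠ j ∧ e i - φ (e i) • v = c • e j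
  · obtain ⟨i, j, c, hij, e1⟩ := hA
    have h1 : φ (e i) * x i v = 1 := by
      have := congrArg (x i) e1
      simp only [map_sub, map_smul, hb.diag, hb.off i j hij, smul_eq_mul, mul_zero] at this
      linear_combination -this
    have h2 : ∀ l, l ≠ i ∧ l ≠ j → x l v = 0 := fun l hl =>
      (mul_eq_zero.1 (off e1 hl.1 hl.2)).resolve_left (left_ne_zero_of_mul_eq_one h1)
    rw [Fintype.sum_eq_add i j hij fun l hl => by rw [h2 l hl, mul_zero]] at two
    have h3 : φ (e j) * x j v = 1 := by linear_combination two - h1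
    have hi := right_ne_zero_of_mul_eq_one h1
    have hj := right_ne_zero_of_mul_eq_one h3
    have h4 : ∀ l, l ≠ i ∧ l ≠ j → φ (e l) = 0 := fun l hl => by
      obtain ⟨m, d, e2⟩ := hp l
      by_cases hm : i = m
      · exact (mul_eq_zero.1 (off e2 hl.2.symm (hm ▸ hij.symm))).resolve_right hj
      · exact (mul_eq_zero.1 (off e2 hl.1.symm hm)).resolve_right hi
    refine Or.inr ⟨i, j, x i v, x j v, hij, hi, hj, ?_, ?_⟩
    · exact (expand hb hk v).trans (Fintype.sum_eq_add i j hij fun l hl => by rw [h2 l hl, zero_smul])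
    · rw [← eq_inv_of_mul_eq_one_left h1, ← eq_inv_of_mul_eq_one_left h3]
      exact (expandD hb hk φ).trans (Fintype.sum_eq_add i j hij fun l hl => by rw [h4 l hl, zero_smul])
  · have hB : ∀ i l, l ≠ i → φ (e i) * x l v = 0 := fun i l hl => by
      obtain ⟨j, c, e1⟩ := hp i
      obtain rfl : i = j := by_contra fun hij => hA ⟨i, j, c, hij, e1⟩
      exact off e1 hl hl
    obtain ⟨i, hi⟩ : ∃ i, φ (e i) ≠ 0 := not_forall.1 fun h0 => h.ne' (by rw [expandD hb hk φ]; simp [h0])
    have h2 : ∀ l, l ≠ i → x l v = 0 := fun l hl => (mul_eq_zero.1 (hB i l hl)).resolve_left hi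
    have h3 : v = x i v • e i := (expand hb hk v).trans (Fintype.sum_eq_single i fun l hl => by rw [h2 l hl, zero_smul])
    have h4 : x i v ≠ 0 := fun h0 => h.ne (by rw [h3, h0, zero_smul])
    rw [Fintype.sum_eq_single i fun l hl => by rw [h2 l hl, mul_zero]] at two
    refine Or.inl ⟨i, x i v, h4, h3, ?_⟩
    rw [← eq_div_of_mul_eq h4 two]
    exact (expandD hb hk φ).trans (Fintype.sum_eq_single i fun l hl => by
      rw [(mul_eq_zero.1 (hB l i hl.symm)).resolve_right h4, zero_smul])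

theorem eig_eq (hb : Bi e x) (hk : k = Fintype.card ι) {g : GL ι F} {ν : Fin k → F} (hg : ∀ j, g • e j = ν j • e j)
    {μ : F} (hy : g • y = μ • y) {j : Fin k} (hj : x j y ≠ 0) : ν j = μ := by
  have : x j (g • y) = ν j * x j y := by
    conv_lhs => rw [expand hb hk y]
    simp only [Finset.smul_sum, gsmul_smul, hg, map_sum, map_smul, smul_eq_mul]
    rw [Fintype.sum_eq_single j fun l hl => by rw [hb.off j l hl.symm]; ring, hb.diag]
    ring
  rw [hy, map_smul, smul_eq_mul] at this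
  exact (mul_right_cancel₀ hj this).symm

theorem eig_single (hb : Bi e x) (hk : k = Fintype.card ι) {g : GL ι F} {ν : Fin k → F} (hν : Function.Injective ν)
    (hg : ∀ j, g • e j = ν j • e j) {i : Fin k} (hy : g • y = ν i • y) : y = x i y • e i :=
  (expand hb hk y).trans (Fintype.sum_eq_single i fun l hl => by
    rw [show x l y = 0 from by_contra fun h => hl (hν (eig_eq hb hk hg hy h)), zero_smul])

end General

variable {F : Type u} [Field F] {K : Subgroup (GL (Fin 3) F)} {e : Fin 3 → Fin 3 → F}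
  {x : Fin 3 → Dual F (Fin 3 → F)}

theorem three : 3 = Fintype.card (Fin 3) := (Fintype.card_fin 3).symm

theorem exists_bi (h : LinearIndependent F e) : ∃ x, Bi e x := by
  let b := basisOfLinearIndependentOfCardEqFinrank h (by simp)
  have hb : ∀ i, e i = b i := fun i => by simp [b]
  exact ⟨fun i => b.coord i, fun i => by rw [hb]; simp, fun i j hij => by rw [hb]; simp [hij.symm]⟩

/-- A monomial group has no quaternion group in its derived group. -/
theorem nq (hb : Bi e x) (hp : ∀ g ∈ K, ∀ i, ∃ (j : Fin 3) (c : F), g • e i = c • e j) : NQ K := by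
  choose f c hf using fun g : K => hp g g.2
  have uniq : ∀ (g : K) i j (d : F), (g : GL (Fin 3) F) • e i = d • e j → f g i = j := fun g i j d h => by
    by_contra hne
    have h1 := congrArg (x (f g i)) (h.symm.trans (hf g i))
    simp only [map_smul, hb.diag, hb.off _ _ hne, smul_eq_mul, mul_zero, mul_one] at h1
    have h2 := hf g i
    rw [← h1, zero_smul, smul_eq_zero_iff_eq] at h2
    exact hb.e_ne i h2
  letI : MulAction K (Fin 3) :=
    { smul := f
      one_smul := fun i => uniq 1 i i 1 (by simp)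
      mul_smul := fun g h i => uniq _ i _ (c h i * c g (f h i)) (by
        rw [Subgroup.coe_mul, mul_smul, hf, gsmul_smul, hf, smul_smul]; rfl) }
  let σ := MulAction.toPermHom K (Fin 3)
  have h1 : ⁅K, K⁆ ≤ (Equiv.Perm.sign.comp σ).ker.map K.subtype := Subgroup.commutator_le.2 fun g hg h hh =>
    ⟨⁅(⟨g, hg⟩ : K), (⟨h, hh⟩ : K)⁆, by
      rw [SetLike.mem_coe, MonoidHom.mem_ker, map_commutatorElement]
      exact commutatorElement_eq_one_iff_mul_comm.2 (mul_comm _ _), rfl⟩
  have h2 : ∀ s : Equiv.Perm (Fin 3), Equiv.Perm.sign s = 1 → s ^ 4 = 1 → s = 1 := by decide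
  have h3 : ∀ a ∈ ⁅K, K⁆, a ^ 4 = 1 → ∀ i, ∃ d : F, a • e i = d • e i := fun a ha h4 i => by
    obtain ⟨g, hg, rfl⟩ := h1 ha
    have : σ g = 1 := h2 _ hg (by rw [← map_pow, show g ^ 4 = 1 from Subtype.ext h4, map_one])
    have e1 : f g i = i := congrArg (fun s : Equiv.Perm (Fin 3) => s i) this
    exact ⟨c g i, (hf g i).trans (by rw [e1])⟩
  intro a ha b hb' a4 hab hbb
  have b4 : b ^ 4 = 1 := by
    rw [show b ^ 4 = b * b * (b * b) by simp only [pow_succ, pow_zero, one_mul, mul_assoc], hbb, ← a4]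
    simp only [pow_succ, pow_zero, one_mul, mul_assoc]
  have hc : b * a = a * b := ext_frame hb three fun i => by
    obtain ⟨d, hd⟩ := h3 a ha a4 i
    obtain ⟨d', hd'⟩ := h3 b hb' b4 i
    rw [mul_smul, mul_smul, hd, hd', gsmul_smul, gsmul_smul, hd, hd', smul_comm]
  rw [hc, mul_inv_cancel_right] at hab
  exact mul_eq_one_iff_eq_inv.2 hab

theorem core (hg : RfGen K) (hb : Bi e x)
    (hp : ∀ (g : GL (Fin 3) F) v φ, Rf K v φ → g ∈ K → (∀ y, g • y = y - φ y • v) →
      ∀ i, ∃ (j : Fin 3) (c : F), g • e i = c • e j) : NQ K ∧ ∀ v φ, Rf K v φ → Mon e x v φ := by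
  have hm : ∀ v φ, Rf K v φ → Mon e x v φ := fun v φ h => lines hb three h fun i => by
    obtain ⟨g, h1, h2⟩ := h.mem
    rw [← h2]
    exact hp g v φ h h1 h2 i
  exact ⟨nq hb fun g hg' => hg.induction (P := fun g => ∀ i, ∃ (j : Fin 3) (c : F), g • e i = c • e j)
    (fun i => ⟨i, 1, by simp⟩) (fun a b ha hb i => by
      obtain ⟨j, c, h1⟩ := hb i
      obtain ⟨l, c', h2⟩ := ha j
      exact ⟨l, c * c', by rw [mul_smul, h1, gsmul_smul, h2, smul_smul]⟩)
    (fun g v φ h1 eg i => by rw [eg]; exact (hm v φ h1).perm hb i) hg', hm⟩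

theorem exists_rf (hg : RfGen K) (hi : Irr K) : ∃ v φ, Rf K v φ := by
  by_contra h
  rcases irr_rf hg hi (LinearMap.ker (LinearMap.proj 0 : (Fin 3 → F) →ₗ[F] F))
    (fun v φ h1 => absurd ⟨v, φ, h1⟩ h) with h1 | h1
  · have : (Pi.single 1 1 : Fin 3 → F) ∈ (⊥ : Submodule F (Fin 3 → F)) := h1 ▸ by simp
    simpa using congrFun ((Submodule.mem_bot F).1 this) 1
  · have : (Pi.single 0 1 : Fin 3 → F) ∈ LinearMap.ker (LinearMap.proj 0 : (Fin 3 → F) →ₗ[F] F) :=
      h1 ▸ Submodule.mem_top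
    simp at this

theorem not_field (hg : RfGen K) (hi : Irr K) {A : Subalgebra F (Matrix (Fin 3) (Fin 3) F)}
    (hA : IsFieldSubalgebra 3 A) (hK : K ≤ subalgebraNormalizer A) : False := by
  obtain ⟨v, φ, h⟩ := exists_rf hg hi
  obtain ⟨r, hr, er⟩ := h.mem
  have z : ∀ b ∈ A, ∀ y : Fin 3 → F, y ≠ 0 → b *ᵥ y = 0 → b = 0 := fun b hb y hy h0 => by
    by_contra hne
    obtain ⟨c, hc, e1⟩ := hA.inv b hb hne
    rw [hA.comm b hb c hc] at e1
    exact hy (by rw [← one_mulVec y, ← e1, ← mulVec_mulVec, h0, mulVec_zero])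
  have hle : A = ⊥ := eq_bot_iff.2 fun a ha => by
    have h1 := (hK hr a).1 ha
    rw [rf_inv h.two er] at h1
    obtain ⟨y, hy, hy0⟩ := (Submodule.ne_bot_iff _).1
      (LinearMap.ker_ne_bot_of_finrank_lt (f := φ.prod (φ ∘ₗ a.mulVecLin)) (by simp))
    have y1 : φ y = 0 := congrArg Prod.fst (LinearMap.mem_ker.1 hy)
    have y2 : φ (a *ᵥ y) = 0 := congrArg Prod.snd (LinearMap.mem_ker.1 hy)
    have h2 := z _ (A.sub_mem h1 ha) y hy0 (by
      rw [sub_mulVec, ← mulVec_mulVec, ← mulVec_mulVec, ← gsmul_def, ← gsmul_def, er y, y1, zero_smul, sub_zero, er,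
        y2, zero_smul, sub_zero, sub_self])
    obtain ⟨w, hw⟩ : ∃ w, φ w ≠ 0 := not_forall.1 fun h0 => h.ne' (LinearMap.ext h0)
    have h4 : r • (a *ᵥ (r • w)) = a *ᵥ w := by
      rw [gsmul_def, gsmul_def, mulVec_mulVec, mulVec_mulVec, sub_eq_zero.1 h2]
    rw [er, er w, mulVec_sub, mulVec_smul] at h4
    generalize φ (a *ᵥ w - φ w • a *ᵥ v) = t at h4
    have h5 : a *ᵥ v = (-t / φ w) • v := by
      apply smul_right_injective _ hw
      change φ w • a *ᵥ v = φ w • (-t / φ w) • v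
      rw [smul_smul, mul_div_cancel₀ _ hw, neg_smul, eq_neg_iff_add_eq_zero]
      exact sub_eq_self.1 ((sub_sub _ _ _).symm.trans h4)
    have h6 := z _ (A.sub_mem ha (A.smul_mem A.one_mem (-t / φ w))) v h.ne (by
      rw [sub_mulVec, smul_mulVec, one_mulVec, h5, sub_self])
    rw [sub_eq_zero.1 h6]
    exact Subalgebra.smul_mem _ (Subalgebra.one_mem _) _
  have := hA.finrank_eq
  rw [hle, Subalgebra.finrank_bot] at this
  omega

theorem exists_eig {a : GL (Fin 3) F} (ha : a ^ 3 = 1) {ω : F} (hω : ω ^ 2 + ω + 1 = 0) :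
    ∃ (y : Fin 3 → F) (c : F), y ≠ 0 ∧ a • y = c • y := by
  have h0 : (Pi.single 0 1 : Fin 3 → F) ≠ 0 := fun h => by simpa using congrFun h 0
  generalize (Pi.single 0 1 : Fin 3 → F) = y at h0
  by_cases h1 : a • y - y = 0
  · exact ⟨y, 1, h0, by rw [one_smul, sub_eq_zero.1 h1]⟩
  by_cases h2 : a • (a • y - y) - ω • (a • y - y) = 0
  · exact ⟨_, ω, h1, sub_eq_zero.1 h2⟩
  refine ⟨_, ω ^ 2, h2, ?_⟩
  have h3 : a • a • a • y = y := by
    rw [← mul_smul, ← mul_smul, ← pow_three', ha, one_smul]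
  simp only [smul_sub, gsmul_smul, h3]
  generalize a • a • y = y2
  generalize a • y = y1
  match_scalars
  · linear_combination (1 - ω) * hω
  · linear_combination -hω
  · linear_combination ω * hω

theorem heis (hg : RfGen K) {R : Subgroup (GL (Fin 3) F)} (hR : IsHeis R) (h3 : ∀ a ∈ R, a ^ 3 = 1)
    (hK : K ≤ subgroupNormalizer R) :
    NQ K ∧ ∃ (e : Fin 3 → Fin 3 → F) (x : Fin 3 → Dual F (Fin 3 → F)), Bi e x ∧ ∀ v φ, Rf K v φ → Mon e x v φ := by
  obtain ⟨b, hb, a, ha, ω, hω1, hω⟩ := hR.exists_not_comm (by simp)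
  have cube : ∀ {p q : GL (Fin 3) F} {t : Fˣ}, q ∈ R → q * p = p * q * scal _ t → t ^ 3 = 1 := fun hq h =>
    comm_pow_eq_one h (by rw [h3 _ hq]; exact one_mem _)
  have w1 : (ω : F) ≠ 1 := fun h => hω1 (Units.ext h)
  have w3 : (ω : F) ^ 3 = 1 := by simpa using congrArg Units.val (cube ha hω)
  have w2 : (ω : F) ^ 2 + ω + 1 = 0 := mul_left_cancel₀ (sub_ne_zero.2 w1) (by linear_combination w3)
  obtain ⟨y, c, hy, hc⟩ := exists_eig (h3 a ha) w2
  have c0 : c ≠ 0 := fun h => hy (by rwa [h, zero_smul, smul_eq_zero_iff_eq] at hc)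
  have step : ∀ (z : Fin 3 → F) (d : F), a • z = d • z → a • b • z = (d * ω) • b • z := fun z d h => by
    rw [← mul_smul, hω, mul_smul, mul_smul, scal_gsmul, gsmul_smul, h, gsmul_smul, gsmul_smul, smul_smul, mul_comm]
  obtain ⟨e, μ, he, hμ, hae⟩ : ∃ (e : Fin 3 → Fin 3 → F) (μ : Fin 3 → F), (∀ i, e i ≠ 0) ∧ Function.Injective μ ∧
      ∀ i, a • e i = μ i • e i := by
    refine ⟨![y, b • y, b • b • y], ![c, c * ω, c * ω * ω], fun i => ?_, ?_, fun i => ?_⟩
    · have k : ∀ z : Fin 3 → F, z ≠ 0 → b • z ≠ 0 := fun z hz h => hz ((smul_eq_zero_iff_eq _).1 h)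
      fin_cases i
      exacts [hy, k _ hy, k _ (k _ hy)]
    · have n1 : c ≠ c * ω := fun h => w1 (mul_left_cancel₀ c0 (by rw [mul_one, ← h]))
      have n2 : c * ω ≠ c * ω * ω := fun h => w1 (mul_left_cancel₀ (mul_ne_zero c0 ω.ne_zero) (by rw [mul_one, ← h]))
      have n3 : c ≠ c * ω * ω := fun h => w1 (mul_left_cancel₀ c0 (by linear_combination ω * h + c * w3))
      intro i j
      fin_cases i <;> fin_cases j
      exacts [fun _ => rfl, fun h => absurd h n1, fun h => absurd h n3, fun h => absurd h n1.symm, fun _ => rfl,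
        fun h => absurd h n2, fun h => absurd h n3.symm, fun h => absurd h n2.symm, fun _ => rfl]
    · fin_cases i
      exacts [hc, step _ _ hc, step _ _ (step _ _ hc)]
  obtain ⟨x, hx⟩ := exists_bi (End.eigenvectors_linearIndependent' (Matrix.toLin' (a : Matrix (Fin 3) (Fin 3) F)) μ hμ e
    fun i => ⟨End.mem_eigenspace_iff.2 (hae i), he i⟩)
  suffices h : _ from (core hg hx h).imp_right fun h => ⟨e, x, hx, h⟩
  intro r v φ h hr er i
  have r2 := rf_sq h.two er
  have ri := rf_inv h.two er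
  have ha' : r * a * r⁻¹ ∈ R := (Subgroup.mem_normalizer_iff.1 (hK hr) a).1 ha
  rw [ri] at ha'
  obtain ⟨ζ, hζ⟩ := hR.comm a ha _ ha'
  have rr : ∀ t, r * (r * t) = t := fun t => by rw [← mul_assoc, r2, one_mul]
  have h1 : a * (r * a * r) = r * a * r * a * scal _ ζ := by
    have := congrArg (fun t => r * t * r) hζ
    simp only [mul_assoc, rr, scal_comm ζ r] at this
    simpa only [mul_assoc] using this
  have h2 : ζ = 1 := by
    rw [hζ, mul_assoc _ (scal _ ζ), ← map_mul, left_eq_mul] at h1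
    have h4 : ζ ^ 2 = 1 := by
      have := congrFun ((scal_gsmul (ζ * ζ) (1 : Fin 3 → F)).symm.trans (by rw [h1, one_smul])) 0
      exact Units.ext (by simpa [pow_two] using this)
    have h5 := cube ha' hζ
    rwa [pow_succ, h4, one_mul] at h5
  rw [h2, map_one, mul_one] at hζ
  have h4 : ∀ j, (r * a * r) • e j = x j ((r * a * r) • e j) • e j := fun j =>
    eig_single hx three hμ hae (by rw [← mul_smul, ← hζ, mul_smul, hae, gsmul_smul])
  have h5 : ∀ j, (r * a * r) • r • e j = μ j • r • e j := fun j => by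
    rw [← mul_smul, mul_assoc, r2, mul_one, mul_smul, hae, gsmul_smul]
  have h6 : ∀ j, ∃ l, x l ((r * a * r) • e l) = μ j := fun j => by
    obtain ⟨l, hl⟩ : ∃ l, x l (r • e j) ≠ 0 := not_forall.1 fun h0 => he j (by
      have := expand hx three (r • e j)
      exact (smul_eq_zero_iff_eq r).1 (by simpa [h0] using this))
    exact ⟨l, eig_eq hx three h4 (h5 j) hl⟩
  choose J hJ using h6
  have h7 : Function.Surjective J := Finite.surjective_of_injective fun p q hpq => hμ (by rw [← hJ, ← hJ, hpq])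
  refine ⟨J i, _, eig_single hx three (fun p q hpq => ?_) h4 ((h5 i).trans (by rw [hJ]))⟩
  obtain ⟨p, rfl⟩ := h7 p
  obtain ⟨q, rfl⟩ := h7 q
  rw [hμ ((hJ p).symm.trans (hpq.trans (hJ q)))]

end GeoJ

theorem subGeo : SubGeo.{u} := by
  rintro F _ _ K hg hi (⟨D, hD, hK⟩ | ⟨A, hA, hK⟩ | ⟨R, hR, h3, hK⟩)
  · choose e he0 he using fun i => finrank_eq_one_iff'.1 (hD.finrank_eq i)
    obtain ⟨x, hx⟩ := GeoJ.exists_bi (hD.indep.linearIndependent D (fun i => (e i).2)
      fun i h => he0 i (Subtype.ext h))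
    refine (GeoJ.core hg hx fun g v φ _ hg' _ i => ?_).imp_right fun h => ⟨_, x, hx, h⟩
    obtain ⟨σ, hσ⟩ := hK hg'
    obtain ⟨c, hc⟩ := he (σ i) ⟨g • (e i : Fin 3 → F), hσ i ▸ ⟨e i, (e i).2, rfl⟩⟩
    exact ⟨σ i, c, (congrArg Subtype.val hc).symm⟩
  · exact (GeoJ.not_field hg hi hA hK).elim
  · exact GeoJ.heis hg hR h3 hK

end CL.Low4
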