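/-
Project LOW4: rigidity of the triple generating `SL₂(7)` in dimension four (`SubI27`), by Scott's lemma.
-/
import Cfsg.Agent.Low4.Defs3
import Cfsg.Agent.Low5.Scott

set_option autoImplicit false
set_option linter.unusedSectionVars false

namespace CL.Low4

open Matrix Cfsg Cfsg.Geo CL.Asch CL.SLn CL.Low Module
open scoped commutatorElement MatrixGroups

universe u

namespace I27

variable {F : Type u} [Field F]

/-- The space of matrices. -/
abbrev W (F : Type u) : Type u := Matrix (Fin 4) (Fin 4) F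

/-- The operator `M ↦ a' M a⁻¹`. -/
noncomputable def T (a' a : G F) : End F (W F) := LinearMap.mulLeftRight F (a'.val, (a⁻¹).val)

theorem T_apply (a' a : G F) (M : W F) : T a' a M = a'.val * M * (a⁻¹).val := LinearMap.mulLeftRight_apply _ _ _

theorem T_mul (a' a b' b : G F) : T a' a * T b' b = T (a' * b') (a * b) := LinearMap.ext fun M => by
  simp only [End.mul_apply, T_apply, _root_.mul_inv_rev, Units.val_mul, Matrix.mul_assoc]

theorem T_eq {a' a : G F} {M N : W F} : T a' a M = N ↔ a'.val * M = N * a.val := by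
  rw [T_apply, Units.mul_inv_eq_iff_eq_mul]

theorem dimW : finrank F (W F) = 16 := by simp [finrank_matrix]

theorem rk_le {a' a : G F} {U : Type*} [AddCommGroup U] [Module F U] (f : U →ₗ[F] W F) (inj : Function.Injective f)
    (h : ∀ u, a'.val * f u = f u * a.val) : finrank F (LinearMap.range (T a' a - 1)) + finrank F U ≤ 16 := by
  have h1 := LinearMap.finrank_range_add_finrank_ker (T a' a - 1)
  have h2 := LinearMap.finrank_le_finrank_of_injective (f := f.codRestrict (LinearMap.ker (T a' a - 1)) fun u =>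
    LinearMap.mem_ker.2 (show T a' a (f u) - f u = 0 from sub_eq_zero.2 (T_eq.2 (h u)))) fun u v e => inj (congrArg Subtype.val e)
  rw [dimW] at h1
  omega

/-- Intertwiners from coordinates in which both matrices act in the same way. -/
theorem rk_coord {a' a : G F} {U : Type*} [AddCommGroup U] [Module F U] (C : V F → V F) (Φ : V F →ₗ[F] V F)
    (hΦ : ∀ w, Φ w = 0 → w = 0) (h' : ∀ w, Φ (a' • w) = C (Φ w)) (ψ : U →ₗ[F] V F →ₗ[F] V F)
    (inj : ∀ u, ψ u = 0 → u = 0) (h : ∀ u v, ψ u (a • v) = C (ψ u v)) :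
    finrank F (LinearMap.range (T a' a - 1)) + finrank F U ≤ 16 := by
  have i := (injective_iff_map_eq_zero Φ).2 hΦ
  let e := LinearEquiv.ofBijective Φ ⟨i, LinearMap.injective_iff_surjective.1 i⟩
  have he : ∀ w, Φ (e.symm w) = w := e.apply_symm_apply
  let f : U →ₗ[F] W F :=
    (LinearMap.toMatrix' (R := F)).toLinearMap ∘ₗ LinearMap.llcomp F _ _ _ e.symm.toLinearMap ∘ₗ ψ
  have hf : ∀ u v, f u *ᵥ v = e.symm (ψ u v) := fun u v => LinearMap.toMatrix'_mulVec _ _
  refine rk_le f ((injective_iff_map_eq_zero f).2 fun u hu => inj u (LinearMap.ext fun v => ?_)) fun u =>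
    matrix_ext_mulVec fun v => i ?_
  · rw [← he (ψ u v), ← hf, hu, zero_mulVec, map_zero, LinearMap.zero_apply]
  · rw [← mulVec_mulVec, ← mulVec_mulVec, ← gsmul_def, ← gsmul_def, h', hf, hf, he, he, h]

/-- The action of a matrix as a linear map. -/
abbrev act (g : G F) : V F →ₗ[F] V F := DistribSMul.toLinearMap F (V F) g

theorem r1 {x x' j : G F} (xx : x * x = -1) (xx' : x' * x' = -1) (hj : j * x' = -(x' * j)) :
    finrank F (LinearMap.range (T x' x - 1)) ≤ 8 := by
  have := rk_le (a' := x') (a := x) (LinearMap.mulLeft F j.val ∘ₗ (LinearMap.range (T x' x - 1)).subtype)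
    (fun u v e => Subtype.ext ((Units.mul_right_inj j).1 e)) fun ⟨_, M, rfl⟩ => by
      have e : T x' x (T x' x M) = M := by
        rw [← End.mul_apply, T_mul, T_eq, xx, xx', Units.val_neg, Units.val_one, neg_mul, mul_neg, one_mul, mul_one]
      have e2 : T x' x ((T x' x - 1) M) = -(T x' x - 1) M := by
        rw [LinearMap.sub_apply, map_sub, e, End.one_apply, neg_sub]
      have e3 : x'.val * j.val = -(j.val * x'.val) := by
        rw [← Units.val_mul, ← Units.val_mul, hj, Units.val_neg, neg_neg]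
      change x'.val * (j.val * (T x' x - 1) M) = j.val * (T x' x - 1) M * x.val
      rw [← mul_assoc, e3, neg_mul, mul_assoc, T_eq.1 e2, neg_mul, mul_neg, neg_neg, mul_assoc]
  omega

/-- The first four points of the orbit of a functional. -/
noncomputable def orb (z : G F) : Dual F (V F) →ₗ[F] V F →ₗ[F] V F where
  toFun l := LinearMap.pi fun k : Fin 4 => l ∘ₗ act (z ^ (k : ℕ))
  map_add' _ _ := rfl
  map_smul' _ _ := rfl

theorem orb_apply (z : G F) (l : Dual F (V F)) (v : V F) (k : Fin 4) : orb z l v k = l (z ^ (k : ℕ) • v) := rfl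

theorem orb_step {b : F} {z : G F} (hz : chi7 b z.val = 0) (l : Dual F (V F)) (v : V F) :
    orb z l (z • v) = (fun t : V F => ![t 1, t 2, t 3, (b + 1) * t 3 + t 2 - b * t 1 - t 0]) (orb z l v) := by
  have e : z.val ^ 4 = (b + 1) • z.val ^ 3 + z.val ^ 2 - b • z.val - 1 := by
    rw [← sub_eq_zero, ← hz, chi7]
    simp only [mul_sub, sub_mul, mul_smul_comm, one_mul, mul_one, ← pow_succ', ← pow_two]
    module
  ext k
  fin_cases k <;> simp only [orb_apply, ← mul_smul, ← pow_succ]
  · rfl
  · rfl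
  · rfl
  · change l ((z ^ 4).val *ᵥ v) = (b + 1) * l ((z ^ 3).val *ᵥ v) + l ((z ^ 2).val *ᵥ v) - b * l ((z ^ 1).val *ᵥ v) -
      l ((z ^ 0).val *ᵥ v)
    simp only [Units.val_pow_eq_pow_val, e, sub_mulVec, add_mulVec, smul_mulVec, map_sub, map_add, map_smul,
      smul_eq_mul, pow_one, pow_zero, Units.val_one]

theorem r3 {b : F} {z z' : G F} (hz : chi7 b z.val = 0) (hz' : chi7 b z'.val = 0) {l : Dual F (V F)}
    (hl : ∀ w : V F, (∀ k < 4, l (z' ^ k • w) = 0) → w = 0) : finrank F (LinearMap.range (T z' z - 1)) ≤ 12 := by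
  have := rk_coord (a' := z') (a := z) (fun t : V F => ![t 1, t 2, t 3, (b + 1) * t 3 + t 2 - b * t 1 - t 0]) (orb z' l)
    (fun w hw => hl w fun k hk => congrFun hw ⟨k, hk⟩) (orb_step hz' l) (orb z)
    (fun u hu => LinearMap.ext fun v => by simpa [orb_apply] using congrFun (LinearMap.congr_fun hu v) 0) (orb_step hz)
  rw [Subspace.dual_finrank_eq, finrank_fin_fun] at this
  omega

/-- The orbit of one functional under an element of order three, and a second functional. -/
noncomputable def orb3 (y : G F) : (Dual F (V F) × Dual F (V F)) →ₗ[F] V F →ₗ[F] V F where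
  toFun l := LinearMap.pi ![l.1, l.1 ∘ₗ act y, l.1 ∘ₗ act (y ^ 2), l.2]
  map_add' _ _ := LinearMap.ext fun _ => funext fun k => by fin_cases k <;> rfl
  map_smul' _ _ := LinearMap.ext fun _ => funext fun k => by fin_cases k <;> rfl

theorem orb3_apply (y : G F) (l m : Dual F (V F)) (v : V F) :
    orb3 y (l, m) v = ![l v, l (y • v), l (y ^ 2 • v), m v] := funext fun k => by fin_cases k <;> rfl

theorem orb3_step {y : G F} (hy : y ^ 3 = 1) (l m : Dual F (V F)) (hm : ∀ w : V F, m (y • w) = m w) (v : V F) :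
    orb3 y (l, m) (y • v) = (fun t : V F => ![t 1, t 2, t 0, t 3]) (orb3 y (l, m) v) := by
  simp only [orb3_apply, ← mul_smul, ← pow_succ, ← pow_two, hm, hy, one_smul]
  rfl

theorem r2 {y y' : G F} (hy : y ^ 3 = 1) (hy' : y' ^ 3 = 1) (rk : (y.val - 1).rank ≤ 2) {l m : Dual F (V F)}
    (hm : ∀ w : V F, m (y' • w) = m w) (hl : ∀ w : V F, (∀ k < 3, l (y' ^ k • w) = 0) → m w = 0 → w = 0) :
    finrank F (LinearMap.range (T y' y - 1)) ≤ 10 := by
  set R := LinearMap.range (y.val - 1).mulVecLin
  have h1 := Subspace.finrank_add_finrank_dualAnnihilator_eq R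
  have := rk_coord (a' := y') (a := y) (U := Dual F (V F) × R.dualAnnihilator)
    (fun t : V F => ![t 1, t 2, t 0, t 3]) (orb3 y' (l, m)) (fun w hw => by
      rw [orb3_apply] at hw
      refine hl w (fun k hk => ?_) (congrFun hw 3)
      interval_cases k
      · simpa using congrFun hw 0
      · simpa using congrFun hw 1
      · exact congrFun hw 2) (orb3_step hy' l m hm)
    (orb3 y ∘ₗ LinearMap.prodMap LinearMap.id R.dualAnnihilator.subtype)
    (fun u hu => Prod.ext (LinearMap.ext fun v => congrFun (LinearMap.congr_fun hu v) 0)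
      (Subtype.ext (LinearMap.ext fun v => congrFun (LinearMap.congr_fun hu v) 3)))
    fun u => orb3_step hy u.1 u.2 fun w => by
      have := (Submodule.mem_dualAnnihilator _).1 u.2.2 _ (LinearMap.mem_range_self _ w)
      rwa [mulVecLin_apply, sub_mulVec, one_mulVec, map_sub, sub_eq_zero] at this
  have fr := Module.Free.of_divisionRing F R.dualAnnihilator
  rw [finrank_prod, Subspace.dual_finrank_eq, finrank_fin_fun] at this
  rw [finrank_fin_fun] at h1
  change finrank F R ≤ 2 at rk
  omega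

theorem inv_sub {P : Subgroup (G F)} (hP : Irr P) {x y : G F} (gen : Subgroup.closure {x, y} = P)
    {U : Submodule F (V F)} (hx : x ∈ subspaceStabilizer U) (hy : y ∈ subspaceStabilizer U) : U = ⊥ ∨ U = ⊤ :=
  irr_iff.1 hP U fun _ hh w hw => (Asch.mem_subspaceStabilizer.1
    ((Subgroup.closure_le _).2 (Set.insert_subset hx (Set.singleton_subset_iff.2 hy)) (gen.ge hh)) w).1 hw

theorem ker_stab {a' a : G F} {M : W F} (h : a'.val * M = M * a.val) :
    a ∈ subspaceStabilizer (LinearMap.ker M.mulVecLin) := Asch.mem_subspaceStabilizer.2 fun v => by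
  rw [LinearMap.mem_ker, LinearMap.mem_ker, mulVecLin_apply, mulVecLin_apply, mulVec_mulVec, ← h, ← mulVec_mulVec,
    ← gsmul_def, smul_eq_zero_iff_eq]

theorem range_stab {a' a : G F} {N : W F} (h : a.val * N = N * a'.val) :
    a ∈ subspaceStabilizer (LinearMap.range N.mulVecLin) := Asch.mem_subspaceStabilizer.2 fun v =>
  ⟨fun ⟨w, e⟩ => ⟨a'.val *ᵥ w, by rw [← e, mulVecLin_apply, mulVecLin_apply, mulVec_mulVec, mulVec_mulVec, h]⟩,
    fun ⟨w, e⟩ => ⟨(a'⁻¹).val *ᵥ w, by
      rw [← gl_inv_mulVec a v, ← e, mulVecLin_apply, mulVecLin_apply, mulVec_mulVec, mulVec_mulVec,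
        (Units.mul_inv_eq_iff_eq_mul a').2 (show N = (a⁻¹).val * N * a'.val by
          rw [mul_assoc, ← h, Units.inv_mul_cancel_left])]⟩⟩

theorem exists_trace (φ : Dual F (W F)) : ∃ N : W F, ∀ M, φ M = (N * M).trace :=
  ⟨of fun i j => φ (single j i 1), fun M => by
    conv_lhs => rw [matrix_eq_sum_single M]
    simp only [map_sum, trace, diag_apply, mul_apply, of_apply]
    rw [Finset.sum_comm]
    refine Finset.sum_congr rfl fun i _ => Finset.sum_congr rfl fun j _ => ?_
    rw [mul_comm, ← smul_eq_mul, ← map_smul, smul_single, smul_eq_mul, mul_one]⟩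

theorem of_trace {a' a : G F} {N : W F} (h : ∀ M, (N * (T a' a - 1) M).trace = 0) : a.val * N = N * a'.val := by
  have : (a⁻¹).val * (N * a'.val) = N := ext_iff_trace_mul_right.2 fun M => by
    have := h M
    rw [LinearMap.sub_apply, End.one_apply, T_apply, mul_sub, trace_sub, sub_eq_zero, ← mul_assoc, trace_mul_comm]
      at this
    simpa only [mul_assoc] using this
  rw [Units.inv_mul_eq_iff_eq_mul] at this
  exact this.symm

end I27

open I27 in
theorem subI27 : SubI27.{u} := fun F _ _ P K x y x' y' b _ hP t m => by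
  by_contra hc
  obtain ⟨j, hj⟩ := m.anti
  obtain ⟨l, hl⟩ := m.cz
  obtain ⟨l', μ, hμ, hl'⟩ := m.cy
  have h := Low5.Scott.lin (T x' x) (T y' y) (fun M h1 h2 => ?_) ?_
  · have h1 := r1 t.xx m.xx hj
    have h2 := r2 t.yy m.yy t.rk hμ hl'
    have h3 := r3 t.zz m.zz hl
    rw [T_mul, dimW] at h
    omega
  · have e1 := T_eq.1 h1
    have e2 : y'.val * M = M * y.val := T_eq.1 ((Units.mul_right_inj x').1 ((T_eq.1 h2).trans e1.symm))
    rcases inv_sub hP t.gen (ker_stab e1) (ker_stab e2) with k | k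
    · obtain ⟨c, rfl⟩ := mulVec_injective_iff_isUnit.1 (LinearMap.ker_eq_bot.1 k)
      exact (hc ⟨c, mul_inv_eq_iff_eq_mul.2 (Units.ext e1.symm), mul_inv_eq_iff_eq_mul.2 (Units.ext e2.symm)⟩).elim
    · exact matrix_ext_mulVec fun v => (zero_mulVec v).symm ▸ (k.ge Submodule.mem_top : v ∈ LinearMap.ker _)
  · by_contra hS
    obtain ⟨φ, h0, hφ⟩ := Submodule.exists_le_ker_of_lt_top _ (lt_top_iff_ne_top.2 hS)
    obtain ⟨N, hN⟩ := exists_trace φ
    have e1 := of_trace fun M => (hN _).symm.trans (hφ (Submodule.mem_sup_left (LinearMap.mem_range_self _ M)))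
    have e2 := of_trace fun M => (hN _).symm.trans (hφ (Submodule.mem_sup_right (LinearMap.mem_range_self _ M)))
    rcases inv_sub hP t.gen (range_stab e1) (range_stab e2) with k | k
    · have : N = 0 := matrix_ext_mulVec fun v =>
        (zero_mulVec v).symm ▸ (Submodule.mem_bot F).1 (k.le (LinearMap.mem_range_self _ v))
      exact h0 (LinearMap.ext fun M => by rw [hN, this, zero_mul, trace_zero, LinearMap.zero_apply])
    · obtain ⟨c, rfl⟩ := mulVec_surjective_iff_isUnit.1 (LinearMap.range_eq_top.1 k)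
      refine hc ⟨c⁻¹, ?_, ?_⟩ <;> rw [inv_inv, mul_assoc, inv_mul_eq_iff_eq_mul]
      exacts [Units.ext e1, Units.ext e2]

end CL.Low4
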