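/-
Project LOW4, job L27: the reflection group `2 × L₃(2)` in dimension three.
-/
import Cfsg.Agent.Low4.Emb
import Cfsg.Agent.Cls.SLnCard

set_option autoImplicit false

namespace CL.Low4

/-- A group of order not divisible by `16` with a four-group has no quaternion subgroup. -/
theorem nq_of_card {H : Type*} [Group H] [Finite H] (h16 : ¬ 16 ∣ Nat.card H) {t₁ t₂ a b : H} (h1 : t₁ * t₁ = 1)
    (h2 : t₂ * t₂ = 1) (n1 : t₁ ≠ 1) (n2 : t₂ ≠ 1) (n12 : t₁ ≠ t₂) (hc : t₁ * t₂ = t₂ * t₁) (ha : a ^ 4 = 1)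
    (hb : b * a * b⁻¹ = a⁻¹) (hab : b * b = a * a) : a * a = 1 := by
  by_contra hne
  have e1 : ∀ i : ℤ, b * a ^ i = a ^ (-i) * b := fun i => by
    rw [zpow_neg, ← inv_zpow, ← hb, conj_zpow, inv_mul_cancel_right]
  have e2 : b * b = a ^ (2 : ℤ) := by rw [hab, zpow_two]
  have e3 : ∀ i j : ℤ, a ^ i * b * (a ^ j * b) = a ^ (i - j + 2) := fun i j => by
    rw [mul_assoc, ← mul_assoc b, e1, mul_assoc, e2, ← zpow_add, ← zpow_add]; congr 1; ring
  have a4 : a ^ (4 : ℤ) = 1 := by exact_mod_cast ha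
  let Q : Subgroup H :=
    { carrier := {x | ∃ i : ℤ, x = a ^ i ∨ x = a ^ i * b}
      one_mem' := ⟨0, Or.inl (zpow_zero a).symm⟩
      mul_mem' := by
        rintro _ _ ⟨i, rfl | rfl⟩ ⟨j, rfl | rfl⟩
        · exact ⟨i + j, Or.inl (zpow_add a i j).symm⟩
        · exact ⟨i + j, Or.inr (by rw [zpow_add, mul_assoc])⟩
        · exact ⟨i + -j, Or.inr (by rw [mul_assoc, e1, zpow_add, mul_assoc])⟩
        · exact ⟨_, Or.inl (e3 i j)⟩
      inv_mem' := by
        rintro _ ⟨i, rfl | rfl⟩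
        · exact ⟨-i, Or.inl (zpow_neg a i).symm⟩
        · exact ⟨i + 2, Or.inr (inv_eq_of_mul_eq_one_left (by rw [e3, ← a4]; congr 1; ring))⟩ }
  have hQ : IsPGroup 2 Q := by
    rintro ⟨_, i, rfl | rfl⟩
    · exact ⟨2, Subtype.ext (by
        change (a ^ i) ^ 4 = 1
        rw [← zpow_natCast, ← zpow_mul, mul_comm, zpow_mul, zpow_natCast, ha, one_zpow])⟩
    · exact ⟨2, Subtype.ext (by
        change (a ^ i * b) ^ (2 * 2) = 1
        rw [pow_mul, pow_two (a ^ i * b), e3, sub_self, zero_add, ← zpow_natCast, ← zpow_mul]; exact a4)⟩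
  have inv : ∀ x ∈ Q, x * x = 1 → x ≠ 1 → x = a ^ (2 : ℤ) := by
    rintro _ ⟨i, rfl | rfl⟩ k1 k2
    · rw [zpow_eq_zpow_emod i a4] at k1 k2 ⊢
      have : i % 4 = 0 ∨ i % 4 = 1 ∨ i % 4 = 2 ∨ i % 4 = 3 := by omega
      rcases this with h | h | h | h <;> rw [h] at k1 k2 ⊢
      · exact absurd (zpow_zero a) k2
      · exact absurd (by simpa using k1) hne
      · rw [← zpow_add, show (3 + 3 : ℤ) = 4 + 2 by rfl, zpow_add, a4, one_mul, zpow_two] at k1
        exact absurd k1 hne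
    · rw [e3, sub_self, zero_add, zpow_two] at k1
      exact absurd k1 hne
  have oa : orderOf a = 4 := orderOf_eq_prime_pow (p := 2) (n := 1) (by rwa [pow_one, pow_two]) ha
  have le : Subgroup.zpowers a ≤ Q := by rintro _ ⟨i, rfl⟩; exact ⟨i, Or.inl rfl⟩
  have c4 : Nat.card Q ≠ 4 := fun h => by
    obtain ⟨i, hi⟩ := (Subgroup.eq_of_le_of_card_ge le (by rw [h, Nat.card_zpowers, oa])).ge
      (⟨0, Or.inr (by simp)⟩ : b ∈ Q)
    rw [← hi] at hb
    exact hne (mul_eq_one_iff_eq_inv.2 (by rw [← hb]; group))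
  have d4 := Subgroup.card_dvd_of_le le
  rw [Nat.card_zpowers, oa] at d4
  obtain ⟨S, hS⟩ := hQ.exists_le_sylow
  have eS : Q = S := by
    refine Subgroup.eq_of_le_of_card_ge hS ?_
    obtain ⟨n, hn⟩ := IsPGroup.iff_card.1 S.isPGroup'
    have k1 : n ≤ 3 := by
      by_contra k
      exact h16 ((pow_dvd_pow 2 (show 4 ≤ n by omega)).trans (hn ▸ Subgroup.card_subgroup_dvd_card _))
    have k2 : 2 ^ n ≤ 2 ^ 3 := Nat.pow_le_pow_right (by norm_num) k1
    have k3 : 0 < Nat.card Q := Nat.card_pos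
    omega
  have hV : IsPGroup 2 (Subgroup.zpowers t₁ ⊔ Subgroup.zpowers t₂ : Subgroup H) := by
    have z : ∀ t : H, t * t = 1 → IsPGroup 2 (Subgroup.zpowers t) := fun t ht =>
      IsPGroup.of_card_dvd_pow (n := 1) (by
        rw [Nat.card_zpowers, pow_one]; exact orderOf_dvd_of_pow_eq_one (by rwa [pow_two]))
    refine (z _ h1).to_sup_of_normal_left' (z _ h2) (Subgroup.zpowers_le.2 ?_)
    exact Subgroup.centralizer_le_normalizer _ (by
      rintro _ ⟨i, rfl⟩; exact (Commute.zpow_left hc i).eq)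
  obtain ⟨T, hT⟩ := hV.exists_le_sylow
  obtain ⟨g, rfl⟩ := MulAction.exists_smul_eq H S T
  have key : ∀ t : H, t ∈ g • S → t * t = 1 → t ≠ 1 → g⁻¹ * t * g = a ^ (2 : ℤ) := fun t ht k1 k2 => by
    refine inv _ ?_ (by rw [show g⁻¹ * t * g * (g⁻¹ * t * g) = g⁻¹ * (t * t) * g by group, k1]; group)
      fun e => k2 (by rw [show t = g * (g⁻¹ * t * g) * g⁻¹ by group, e]; group)
    rw [eS]
    have := Subgroup.mem_pointwise_smul_iff_inv_smul_mem.1 ht
    simpa [MulAut.smul_def] using this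
  have k1 := key t₁ (hT (Subgroup.mem_sup_left (Subgroup.mem_zpowers _))) h1 n1
  have k2 := key t₂ (hT (Subgroup.mem_sup_right (Subgroup.mem_zpowers _))) h2 n2
  exact n12 (by simpa using k1.trans k2.symm)

open Matrix Cfsg Cfsg.Geo CL.Asch CL.SLn CL.Low Module
open scoped commutatorElement MatrixGroups

universe u

namespace L27

variable {F : Type u} [Field F] {K : Subgroup (GL (Fin 3) F)} {v w c : Fin 3 → F} {φ ψ : Dual F (Fin 3 → F)}
  {r s : GL (Fin 3) F}

theorem tr_rf (h : φ v = 2) (hr : ∀ y, r • y = y - φ y • v) : tr r = 1 := by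
  have := tr_rank_one hr 1
  rw [mul_one, one_smul, h, tr_one, Fintype.card_fin] at this
  rw [this]; norm_num

theorem tr_rf_mul (h : ψ w = 2) (hr : ∀ y, r • y = y - φ y • v) (hs : ∀ y, s • y = y - ψ y • w) (h' : φ v = 2) :
    tr (r * s) = φ w * ψ v - 1 := by
  rw [tr_rank_one hr, tr_rf h hs, hs, map_sub, map_smul, h', smul_eq_mul]; ring

theorem tr_scal (l : GL (Fin 3) F) (a : Fˣ) : tr (l * scal (Fin 3) a) = a * tr l := by
  simp [tr, coe_scal]

theorem nrm_comm {g : GL (Fin 3) F} (h : Nrm K g) : ∀ l ∈ ⁅K, K⁆, g * l * g⁻¹ ∈ ⁅K, K⁆ := fun l hl => by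
  have h1 : K.map (MulAut.conj g).toMonoidHom ≤ K := by rintro _ ⟨a, ha, rfl⟩; exact h a ha
  have := Subgroup.mem_map_of_mem (MulAut.conj g).toMonoidHom hl
  rw [Subgroup.map_commutator] at this
  exact Subgroup.commutator_mono h1 h1 this

theorem hom_mul {g g' : GL (Fin 3) F} {a a' : F} (h : ψ c = 1) (hg : ∀ y, g • y = y + ((a - 1) * ψ y) • c)
    (hg' : ∀ y, g' • y = y + ((a' - 1) * ψ y) • c) (y : Fin 3 → F) :
    (g * g') • y = y + ((a * a' - 1) * ψ y) • c := by
  simp only [mul_smul g, hg, hg', map_add, map_smul, h, smul_eq_mul]; module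

theorem tr_hom {g : GL (Fin 3) F} {a : F} (h : ψ c = 1) (hg : ∀ y, g • y = y + ((a - 1) * ψ y) • c) :
    tr g = 2 + a := by
  have := tr_rank_one (s := g) (φ := (1 - a) • ψ) (v := c) (fun y => by
    rw [hg, LinearMap.smul_apply, smul_eq_mul]; module) 1
  rw [mul_one, one_smul, tr_one, Fintype.card_fin, LinearMap.smul_apply, h] at this
  rw [this, smul_eq_mul]; push_cast; ring

/-- An involution of trace `1` is a reflection. -/
theorem exists_rf (h2 : (2 : F) ≠ 0) (hr : r * r = 1) (ht : tr r = 1) (hK : r ∈ K) :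
    ∃ v φ, Rf K v φ ∧ ∀ y, r • y = y - φ y • v := by
  let N : (Fin 3 → F) →ₗ[F] (Fin 3 → F) := toLin' ((2 : F)⁻¹ • (1 - (r : Matrix (Fin 3) (Fin 3) F)))
  have hN : ∀ y, N y = (2 : F)⁻¹ • (y - r • y) := fun y => by
    rw [toLin'_apply, smul_mulVec, sub_mulVec, one_mulVec, gsmul_def]
  have hi : IsIdempotentElem N := LinearMap.ext fun y => by
    rw [Module.End.mul_apply, hN, hN, gsmul_smul, smul_sub r, ← mul_smul r, hr, one_smul]
    generalize r • y = z
    match_scalars <;> field_simp <;> ring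
  have h1 : (finrank F (LinearMap.range N) : F) = 1 := by
    rw [← (LinearMap.IsIdempotentElem.isProj_range _ hi).trace, trace_toLin'_eq, trace_smul, trace_sub, trace_one,
      Fintype.card_fin, show (r : Matrix (Fin 3) (Fin 3) F).trace = 1 from ht, smul_eq_mul]
    field_simp; norm_num
  have h3 : finrank F (LinearMap.range N) ≤ 3 := (Submodule.finrank_le _).trans (by simp)
  have h4 : finrank F (LinearMap.range N) = 1 := by
    generalize finrank F (LinearMap.range N) = n at h1 h3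
    interval_cases n
    · simp at h1
    · rfl
    · exact absurd (by push_cast at h1; linear_combination h1) (one_ne_zero (α := F))
    · exact absurd (by push_cast at h1; linear_combination h1) h2
  obtain ⟨⟨v, hvN⟩, hv, hall⟩ := finrank_eq_one_iff'.mp h4
  have hv0 : v ≠ 0 := fun e => hv (Subtype.ext e)
  obtain ⟨χ, hχ⟩ := exists_dual_eq_one (F := F) hv0
  have h5 : ∀ y, N y = χ (N y) • v := fun y => by
    obtain ⟨c, hc⟩ := hall ⟨N y, y, rfl⟩
    have hc' : c • v = N y := congrArg Subtype.val hc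
    rw [← hc']
    simp [hχ]
  have h6 : N v = v := by
    obtain ⟨y, rfl⟩ := hvN
    exact LinearMap.congr_fun hi y
  have h7 : ((2 : F) • χ ∘ₗ N) v = 2 := by simp [h6, hχ]
  have h8 : ∀ y, r • y = y - ((2 : F) • χ ∘ₗ N) y • v := fun y => by
    rw [LinearMap.smul_apply, LinearMap.comp_apply, smul_assoc, ← h5, hN, smul_inv_smul₀ h2, sub_sub_cancel]
  exact ⟨v, _, ⟨h7, hv0, fun e => h2 (by rw [← h7, e]; rfl), r, hK, h8⟩, h8⟩

theorem orth (h2 : (2 : F) ≠ 0) (hv : Rf K v φ) (hw : Rf K w ψ) (hr : ∀ y, r • y = y - φ y • v)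
    (hs : ∀ y, s • y = y - ψ y • w) (hc : r * s = s * r) (h0 : φ w * ψ v = 0) : φ w = 0 := by
  refine (mul_eq_zero.1 h0).elim id fun h => ?_
  have := congrArg (· • w) hc
  simp only [mul_smul, hr, hs, map_sub, map_smul, h, hw.two, smul_eq_mul] at this
  have h1 : (2 * φ w) • v = 0 := by linear_combination (norm := module) this
  exact (mul_eq_zero.1 ((smul_eq_zero.1 h1).resolve_right hv.ne)).resolve_left h2

theorem swap {e : Fin 3 → Fin 3 → F} {x : Fin 3 → Dual F (Fin 3 → F)} (h2 : (2 : F) ≠ 0) (hb : Bi e x) {i j l : Fin 3}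
    (hij : i ≠ j) (hl : ∀ m, m = i ∨ m = j ∨ m = l) (hli : l ≠ i) (hlj : l ≠ j) {r' : GL (Fin 3) F}
    (hr : ∀ y, r • y = y - ((2 : F) • x i) y • e i) (hr' : ∀ y, r' • y = y - ((2 : F) • x j) y • e j)
    (hw : Rf K w ψ) (hs : ∀ y, s • y = y - ψ y • w) (hc : s * r = r' * s) (h0 : ψ (e l) = 0) :
    ∃ a : F, a ≠ 0 ∧ Rf K (e i - a • e j) (x i - a⁻¹ • x j) := by
  have h1 := congrArg (· • e i) hc
  simp only [mul_smul, hr, hr', LinearMap.smul_apply, hb.diag, smul_eq_mul, smul_sub, gsmul_smul, mul_one] at h1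
  set a := x j (s • e i) with ha
  have h3 : s • e i = a • e j := by
    have : (2 : F) • (s • e i) = (2 : F) • a • e j := by
      generalize s • e i = z at h1 ⊢
      linear_combination (norm := module) -h1
    exact smul_right_injective _ h2 this
  have h4 : ψ (e i) • w = e i - a • e j := by rw [← h3, hs, sub_sub_cancel]
  have h5 : ψ (e i) ≠ 0 := fun e0 => by
    have := congrArg (x i) h4
    simp [e0, hb.diag, hb.off i j hij] at this
  have h6 : a ≠ 0 := fun e0 => hb.e_ne i (by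
    rw [e0, zero_smul] at h3
    rw [← inv_smul_smul s (e i), h3, smul_zero])
  refine ⟨a, h6, ?_⟩
  have h7 := hw.smul h5
  rw [h4] at h7
  have h8 := h7.two
  simp only [LinearMap.smul_apply, map_sub, map_smul, smul_eq_mul] at h8
  convert h7 using 1
  refine LinearMap.ext fun y => ?_
  rw [← hb.pr_eq_self (by simp) y, pr]
  simp only [map_sum, map_smul]
  refine Finset.sum_congr rfl fun m _ => congrArg _ ?_
  rcases hl m with rfl | rfl | rfl
  · simp [hb.diag, hb.off j m hij.symm, h5]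
  · simp only [LinearMap.sub_apply, LinearMap.smul_apply, hb.diag, hb.off i m hij, smul_eq_mul]
    field_simp at h8 ⊢
    linear_combination h8
  · simp [hb.off i m hli.symm, hb.off j m hlj.symm, h0]

theorem bcfg {e : Fin 3 → Fin 3 → F} {x : Fin 3 → Dual F (Fin 3 → F)} (hb : Bi e x)
    (h : ∀ i, Rf K (e i) ((2 : F) • x i)) (h01 : Rf K (e 0 - e 1) (x 0 - x 1)) (h12 : Rf K (e 1 - e 2) (x 1 - x 2)) :
    BCfg K e x := by
  have h02 : Rf K (e 0 - e 2) (x 0 - x 2) := by
    convert h12.refl h01 using 1 <;> simp [hb.apply]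
    module
  have hn : ∀ i j, Rf K (e i - e j) (x i - x j) → Rf K (e j - e i) (x j - x i) := fun i j k => by
    simpa using k.neg
  have hm : ∀ i j, i ≠ j → Rf K (e i - e j) (x i - x j) := fun i j hij => by
    fin_cases i <;> fin_cases j <;>
      first | exact absurd rfl hij | assumption | exact hn _ _ h01 | exact hn _ _ h02 | exact hn _ _ h12
  refine ⟨hb, h, fun i j hij => ?_, hm⟩
  convert (h j).refl (hm i j hij) using 1
  · simp only [LinearMap.smul_apply, map_sub, hb.diag, hb.off j i hij.symm, smul_eq_mul]; module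
  · simp only [LinearMap.sub_apply, hb.diag, hb.off i j hij]; module

def m₁ : SL(3, ZMod 2) := ⟨!![1, 0, 1; 0, 1, 0; 0, 0, 1], by decide⟩
def m₂ : SL(3, ZMod 2) := ⟨!![1, 0, 0; 0, 1, 1; 0, 0, 1], by decide⟩
def n₁ : SL(3, ZMod 2) := ⟨!![0, 1, 0; 1, 0, 0; 0, 0, 1], by decide⟩
def n₂ : SL(3, ZMod 2) := ⟨!![1, 1, 0; 0, 1, 0; 0, 0, 1], by decide⟩

/-- an involution -/
abbrev Iv (a : SL(3, ZMod 2)) : Prop := a * a = 1 ∧ a ≠ 1

theorem rels : (∀ i j : Fin 3, i ≠ j → Iv (![m₁, m₂, m₁ * m₂] i * ![m₁, m₂, m₁ * m₂] j) ∧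
      ![m₁, m₂, m₁ * m₂] i * ![m₁, m₂, m₁ * m₂] j = ![m₁, m₂, m₁ * m₂] j * ![m₁, m₂, m₁ * m₂] i) ∧
    (∀ i : Fin 3, Iv (![m₁, m₂, m₁ * m₂] i)) ∧ Iv n₁ ∧ Iv n₂ ∧ n₁ * m₁ = m₂ * n₁ ∧ n₂ * m₂ = m₁ * m₂ * n₂ ∧
    Iv (n₁ * (m₁ * m₂)) ∧ Iv (n₂ * m₁) ∧ n₁ * (m₁ * m₂) = m₁ * m₂ * n₁ ∧ n₂ * m₁ = m₁ * n₂ ∧ m₁ ≠ m₂ := by
  decide +kernel

end L27

open L27 in
theorem subL27 : SubL27.{u} := by
  intro hD F _ _ K h2 hg hQ h7 ⟨E⟩ e x hb
  obtain ⟨hZ, hS, -, b, hb0, -, t2, t3, t4, t7, ho⟩ := hD F _ hQ h7 ⟨E⟩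
  have PK : ⁅K, K⁆ ≤ K := Subgroup.commutator_le.2 fun a ha b hb => by
    rw [commutatorElement_def]; exact mul_mem (mul_mem (mul_mem ha hb) (inv_mem ha)) (inv_mem hb)
  have dec : ∀ g, Nrm K g → ∀ n : ℕ, g ^ n = 1 → ∃ l ∈ ⁅K, K⁆, ∃ a : Fˣ, g = l * scal (Fin 3) a ∧ l ^ n = 1 ∧ a ^ n = 1 :=
    fun g hn n h => by
      obtain ⟨l, hl, a, rfl⟩ := mem_sup_scalars.1 (hS g (nrm_comm hn))
      rw [(show Commute l (scal (Fin 3) a) from (scal_comm a l).symm).mul_pow, ← map_pow] at h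
      have : l ^ n = 1 := (Subgroup.mem_bot.1 (hZ.le ⟨pow_mem hl n, by
        rw [eq_inv_of_mul_eq_one_left h]; exact (scalars (Fin 3) F).inv_mem (scal_mem _)⟩))
      rw [this, one_mul] at h
      exact ⟨l, hl, a, rfl, this, scal_injective (h.trans (map_one _).symm)⟩
  have o2 : ∀ {l : GL (Fin 3) F}, l * l = 1 → l ≠ 1 → orderOf l = 2 := fun h1 h3 =>
    orderOf_eq_prime (by rwa [pow_two]) h3
  have neg : ∀ {r v φ}, Rf K v φ → (∀ y, r • y = y - φ y • v) → -r ∈ ⁅K, K⁆ := fun {r v φ} h hr => by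
    obtain ⟨r', hr', e'⟩ := h.mem
    obtain rfl : r = r' := gext fun y => by rw [hr, e']
    obtain ⟨l, hl, a, e1, e2, e3⟩ := dec r (nrm_of_mem hr') 2 (by rw [pow_two, rf_sq h.two hr])
    have ht := tr_rf h.two hr
    rcases (Units.inv_eq_self_iff a).1 (inv_eq_of_mul_eq_one_left (by rwa [pow_two] at e3)) with rfl | rfl
    · rw [map_one, mul_one] at e1
      subst e1
      by_cases h1 : r = 1
      · rw [h1, tr_one, Fintype.card_fin] at ht
        exact absurd (by push_cast at ht; linear_combination ht) h2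
      · rw [t2 r hl (orderOf_eq_prime e2 h1)] at ht
        exact absurd (by linear_combination -ht) h2
    · have : -r = l := gext fun y => by
        rw [neg_gsmul, e1, mul_smul, scal_gsmul, gsmul_smul]; simp
      rwa [this]
  have hE : Function.Bijective (QuotientGroup.mk' ((scalars (Fin 3) F).subgroupOf ⁅K, K⁆)) :=
    ⟨(MonoidHom.ker_eq_bot_iff _).1 (by
      rw [QuotientGroup.ker_mk', ← Subgroup.inf_subgroupOf_left, hZ, Subgroup.bot_subgroupOf]),
      QuotientGroup.mk'_surjective _⟩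
  have hC : Subgroup.center SL(3, ZMod 2) = ⊥ := by
    rw [← Subgroup.card_eq_one, CL.SLn.card_center_SL, ZMod.card 2]; simp
  let E' : SL(3, ZMod 2) ≃* (⁅K, K⁆ : Subgroup _) := (((MulEquiv.ofBijective _ hE).trans E).trans
    ((QuotientGroup.quotientMulEquivOfEq hC).trans QuotientGroup.quotientBot)).symm
  let θ : SL(3, ZMod 2) →* GL (Fin 3) F := (⁅K, K⁆ : Subgroup _).subtype.comp E'.toMonoidHom
  have θi : Function.Injective θ := Subtype.val_injective.comp E'.injective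
  have θm : ∀ a, θ a ∈ ⁅K, K⁆ := fun a => (E' a).2
  have θo : ∀ {a}, Iv a → θ a * θ a = 1 ∧ θ a ≠ 1 := fun h =>
    ⟨by rw [← map_mul, h.1, map_one], fun k => h.2 (θi (k.trans (map_one θ).symm))⟩
  obtain ⟨R1, R2, R3, R4, R5, R6, R7, R8, R9, R10, R11⟩ := rels
  have m1 : -1 ∈ K := by
    rcases hg.induction (P := fun g => g = 1 ∨ -1 ∈ K) (Or.inl rfl) (fun a b ha hb => by
      rcases ha with rfl | ha
      · rwa [one_mul]
      · exact Or.inr ha) (fun g v φ h hr => Or.inr (by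
        obtain ⟨r', hr', e'⟩ := h.mem
        have := mul_mem (PK (neg h e')) (inv_mem hr')
        rwa [neg_mul, mul_inv_cancel] at this)) (PK (θm n₁)) with h | h
    exacts [absurd h (θo R3).2, h]
  have rf : ∀ {a}, Iv a → ∃ v φ, Rf K v φ ∧ ∀ y, (-θ a) • y = y - φ y • v := fun {a} h =>
    exists_rf h2 (by rw [neg_mul_neg, (θo h).1]) (by rw [tr_neg, t2 _ (θm a) (o2 (θo h).1 (θo h).2), neg_neg])
      (by rw [← neg_one_mul]; exact mul_mem m1 (PK (θm a)))
  have ort : ∀ {a a' v φ w ψ}, Rf K v φ → Rf K w ψ → (∀ y, (-θ a) • y = y - φ y • v) →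
      (∀ y, (-θ a') • y = y - ψ y • w) → Iv (a * a') → a * a' = a' * a → φ w = 0 := fun h h' k k' i1 i2 => by
    refine orth h2 h h' k k' (by rw [neg_mul_neg, neg_mul_neg, ← map_mul, i2, map_mul]) ?_
    have := tr_rf_mul h'.two k k' h.two
    rw [neg_mul_neg, ← map_mul, t2 _ (θm _) (o2 (θo i1).1 (θo i1).2)] at this
    linear_combination -this
  refine ⟨fun a ha b hb k1 k2 k3 => ?_, h7, fun i hi c ψ g _ hc hgc hn => ?_, fun v φ w ψ hv hw _ _ => ?_, ?_⟩
  · have := nq_of_card (H := (⁅K, K⁆ : Subgroup _)) (by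
      rw [← Nat.card_congr E'.toEquiv, CL.SLn.card_SL_three, ZMod.card 2]; decide) (t₁ := E' m₁) (t₂ := E' m₂)
      (a := ⟨a, ha⟩) (b := ⟨b, hb⟩) (Subtype.ext (θo (R2 0)).1) (Subtype.ext (θo (R2 1)).1)
      (fun k => (θo (R2 0)).2 (congrArg Subtype.val k)) (fun k => (θo (R2 1)).2 (congrArg Subtype.val k))
      (fun k => R11 (E'.injective k)) (by rw [← map_mul, ← map_mul]; exact congrArg E' (R1 0 1 (by decide)).2)
      (Subtype.ext k1) (Subtype.ext k2) (Subtype.ext k3)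
    exact congrArg Subtype.val this
  · rw [KG_eq_of_card hg hb (by simp)] at hn
    have g2 := hom_mul hc hgc hgc
    have g3 := hom_mul hc g2 hgc
    have g4 : g ^ 4 = 1 := gext fun y => by
      rw [show g ^ 4 = g * g * g * g by simp only [pow_succ, pow_zero, one_mul], hom_mul hc g3 hgc, one_smul,
        show i * i * i * i - 1 = 0 by linear_combination (i ^ 2 - 1) * hi]
      simp
    have gi : g⁻¹ = g * g * g := inv_eq_of_mul_eq_one_left (by rw [← g4]; simp only [pow_succ, pow_zero, one_mul])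
    obtain ⟨l, hl, a, e1, e2, -⟩ := dec g hn 4 g4
    have k1 := tr_hom hc hgc
    have k2 := tr_hom hc g3
    rw [← gi, e1, _root_.mul_inv_rev, ← map_inv, scal_comm, tr_scal] at k2
    rw [e1, tr_scal] at k1
    have k3 : tr l * tr l⁻¹ = 5 := by
      have : (a : F) * (a⁻¹ : Fˣ) = 1 := a.mul_inv
      linear_combination (a⁻¹ : Fˣ) * tr l⁻¹ * k1 + (2 + i) * k2 - tr l * tr l⁻¹ * this + (i ^ 2 + 2 * i - 1) * hi
    have k4 := orderOf_dvd_of_pow_eq_one e2
    have f4 : (4 : F) ≠ 0 := fun k => h2 (pow_eq_zero_iff two_ne_zero |>.1 (by linear_combination k))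
    rcases ho l hl with rfl | h | h | h | h
    · rw [inv_one, tr_one, Fintype.card_fin] at k3
      exact f4 (by push_cast at k3; linear_combination k3)
    · rw [t2 l hl h, t2 _ (inv_mem hl) ((orderOf_inv l).trans h)] at k3
      exact f4 (by linear_combination -k3)
    · rw [h] at k4; exact absurd k4 (by decide)
    · rw [t4 l hl h, t4 _ (inv_mem hl) ((orderOf_inv l).trans h)] at k3
      exact f4 (by linear_combination -k3)
    · rw [h] at k4; exact absurd k4 (by decide)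
  · obtain ⟨r, -, hr⟩ := hv.mem
    obtain ⟨s, -, hs⟩ := hw.mem
    have hl := mul_mem (neg hv hr) (neg hw hs)
    rw [neg_mul_neg] at hl
    have k1 := tr_rf_mul hw.two hr hs hv.two
    have k2 := tr_rf_mul hv.two hs hr hw.two
    rcases ho _ hl with h | h | h | h | h
    · have e1 : r = s := by rw [eq_inv_of_mul_eq_one_left h, rf_inv hw.two hs]
      have e2 : ∀ y, φ y • v = ψ y • w := fun y => sub_right_injective ((hr y).symm.trans (e1 ▸ hs y))
      have e3 := e2 w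
      rw [hw.two] at e3
      have e4 : φ w ≠ 0 := fun k => hw.ne (by
        rw [k, zero_smul] at e3; exact (smul_eq_zero.1 e3.symm).resolve_left h2)
      have e5 : w = (φ w / 2) • v := by rw [div_eq_inv_mul, mul_smul, e3, inv_smul_smul₀ h2]
      refine Or.inr (Or.inr (Or.inr ⟨φ w / 2, div_ne_zero e4 h2, e5, LinearMap.ext fun y => ?_⟩))
      have e6 := e2 y
      rw [e5, smul_smul] at e6
      have e7 := smul_left_injective F hv.ne e6
      rw [LinearMap.smul_apply, e7, smul_eq_mul]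
      field_simp
    · exact Or.inl (by linear_combination t2 _ hl h - k1)
    · exact Or.inr (Or.inl (by linear_combination t3 _ hl h - k1))
    · exact Or.inr (Or.inr (Or.inl (by linear_combination t4 _ hl h - k1)))
    · have k3 : tr (r * s)⁻¹ = tr (r * s) := by
        rw [_root_.mul_inv_rev, rf_inv hv.two hr, rf_inv hw.two hs, k1, k2, mul_comm]
      have k4 : 2 * b + 1 = 0 := by
        rcases t7 _ hl h with ⟨a1, a2⟩ | ⟨a1, a2⟩
        · linear_combination a2 - a1 - k3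
        · linear_combination a1 - a2 + k3
      exact absurd (by linear_combination 4 * hb0 - (2 * b + 1) * k4) h7
  · choose v φ hv hr using fun i => rf (R2 i)
    have B : Bi v fun i => (2 : F)⁻¹ • φ i := ⟨fun i => by
      rw [LinearMap.smul_apply, (hv i).two, smul_eq_mul, inv_mul_cancel₀ h2], fun i j hij => by
      rw [LinearMap.smul_apply, ort (hv i) (hv j) (hr i) (hr j) (R1 i j hij).1 (R1 i j hij).2, smul_zero]⟩
    have hr' : ∀ i y, (-θ (![m₁, m₂, m₁ * m₂] i)) • y = y - ((2 : F) • (2 : F)⁻¹ • φ i) y • v i := fun i y => by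
      rw [smul_inv_smul₀ h2, hr]
    obtain ⟨w, ψ, hw, hs⟩ := rf R3
    obtain ⟨w', ψ', hw', hs'⟩ := rf R4
    obtain ⟨a, ha, k1⟩ := swap h2 B (i := 0) (j := 1) (l := 2) (by decide) (by decide) (by decide) (by decide)
      (hr' 0) (hr' 1) hw hs (by rw [neg_mul_neg, neg_mul_neg, ← map_mul, ← map_mul]; exact congrArg θ R5)
      (ort hw (hv 2) hs (hr 2) R7 R9)
    obtain ⟨a', ha', k2⟩ := swap h2 B (i := 1) (j := 2) (l := 0) (by decide) (by decide) (by decide) (by decide)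
      (hr' 1) (hr' 2) hw' hs' (by rw [neg_mul_neg, neg_mul_neg, ← map_mul, ← map_mul]; exact congrArg θ R6)
      (ort hw' (hv 0) hs' (hr 0) R8 R10)
    have hd : ∀ i : Fin 3, ![1, a, a * a'] i ≠ 0 := fun i => by fin_cases i <;> simp [ha, ha']
    have B' : Bi (fun i => ![1, a, a * a'] i • v i) fun i => (![1, a, a * a'] i)⁻¹ • (2 : F)⁻¹ • φ i :=
      ⟨fun i => by
        rw [LinearMap.smul_apply, map_smul, B.diag, smul_eq_mul, smul_eq_mul, mul_one, inv_mul_cancel₀ (hd i)],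
        fun i j hij => by rw [LinearMap.smul_apply, map_smul, B.off i j hij, smul_zero, smul_zero]⟩
    refine ⟨_, _, fun y => by rw [B'.pr_eq_self (by simp), hb.pr_eq_self (by simp)], bcfg B' (fun i => ?_) ?_ ?_⟩
    · rw [smul_comm, smul_inv_smul₀ h2]; exact (hv i).smul (hd i)
    · simpa using k1
    · have := k2.smul ha
      simp only [smul_sub, smul_smul] at this
      simpa [smul_smul, mul_comm, mul_assoc, mul_left_comm] using this

end CL.Low4
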