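/-
Project LOW4, job LA: a group with a Heisenberg pair of transvections has a rational `SL₃` frame.
-/
import Cfsg.Agent.Low4.Defs2

set_option autoImplicit false
set_option linter.unusedSectionVars false

namespace CL.Low4

open Matrix Cfsg Cfsg.Geo CL.Asch CL.SLn CL.Low Module
open scoped commutatorElement

universe u

namespace LA

variable {F : Type u} [Field F] {P : Subgroup (G F)} {K : Subfield F} {v w y a b c : V F}
  {φ ψ χ α γ : Dual F (V F)} {e : Fin 3 → V F} {x : Fin 3 → Dual F (V F)}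

theorem irr_tv (hI : Irr P) (hT : TvGen P) (W : Submodule F (V F))
    (h : ∀ y χ, Rt P y χ → ∀ u ∈ W, u + χ u • y ∈ W ∧ u - χ u • y ∈ W) : W = ⊥ ∨ W = ⊤ :=
  irr_iff.1 hI W fun g hg => by
    have : ∀ g ∈ Subgroup.closure {g | g ∈ P ∧ IsTv g}, ∀ u ∈ W, g • u ∈ W := fun g hg => by
      induction hg using Subgroup.closure_induction'' with
      | mem g hg =>
        obtain ⟨hg, y, χ, h1, h2, h0, eg⟩ := hg
        exact fun u hu => eg u ▸ (h y χ ⟨⟨h0, g, hg, eg⟩, h1, h2⟩ u hu).1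
      | inv_mem g hg =>
        obtain ⟨hg, y, χ, h1, h2, h0, eg⟩ := hg
        exact fun u hu => inv_smul_of_tv h0 eg u ▸ (h y χ ⟨⟨h0, g, hg, eg⟩, h1, h2⟩ u hu).2
      | one => exact fun u hu => by rwa [one_smul]
      | mul g k _ _ hg hk => exact fun u hu => by rw [mul_smul]; exact hg _ (hk u hu)
    exact this g (hT hg)

/-- the third root -/
theorem third (hI : Irr P) (hT : TvGen P) (hv : v ≠ 0) (hψ : ψ ≠ 0) (h0 : ψ v = 0) :
    ∃ y χ, Rt P y χ ∧ ψ y ≠ 0 ∧ χ v ≠ 0 := by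
  by_contra hc
  push Not at hc
  let W : Submodule F (V F) :=
    { carrier := {u | ψ u = 0 ∧ ∀ y χ, Rt P y χ → ψ y ≠ 0 → χ u = 0}
      add_mem' := fun ha hb => ⟨by rw [map_add, ha.1, hb.1, add_zero], fun y χ h k => by
        rw [map_add, ha.2 y χ h k, hb.2 y χ h k, add_zero]⟩
      zero_mem' := ⟨map_zero _, fun _ _ _ _ => map_zero _⟩
      smul_mem' := fun t _ ha => ⟨by rw [map_smul, ha.1, smul_zero], fun y χ h k => by
        rw [map_smul, ha.2 y χ h k, smul_zero]⟩ }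
  have key : ∀ y χ, Rt P y χ → ∀ u ∈ W, χ u • y ∈ W := fun y χ h u hu => by
    by_cases k : ψ y = 0
    · refine ⟨by rw [map_smul, k, smul_zero], fun z η hz kz => ?_⟩
      have h1 := hu.2 _ _ (T3B.Rt.conj_tv (t := 1) (by rw [one_smul]; exact h.tv) hz) (by simpa [k] using kz)
      simp only [LinearMap.sub_apply, LinearMap.smul_apply, hu.2 z η hz kz, smul_eq_mul, map_smul] at h1 ⊢
      linear_combination -h1
    · rw [hu.2 y χ h k, zero_smul]; exact W.zero_mem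
  rcases irr_tv hI hT W fun y χ h u hu => ⟨W.add_mem hu (key y χ h u hu), W.sub_mem hu (key y χ h u hu)⟩ with h | h
  · exact hv ((Submodule.eq_bot_iff _).1 h v ⟨h0, hc⟩)
  · exact hψ (LinearMap.ext fun u => (Submodule.eq_top_iff'.1 h u).1)

/-- a root group with more than two elements -/
def Big (P : Subgroup (G F)) (v : V F) (φ : Dual F (V F)) : Prop := ∃ t : F, t ≠ 0 ∧ t ≠ 1 ∧ Tv P (t • v) φ

theorem Big.not (h : Big P v φ) : ¬ ∀ t : F, Tv P (t • v) φ → t = 0 ∨ t = 1 := fun k =>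
  let ⟨t, h0, h1, ht⟩ := h
  (k t ht).elim h0 h1

theorem exists_big [Finite F] (hI : Irr P) (hL : LinPair P) (h2 : (2 : F) = 0) (hs : ¬ Sm P) :
    ∃ v φ w ψ, Rt P v φ ∧ Rt P w ψ ∧ φ w ≠ 0 ∧ ψ v = 0 ∧ (Big P v φ ∨ Big P w ψ) := by
  by_contra hc
  push Not at hc
  simp only [Sm, not_forall, not_or] at hs
  obtain ⟨v0, φ0, t0, r0, ht0, h00, h01⟩ := hs
  obtain ⟨v, w, φ, ψ, tv, tw, hv, hψ, h1, h0⟩ := hL
  have rv : Rt P v φ := ⟨tv, hv, fun e => h1 (by simp [e])⟩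
  have rw' : Rt P w ψ := ⟨tw, fun e => h1 (by simp [e]), hψ⟩
  let W : Submodule F (V F) :=
    { carrier := {u | ∀ a α, Rt P a α → Big P a α → α u = 0}
      add_mem' := fun ha hb a α h k => by rw [map_add, ha a α h k, hb a α h k, add_zero]
      zero_mem' := fun _ _ _ _ => map_zero _
      smul_mem' := fun t _ ha a α h k => by rw [map_smul, ha a α h k, smul_zero] }
  have hvW : v ∈ W := fun a α h k => by
    by_contra n
    have n' : φ a ≠ 0 := fun e => (hc a α v φ h rv n e).1 k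
    obtain ⟨t, t0, t1, ht⟩ := k
    obtain ⟨L, l1, l2, -⟩ := T3B.big_pair h.tv tv n n' ht t0 t1 fun e => t1 (by rw [e]; linear_combination -h2)
    exact (hc v φ w ψ rv rw' h1 h0).1 ⟨t, t0, t1, l2 t ((l1 t).1 ht)⟩
  rcases irr_iff.1 hI W (fun g hg u hu a α h ⟨t, t0, t1, ht⟩ => by
    have := hu _ _ (h.conj (P.inv_mem hg)) ⟨t, t0, t1, gsmul_smul g⁻¹ t a ▸ ht.conj (P.inv_mem hg)⟩
    rwa [dact_apply, inv_inv] at this) with h | h
  · exact hv ((Submodule.eq_bot_iff _).1 h v hvW)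
  · exact r0.ne' (LinearMap.ext fun u => Submodule.eq_top_iff'.1 h u v0 φ0 r0 ⟨t0, h00, h01, ht0⟩)

theorem mem_of_tv (h : LCfg0 P K e x) (r : Rt P a α) (hi : In e x a α) {t : F} (ht : Tv P (t • a) α) : t ∈ K := by
  obtain ⟨i, hi'⟩ : ∃ i, α (e i) ≠ 0 := by
    by_contra c
    push Not at c
    exact r.ne' (by rw [← hi.2, prD]; simp [c])
  obtain ⟨j, hj⟩ : ∃ j, x j a ≠ 0 := by
    by_contra c
    push Not at c
    exact r.ne (by rw [← hi.1, pr]; simp [c])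
  have h1 := K.div_mem (h.ex _ _ ht ⟨by rw [pr_smul, hi.1], hi.2⟩ i j) (h.ex _ _ r.tv hi i j)
  rwa [map_smul, smul_eq_mul, show α (e i) * (t * x j a) / (α (e i) * x j a) = t by field_simp] at h1

/-- rational vectors -/
def RV (K : Subfield F) {M : Type u} [AddCommGroup M] [Module F M] (e : Fin 3 → M) (a : M) : Prop :=
  ∃ c : Fin 3 → F, (∀ i, c i ∈ K) ∧ a = ∑ i, c i • e i

section RV

variable {M : Type u} [AddCommGroup M] [Module F M] {e : Fin 3 → M} {a b : M}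

theorem RV.base (i : Fin 3) : RV K e (e i) :=
  ⟨Pi.single i 1, fun j => by rw [Pi.single_apply]; split_ifs; exacts [K.one_mem, K.zero_mem], by
    simp [Pi.single_apply, ite_smul]⟩

theorem RV.add (ha : RV K e a) (hb : RV K e b) : RV K e (a + b) := by
  obtain ⟨c, hc, rfl⟩ := ha
  obtain ⟨d, hd, rfl⟩ := hb
  exact ⟨c + d, fun i => K.add_mem (hc i) (hd i), by simp [add_smul, Finset.sum_add_distrib]⟩

theorem RV.smul {t : F} (ht : t ∈ K) (ha : RV K e a) : RV K e (t • a) := by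
  obtain ⟨c, hc, rfl⟩ := ha
  exact ⟨t • c, fun i => K.mul_mem ht (hc i), by simp [Finset.smul_sum, smul_smul]⟩

theorem RV.sub (ha : RV K e a) (hb : RV K e b) : RV K e (a - b) := by
  simpa [sub_eq_add_neg] using ha.add (hb.smul (K.neg_mem K.one_mem))

end RV

theorem rv_tv (h : LCfg0 P K e x) (ha : RV K e a) (hα : RV K x α) (h0 : α a = 0) : Tv P a α := by
  obtain ⟨c, hc, rfl⟩ := ha
  obtain ⟨d, hd, rfl⟩ := hα
  refine h.tv c d hc hd ?_
  simpa [h.bi.apply, Fin.sum_univ_three, mul_comm] using h0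

theorem rv_in (h : Bi e x) (ha : RV K e a) (hα : RV K x α) : In e x a α := by
  obtain ⟨c, hc, rfl⟩ := ha
  obtain ⟨d, hd, rfl⟩ := hα
  exact ⟨by simp only [pr_sum, pr_smul, h.pr_e], by simp only [prD_sum, prD_smul, h.prD_x]⟩

variable [Fintype F]

theorem key (hT : SubTL.{u}) (hX : SubX6.{u}) (hI : Irr P) (hG : TvGen P) (h : LCfg0 P K e x)
    (hK : (2 : F) ≠ 0 ∨ Sm P ∨ ∃ t ∈ K, t ≠ 0 ∧ t ≠ 1) (ha : RV K e a) (hb : RV K e b) (hc : RV K e c)
    (hα : RV K x α) (hγ : RV K x γ) (h1 : α a = 0) (h2 : α b = 1) (h3 : α c = 0) (h4 : γ a = 0) (h5 : γ b = 0)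
    (h6 : γ c = 1) (r : Tv P y χ) : α y * χ a ∈ K := by
  by_cases n : α y * χ a = 0
  · exact n ▸ K.zero_mem
  obtain ⟨n1, n2⟩ := mul_ne_zero_iff.1 n
  have ry : Rt P y χ := ⟨r, fun e => n1 (by simp [e]), fun e => n2 (by simp [e])⟩
  have ra : Rt P a α := ⟨rv_tv h ha hα h1, fun e => n2 (by simp [e]), fun e => n1 (by simp [e])⟩
  obtain ⟨w, ψ, rw', k1, k2, k3⟩ : ∃ w ψ, Rt P w ψ ∧ α w = 1 ∧ ψ a = 0 ∧ ψ y ≠ 0 := by
    by_cases k : γ y = 0
    · refine ⟨b + c, α - γ, ⟨rv_tv h (hb.add hc) (hα.sub hγ) (by simp [*]), fun e => ?_, fun e => ?_⟩, by simp [*],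
        by simp [*], by simpa [k] using n1⟩
      · simpa [h2, h3] using congrArg α e
      · simpa [k, n1] using LinearMap.congr_fun e y
    · exact ⟨b, γ, ⟨rv_tv h hb hγ h5, fun e => by simp [e] at h2, fun e => k (by simp [e])⟩, h2, h4, k⟩
  rcases hT F P a w y α ψ χ ra rw' ry (k1 ▸ one_ne_zero) k2 k3 n2 with
    ⟨K', e', x', h', i1, -, i3, t1, -⟩ | ⟨h2, s1, -, e', x', b', l', q', n'⟩
  · refine mem_of_tv h ra (rv_in h.bi ha hα) (t1 _ ?_)
    have e1 : α y = ∑ i, α (e' i) * x' i y := by rw [← apply_pr, i3.1]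
    have e2 : χ a = ∑ j, χ (e' j) * x' j a := by rw [← apply_pr, i1.1]
    rw [e1, e2, Finset.sum_mul_sum]
    refine K'.sum_mem fun i _ => K'.sum_mem fun j _ => ?_
    have := K'.mul_mem (h'.ex _ _ ra.tv i1 i j) (h'.ex _ _ r i3 j i)
    rwa [show α (e' i) * x' j a * (χ (e' j) * x' i y) = α (e' i) * x' i y * (χ (e' j) * x' j a) by ring] at this
  · rcases hK with k | k | ⟨t, ht, t0, t1⟩
    · exact (k h2).elim
    · exact (hX F P h2 hI hG k e' x' b' l' q' n').elim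
    · exact ((s1 t (rv_tv h (ha.smul ht) hα (by simp [h1]))).elim t0 t1).elim

theorem third_idx : ∀ i j : Fin 3, i ≠ j → ∃ l, l ≠ i ∧ l ≠ j := by decide

theorem diag_mem {η w : Fin 3 → F} (h1 : ∀ i j, i ≠ j → η i * w j ∈ K)
    (h2 : ∀ i j, i ≠ j → (η i + η j) * (w i - w j) ∈ K) (i j : Fin 3) : η i * w j ∈ K := by
  by_cases ij : i = j
  swap
  · exact h1 i j ij
  subst ij
  have h3 : ∀ j, i ≠ j → η j * w j = 0 → η i * w i ∈ K := fun j ij e => by
    have := K.sub_mem (K.add_mem (h2 i j ij) (h1 i j ij)) (h1 j i ij.symm)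
    rwa [show (η i + η j) * (w i - w j) + η i * w j - η j * w i = η i * w i by linear_combination -e] at this
  obtain ⟨j, ji⟩ := exists_ne i
  obtain ⟨l, li, lj⟩ := third_idx i j ji.symm
  by_cases a : η j = 0
  · exact h3 j ji.symm (by simp [a])
  by_cases b : w l = 0
  · exact h3 l li.symm (by simp [b])
  have := K.div_mem (K.mul_mem (h1 i l li.symm) (h1 j i ji)) (h1 j l lj.symm)
  rwa [show η i * w l * (η j * w i) / (η j * w l) = η i * w i by field_simp] at this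

end LA

open LA in
theorem subLA (hT : SubTL.{u}) (hX : SubX6.{u}) : SubLA.{u} := fun F _ _ P hI hG hL => by
  obtain ⟨K, e, x, h, hK⟩ : ∃ K e x, LCfg0 P K e x ∧ ((2 : F) ≠ 0 ∨ Sm P ∨ ∃ t ∈ K, t ≠ 0 ∧ t ≠ 1) := by
    by_cases c : (2 : F) ≠ 0 ∨ Sm P
    · obtain ⟨v, w, φ, ψ, tv, tw, hv, hψ, h1, h0⟩ := hL
      obtain ⟨y, χ, ry, k1, k2⟩ := third hI hG hv hψ h0
      rcases hT F P v w y φ ψ χ ⟨tv, hv, fun e => h1 (by simp [e])⟩ ⟨tw, fun e => h1 (by simp [e]), hψ⟩ ry h1 h0 k1 k2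
        with ⟨K, e, x, h, -⟩ | ⟨h2, -, -, e', x', b', l', q', n'⟩
      · exact ⟨K, e, x, h, c.imp_right .inl⟩
      · exact (hX F P h2 hI hG (c.resolve_left fun k => k h2) e' x' b' l' q' n').elim
    · obtain ⟨v, φ, w, ψ, rv, rw', h1, h0, hb⟩ := exists_big hI hL (not_not.1 (not_or.1 c).1) (not_or.1 c).2
      obtain ⟨y, χ, ry, k1, k2⟩ := third hI hG rv.ne rw'.ne' h0
      rcases hT F P v w y φ ψ χ rv rw' ry h1 h0 k1 k2 with ⟨K, e, x, h, i1, i2, -⟩ | ⟨-, s1, s2, -⟩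
      · refine ⟨K, e, x, h, .inr (.inr ?_)⟩
        rcases hb with ⟨t, t0, t1, ht⟩ | ⟨t, t0, t1, ht⟩
        exacts [⟨t, mem_of_tv h rv i1 ht, t0, t1⟩, ⟨t, mem_of_tv h rw' i2 ht, t0, t1⟩]
      · exact (hb.elim (·.not s1) (·.not s2)).elim
  refine ⟨K, e, x, h, fun y χ r => diag_mem (fun i j ij => ?_) fun i j ij => ?_⟩
  · obtain ⟨l, li, lj⟩ := third_idx i j ij
    exact mul_comm (x j y) _ ▸ key hT hX hI hG h hK (.base i) (.base j) (.base l) (.base j) (.base l)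
      (h.bi.off _ _ ij.symm) (h.bi.diag j) (h.bi.off _ _ lj.symm) (h.bi.off _ _ li) (h.bi.off _ _ lj) (h.bi.diag l) r
  · obtain ⟨l, li, lj⟩ := third_idx i j ij
    have := key hT hX hI hG h hK (.add (.base i) (.base j)) (.base i) (.base l) (.sub (.base i) (.base j)) (.base l)
      (by simp [h.bi.apply, ij, ij.symm]) (by simp [h.bi.apply, ij.symm]) (by simp [h.bi.apply, li.symm, lj.symm])
      (by simp [h.bi.apply, li, lj]) (h.bi.off _ _ li) (h.bi.diag l) r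
    rwa [LinearMap.sub_apply, map_add, mul_comm] at this

end CL.Low4
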