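/-
Project LOW4: from a rational `SL₃(K)`-configuration to the linear outcome.
-/
import Cfsg.Agent.Low4.Defs2

set_option autoImplicit false
set_option linter.unusedSectionVars false

namespace CL.Low4

open Matrix Cfsg Cfsg.Geo CL.Asch CL.SLn CL.Low Module
open scoped commutatorElement

universe u

namespace LB

variable {F : Type u} [Field F] {K : Subfield F}

theorem ex2 {w η : Fin 3 → F} (hw : ∀ i, w i ∈ K) (h1 : ∃ j, w j ≠ 0) (h2 : ∃ j, η j ≠ 0) :
    ∃ β : Fin 3 → F, (∀ i, β i ∈ K) ∧ ∑ i, β i * w i = 0 ∧ ∃ i j, η i * β j - η j * β i ≠ 0 := by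
  by_contra h
  push Not at h
  have a := h ![w 1, -w 0, 0] (fun i => by fin_cases i <;> simp [hw]) (by simp [Fin.sum_univ_three, mul_comm])
  have b := h ![w 2, 0, -w 0] (fun i => by fin_cases i <;> simp [hw]) (by simp [Fin.sum_univ_three, mul_comm])
  have c := h ![0, w 2, -w 1] (fun i => by fin_cases i <;> simp [hw]) (by simp [Fin.sum_univ_three, mul_comm])
  have a1 := a 0 2
  have a2 := a 1 2
  have a3 := a 0 1
  have b1 := b 0 1
  have b2 := b 1 2
  have b3 := b 0 2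
  have c1 := c 0 1
  have c2 := c 0 2
  have c3 := c 1 2
  simp only [Fin.exists_fin_succ, IsEmpty.exists_iff] at h1 h2
  simp at a1 a2 a3 b1 b2 b3 c1 c2 c3 h1 h2
  grind

theorem lin (Q : (Fin 3 → F) → Prop) {w η : Fin 3 → F} (hw : ∀ i, w i ∈ K) (hη : ∀ i, η i ∈ K) (h1 : ∃ j, w j ≠ 0)
    (h2 : ∃ j, η j ≠ 0) (hs : ∀ α β, Q α → Q β → Q (α - β))
    (h : ∀ α a : Fin 3 → F, (∀ i, α i ∈ K) → (∀ i, a i ∈ K) → ∑ i, α i * w i = 0 → ∑ i, α i * a i = 0 →
      ∑ i, η i * a i = 1 → Q α) (α : Fin 3 → F) (hα : ∀ i, α i ∈ K) (h0 : ∑ i, α i * w i = 0) : Q α := by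
  have key : ∀ α : Fin 3 → F, (∀ i, α i ∈ K) → ∑ i, α i * w i = 0 → (∃ i j, η i * α j - η j * α i ≠ 0) → Q α := by
    rintro α hα h0 ⟨i, j, hd⟩
    refine h α (fun k => (η i * α j - η j * α i)⁻¹ * ((if k = i then α j else 0) - if k = j then α i else 0)) hα
      (fun k => K.mul_mem (K.inv_mem (K.sub_mem (K.mul_mem (hη _) (hα _)) (K.mul_mem (hη _) (hα _))))
        (K.sub_mem (by split_ifs; exacts [hα _, K.zero_mem]) (by split_ifs; exacts [hα _, K.zero_mem]))) h0 ?_ ?_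
    · simp [mul_sub, Finset.sum_sub_distrib]; ring
    · simp only [mul_sub, Finset.sum_sub_distrib, mul_ite, mul_zero, Finset.sum_ite_eq', Finset.mem_univ, if_true]
      field_simp
  by_cases h3 : ∃ i j, η i * α j - η j * α i ≠ 0
  · exact key α hα h0 h3
  push Not at h3
  obtain ⟨β, hβ, h4, i, j, h5⟩ := ex2 hw h1 h2
  have := hs _ _ (key (α + β) (fun i => K.add_mem (hα i) (hβ i)) (by
    simp [add_mul, Finset.sum_add_distrib, h0, h4]) ⟨i, j, fun e => h5 (by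
      simp only [Pi.add_apply] at e
      linear_combination e - h3 i j)⟩) (key β hβ h4 ⟨i, j, h5⟩)
  rwa [add_sub_cancel_right] at this

variable {P : Subgroup (G F)} {e : Fin 3 → V F} {x : Fin 3 → Dual F (V F)} {y y' : V F} {χ χ' : Dual F (V F)}

theorem back {N : Subgroup (G F)} {E Y : V F} {X Φ : Dual F (V F)} (h1 : Tv N E X)
    (h2 : Tv N (Y + X Y • E) (Φ - Φ E • X)) : Tv N Y Φ := by
  simpa [h1.1, -neg_smul, neg_smul (Φ E) X] using h1.neg_left.conj_tv h2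

/-- normalised members of the family -/
structure Nm (P : Subgroup (G F)) (K : Subfield F) (e : Fin 3 → V F) (x : Fin 3 → Dual F (V F)) (y : V F)
    (χ : Dual F (V F)) : Prop where
  tv : Tv P y χ
  w : ∀ j, x j y ∈ K
  η : ∀ i, χ (e i) ∈ K
  w0 : ∃ j, x j y ≠ 0
  η0 : ∃ i, χ (e i) ≠ 0

theorem Nm.right (h : LCfg P K e x) (u : Nm P K e x y χ) (α : Fin 3 → F) (hα : ∀ i, α i ∈ K)
    (h0 : ∑ i, α i * x i y = 0) : Tv P y (∑ i, α i • x i) :=
  lin (fun α => Tv P y (∑ i, α i • x i)) u.w u.η u.w0 u.η0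
    (fun α β h1 h2 => by
      have := h1.sub_right h2
      rw [← Finset.sum_sub_distrib] at this
      rwa [Finset.sum_congr rfl fun i _ => (sub_smul (α i) (β i) (x i)).symm] at this)
    (fun α a hα ha h1 h2 h3 => by
      have := u.tv.comm' (h.tv a α ha hα h2) (by simpa using h1)
      rwa [show χ (∑ i, a i • e i) = 1 by simpa [mul_comm] using h3, one_smul] at this) α hα h0

theorem Nm.left (h : LCfg P K e x) (u : Nm P K e x y χ) (a : Fin 3 → F) (ha : ∀ i, a i ∈ K)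
    (h0 : ∑ i, a i * χ (e i) = 0) : Tv P (∑ i, a i • e i) χ :=
  lin (fun a => Tv P (∑ i, a i • e i) χ) u.η u.w u.η0 u.w0
    (fun α β h1 h2 => by simpa [sub_smul, Finset.sum_sub_distrib] using h1.sub_left h2)
    (fun a α ha hα h1 h2 h3 => by
      have := (h.tv a α ha hα (by simpa [mul_comm] using h2)).comm u.tv (by simpa using h1)
      rwa [show (∑ i, α i • x i) y = 1 by simpa [mul_comm] using h3, one_smul] at this) a ha h0

theorem ex3 {w : Fin 3 → F} (hw : ∀ i, w i ∈ K) (h1 : ∃ j, w j ≠ 0) :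
    ∃ β : Fin 3 → F, (∀ i, β i ∈ K) ∧ ∑ i, β i * w i = 0 ∧ ∃ i, β i ≠ 0 := by
  obtain ⟨β, h2, h3, i, j, h4⟩ := ex2 hw h1 h1
  refine ⟨β, h2, h3, by_contra fun h5 => h4 ?_⟩
  push Not at h5
  simp [h5]

theorem Nm.pair (h : LCfg P K e x) (u : Nm P K e x y χ) (u' : Nm P K e x y' χ') : χ' y ∈ K := by
  obtain ⟨α, hα, h0, i, hi⟩ := ex3 u.w u.w0
  have h1 := (u.right h α hα h0).conj_tv u'.tv
  have h2 : (∑ i, α i • x i) y' ∈ K := by
    simpa using K.sum_mem fun i _ => K.mul_mem (hα i) (u'.w i)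
  obtain ⟨j, hj⟩ : ∃ j, x j (y' + (∑ i, α i • x i) y' • y) ≠ 0 := by
    by_contra h3
    push Not at h3
    have h4 : (∑ i, α i • x i) (y' + (∑ i, α i • x i) y' • y) = 0 := by
      rw [LinearMap.sum_apply]
      exact Finset.sum_eq_zero fun i _ => by rw [LinearMap.smul_apply, h3, smul_zero]
    rw [map_add, map_smul, (u.right h α hα h0).1, smul_zero, add_zero] at h4
    obtain ⟨j, hj⟩ := u'.w0
    exact hj (by simpa [h4] using h3 j)
  have h3 := K.div_mem (h.rat _ _ h1 i j) (show x j (y' + (∑ i, α i • x i) y' • y) ∈ K by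
    rw [map_add, map_smul]
    exact K.add_mem (u'.w j) (K.mul_mem h2 (u.w j)))
  rw [mul_div_cancel_right₀ _ hj] at h3
  have h4 := K.div_mem (K.sub_mem (u'.η i) h3) (hα i)
  simpa [h.bi.apply, hi] using h4

/-- the group generated by the family -/
def N (P : Subgroup (G F)) (K : Subfield F) (e : Fin 3 → V F) (x : Fin 3 → Dual F (V F)) : Subgroup (G F) :=
  Subgroup.closure {g : G F | ∃ t ∈ {t : V F × Dual F (V F) | Nm P K e x t.1 t.2}, (∀ y, g • y = y - t.2 y • t.1) ∧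
    ∀ y, g⁻¹ • y = y - (-1 * t.2 y) • t.1}

theorem tvN (h : LCfg P K e x) (h1 : Tv P y χ) (h2 : ∃ j, x j y ≠ 0) (h3 : ∃ i, χ (e i) ≠ 0) :
    Tv (N P K e x) y χ := by
  obtain ⟨j, hj⟩ := h2
  obtain ⟨i, hi⟩ := h3
  have h4 : ∀ i, x j y * χ (e i) ∈ K := fun i => mul_comm (χ (e i)) _ ▸ h.rat _ _ h1 i j
  have h5 : ∀ c, x j y * c * (x j y)⁻¹ = c := fun c => by field_simp
  obtain ⟨h0, g, hg, eg⟩ := h1.neg_left
  refine (Tv.neg_left (H := N P K e x) (v := -y) ⟨h0, g, Subgroup.subset_closure ⟨((x j y)⁻¹ • y, x j y • χ),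
    Nm.mk (h1.congr (by simp [h1.1]) fun z => by simp [smul_smul, h5]) (fun k => ?_) h4
      ⟨j, by simp [hj]⟩ ⟨i, by simp [hi, hj]⟩, fun z => ?_, fun z => ?_⟩, eg⟩).congr h1.1 (by simp)
  · have := K.div_mem (h.rat _ _ h1 i k) (h4 i)
    rwa [mul_comm (x j y), mul_div_mul_left _ _ hi, div_eq_inv_mul, ← smul_eq_mul, ← map_smul] at this
  · simp [eg, smul_smul, h5, sub_eq_add_neg]
  · simp [inv_smul_of_tv h0 eg, smul_smul, h5]

theorem tv_ex (h : LCfg P K e x) {i j : Fin 3} (hij : i ≠ j) : Tv P (e i) (x j) := by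
  simpa [Pi.single_apply] using h.tv (Pi.single i 1) (Pi.single j 1)
    (fun k => by rw [Pi.single_apply]; split_ifs; exacts [K.one_mem, K.zero_mem])
    (fun k => by rw [Pi.single_apply]; split_ifs; exacts [K.one_mem, K.zero_mem]) (by simp [Pi.single_apply, hij])

theorem good (h : LCfg P K e x) (g : Tv P y' χ') (u : Nm P K e x y χ) :
    Tv (N P K e x) (y + χ' y • y') (χ - χ y' • χ') := by
  have hb := h.bi
  by_cases h1 : ∃ j, x j y' ≠ 0
  · by_cases h2 : ∃ i, χ' (e i) ≠ 0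
    · exact (tvN h g h1 h2).conj_tv (tvN h u.tv u.w0 u.η0)
    push Not at h2
    by_cases h3 : ∃ j, x j (y + χ' y • y') ≠ 0
    · exact tvN h (g.conj_tv u.tv) h3 (by simpa [h2] using u.η0)
    push Not at h3
    obtain ⟨j, hj⟩ := u.w0
    obtain ⟨i, hij⟩ := exists_ne j
    have r := g.conj_tv (tv_ex h hij)
    refine back (tvN h r ⟨i, by simp [h2, hb.diag]⟩ ⟨j, by simp [h2, hb.diag]⟩)
      (tvN h (r.conj_tv (g.conj_tv u.tv)) ⟨i, ?_⟩ ?_)
    · rw [map_add, h3]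
      simp [h2, hb.diag, g.1, hj, mul_comm]
    · by_cases h4 : χ (e i) = 0
      · simpa [h2, h4] using u.η0
      · exact ⟨i, by simp [h2, h4, hb.off j i hij.symm]⟩
  push Not at h1
  by_cases h3 : ∃ i, (χ - χ y' • χ') (e i) ≠ 0
  · exact tvN h (g.conj_tv u.tv) (by simpa [h1] using u.w0) h3
  push Not at h3
  obtain ⟨i, hi⟩ := u.η0
  obtain ⟨j, hij⟩ := exists_ne i
  have r := g.conj_tv (tv_ex h hij.symm)
  refine back (tvN h r ⟨i, by simp [h1, hb.diag]⟩ ⟨j, by simp [h1, hb.diag]⟩)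
    (tvN h (r.conj_tv (g.conj_tv u.tv)) ?_ ⟨j, ?_⟩)
  · by_cases h4 : x j y = 0
    · simpa [h1, h4] using u.w0
    · exact ⟨j, by simp [h1, h4, hb.off j i hij]⟩
  · rw [LinearMap.sub_apply, h3]
    simp [h1, hb.diag, g.1, hi, mul_comm]

theorem le_N [Fintype F] (hP : QS P) (h : LCfg P K e x) : P ≤ N P K e x := by
  have hb := h.bi
  have h01 := tv_ex h (i := 0) (j := 1) (by decide)
  have ht : IsTv (tv _ _ h01.1) := ⟨e 0, x 1, fun e0 => by simpa [e0] using hb.diag 0,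
    fun e0 => by simpa [e0] using hb.diag 1, h01.1, tv_smul _ _ _⟩
  have h1 : P ≤ Subgroup.normalizer (N P K e x : Set (G F)) := (hP.tvGen ⟨_, h01.mem, ht⟩).trans
    ((Subgroup.closure_le _).2 (by
      rintro g ⟨hg, y', χ', -, -, h0, eg⟩
      refine Subgroup.mem_normalizer_fintype fun n hn =>
        (Subgroup.closure_le ((N P K e x).comap (MulAut.conj g).toMonoidHom)).2 ?_ hn
      rintro a ⟨⟨y, χ⟩, u, ea, -⟩
      obtain ⟨-, b, hb, eb⟩ := (good h ⟨h0, g, hg, eg⟩ u).neg_left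
      change g * a * g⁻¹ ∈ N P K e x
      rwa [show g * a * g⁻¹ = b from gext fun z => by
        rw [mul_smul, mul_smul, ea, smul_sub, smul_inv_smul, gsmul_smul, eb, eg, inv_smul_of_tv h0 eg]
        simp [sub_eq_add_neg, mul_comm]]))
  exact hP.le_of_normal (fun g hg n hn => (Subgroup.mem_normalizer_iff.1 (h1 hg) n).1 hn)
    (tvN h h01 ⟨0, by simp [hb.diag]⟩ ⟨1, by simp [hb.diag]⟩).mem h01.mem ht.not_mem_scalars

theorem inv_N {W : Submodule F (V F)} (hW : ∀ y χ, Nm P K e x y χ → ∀ z ∈ W, χ z • y ∈ W) :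
    N P K e x ≤ subspaceStabilizer W := (Subgroup.closure_le _).2 (by
  rintro a ⟨⟨y, χ⟩, u, ea, -⟩
  exact mem_subspaceStabilizer_of_mapsTo fun z hz => by
    change a • z ∈ W
    rw [ea]
    exact W.sub_mem hz (hW y χ u z hz))

end LB

open LB in
theorem subLB : SubLB.{u} := by
  intro F _ _ P hP K e x h
  have hN := le_N hP h
  have hb := h.bi
  refine ⟨K, fun l hl => (trace_lemma (K.toSubring.prod ⊤) _ (ε := -1) (fun _ => 1) (fun _ _ => one_ne_zero)
    (fun s hs t ht => ⟨Nm.pair h ht hs, trivial⟩) (hN hl)).1.1, ?_⟩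
  rintro rfl
  obtain ⟨Z, Ψ, hZ, hΨ, hc, m1, m2⟩ := Complete.exists_maximal (H := P) (Z₀ := Submodule.span F (Set.range e))
    (Ψ₀ := Submodule.span F (Set.range x)) fun z hz ψ hψ h0 => by
      obtain ⟨a, rfl⟩ := (Submodule.mem_span_range_iff_exists_fun F).1 hz
      obtain ⟨η, rfl⟩ := (Submodule.mem_span_range_iff_exists_fun F).1 hψ
      exact h.tv a η (fun _ => trivial) (fun _ => trivial) (by simpa [hb.apply, mul_comm] using h0)
  have he : ∀ i, e i ∈ Z := fun i => hZ (Submodule.subset_span ⟨i, rfl⟩)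
  have hx : ∀ i, x i ∈ Ψ := fun i => hΨ (Submodule.subset_span ⟨i, rfl⟩)
  have h1 : ∀ y χ, Nm P ⊤ e x y χ → y ∈ Z := fun y χ u => by
    obtain ⟨α, -, h0, i, hi⟩ := ex3 u.w u.w0
    refine m1 _ le_sup_left (hc.addVec (ψ₀ := ∑ i, α i • x i) (Ψ.sum_mem fun i _ => Ψ.smul_mem _ (hx i)) (he i)
      (by simpa [hb.apply] using hi) fun s => Tv.of_smul_right (by simpa using h0) ?_)
      (Submodule.mem_sup_right (Submodule.mem_span_singleton_self y))
    simpa [Finset.smul_sum, smul_smul] using u.right h (s • α) (fun _ => trivial)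
      (by simp [mul_assoc, ← Finset.mul_sum, h0])
  have h2 : ∀ y χ, Nm P ⊤ e x y χ → χ ∈ Ψ := fun y χ u => by
    obtain ⟨a, -, h0, i, hi⟩ := ex3 u.η u.η0
    refine m2 _ le_sup_left (hc.addFun (b₀ := ∑ i, a i • e i) (Z.sum_mem fun i _ => Z.smul_mem _ (he i)) (hx i)
      (by simpa [hb.apply] using hi) fun s => ?_) (Submodule.mem_sup_right (Submodule.mem_span_singleton_self χ))
    simpa [Finset.smul_sum, smul_smul] using u.left h (s • a) (fun _ => trivial)
      (by simp [mul_assoc, ← Finset.mul_sum, h0])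
  have key : ∀ W : Submodule F (V F), (∀ y χ, Nm P ⊤ e x y χ → ∀ z ∈ W, χ z • y ∈ W) → W = ⊥ ∨ W = ⊤ :=
    fun W hW => irr_iff.1 hP.irr W fun g hg w hw => (Asch.mem_subspaceStabilizer.1 (inv_N hW (hN hg)) w).1 hw
  obtain rfl : Z = ⊤ := (key Z fun y χ u z _ => Z.smul_mem _ (h1 y χ u)).resolve_left fun e0 => by
    simpa [(Submodule.mem_bot F).1 (e0 ▸ he 0)] using hb.diag 0
  have h3 : Ψ.dualCoannihilator = ⊥ := (key _ fun y χ u z hz => by
    rw [(Submodule.mem_dualCoannihilator z).1 hz χ (h2 y χ u), zero_smul]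
    exact zero_mem _).resolve_right fun e0 => by
      simpa [hb.diag] using (Submodule.mem_dualCoannihilator (e 0)).1 (e0 ▸ Submodule.mem_top) _ (hx 0)
  have h4 := Subspace.dualCoannihilator_dualAnnihilator_eq (W := Ψ)
  rw [h3, Submodule.dualAnnihilator_bot] at h4
  subst h4
  exact specialLinear_le_of_centers (eq_top_iff.2 fun v _ φ h0 => hc v trivial φ trivial h0)

end CL.Low4
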