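/-
Project LOW4: the 2-local data at an involution with a component `A₅`.
-/
import Cfsg.Agent.Low4.Defs3
import Cfsg.Agent.Known.AltAut
import Cfsg.Agent.Grp.SZConj

set_option autoImplicit false
set_option linter.unusedSectionVars false

namespace CL.Low4

open Matrix Cfsg Cfsg.Geo CL.Asch CL.SLn CL.Low Module
open scoped commutatorElement MatrixGroups

universe u

namespace LZa

open Equiv

set_option maxRecDepth 100000 in
theorem d1 : ∀ σ : Perm (Fin 5), σ * σ = 1 ∨ σ ^ 15 = 1 ∨ Perm.sign σ = -1 := by decide +kernel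

set_option maxRecDepth 100000 in
theorem d2 : ∀ σ : Perm (Fin 5), σ * (swap 0 1 * swap 2 3) * σ⁻¹ = swap 0 1 * swap 2 3 →
    σ * (swap 0 2 * swap 1 3) * σ⁻¹ = swap 0 2 * swap 1 3 → σ = 1 ∨ σ = swap 0 1 * swap 2 3 ∨
      σ = swap 0 2 * swap 1 3 ∨ σ = swap 0 1 * swap 2 3 * (swap 0 2 * swap 1 3) := by decide +kernel

/-- the generators of the four-group and an element of order three -/
def e0 : alternatingGroup (Fin 5) := ⟨swap 0 1 * swap 2 3, Perm.mem_alternatingGroup.2 (by decide +kernel)⟩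
def f0 : alternatingGroup (Fin 5) := ⟨swap 0 2 * swap 1 3, Perm.mem_alternatingGroup.2 (by decide +kernel)⟩
def y0 : alternatingGroup (Fin 5) := ⟨swap 1 2 * swap 2 3, Perm.mem_alternatingGroup.2 (by decide +kernel)⟩

theorem d3 : e0 * e0 = 1 ∧ f0 * f0 = 1 ∧ e0 * f0 = f0 * e0 ∧ e0 ≠ 1 ∧ f0 ≠ 1 ∧ f0 ≠ e0 ∧ y0 * e0 * y0⁻¹ = f0 ∧
    y0 * f0 * y0⁻¹ = e0 * f0 := by decide +kernel

theorem d4 (σ : Perm (Fin 5)) (h1 : σ * e0 * σ⁻¹ = e0) (h2 : σ * f0 * σ⁻¹ = f0) :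
    ∃ l : alternatingGroup (Fin 5), E4 e0 f0 l ∧ σ = l := by
  rcases d2 σ h1 h2 with h | h | h | h
  exacts [⟨1, .inl rfl, h⟩, ⟨e0, .inr (.inl rfl), h⟩, ⟨f0, .inr (.inr (.inl rfl)), h⟩,
    ⟨e0 * f0, .inr (.inr (.inr rfl)), h⟩]

variable {H : Type u} [Group H]

theorem E4map {G : Type} [Group G] (φ : G →* H) {a b t : G} (h : E4 a b t) :
    E4 (φ a) (φ b) (φ t) := by
  rcases h with rfl | rfl | rfl | rfl
  exacts [.inl (map_one φ), .inr (.inl rfl), .inr (.inr (.inl rfl)), .inr (.inr (.inr (map_mul φ _ _)))]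

/-- the facts on `A₅` that are used -/
structure AD (L : Subgroup H) (e f y : H) : Prop where
  eL : e ∈ L
  fL : f ∈ L
  yL : y ∈ L
  ee : e * e = 1
  ff : f * f = 1
  ef : Commute e f
  e1 : e ≠ 1
  f1 : f ≠ 1
  fe : f ≠ e
  ye : y * e * y⁻¹ = f
  yf : y * f * y⁻¹ = e * f
  perf : ⁅L, L⁆ = L
  nsol : ¬ Group.IsSolvable L
  sq : ∀ l ∈ L, ∀ n : ℕ, l ^ 2 ^ n = 1 → l * l = 1
  cv : ∀ l ∈ L, Commute l e → Commute l f → E4 e f l
  aut : ∀ g : H, (∀ l ∈ L, g * l * g⁻¹ ∈ L) → Commute g e → Commute g f → ∃ l, E4 e f l ∧ ∀ m ∈ L, Commute (l⁻¹ * g) m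

theorem pow_cop {x : H} {n m : ℕ} (h1 : x ^ 2 ^ n = 1) (h2 : x ^ m = 1) (hm : Odd m) : x = 1 :=
  orderOf_eq_one_iff.1 (Nat.eq_one_of_dvd_coprimes (hm.coprime_two_left.pow_left n) (orderOf_dvd_of_pow_eq_one h1)
    (orderOf_dvd_of_pow_eq_one h2))

theorem exists_AD [Finite H] {L : Subgroup H} (h : Nonempty (L ≃* alternatingGroup (Fin 5))) :
    ∃ e f y, AD L e f y := by
  obtain ⟨φ⟩ := h
  obtain ⟨ψ, hψ⟩ : ∃ ψ : alternatingGroup (Fin 5) →* H, ∀ x, ψ x = φ.symm x :=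
    ⟨L.subtype.comp φ.symm.toMonoidHom, fun _ => rfl⟩
  have inj : Function.Injective ψ := fun a b e => φ.symm.injective (Subtype.ext (by rw [← hψ, ← hψ, e]))
  have mem : ∀ x, ψ x ∈ L := fun x => hψ x ▸ (φ.symm x).2
  have sur : ∀ l ∈ L, ∃ x, ψ x = l := fun l hl => ⟨φ ⟨l, hl⟩, by rw [hψ, φ.symm_apply_apply]⟩
  obtain ⟨a1, a2, a3, a4, a5, a6, a7, a8⟩ := d3
  have hc : commutator L = ⊤ := by
    have := map_commutator_eq (alternatingGroup (Fin 5)) φ.symm.toMonoidHom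
    rw [commutator_alternatingGroup_eq_top (by simp), ← MonoidHom.range_eq_map,
      MonoidHom.range_eq_top.2 φ.symm.surjective] at this
    exact this.symm
  refine ⟨ψ e0, ψ f0, ψ y0, mem _, mem _, mem _, by rw [← map_mul, a1, map_one], by rw [← map_mul, a2, map_one],
    (show Commute e0 f0 from a3).map ψ, fun e => a4 (inj (e.trans (map_one ψ).symm)),
    fun e => a5 (inj (e.trans (map_one ψ).symm)), fun e => a6 (inj e),
    by rw [← map_inv, ← map_mul, ← map_mul, a7], by rw [← map_inv, ← map_mul, ← map_mul, a8, map_mul], ?_,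
    fun hs => ?_, fun l hl n hn => ?_, fun l hl h1 h2 => ?_, fun g hg h1 h2 => ?_⟩
  · rw [← Subgroup.map_subtype_commutator, hc, ← MonoidHom.range_eq_map, Subgroup.range_subtype]
  · have : Nontrivial L := ⟨⟨φ.symm e0, φ.symm 1, fun e => a4 (φ.symm.injective e)⟩⟩
    exact (Group.IsSolvable.commutator_lt_top_of_nontrivial L).ne hc
  · obtain ⟨x, rfl⟩ := sur l hl
    have h1 : x ^ 2 ^ n = 1 := inj (by rw [map_pow, hn, map_one])
    rw [← map_mul, ← map_one ψ]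
    congr 1
    rcases d1 x with k | k | k
    · exact Subtype.ext k
    · rw [pow_cop h1 (Subtype.ext k : x ^ 15 = 1) (by decide), mul_one]
    · exact absurd (k.symm.trans (Perm.mem_alternatingGroup.1 x.2)) (by decide)
  · obtain ⟨x, rfl⟩ := sur l hl
    have k : ∀ a, Commute (ψ x) (ψ a) → (x : Perm (Fin 5)) * a * (x : Perm (Fin 5))⁻¹ = a := fun a ha =>
      congrArg Subtype.val (show x * a * x⁻¹ = a from
        mul_inv_eq_iff_eq_mul.2 (inj (by rw [map_mul, map_mul]; exact ha)))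
    obtain ⟨l, hl, e⟩ := d4 x (k _ h1) (k _ h2)
    rw [Subtype.ext e]
    exact E4map ψ hl
  · let c : MulAut L := L.normalizerMonoidHom ⟨g, Subgroup.mem_normalizer_fintype hg⟩
    have hcx : ∀ x : L, (c x : H) = g * x * g⁻¹ := fun _ => rfl
    obtain ⟨σ, hσ⟩ := CL.Known.exists_conj_of_mulEquiv_alt (Ω := Fin 5) (by simp) (by simp) (φ.symm.trans (c.trans φ))
    have k0 : ∀ a, ψ (φ (c (φ.symm a))) = g * ψ a * g⁻¹ := fun a => by rw [hψ, φ.symm_apply_apply, hcx, hψ]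
    have k : ∀ a, Commute g (ψ a) → σ * a * σ⁻¹ = a := fun a ha => by
      rw [← hσ]
      exact congrArg Subtype.val (inj ((k0 a).trans (mul_inv_eq_iff_eq_mul.2 ha)))
    obtain ⟨l, hl, rfl⟩ := d4 σ (k _ h1) (k _ h2)
    refine ⟨ψ l, E4map ψ hl, fun m hm => ?_⟩
    obtain ⟨x, rfl⟩ := sur m hm
    have e : g * ψ x * g⁻¹ = ψ l * ψ x * (ψ l)⁻¹ := by
      rw [← k0, ← map_inv, ← map_mul, ← map_mul]
      exact congrArg ψ (Subtype.ext (hσ x))
    calc (ψ l)⁻¹ * g * ψ x = (ψ l)⁻¹ * (g * ψ x * g⁻¹) * g := by group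
      _ = ψ x * ((ψ l)⁻¹ * g) := by rw [e]; group

namespace AD

variable {L : Subgroup H} {e f y : H} (h : AD L e f y)
include h

theorem E4sq {x : H} (hx : E4 e f x) : x * x = 1 ∧ Commute x e ∧ Commute x f := by
  rcases hx with rfl | rfl | rfl | rfl
  · exact ⟨one_mul 1, .one_left _, .one_left _⟩
  · exact ⟨h.ee, .refl _, h.ef⟩
  · exact ⟨h.ff, h.ef.symm, .refl _⟩
  · refine ⟨?_, (Commute.refl e).mul_left h.ef.symm, h.ef.mul_left (.refl f)⟩
    rw [mul_assoc, ← mul_assoc f, ← h.ef.eq, mul_assoc, h.ff, mul_one, h.ee]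

theorem cen {l : H} (hl : l ∈ L) (hc : ∀ m ∈ L, Commute l m) : l = 1 := by
  have k : y * l * y⁻¹ = l := mul_inv_eq_iff_eq_mul.2 (hc y h.yL).symm
  rcases h.cv l hl (hc e h.eL) (hc f h.fL) with rfl | rfl | rfl | rfl
  · rfl
  · exact absurd (h.ye.symm.trans k) h.fe
  · exact absurd (mul_eq_right.1 (h.yf.symm.trans k)) h.e1
  · rw [← conj_mul, h.ye, h.yf, ← mul_assoc, ← h.ef.eq, mul_assoc, h.ff] at k
    exact absurd (mul_left_cancel k).symm h.f1

theorem comm_of_sq {a b : H} (ha : a * a = 1) (hb : b * b = 1) (hab : a * b * (a * b) = 1) : Commute a b := by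
  have h1 := inv_eq_of_mul_eq_one_right hab
  rw [_root_.mul_inv_rev, inv_eq_of_mul_eq_one_right ha, inv_eq_of_mul_eq_one_right hb] at h1
  exact h1.symm

/-- a `2`-subgroup of `L` containing the four-group equals it -/
theorem syl {T : Subgroup H} (hT : IsPGroup 2 T) (he : e ∈ T) (hf : f ∈ T) {x : H} (hx : x ∈ T) (hL : x ∈ L) :
    E4 e f x := by
  have k : ∀ a ∈ T, a ∈ L → a * a = 1 := fun a ha hl => by
    obtain ⟨n, hn⟩ := hT ⟨a, ha⟩
    exact h.sq a hl n (congrArg Subtype.val hn)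
  exact h.cv x hL (h.comm_of_sq (k x hx hL) h.ee (k _ (T.mul_mem hx he) (L.mul_mem hL h.eL)))
    (h.comm_of_sq (k x hx hL) h.ff (k _ (T.mul_mem hx hf) (L.mul_mem hL h.fL)))

/-- a `2`-element of `L` conjugating `a` into the four-group commutes with `a` -/
theorem nor {l a : H} (hl : l ∈ L) {n : ℕ} (hn : l ^ 2 ^ n = 1) (ha : a = e ∨ a = f) (hc : E4 e f (l * a * l⁻¹)) :
    Commute l a := by
  have l2 := h.sq l hl n hn
  have aa : a * a = 1 := ha.elim (· ▸ h.ee) (· ▸ h.ff)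
  have aL : a ∈ L := ha.elim (· ▸ h.eL) (· ▸ h.fL)
  obtain ⟨k1, k2, k3⟩ := h.E4sq hc
  have k4 : Commute (l * a * l⁻¹) a := ha.elim (fun e => by nth_rw 2 [e]; exact k2) fun e => by nth_rw 2 [e]; exact k3
  refine h.comm_of_sq l2 aa (h.sq _ (L.mul_mem hl aL) 2 ?_)
  have e1 : (l * a) ^ 2 = l * a * l⁻¹ * a := by rw [inv_eq_of_mul_eq_one_right l2, pow_two, mul_assoc (l * a)]
  rw [show 2 ^ 2 = 2 * 2 from rfl, pow_mul, e1, k4.mul_pow, pow_two, pow_two, k1, aa, one_mul]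

variable {C : H → H → Prop} (hC : CX C) (an : ¬ C e f)
include hC an

theorem keyA {c : H} (hc : ∀ m ∈ L, Commute c m) : C c e ∧ C c f := by
  have k : y * c * y⁻¹ = c := mul_inv_eq_iff_eq_mul.2 (hc y h.yL).symm
  have k1 : C c f ↔ C c e := by have := hC.conj_iff (a := c) (b := e) y; rwa [k, h.ye] at this
  have k2 : C c (e * f) ↔ C c f := by have := hC.conj_iff (a := c) (b := f) y; rwa [k, h.yf] at this
  have k3 : C c e := by_contra fun k3 =>
    k3 (k1.1 (k2.1 (hC.anti' h.ee h.ff (hc e h.eL) (hc f h.fL) k3 (mt k1.1 k3))))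
  exact ⟨k3, k1.2 k3⟩

theorem keyB {r : H} (hn : ∀ l ∈ L, r * l * r⁻¹ ∈ L) (re : C r e) (rf : C r f) : ∀ m ∈ L, Commute r m := by
  obtain ⟨l, hl, hc⟩ := h.aut r hn (hC.comm re) (hC.comm rf)
  obtain ⟨k1, k2⟩ := h.keyA hC an hc
  have e1 : l = r * (l⁻¹ * r)⁻¹ := by group
  have k3 : C l e := e1 ▸ hC.mul re (hC.inv k1)
  have k4 : C l f := e1 ▸ hC.mul rf (hC.inv k2)
  rcases hl with rfl | rfl | rfl | rfl
  · simpa using hc
  · exact absurd k4 an
  · exact absurd (hC.symm k3) an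
  · exact absurd (hC.symm ((hC.mul_iff (hC.refl e)).1 k3)) an

end AD

theorem comp_norm {C : H → H → Prop} (hC : CX C) {w : H} {L : Subgroup H} (hc : Comp C w L) (perf : ⁅L, L⁆ = L)
    {g : H} (hg : Commute g w) : ∀ l ∈ L, g * l * g⁻¹ ∈ L := fun l hl => by
  refine hc.max (L.map (MulAut.conj g).toMonoidHom) (by rw [← Subgroup.map_commutator, perf]) ?_ ⟨l, hl, rfl⟩
  rintro _ ⟨m, hm, rfl⟩
  exact (hg.mul_left (hC.comm (hc.cm m hm))).mul_left hg.inv_left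

/-- a Sylow subgroup of the centraliser of `z` containing `e` and `f` -/
theorem exists_T [Finite H] {z e f : H} (zz : z * z = 1) (ee : e * e = 1) (ff : f * f = 1) (ef : Commute e f)
    (ez : Commute e z) (fz : Commute f z) : ∃ T : Subgroup H, IsPGroup 2 T ∧ (∀ t ∈ T, Commute t z) ∧ z ∈ T ∧ e ∈ T ∧
      f ∈ T ∧ ∀ Q : Subgroup H, IsPGroup 2 Q → (∀ t ∈ Q, Commute t z) → Nat.card Q ≤ Nat.card T := by
  have : Fact (Nat.Prime 2) := ⟨Nat.prime_two⟩
  have mc : ∀ {t : H}, t ∈ Subgroup.centralizer {z} ↔ Commute t z := Subgroup.mem_centralizer_singleton_iff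
  have hV : IsPGroup 2 (Subgroup.closure {z, e, f} : Subgroup H) := by
    have hcm : ∀ a ∈ ({z, e, f} : Set H), ∀ b ∈ ({z, e, f} : Set H), a * b = b * a := by
      rintro a (rfl | rfl | rfl) b (rfl | rfl | rfl)
      exacts [rfl, ez.symm, fz.symm, ez, rfl, ef, fz, ef.symm, rfl]
    rintro ⟨x, hx⟩
    refine ⟨1, Subtype.ext ?_⟩
    show x ^ 2 ^ 1 = 1
    induction hx using Subgroup.closure_induction with
    | mem x hx => rcases hx with rfl | rfl | rfl <;> simpa [pow_two]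
    | one => simp
    | mul x y hx hy h1 h2 =>
      have : Commute x y := congrArg Subtype.val
        ((Subgroup.isMulCommutative_closure hcm).is_comm.comm ⟨x, hx⟩ ⟨y, hy⟩)
      rw [this.mul_pow, h1, h2, one_mul]
    | inv x hx h1 => rw [inv_pow, h1, inv_one]
  obtain ⟨S, hS⟩ := (hV.comap_subtype (K := Subgroup.centralizer {z})).exists_le_sylow
  have hm : ∀ x, (hx : Commute x z) → x ∈ ({z, e, f} : Set H) →
      x ∈ (S : Subgroup (Subgroup.centralizer {z})).map (Subgroup.centralizer {z}).subtype := fun x hx k =>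
    ⟨⟨x, mc.2 hx⟩, hS (Subgroup.subset_closure k), rfl⟩
  refine ⟨_, S.2.map (Subgroup.centralizer {z}).subtype, ?_, hm z (.refl z) (by simp), hm e ez (by simp),
    hm f fz (by simp), fun Q hQ hc => ?_⟩
  · rintro _ ⟨t, -, rfl⟩
    exact mc.1 t.2
  · obtain ⟨S', hS'⟩ := (hQ.comap_subtype (K := Subgroup.centralizer {z})).exists_le_sylow
    rw [Subgroup.card_map_of_injective (Subgroup.subtype_injective _), S.card_eq_multiplicity,
      ← S'.card_eq_multiplicity, ← CL.Grp.card_subgroupOf_of_le (L := Subgroup.centralizer {z}) fun t ht => mc.2 (hc t ht)]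
    exact Subgroup.card_le_of_le hS'

end LZa

theorem subLZ : SubLZ.{u} := by
  intro H _ _ C hC hcomp w ww w1 hw
  obtain ⟨⟨z, T0⟩, ⟨zz, z1, hz, pT0, cT0⟩, hmax⟩ := Set.exists_max_image
    {p : H × Subgroup H | p.1 * p.1 = 1 ∧ p.1 ≠ 1 ∧ ¬ Group.IsSolvable (Subgroup.centralizer {p.1}) ∧
      IsPGroup 2 p.2 ∧ ∀ t ∈ p.2, Commute t p.1} (fun p => Nat.card p.2) (Set.toFinite _)
    ⟨(w, ⊥), ww, w1, hw, IsPGroup.of_bot, fun t ht => by rw [Subgroup.mem_bot.1 ht]; exact .one_left _⟩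
  dsimp only at zz z1 hz pT0 cT0 hmax
  obtain ⟨L, hL⟩ := hcomp z zz z1 hz
  obtain ⟨e, f, y, h⟩ := LZa.exists_AD hL.iso
  obtain ⟨T, pT, cT, zT, eT, fT, hT⟩ := LZa.exists_T zz h.ee h.ff h.ef (hC.comm (hL.cm e h.eL)) (hC.comm (hL.cm f h.fL))
  have an : ¬ C e f := hL.anti e h.eL f h.fL h.ee h.ff h.e1 h.f1 h.fe
  have nz : ∀ t ∈ T, ∀ l ∈ L, t * l * t⁻¹ ∈ L := fun t ht => LZa.comp_norm hC hL h.perf (cT t ht)
  have hR : ∀ r ∈ T ⊓ (hC.grp e ⊓ hC.grp f), ∀ m ∈ L, Commute r m := fun r hr =>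
    h.keyB hC an (nz r hr.1) hr.2.1 hr.2.2
  have ns : ∀ r ∈ T ⊓ (hC.grp e ⊓ hC.grp f), ¬ Group.IsSolvable (Subgroup.centralizer {r}) := fun r hr hs =>
    h.nsol (CL.Grp.isSolvable_of_le (K := Subgroup.centralizer {r}) fun m hm =>
      Subgroup.mem_centralizer_singleton_iff.2 (hR r hr m hm).symm)
  refine ⟨z, e, f, y, T, T ⊓ (hC.grp e ⊓ hC.grp f), zz, z1, pT, cT, zT, eT, fT, h.ee, h.ff, h.ef, an, hL.cm e h.eL,
    hL.cm f h.fL, h.ye, h.yf, fun _ => Iff.rfl, fun r hr => (hR r hr y h.yL).symm, fun t ht tz => ?_,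
    fun r hr r1 rr g hg hn => ?_, fun r hr r1 rr Q hQ hTQ hc => ?_⟩
  · obtain ⟨l, hl, hc⟩ := hL.inner t tz
    obtain ⟨n, hn⟩ := pT ⟨t, ht⟩
    obtain ⟨c, rfl⟩ : ∃ c, t = l * c := ⟨l⁻¹ * t, by group⟩
    rw [inv_mul_cancel_left] at hc
    have h1 : (l * c) ^ 2 ^ n = 1 := congrArg Subtype.val hn
    rw [(hc l hl).symm.mul_pow] at h1
    have h2 : l ^ 2 ^ n = 1 := h.cen (L.pow_mem hl _) fun m hm => by
      rw [eq_inv_of_mul_eq_one_left h1]
      exact ((hc m hm).pow_left _).inv_left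
    have k : ∀ a, a = e ∨ a = f → a ∈ T → a ∈ L → Commute (l * c) a := fun a ha aT aL => by
      refine (h.nor hl h2 ha ?_).mul_left (hc a aL)
      have := h.syl pT eT fT (T.mul_mem (T.mul_mem ht aT) (T.inv_mem ht)) (nz _ ht a aL)
      rwa [show l * c * a * (l * c)⁻¹ = l * (c * a * c⁻¹) * l⁻¹ by group, (hc a aL).eq, mul_inv_cancel_right] at this
    exact ⟨k e (.inl rfl) eT h.eL, k f (.inr rfl) fT h.fL⟩
  · obtain ⟨L', hL'⟩ := hcomp r rr r1 (ns r hr)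
    have e1 : L = L' := by
      obtain ⟨φ⟩ := hL.iso
      obtain ⟨φ'⟩ := hL'.iso
      exact Subgroup.eq_of_le_of_card_ge (hL'.max L h.perf fun m hm => (hR r hr m hm).symm)
        (Nat.card_congr (φ'.trans φ.symm).toEquiv).le
    subst e1
    have k := LZa.comp_norm hC hL' h.perf hg
    exact ⟨h.syl pT eT fT (hn e eT) (k e h.eL), h.syl pT eT fT (hn f fT) (k f h.fL)⟩
  · exact (Subgroup.eq_of_le_of_card_ge hTQ ((hmax (r, Q) ⟨rr, r1, ns r hr, hQ, hc⟩).trans (hT T0 pT0 cT0))).ge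

end CL.Low4
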