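/-
Project LOW4: non-solvable centralisers of involutions.
-/
import Cfsg.Agent.Low4.Defs3

set_option autoImplicit false
set_option linter.unusedSectionVars false

namespace CL.Low4

open Matrix Cfsg Cfsg.Geo CL.Asch CL.SLn CL.Low Module
open scoped commutatorElement MatrixGroups

universe u

namespace M1

section Grp

variable {D : Type*} [Group D]

/-- the largest perfect subgroup -/
def pc (D : Type*) [Group D] : Subgroup D := sSup {L : Subgroup D | ⁅L, L⁆ = L}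

theorem le_pc {L : Subgroup D} (h : ⁅L, L⁆ = L) : L ≤ pc D := le_sSup h

theorem pc_perfect : ⁅pc D, pc D⁆ = pc D :=
  le_antisymm (Subgroup.commutator_le_self _) (sSup_le fun _ hL =>
    (Eq.ge hL).trans (Subgroup.commutator_mono (le_pc hL) (le_pc hL)))

theorem pc_normal : (pc D).Normal := ⟨fun n hn g =>
  le_pc (L := (pc D).map (MulAut.conj g).toMonoidHom) (by rw [← Subgroup.map_commutator, pc_perfect]) ⟨n, hn, rfl⟩⟩

theorem pc_ne_bot [Finite D] (h : ¬ Group.IsSolvable D) : pc D ≠ ⊥ := fun e => by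
  obtain ⟨_, ⟨n, rfl⟩, hm⟩ := (wellFounded_lt (α := Subgroup D)).has_min (Set.range (derivedSeries D)) ⟨_, 0, rfl⟩
  have h1 : ⁅derivedSeries D n, derivedSeries D n⁆ = derivedSeries D n :=
    (Subgroup.commutator_le_self _).eq_of_not_lt (hm _ ⟨n + 1, rfl⟩)
  exact h ⟨n, le_bot_iff.1 (e ▸ le_pc h1)⟩

theorem exists_min [Finite D] {Q : Type*} [Group Q] (θ : D →* Q) (hQ : ⁅(⊤ : Subgroup Q), (⊤ : Subgroup Q)⁆ = ⊤)
    {H : Subgroup D} (h : H.map θ = ⊤) : ∃ P ≤ H, ⁅P, P⁆ = P ∧ P.map θ = ⊤ := by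
  obtain ⟨P, ⟨h1, h2⟩, hm⟩ := (wellFounded_lt (α := Subgroup D)).has_min {P | P ≤ H ∧ P.map θ = ⊤} ⟨H, le_rfl, h⟩
  exact ⟨P, h1, (Subgroup.commutator_le_self _).eq_of_not_lt (hm _ ⟨(Subgroup.commutator_le_self _).trans h1, by
    rw [Subgroup.map_commutator, h2, hQ]⟩), h2⟩

abbrev A5 : Type := alternatingGroup (Fin 5)

theorem a5_elt {r : ℕ} (hr : r.Prime) (h : r ∣ 60) : ∃ a : A5, orderOf a = r := by
  have := Fact.mk hr
  exact exists_prime_orderOf_dvd_card' r (by rw [nat_card_alternatingGroup, Nat.card_fin]; exact h)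

theorem a5_top {N : Subgroup D} [hN : N.Normal] {θ : D →* A5} (hs : Function.Surjective θ) (h : ¬ N ≤ θ.ker) :
    N.map θ = ⊤ := ((hN.map θ hs).eq_bot_or_eq_top).resolve_left fun e => h ((Subgroup.map_eq_bot_iff _).1 e)

theorem a5_perfect : ⁅(⊤ : Subgroup A5), (⊤ : Subgroup A5)⁆ = ⊤ :=
  commutator_alternatingGroup_eq_top (by simp)

end Grp

variable {F : Type u} [Field F] [Fintype F] {Γ D : Subgroup (G F)} {σ : G F}

/-- the `-1`-eigenspace -/
def Wm (σ : G F) : Submodule F (V F) where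
  carrier := {y | σ • y = -y}
  add_mem' := fun ha hb => by rw [Set.mem_ofPred_eq, smul_add, ha, hb, neg_add]
  zero_mem' := by simp
  smul_mem' := fun a _ h => by rw [Set.mem_ofPred_eq, gsmul_smul, h, smul_neg]

theorem mem_Wm {y : V F} : y ∈ Wm σ ↔ σ • y = -y := Iff.rfl

theorem mem_Wm' {y : V F} : y ∈ Wm (-σ) ↔ σ • y = y := by rw [mem_Wm, neg_gsmul, neg_inj]

theorem dec (h2 : (2 : F) ≠ 0) (hσ : σ * σ = 1) (y : V F) : ∃ a ∈ Wm σ, ∃ b, σ • b = b ∧ y = a + b := by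
  have e : σ • σ • y = y := by rw [← mul_smul, hσ, one_smul]
  refine ⟨(2 : F)⁻¹ • (y - σ • y), Submodule.smul_mem _ _ (by rw [mem_Wm, smul_sub, e, neg_sub]),
    (2 : F)⁻¹ • (y + σ • y), by rw [gsmul_smul, smul_add, e, add_comm], ?_⟩
  rw [← smul_add, sub_add_add_cancel, ← two_smul F y, smul_smul, inv_mul_cancel₀ h2, one_smul]

theorem ext2 (h2 : (2 : F) ≠ 0) (hσ : σ * σ = 1) {g h : G F} (h1 : ∀ y ∈ Wm σ, g • y = h • y)
    (h1' : ∀ y : V F, σ • y = y → g • y = h • y) : g = h := gext fun y => by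
  obtain ⟨a, ha, b, hb, rfl⟩ := dec h2 hσ y
  rw [smul_add, smul_add, h1 a ha, h1' b hb]

theorem Wm_inv {g : G F} (h : Commute g σ) : ∀ w ∈ Wm σ, g • w ∈ Wm σ := fun w hw => by
  rw [mem_Wm, ← mul_smul, ← h.eq, mul_smul, mem_Wm.1 hw, smul_neg]

/-- the data of the action on an invariant plane -/
structure Pl (D : Subgroup (G F)) (W : Submodule F (V F)) (ρ : D →* GL (Fin 2) F) (M : Subgroup D) : Prop where
  nrm : M.Normal
  mem : ∀ g, g ∈ M ↔ ∃ a : F, ∀ w ∈ W, (g : G F) • w = a • w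
  key : ∀ (g : D) (a : F), (ρ g).1 = a • (1 : Matrix (Fin 2) (Fin 2) F) ↔ ∀ w ∈ W, (g : G F) • w = a • w
  alt : pc D ≤ M ∨ ∃ θ : D →* A5, Function.Surjective θ ∧ θ.ker = M

theorem Pl.fix {W : Submodule F (V F)} {ρ : D →* GL (Fin 2) F} {M : Subgroup D} (h : Pl D W ρ M) :
    ∀ g ∈ ⁅M, M⁆, ∀ w ∈ W, (g : G F) • w = w := fun g hg => by
  have : ⁅M, M⁆ ≤ ρ.ker := Subgroup.commutator_le.2 fun a ha b _ => by
    obtain ⟨c, hc⟩ := (h.mem a).1 ha
    rw [MonoidHom.mem_ker, map_commutatorElement, commutatorElement_eq_one_iff_mul_comm]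
    refine Units.ext ?_
    rw [Units.val_mul, Units.val_mul, (h.key a c).2 hc]
    simp
  simpa using (h.key g 1).1 (by rw [show ρ g = 1 from this hg, one_smul]; rfl)

theorem plane (hD : SubDP.{u}) (h2 : (2 : F) ≠ 0) (hU : ∀ U : Subgroup D, IsPGroup (ringChar F) U → Nat.card U ≤ 3)
    {W : Submodule F (V F)} (hW : finrank F W = 2) (hH : ∀ g ∈ D, ∀ w ∈ W, g • w ∈ W) : ∃ ρ M, Pl D W ρ M := by
  obtain ⟨ρ, e, h⟩ := exists_plane_hom D hW hH
  have key : ∀ (g : D) (a : F), (ρ g).1 = a • (1 : Matrix (Fin 2) (Fin 2) F) ↔ ∀ w ∈ W, (g : G F) • w = a • w := by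
    intro g a
    constructor
    · intro hg w hw
      obtain ⟨x, hx⟩ := e.surjective ⟨w, hw⟩
      have := h g x
      rw [show ρ g • x = a • x by change (ρ g).1 *ᵥ x = _; rw [hg, smul_mulVec, one_mulVec], map_smul, hx] at this
      exact this
    · intro hg
      refine CL.Asch.matrix_ext_mulVec fun x => e.injective (Subtype.ext ?_)
      rw [smul_mulVec, one_mulVec, map_smul]
      exact (h g x).symm.trans (hg _ (e x).2)
  let π : D →* PGL(2, F) := ProjGenLinGroup.mk.comp ρ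
  refine ⟨ρ, π.ker, inferInstance, fun g => ?_, key, ?_⟩
  · change ProjGenLinGroup.mk (ρ g) = 1 ↔ _
    rw [CL.SL2.pgl_mk_eq_one_iff_isScal, CL.GL2.isScal_iff]
    exact exists_congr (key g)
  · rcases hD F D π h2 hU with hs | ⟨⟨f⟩⟩
    · left
      rw [← MonoidHom.ker_rangeRestrict, ← Subgroup.map_eq_bot_iff]
      exact eq_bot_of_perfect_of_solvable hs (by rw [← Subgroup.map_commutator, pc_perfect])
    · refine .inr ⟨f.toMonoidHom.comp π.rangeRestrict, f.surjective.comp π.rangeRestrict_surjective, ?_⟩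
      rw [← MonoidHom.ker_rangeRestrict π]
      exact MonoidHom.ker_mulEquiv_comp _ f

theorem sq_neg {A : Matrix (Fin 2) (Fin 2) F} (hd : A.det = 1) {c : F} (h : A * A = c • 1) (hn : ∀ a : F, A ≠ a • 1) :
    A * A = (-1 : F) • 1 := by
  have ch : A * A = A.trace • A + (-1 : F) • 1 := by
    rw [det_fin_two] at hd
    ext i j
    fin_cases i <;> fin_cases j <;> simp [mul_apply, Fin.sum_univ_two, trace_fin_two] <;>
      first | ring1 | linear_combination -hd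
  by_cases ht : A.trace = 0
  · rw [ch, ht, zero_smul, zero_add]
  · refine absurd ?_ (hn (A.trace⁻¹ * (c + 1)))
    rw [mul_smul, eq_inv_smul_iff₀ ht, add_smul, ← h, ch]
    simp

theorem tv_of (h2 : (2 : F) ≠ 0) (hσ : σ * σ = 1) (hW : finrank F (Wm σ) = 2) {r : ℕ} (hr : r.Prime) (h0 : (r : F) = 0)
    {κ : G F} (hc : Commute κ σ) (h1 : κ ^ r = 1) (hn : κ ≠ 1) (hf : ∀ y : V F, σ • y = y → κ • y = y) : IsTv κ := by
  have := Fact.mk hr
  have : CharP F r := (CharP.charP_iff_prime_eq_zero hr).2 h0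
  set N := toLin' ((κ : Matrix (Fin 4) (Fin 4) F) - 1) with hN
  have eN : ∀ y, N y = κ • y - y := fun y => by rw [hN, toLin'_apply, sub_mulVec, one_mulVec]; rfl
  have k1 : ∀ y, N y ∈ Wm σ ∧ N (N y) = 0 := fun y => by
    obtain ⟨a, ha, b, hb, rfl⟩ := dec h2 hσ y
    rw [map_add, eN b, hf b hb, sub_self, add_zero, eN a, eN]
    exact ⟨sub_mem (Wm_inv hc a ha) ha, sub_eq_zero.2 (sq_zero_on_plane h1 hW (Wm_inv hc) ha)⟩
  refine isTv_of_rank (matrix_ext_mulVec fun y => ?_) ?_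
  · rw [← mulVec_mulVec, zero_mulVec]; exact (k1 y).2
  · have le : LinearMap.range N ≤ Wm σ := by rintro _ ⟨y, rfl⟩; exact (k1 y).1
    have h3 := Submodule.finrank_mono le
    have h4 : finrank F (LinearMap.range N) ≠ 0 := fun e => hn (gext fun y => by
      rw [Submodule.finrank_eq_zero, LinearMap.range_eq_bot] at e
      rw [one_smul, ← sub_eq_zero, ← eN, e, LinearMap.zero_apply])
    have h5 : finrank F (LinearMap.range N) ≠ 2 := fun e => hn (ext2 h2 hσ (fun y hy => by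
      rw [← Submodule.eq_of_le_of_finrank_eq le (e.trans hW.symm)] at hy
      obtain ⟨z, rfl⟩ := hy
      rw [one_smul, ← sub_eq_zero, ← eN, (k1 z).2]) fun y hy => by rw [hf y hy, one_smul])
    rw [← hN]
    change _ ≤ finrank F (Wm σ) at h3
    omega

theorem al (h : OC Γ) (hσ : σ * σ = 1) (ns : σ ∉ scalars (Fin 4) F) (hW : finrank F (Wm σ) = 2)
    (hD : ∀ g ∈ D, g ∈ Γ ∧ Commute g σ) {ρ : D →* GL (Fin 2) F} {M : Subgroup D} (hP : Pl D (Wm σ) ρ M)
    {θ : D →* A5} (hθ : θ.ker = M) {K : Subgroup D} (hK : K.map θ = ⊤)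
    (hf : ∀ k ∈ K, ∀ y : V F, σ • y = y → (k : G F) • y = y) : ∃ K κ, Al Γ σ K κ := by
  obtain ⟨P, p1, p2, p3⟩ := exists_min θ a5_perfect hK
  have det : ∀ k ∈ P, (ρ k).1.det = 1 := fun k hk => by
    have := eq_bot_of_perfect_of_solvable (G := Fˣ) inferInstance (L := P.map (GeneralLinearGroup.det.comp ρ))
      (by rw [← Subgroup.map_commutator, p2])
    exact congrArg Units.val ((Subgroup.map_eq_bot_iff _).1 this hk)
  have lift : ∀ r : ℕ, r.Prime → r ∣ 60 → ∃ k ∈ P, orderOf (θ k) = r ∧ ∃ c : F, (ρ (k ^ r)).1 = c • 1 := fun r a b => by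
    obtain ⟨x, hx⟩ := a5_elt a b
    obtain ⟨k, hk, rfl⟩ := p3.ge (Subgroup.mem_top x)
    obtain ⟨c, hc⟩ := (hP.mem (k ^ r)).1 (hθ ▸ show θ _ = 1 by rw [map_pow, ← hx, pow_orderOf_eq_one])
    exact ⟨k, hk, hx, c, (hP.key _ c).2 hc⟩
  have odd : ∀ r : ℕ, r.Prime → r ∣ 60 → r ≠ 2 → (r : F) ≠ 0 ∧ ∃ κ ∈ P, (κ : G F) ^ r = 1 ∧ (κ : G F) ≠ 1 :=
    fun r a b c => by
    obtain ⟨k, k1, k2, d, k3⟩ := lift r a b
    have k4 : d * d = 1 := by
      have := det _ (pow_mem k1 r)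
      rw [k3] at this
      simpa [pow_two] using this
    have k5 : ((k ^ 2 : D) : G F) ^ r = 1 := ext2 h.two hσ (fun y hy => by
      have := (hP.key ((k ^ r) ^ 2) 1).1 (by
        rw [map_pow, Units.val_pow_eq_pow_val, k3, pow_two, smul_mul_smul_comm, k4, mul_one]) y hy
      rw [← pow_mul, mul_comm, pow_mul] at this
      simpa using this) fun y hy => by
        rw [one_smul]; exact hf _ (p1 (pow_mem (pow_mem k1 2) r)) y hy
    have k6 : ((k ^ 2 : D) : G F) ≠ 1 := fun e => by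
      have : θ k ^ 2 = 1 := by rw [← map_pow, show k ^ 2 = 1 from Subtype.ext e, map_one]
      exact c ((Nat.prime_dvd_prime_iff_eq a Nat.prime_two).1 (k2 ▸ orderOf_dvd_of_pow_eq_one this))
    exact ⟨fun e => h.noTv ⟨_, (hD _ (k ^ 2).2).1, tv_of h.two hσ hW a e (hD _ (k ^ 2).2).2 k5 k6
      (hf _ (p1 (pow_mem k1 2)))⟩, _, pow_mem k1 2, k5, k6⟩
  obtain ⟨f5, κ, κ1, κ2, κ3⟩ := odd 5 Nat.prime_five (by decide) (by decide)
  obtain ⟨k, k1, k2, d, k3⟩ := lift 2 Nat.prime_two (by decide)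
  rw [pow_two, map_mul, Units.val_mul] at k3
  have k4 := sq_neg (det k k1) k3 fun a e => by
    have : θ k = 1 := show k ∈ θ.ker from hθ ▸ (hP.mem k).2 ⟨a, (hP.key k a).1 e⟩
    rw [this, orderOf_one] at k2
    exact absurd k2 (by decide)
  have k5 : ((k * k : D) : G F) = σ := ext2 h.two hσ (fun y hy => by
    rw [(hP.key (k * k) (-1)).1 (by rw [map_mul, Units.val_mul, k4]) y hy, mem_Wm.1 hy, neg_one_smul])
    fun y hy => by rw [hy]; exact hf _ (p1 (mul_mem k1 k1)) y hy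
  refine ⟨P.map D.subtype, κ, ?_, by rw [← Subgroup.map_commutator, p2], ⟨_, mul_mem k1 k1, k5⟩, hσ, ns, ?_, ?_,
    ⟨κ, κ1, rfl⟩, κ2, κ3, by exact_mod_cast (odd 3 Nat.prime_three (by decide) (by decide)).1, by exact_mod_cast f5⟩
  · rintro _ ⟨g, -, rfl⟩; exact (hD _ g.2).1
  · rintro _ ⟨g, -, rfl⟩; exact (hD _ g.2).2
  · rintro _ ⟨g, hg, rfl⟩; exact hf g (p1 hg)

theorem rk (h2 : (2 : F) ≠ 0) {e : Fin 2 → V F} {x : Fin 2 → Dual F (V F)} (hb : Bi e x) (hs : Sc e x (-1) σ) :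
    finrank F (Wm σ) = 2 ∧ finrank F (Wm (-σ)) = 2 := by
  have h3 : (-1 - 1 : F) ≠ 0 := fun e => h2 (by linear_combination -e)
  have e1 : Wm σ = LinearMap.range (up e) := by
    ext y
    refine ⟨fun hy => ⟨co x y, ?_⟩, ?_⟩
    · rw [mem_Wm, hs] at hy
      refine smul_right_injective _ h3 ?_
      change _ • pr e x y = _ • y
      rw [eq_sub_of_add_eq' hy]; module
    · rintro ⟨a, rfl⟩
      rw [mem_Wm, hs.eig (hb.pr_up a), neg_one_smul]
  have e2 : Wm (-σ) = LinearMap.ker (co x) := by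
    ext y
    rw [mem_Wm', hs, add_eq_left, smul_eq_zero, or_iff_right h3, pr_eq_zero_iff hb, LinearMap.mem_ker, funext_iff]
    rfl
  have e3 := LinearMap.finrank_range_add_finrank_ker (co x)
  rw [LinearMap.range_eq_top.2 (Function.RightInverse.surjective hb.co_up)] at e3
  rw [e1, e2, LinearMap.finrank_range_of_inj hb.up_inj]
  simp only [finrank_top, finrank_fintype_fun_eq_card, Fintype.card_fin] at e3 ⊢
  exact ⟨trivial, Nat.add_left_cancel (n := 2) e3⟩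

theorem pr_comm (h2 : (2 : F) ≠ 0) {e : Fin 2 → V F} {x : Fin 2 → Dual F (V F)} (hs : Sc e x (-1) σ) {g : G F}
    (hc : Commute g σ) (y : V F) : pr e x (g • y) = g • pr e x y := by
  have h3 : (-1 - 1 : F) ≠ 0 := fun e => h2 (by linear_combination -e)
  refine smul_right_injective _ h3 (add_left_cancel (a := g • y) ?_)
  change _ + _ • _ = _ + _ • _
  rw [← hs, ← gsmul_smul, ← smul_add, ← hs, ← mul_smul, ← mul_smul, hc.eq]

theorem nonsolv (τ : Γ) (h : ¬ Group.IsSolvable (Subgroup.centralizer {(τ : PQ Γ)}))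
    (hD : ∀ g ∈ Γ, Commute g (τ : G F) → g ∈ D) : pc D ≠ ⊥ := fun e => by
  let C : Subgroup Γ := (Subgroup.centralizer {(τ : PQ Γ)}).comap (QuotientGroup.mk' _)
  have h1 : ¬ Group.IsSolvable C := fun hs => h (Group.isSolvable_of_surjective
    (f := (QuotientGroup.mk' _).subgroupComap _) (MonoidHom.subgroupComap_surjective_of_surjective _ _
      (QuotientGroup.mk'_surjective _)))
  have p1 : ⁅(pc C).map C.subtype, (pc C).map C.subtype⁆ = (pc C).map C.subtype := by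
    rw [← Subgroup.map_commutator, pc_perfect]
  have h2 := comm_of_perfect p1 (h := τ) (by
    rintro _ ⟨g, -, rfl⟩
    refine scalars_subgroupOf_le_center Γ ((QuotientGroup.eq_one_iff _).1 ?_)
    have : ((g : Γ) : PQ Γ) * τ = τ * (g : Γ) := Subgroup.mem_centralizer_singleton_iff.1 g.2
    simp only [QuotientGroup.mk_mul, QuotientGroup.mk_inv, Subgroup.coe_subtype]
    rw [← this]; group)
  have h3 : ((pc C).map C.subtype).map Γ.subtype ≤ D := by
    rintro _ ⟨g, hg, rfl⟩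
    exact hD _ g.2 (congrArg Subtype.val (h2 g hg))
  have h4 : (((pc C).map C.subtype).map Γ.subtype).subgroupOf D ≤ pc D := le_pc (by
    apply Subgroup.map_injective D.subtype_injective
    rw [Subgroup.map_commutator, Subgroup.subgroupOf_map_subtype, inf_eq_left.2 h3, ← Subgroup.map_commutator, p1])
  refine pc_ne_bot h1 (eq_bot_iff.2 fun g hg => ?_)
  have := e.le (h4 (x := ⟨_, h3 ⟨_, ⟨g, hg, rfl⟩, rfl⟩⟩) ⟨_, ⟨g, hg, rfl⟩, rfl⟩)
  exact Subtype.ext (Subtype.ext (Subtype.ext_iff.1 (Subgroup.mem_bot.1 this) :))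

end M1

open M1 in
theorem subM1 (hD : SubDP.{u}) : SubM1.{u} := by
  intro F _ _ Γ h hT hQ τ h1 h2 h3
  have hσ : (τ : G F) * τ = 1 := congrArg Subtype.val h1
  have ns : (τ : G F) ∉ scalars (Fin 4) F := fun e => h2 (mk_eq_one_iff.2 e)
  obtain ⟨e, x, hb, hs⟩ := hT τ τ.2 hσ ns
  obtain ⟨r1, r2⟩ := rk h.two hb hs
  obtain ⟨D, mD⟩ : ∃ D : Subgroup (G F), ∀ g, g ∈ D ↔ g ∈ Γ ∧ Commute g (τ : G F) :=
    ⟨Γ ⊓ Subgroup.centralizer {(τ : G F)}, fun g => and_congr_right fun _ => Subgroup.mem_centralizer_singleton_iff⟩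
  have hU : ∀ U : Subgroup D, IsPGroup (ringChar F) U → Nat.card U ≤ 3 := fun U hU => by
    rw [← Subgroup.card_map_of_injective D.subtype_injective]
    refine hQ e x hb _ ?_ (hU.map _) ?_
    · rintro _ ⟨g, -, rfl⟩; exact ((mD _).1 g.2).1
    · rintro _ ⟨g, -, rfl⟩; exact pr_comm h.two hs ((mD _).1 g.2).2
  obtain ⟨ρ, M, p⟩ := plane hD h.two hU r1 fun g hg => Wm_inv ((mD g).1 hg).2
  obtain ⟨ρ', M', p'⟩ := plane hD h.two hU r2 fun g hg => Wm_inv ((mD g).1 hg).2.neg_right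
  have hK := nonsolv τ h3 fun g a b => (mD g).2 ⟨a, b⟩
  have n1 := p.nrm
  have n2 := p'.nrm
  by_cases c1 : ∃ k ∈ pc D, k ∈ M' ∧ k ∉ M
  · obtain ⟨k, k1, k2, k3⟩ := c1
    obtain ⟨θ, t1, t2⟩ := p.alt.resolve_left fun e => k3 (e k1)
    obtain ⟨K, κ, a⟩ := al h hσ ns r1 (fun g => (mD g).1) p t2 (K := ⁅M', M'⁆)
      (by rw [Subgroup.map_commutator, a5_top t1 fun e => k3 (t2 ▸ e k2), a5_perfect])
      fun k hk y hy => p'.fix k hk y (mem_Wm'.2 hy)
    exact .inl ⟨_, K, κ, a⟩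
  by_cases c2 : ∃ k ∈ pc D, k ∈ M ∧ k ∉ M'
  · obtain ⟨k, k1, k2, k3⟩ := c2
    obtain ⟨θ, t1, t2⟩ := p'.alt.resolve_left fun e => k3 (e k1)
    obtain ⟨K, κ, a⟩ := al h (σ := -(τ : G F)) (by rw [neg_mul_neg, hσ]) (fun e => ns (by
        obtain ⟨c, hc⟩ := mem_scalars_iff'.1 e
        exact mem_scalars_iff'.2 ⟨-c, by rw [neg_smul, ← hc, Units.val_neg, neg_neg]⟩)) r2
      (fun g hg => ⟨((mD g).1 hg).1, ((mD g).1 hg).2.neg_right⟩) p' t2 (K := ⁅M, M⁆)
      (by rw [Subgroup.map_commutator, a5_top t1 fun e => k3 (t2 ▸ e k2), a5_perfect])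
      fun k hk y hy => p.fix k hk y (by rw [mem_Wm, ← neg_eq_iff_eq_neg, ← neg_gsmul, hy])
    exact .inl ⟨_, K, κ, a⟩
  push Not at c1 c2
  have c3 : ¬ pc D ≤ M := fun e => hK (eq_bot_iff.2 fun g hg => by
    rw [← pc_perfect] at hg
    have e' : pc D ≤ M' := fun k hk => c2 k hk (e hk)
    exact Subtype.ext (ext2 h.two hσ (fun y hy => (p.fix g (Subgroup.commutator_mono e e hg) y hy).trans
      (one_smul _ y).symm) fun y hy => (p'.fix g (Subgroup.commutator_mono e' e' hg) y (mem_Wm'.2 hy)).trans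
      (one_smul _ y).symm))
  obtain ⟨θ, t1, t2⟩ := p.alt.resolve_left c3
  have := pc_normal (D := D)
  have t3 : (pc D).map θ = ⊤ := a5_top t1 (t2 ▸ c3)
  have le : (pc D).map D.subtype ≤ D := Subgroup.map_subtype_le _
  have mk : ∀ k : (pc D).map D.subtype, Subgroup.inclusion le k ∈ pc D := by
    rintro ⟨_, g, hg, rfl⟩; exact hg
  refine .inr ⟨(pc D).map D.subtype, τ.2, hσ, ⟨e, x, hb, hs⟩, fun g hg => ((mD g).1 (le hg)).1,
    by rw [← Subgroup.map_commutator, pc_perfect], fun g hg => ((mD g).1 (le hg)).2, fun K' a b c => ?_,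
    ⟨θ.comp (Subgroup.inclusion le), fun a => ?_, fun k => ?_⟩, fun g a b => ?_⟩
  · have h3 : K' ≤ D := fun g hg => (mD g).2 ⟨a hg, c g hg⟩
    rw [← Subgroup.map_subgroupOf_eq_of_le h3]
    refine Subgroup.map_mono (le_pc ?_)
    apply Subgroup.map_injective D.subtype_injective
    rw [Subgroup.map_commutator, Subgroup.subgroupOf_map_subtype, inf_eq_left.2 h3, b]
  · obtain ⟨k, hk, rfl⟩ := t3.ge (Subgroup.mem_top a)
    exact ⟨⟨k, k, hk, rfl⟩, rfl⟩
  · have e1 : θ.comp (Subgroup.inclusion le) k = 1 ↔ Subgroup.inclusion le k ∈ M := by rw [← t2]; rfl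
    refine ⟨e1.trans (p.mem _), e1.trans (Iff.trans ⟨c2 _ (mk k), c1 _ (mk k)⟩ ?_)⟩
    simp only [p'.mem, mem_Wm']
    rfl
  · obtain ⟨k, hk, e1⟩ := t3.ge (Subgroup.mem_top (θ ⟨g, (mD g).2 ⟨a, b⟩⟩))
    obtain ⟨c, hc⟩ := (p.mem (k⁻¹ * ⟨g, (mD g).2 ⟨a, b⟩⟩)).1 (t2 ▸ show θ _ = 1 by rw [map_mul, map_inv, e1, inv_mul_cancel])
    refine ⟨k, ⟨k, hk, rfl⟩, c, fun y hy => ?_⟩
    rw [← gsmul_smul, ← hc y hy, ← mul_smul]
    simp

end CL.Low4
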