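/-
Project LOW4: the step `SubM2` (the component of the centraliser of an involution).
-/
import Cfsg.Agent.Low4.Defs3
import Cfsg.Agent.Low.DataL

set_option autoImplicit false
set_option linter.unusedSectionVars false

namespace CL.Low4

open Matrix Cfsg Cfsg.Geo CL.Asch CL.SLn CL.Low Module
open scoped commutatorElement MatrixGroups

universe u

namespace M2

theorem comm_top {X : Type*} [Group X] {K : Subgroup X} (h : ⁅K, K⁆ = K) : commutator K = ⊤ := by
  rw [commutator_def, ← (Subgroup.map_injective K.subtype_injective).eq_iff, Subgroup.map_commutator,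
    ← MonoidHom.range_eq_map, Subgroup.range_subtype, h]

theorem sq_neg {F : Type u} [Field F] {A : Matrix (Fin 2) (Fin 2) F} (hd : A.det = 1) {c : F} (hc : A * A = c • 1)
    (hn : ∀ a : F, A ≠ a • 1) : A * A = (-1 : F) • 1 := by
  have ch : A * A = A.trace • A - A.det • 1 := by
    ext i j
    fin_cases i <;> fin_cases j <;> simp [Matrix.mul_apply, Fin.sum_univ_two, trace_fin_two, det_fin_two] <;> ring
  by_cases ht : A.trace = 0
  · rw [ch, ht, hd]; simp
  · refine absurd ?_ (hn (A.trace⁻¹ * (c + A.det)))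
    rw [mul_smul, add_smul, ← hc, ch, sub_add_cancel, inv_smul_smul₀ ht]

theorem plane {F : Type u} [Field F] {K : Subgroup (G F)} (hK : ⁅K, K⁆ = K) {W : Submodule F (V F)}
    (hW : finrank F W = 2) (hH : ∀ g ∈ K, ∀ w ∈ W, g • w ∈ W) {H : Type*} [Group H] (ρ : K →* H)
    (hρ : ∀ k : K, ρ k = 1 ↔ ∃ a : F, ∀ y ∈ W, (k : G F) • y = a • y) (k : K) :
    (ρ k = 1 → ∀ y ∈ W, ((k : G F) * k) • y = y) ∧
      (ρ k ≠ 1 → ρ k * ρ k = 1 → ∀ y ∈ W, ((k : G F) * k) • y = (-1 : G F) • y) := by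
  obtain ⟨σ, e, h⟩ := exists_plane_hom K hW hH
  have key : ∀ (g : K) (a : F), (σ g).1 = a • (1 : Matrix (Fin 2) (Fin 2) F) ↔ ∀ w ∈ W, (g : G F) • w = a • w := by
    intro g a
    constructor
    · intro hg w hw
      obtain ⟨x, hx⟩ := e.surjective ⟨w, hw⟩
      have := h g x
      rw [show σ g • x = a • x by change (σ g).1 *ᵥ x = _; rw [hg, smul_mulVec, one_mulVec], map_smul, hx] at this
      exact this
    · intro hg
      refine CL.Asch.matrix_ext_mulVec fun x => e.injective (Subtype.ext ?_)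
      rw [smul_mulVec, one_mulVec, map_smul]
      exact (h g x).symm.trans (hg _ (e x).2)
  have hd : (σ k).1.det = 1 := by
    have := Abelianization.commutator_subset_ker (GeneralLinearGroup.det.comp σ) (comm_top hK ▸ Subgroup.mem_top k)
    exact congrArg Units.val (MonoidHom.mem_ker.1 this)
  refine ⟨fun h1 y hy => ?_, fun h1 h2 y hy => ?_⟩
  · obtain ⟨a, ha⟩ := (hρ k).1 h1
    rw [(key k a).2 ha, det_smul, det_one, mul_one, Fintype.card_fin] at hd
    rw [mul_smul, ha y hy, gsmul_smul, ha y hy, smul_smul, ← sq, hd, one_smul]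
  · obtain ⟨c, hc⟩ := (hρ (k * k)).1 (by rw [map_mul, h2])
    have := sq_neg hd (by simpa using (key _ c).2 hc) fun a ha => h1 ((hρ k).2 ⟨a, (key k a).1 ha⟩)
    rw [neg_gsmul, one_smul, ← neg_one_smul F y]
    exact (key (k * k) (-1)).1 (by simpa using this) y hy

theorem lift_perfect {X Q : Type*} [Group X] [Group Q] (π : X →* Q) (hs : Function.Surjective π)
    (hZ : π.ker ≤ Subgroup.center X) {K : Subgroup Q} (hK : ⁅K, K⁆ = K) {t : X} (hc : ∀ k ∈ K, Commute k (π t)) :
    ∃ D : Subgroup X, ⁅D, D⁆ = D ∧ D.map π = K ∧ ∀ d ∈ D, Commute d t := by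
  have e : ⁅K.comap π, K.comap π⁆.map π = K := by
    rw [Subgroup.map_commutator, Subgroup.map_comap_eq_self_of_surjective hs, hK]
  have h1 : ∀ a ∈ K.comap π, ∃ d ∈ ⁅K.comap π, K.comap π⁆, ∃ z ∈ Subgroup.center X, a = d * z := fun a ha => by
    obtain ⟨d, hd, ed⟩ := e.ge ha
    exact ⟨d, hd, d⁻¹ * a, hZ (by simp [MonoidHom.mem_ker, ed]), by simp⟩
  have h2 : ⁅K.comap π, Subgroup.zpowers t⁆ ≤ Subgroup.center X := (Subgroup.commutator_le.2 fun a ha b hb => by
    obtain ⟨i, rfl⟩ := hb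
    rw [MonoidHom.mem_ker, map_commutatorElement, commutatorElement_eq_one_iff_commute]
    exact map_zpow π t i ▸ (hc _ ha).zpow_right i).trans hZ
  have h3 : ⁅⁅K.comap π, Subgroup.zpowers t⁆, K.comap π⁆ = ⊥ :=
    Subgroup.commutator_eq_bot_iff_le_centralizer.2 (h2.trans (Subgroup.center_le_centralizer _))
  refine ⟨_, le_antisymm (Subgroup.commutator_le_self _) (Subgroup.commutator_le.2 fun a ha b hb => ?_), e, fun d hd => ?_⟩
  · obtain ⟨d, hd, z, hz, rfl⟩ := h1 a ha
    obtain ⟨d', hd', z', hz', rfl⟩ := h1 b hb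
    have c := Subgroup.mem_center_iff.1 hz
    have c' := Subgroup.mem_center_iff.1 hz'
    convert Subgroup.commutator_mem_commutator hd hd' using 1
    rw [commutatorElement_def, commutatorElement_def]
    calc _ = d * (z * (d' * z') * z⁻¹) * d⁻¹ * z'⁻¹ * d'⁻¹ := by group
      _ = d * d' * (z' * d⁻¹) * z'⁻¹ * d'⁻¹ := by rw [← c]; group
      _ = _ := by rw [← c']; group
  · have := Subgroup.commutator_commutator_eq_bot_of_rotate h3 (by rwa [Subgroup.commutator_comm (Subgroup.zpowers t)])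
    exact (Subgroup.mem_centralizer_iff.1 (Subgroup.commutator_eq_bot_iff_le_centralizer.1 this hd) t
      (Subgroup.mem_zpowers t)).symm

theorem a5 (S : Sylow 2 (alternatingGroup (Fin 5))) {x : alternatingGroup (Fin 5)} (hx : x ∈ (S : Subgroup _)) :
    x * x = 1 := by
  obtain ⟨k, hk⟩ := S.isPGroup' ⟨x, hx⟩
  have h1 := orderOf_dvd_of_pow_eq_one (show x ^ 2 ^ k = 1 from congrArg Subtype.val hk)
  have h2 : ∀ n, Odd n → x ^ n = 1 → x * x = 1 := fun n hn h => by
    rw [orderOf_eq_one_iff.1 (Nat.eq_one_of_dvd_coprimes ((Nat.coprime_two_left.2 hn).pow_left k) h1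
      (orderOf_dvd_of_pow_eq_one h)), mul_one]
  rcases (by decide +kernel : ∀ k : alternatingGroup (Fin 5), k * k = 1 ∨ k ^ 3 = 1 ∨ k ^ 5 = 1) x with h | h | h
  exacts [h, h2 3 (by decide) h, h2 5 (by decide) h]

end M2

open M2 in
theorem subM2 : SubM2.{u} := by
  intro F _ _ Γ h τ K D
  obtain ⟨e, x, hb, hs⟩ := D.pl
  obtain ⟨ρ, ρs, hρ⟩ := D.rho
  have m1 : ∀ y, y ∈ LinearMap.range (up e) ↔ (τ : G F) • y = -y := fun y =>
    ⟨fun ⟨a, ha⟩ => by rw [hs.eig (ha ▸ hb.pr_up a), neg_one_smul], fun hy => ⟨co x y, by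
      rw [hs] at hy
      exact smul_right_injective _ h.two (by rw [up_co]; linear_combination (norm := module) -hy)⟩⟩
  have m2 : ∀ y, y ∈ LinearMap.ker (co x) ↔ (τ : G F) • y = y := fun y =>
    ⟨fun hy => hs.fix (by rw [← up_co, LinearMap.mem_ker.1 hy, map_zero]), fun hy => by
      rw [hs] at hy
      have : pr e x y = 0 := smul_right_injective _ h.two (by linear_combination (norm := module) -hy)
      rw [LinearMap.mem_ker, ← hb.co_pr, this, map_zero]⟩
  have r1 : finrank F (LinearMap.range (up e)) = 2 := by rw [LinearMap.finrank_range_of_inj hb.up_inj]; simp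
  have r2 : finrank F (LinearMap.ker (co x)) = 2 := by
    have := (co x).finrank_range_add_finrank_ker
    rw [LinearMap.range_eq_top.2 (Function.RightInverse.surjective hb.co_up)] at this
    simp only [finrank_top, finrank_fintype_fun_eq_card, Fintype.card_fin] at this
    omega
  have i1 : ∀ g : G F, Commute g τ → ∀ y : V F, (τ : G F) • y = -y → (τ : G F) • g • y = -(g • y) := fun g c y hy => by
    rw [← mul_smul, ← c.eq, mul_smul, hy, smul_neg]
  have i2 : ∀ g : G F, Commute g τ → ∀ y : V F, (τ : G F) • y = y → (τ : G F) • g • y = g • y := fun g c y hy => by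
    rw [← mul_smul, ← c.eq, mul_smul, hy]
  have ext2 : ∀ g g' : G F, (∀ y : V F, (τ : G F) • y = -y → g • y = g' • y) →
      (∀ y : V F, (τ : G F) • y = y → g • y = g' • y) → g = g' := fun g g' a b => gext fun y => by
    have h1 := a _ ((m1 _).1 ⟨co x y, rfl⟩)
    have h2 := b (y - up e (co x y)) ((m2 _).1 (by rw [LinearMap.mem_ker, map_sub, hb.co_up, sub_self]))
    rw [smul_sub, smul_sub, h1] at h2
    exact sub_left_injective h2
  have p1 := plane D.perfect r1 (fun g hg w hw => (m1 _).2 (i1 g (D.cen g hg) w ((m1 _).1 hw))) ρ fun k => by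
    simp only [m1]; exact (hρ k).1
  have p2 := plane D.perfect r2 (fun g hg w hw => (m2 _).2 (i2 g (D.cen g hg) w ((m2 _).1 hw))) ρ fun k => by
    simp only [m2]; exact (hρ k).2
  simp only [m1, m2] at p1 p2
  have sq1 : ∀ k : K, ρ k = 1 → k * k = 1 := fun k a => Subtype.ext
    (ext2 _ _ (fun y hy => ((p1 k).1 a y hy).trans (one_smul _ y).symm) fun y hy => ((p2 k).1 a y hy).trans (one_smul _ y).symm)
  have sq2 : ∀ k : K, ρ k ≠ 1 → ρ k * ρ k = 1 → (k : G F) * k = -1 := fun k a b =>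
    ext2 _ _ ((p1 k).2 a b) ((p2 k).2 a b)
  have kc : ∀ k m : K, ρ k = 1 → Commute k m := fun k m a => by
    obtain ⟨c, hc⟩ := (hρ k).1.1 a
    obtain ⟨d, hd⟩ := (hρ k).2.1 a
    refine Subtype.ext (ext2 _ _ (fun y hy => ?_) fun y hy => ?_) <;> simp only [Subgroup.coe_mul, mul_smul]
    · rw [hc _ (i1 _ (D.cen _ m.2) y hy), hc y hy, gsmul_smul]
    · rw [hd _ (i2 _ (D.cen _ m.2) y hy), hd y hy, gsmul_smul]
  have an : ∀ a b : K, ρ a ≠ 1 → ρ b ≠ 1 → ρ b ≠ ρ a → ρ a * ρ a = 1 → ρ b * ρ b = 1 → ρ (a * b) * ρ (a * b) = 1 →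
      (a : G F) * b = -(b * a) := fun a b a1 b1 ab a2 b2 c2 => by
    have e1 := sq2 a a1 a2
    have e2 := sq2 b b1 b2
    have e3 := sq2 (a * b) (fun e => ab (mul_left_cancel (a := ρ a) (by rw [← map_mul, e, a2]))) c2
    rw [Subgroup.coe_mul] at e3
    refine mul_left_cancel (a := (a : G F)) (mul_right_cancel (b := (b : G F)) ?_)
    calc _ = (a : G F) * a * (b * b) := by simp only [mul_assoc]
      _ = -(a * b * (a * b)) := by rw [e1, e2, e3]; simp
      _ = _ := by simp [mul_assoc]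
  let f : K →* PQ Γ := (QuotientGroup.mk' _).comp (Subgroup.inclusion D.le)
  have fk : ∀ k : K, f.rangeRestrict k = 1 ↔ (k : G F) ∈ scalars (Fin 4) F := fun k =>
    Subtype.ext_iff.trans mk_eq_one_iff
  have fs := f.rangeRestrict_surjective
  let r : f.range →* alternatingGroup (Fin 5) := f.rangeRestrict.liftOfSurjective fs ⟨ρ, fun k hk => by
    obtain ⟨c, hc⟩ := mem_scalars_iff'.1 ((fk k).1 hk)
    exact (hρ k).1.2 ⟨c, fun y _ => by rw [gsmul_def, hc, smul_mulVec, one_mulVec]⟩⟩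
  have hr : ∀ k, r (f.rangeRestrict k) = ρ k := fun k => MonoidHom.liftOfRightInverse_comp_apply _ _ _ _ k
  have rs : Function.Surjective r := fun a => let ⟨k, hk⟩ := ρs a; ⟨_, (hr k).trans hk⟩
  have kz : ∀ k, ρ k = 1 → f.rangeRestrict k = 1 := fun k hk => by
    obtain ⟨S⟩ : Nonempty (Sylow 2 (alternatingGroup (Fin 5))) := inferInstance
    have : IsMulCommutative ((S : Subgroup _).comap r) := ⟨⟨fun ⟨a, ha⟩ ⟨b, hb⟩ => Subtype.ext (by
      obtain ⟨a, rfl⟩ := fs a
      obtain ⟨b, rfl⟩ := fs b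
      rw [Subgroup.mem_comap, hr] at ha hb
      change Commute (f.rangeRestrict a) (f.rangeRestrict b)
      by_cases a1 : ρ a = 1
      · exact (kc a b a1).map _
      by_cases b1 : ρ b = 1
      · exact (kc b a b1).symm.map _
      by_cases ab : ρ b = ρ a
      · simpa using ((Commute.refl a).mul_left (kc (a⁻¹ * b) a (by simp [ab]))).symm.map f.rangeRestrict
      rw [← commutatorElement_eq_one_iff_commute, ← map_commutatorElement, fk, mem_scalars_iff']
      refine ⟨-1, ?_⟩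
      have := an a b a1 b1 ab (a5 S ha) (a5 S hb) (a5 S (map_mul ρ a b ▸ mul_mem ha hb))
      rw [show ((⁅a, b⁆ : K) : G F) = a * b * (a : G F)⁻¹ * (b : G F)⁻¹ from rfl, this]
      simp)⟩⟩
    have h1 := eq_one_of_central_of_comm (G := f.range) (by
      rw [commutator_def, ← Subgroup.map_top_of_surjective _ fs, ← Subgroup.map_commutator, ← commutator_def,
        comm_top D.perfect]) ((S : Subgroup _).comap r) (z := f.rangeRestrict k) fun g => by
      obtain ⟨g, rfl⟩ := fs g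
      exact ((kc k g hk).symm.map _).eq
    rw [Subgroup.index_comap_of_surjective _ rs] at h1
    obtain ⟨n, hn⟩ := Nat.odd_iff.2 (Nat.two_dvd_ne_zero.1 S.not_dvd_index)
    rwa [hn, pow_succ, pow_mul, sq, ← map_mul, sq1 k hk, map_one, one_pow, one_mul] at h1
  have ri : Function.Injective r := (injective_iff_map_eq_one _).2 fun l hl => by
    obtain ⟨k, rfl⟩ := fs l
    exact kz k ((hr k).symm.trans hl)
  refine ⟨f.range, ⟨MulEquiv.ofBijective r ⟨ri, rs⟩⟩, ?_, fun K1 hK1 hc => ?_, ?_, fun g hg => ?_⟩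
  · rintro _ ⟨k, rfl⟩
    exact cm_mk.2 (Subtype.ext (D.cen k k.2))
  · obtain ⟨E, e1, rfl, e3⟩ := lift_perfect (QuotientGroup.mk' _) (QuotientGroup.mk'_surjective _)
      (by rw [QuotientGroup.ker_mk']; exact scalars_subgroupOf_le_center Γ) hK1 hc
    have := D.max (E.map Γ.subtype) (Subgroup.map_subtype_le _) (by rw [← Subgroup.map_commutator, e1])
      (by rintro _ ⟨d, hd, rfl⟩; exact (e3 d hd).map Γ.subtype)
    rintro _ ⟨d, hd, rfl⟩
    exact ⟨⟨d, this ⟨d, hd, rfl⟩⟩, rfl⟩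
  · rintro _ ⟨a, rfl⟩ _ ⟨b, rfl⟩ a2 b2 a1 b1 ab c
    have c' : Commute a b := Subtype.ext (congrArg (fun g : Γ => (g : G F)) (cm_mk.1 c).eq)
    have k : ∀ a : K, f a * f a = 1 → ρ a * ρ a = 1 := fun a e => by
      rw [← hr, ← map_mul, show f.rangeRestrict a * f.rangeRestrict a = 1 from Subtype.ext e, map_one]
    have := an a b (fun e => a1 (congrArg Subtype.val (kz a e))) (fun e => b1 (congrArg Subtype.val (kz b e)))
      (fun e => ab (congrArg Subtype.val (ri ((hr b).trans (e.trans (hr a).symm))))) (k a a2) (k b b2)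
      (by rw [map_mul, (c'.map ρ).symm.mul_mul_mul_comm, k a a2, k b b2, mul_one])
    rw [← show (a : G F) * b = b * a from congrArg Subtype.val c'.eq, ← mul_neg_one, left_eq_mul] at this
    have := congrArg (fun g : G F => g.val 0 0) this
    simp only [Units.val_neg, Units.val_one, Matrix.neg_apply, one_apply_eq] at this
    exact h.two (by linear_combination -this)
  · obtain ⟨g, rfl⟩ := QuotientGroup.mk_surjective g
    have gc : Commute (g : G F) τ := (cm_mk.1 hg).map Γ.subtype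
    obtain ⟨k, hk, a, ha⟩ := D.inn g g.2 gc
    refine ⟨_, ⟨⟨k, hk⟩, rfl⟩, ?_⟩
    rintro _ ⟨m, rfl⟩
    have cc : Commute (k⁻¹ * g) τ := (D.cen k hk).inv_left.mul_left gc
    have cΓ : k⁻¹ * g ∈ Γ := mul_mem (inv_mem (D.le hk)) g.2
    have ca : ∀ y : V F, (τ : G F) • y = -y → (k⁻¹ * g) • y = a • y := fun y hy => by
      rw [mul_smul, ha y hy, gsmul_smul, inv_smul_smul]
    have n := D.max (K.map (MulAut.conj (k⁻¹ * g)⁻¹).toMonoidHom)
      (by rintro _ ⟨d, hd, rfl⟩; exact mul_mem (mul_mem (inv_mem cΓ) (D.le hd)) (inv_mem (inv_mem cΓ)))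
      (by rw [← Subgroup.map_commutator, D.perfect])
      (by rintro _ ⟨d, hd, rfl⟩; exact (cc.inv_left.mul_left (D.cen d hd)).mul_left cc.inv_left.inv_left)
      ⟨_, inv_mem m.2, rfl⟩
    have := (fk _).1 (kz ⟨_, mul_mem n m.2⟩ ((hρ _).1.2 ⟨1, fun y hy => by
      change ((k⁻¹ * g)⁻¹ * (m : G F)⁻¹ * (k⁻¹ * g)⁻¹⁻¹ * m) • y = _
      rw [inv_inv, mul_smul, mul_smul, ca _ (i1 _ (D.cen _ m.2) y hy), ← gsmul_smul, ← ca y hy, mul_smul, inv_smul_smul,
        inv_smul_smul, one_smul]⟩))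
    refine (QuotientGroup.eq (a := Subgroup.inclusion D.le m * ((Subgroup.inclusion D.le ⟨k, hk⟩)⁻¹ * g))
      (b := (Subgroup.inclusion D.le ⟨k, hk⟩)⁻¹ * g * Subgroup.inclusion D.le m).2 ?_).symm
    rw [Subgroup.mem_subgroupOf]
    convert this using 1
    simp [mul_assoc]

end CL.Low4
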