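/-
Project LOW4: an irreducible group which is a 2-group modulo scalars is monomial.
-/
import Cfsg.Agent.Low4.Defs3
import Cfsg.Agent.Grp.PGroupBasic

set_option autoImplicit false

namespace CL.Low4

open Matrix Cfsg Cfsg.Geo CL.Asch CL.SLn CL.Low Module
open scoped commutatorElement MatrixGroups

universe u

namespace MFh

variable {F : Type u} [Field F]

/-- a matrix with split characteristic polynomial has an eigenvector in every non-zero invariant subspace -/
theorem exists_eigen (M : Matrix (Fin 4) (Fin 4) F) (hM : M.charpoly.Splits) {W : Submodule F (V F)} (hW : W ≠ ⊥)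
    (hi : ∀ w ∈ W, M *ᵥ w ∈ W) : ∃ c : F, ∃ w ∈ W, w ≠ 0 ∧ M *ᵥ w = c • w := by
  by_contra hn
  have key : ∀ p : Polynomial F, p.Splits → (∀ w ∈ W, Polynomial.aeval M p *ᵥ w ∈ W) ∧
      (p ≠ 0 → ∀ w ∈ W, Polynomial.aeval M p *ᵥ w = 0 → w = 0) := by
    intro p hp
    induction hp using Submonoid.closure_induction with
    | mem p hp =>
      rcases hp with ⟨a, rfl⟩ | ⟨a, rfl⟩
      · simp only [Polynomial.aeval_C, Algebra.algebraMap_eq_smul_one, smul_mulVec, one_mulVec]
        exact ⟨fun w hw => W.smul_mem a hw, fun h w _ e =>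
          (smul_eq_zero.1 e).resolve_left fun a0 => h (by rw [a0, map_zero])⟩
      · simp only [map_add, Polynomial.aeval_X, Polynomial.aeval_C, Algebra.algebraMap_eq_smul_one, add_mulVec,
          smul_mulVec, one_mulVec]
        refine ⟨fun w hw => W.add_mem (hi w hw) (W.smul_mem a hw), fun _ w hw e => by_contra fun w0 => ?_⟩
        exact hn ⟨-a, w, hw, w0, by rw [neg_smul]; exact eq_neg_of_add_eq_zero_left e⟩
    | one => simp
    | mul p q _ _ hp hq =>
      simp only [map_mul, ← mulVec_mulVec]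
      exact ⟨fun w hw => hp.1 _ (hq.1 w hw), fun h w hw e =>
        hq.2 (right_ne_zero_of_mul h) w hw (hp.2 (left_ne_zero_of_mul h) _ (hq.1 w hw) e)⟩
  obtain ⟨w, hw, w0⟩ := Submodule.exists_mem_ne_zero_of_ne_bot hW
  exact w0 ((key _ hM).2 M.charpoly_monic.ne_zero w hw (by rw [Matrix.aeval_self_charpoly, zero_mulVec]))

/-- a common eigenvector of a commuting family -/
theorem exists_common {I : Type*} (a : I → G F) (hs : ∀ i, (a i).val.charpoly.Splits)
    (hc : ∀ i j, a i * a j = a j * a i) : ∃ (v : V F) (χ : I → F), v ≠ 0 ∧ ∀ i, a i • v = χ i • v := by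
  obtain ⟨W, ⟨h1, h2⟩, hmin⟩ := (wellFounded_lt (α := Submodule F (V F))).has_min
    {W | W ≠ ⊥ ∧ ∀ i, ∀ w ∈ W, a i • w ∈ W} ⟨⊤, top_ne_bot, fun _ _ _ => trivial⟩
  have key : ∀ i, ∃ c : F, ∀ w ∈ W, a i • w = c • w := fun i => by
    obtain ⟨c, w, hw, w0, e⟩ := exists_eigen _ (hs i) h1 (h2 i)
    let E : Submodule F (V F) :=
      { carrier := {w | w ∈ W ∧ a i • w = c • w}
        add_mem' := fun {x y} hx hy => ⟨W.add_mem hx.1 hy.1, by rw [smul_add, smul_add, hx.2, hy.2]⟩
        zero_mem' := ⟨W.zero_mem, by rw [smul_zero, smul_zero]⟩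
        smul_mem' := fun d x hx => ⟨W.smul_mem d hx.1, by rw [gsmul_smul, hx.2, smul_comm]⟩ }
    have hE : E = W := by
      by_contra hne
      refine hmin E ⟨fun e0 => w0 ?_, fun j x hx => ⟨h2 j x hx.1, ?_⟩⟩ (lt_of_le_of_ne (fun x hx => hx.1) hne)
      · have : w ∈ E := ⟨hw, e⟩
        rwa [e0, Submodule.mem_bot] at this
      · rw [← mul_smul, hc, mul_smul, hx.2, gsmul_smul]
    exact ⟨c, fun x hx => (hE.ge hx).2⟩
  choose χ hχ using key
  obtain ⟨v, hv, v0⟩ := Submodule.exists_mem_ne_zero_of_ne_bot h1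
  exact ⟨v, χ, v0, fun i => hχ i v hv⟩

theorem span_orbit {T : Subgroup (G F)} (h : Irr T) {v : V F} (hv : v ≠ 0) {W : Submodule F (V F)}
    (hW : ∀ t ∈ T, t • v ∈ W) : W = ⊤ := by
  have h1 : Submodule.span F {w | ∃ t ∈ T, w = t • v} ≤ W := Submodule.span_le.2 (by rintro _ ⟨t, ht, rfl⟩; exact hW t ht)
  refine top_le_iff.1 (((irr_iff.1 h _ fun g hg w hw => ?_).resolve_left fun e => hv ?_).ge.trans h1)
  · induction hw using Submodule.span_induction with
    | mem w hw =>
      obtain ⟨t, ht, rfl⟩ := hw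
      exact Submodule.subset_span ⟨g * t, T.mul_mem hg ht, (mul_smul g t v).symm⟩
    | zero => rw [mulVec_zero]; exact Submodule.zero_mem _
    | add x y _ _ hx hy => rw [mulVec_add]; exact Submodule.add_mem _ hx hy
    | smul c x _ hx => rw [mulVec_smul]; exact Submodule.smul_mem _ c hx
  · have : v ∈ Submodule.span F {w | ∃ t ∈ T, w = t • v} := Submodule.subset_span ⟨1, T.one_mem, (one_smul _ v).symm⟩
    rwa [e, Submodule.mem_bot] at this

/-- a basis of weight vectors with distinct weights -/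
theorem frame {I : Type*} (a : I → G F) (e : Fin 4 → V F) (χ : Fin 4 → I → F) (hχ : Function.Injective χ)
    (he : ∀ i j, a j • e i = χ i j • e i) (h0 : ∀ i, e i ≠ 0) :
    ∃ x, Bi e x ∧ ∀ i w, (∀ j, a j • w = χ i j • w) → ∃ c : F, w = c • e i := by
  have hli : LinearIndependent F e :=
    CL.LS.linearIndependent_of_weights (fun j => mulVecLin (a j).val) χ hχ e he h0
  let b := basisOfLinearIndependentOfCardEqFinrank hli (by simp)
  have hb : ∀ i, b i = e i := fun i => congrFun (coe_basisOfLinearIndependentOfCardEqFinrank hli _) i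
  have hx : ∀ i j, b.coord i (e j) = if j = i then 1 else 0 := fun i j => by
    rw [← hb, Basis.coord_apply, b.repr_self, Finsupp.single_apply]
  refine ⟨b.coord, ⟨fun i => by rw [hx, if_pos rfl], fun i j h => by rw [hx, if_neg h.symm]⟩, fun i w hw => ?_⟩
  have k1 : ∀ k j, b.coord k (a j • w) = χ k j * b.coord k w := fun k j => by
    have : b.coord k ∘ₗ mulVecLin (a j).val = χ k j • b.coord k := b.ext fun l => by
      change b.coord k (a j • b l) = χ k j • b.coord k (b l)
      rw [hb, he, map_smul, hx]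
      split_ifs with h
      · rw [h]
      · rw [smul_zero, smul_zero]
    exact LinearMap.congr_fun this w
  refine ⟨b.coord i w, ?_⟩
  rw [← hb]
  refine b.ext_elem fun k => ?_
  by_cases h : i = k
  · simp [h]
  · obtain ⟨j, hj⟩ := Function.ne_iff.1 (hχ.ne h)
    have := k1 k j
    rw [hw, map_smul, smul_eq_mul] at this
    have h1 : b.coord k w = 0 := (mul_eq_mul_right_iff.1 this).resolve_left hj
    simpa [h] using h1

theorem exists_stab {H Ω : Type*} [Group H] (wt : H → Ω) (hm : ∀ s t t', wt t = wt t' → wt (s * t) = wt (s * t')) :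
    ∃ B : Subgroup H, (∀ t, t ∈ B ↔ wt t = wt 1) ∧ ∀ s t : H, (s : H ⧸ B) = t ↔ wt s = wt t := by
  let B : Subgroup H :=
    { carrier := {t | wt t = wt 1}
      one_mem' := rfl
      mul_mem' := fun {s t} hs ht => by
        have := hm s _ _ ht
        rw [mul_one] at this
        exact this.trans hs
      inv_mem' := fun {s} hs => by
        have := hm s⁻¹ _ _ hs
        rw [mul_one, inv_mul_cancel] at this
        exact this.symm }
  refine ⟨B, fun _ => Iff.rfl, fun s t => ?_⟩
  rw [QuotientGroup.eq]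
  constructor
  · intro h
    have := hm s _ _ h
    rw [mul_inv_cancel_left, mul_one] at this
    exact this.symm
  · intro h
    have := hm s⁻¹ _ _ h
    rw [inv_mul_cancel] at this
    exact this.symm

theorem idx_cases {n k : ℕ} (h : n = 2 ^ k) (h4 : n ≤ 4) (h5 : n ≠ 4) : n = 1 ∨ n = 2 := by
  subst h
  rcases k with _ | _ | _ | k
  · exact Or.inl rfl
  · exact Or.inr rfl
  · exact absurd rfl h5
  · have : 0 < 2 ^ k := by positivity
    omega

variable {T : Subgroup (G F)} {A B : Subgroup T} {v : V F} {wt : T → A → F}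

/-- a normal stabiliser centralises `A` -/
theorem le_cent (irr : Irr T) (v0 : v ≠ 0)
    (hwt : ∀ (t : T) (a : A), ((a : T) : G F) • (t : G F) • v = wt t a • (t : G F) • v)
    (hB : ∀ s t : T, (s : T ⧸ B) = t ↔ wt s = wt t) [hn : B.Normal] : B ≤ Subgroup.centralizer (A : Set T) := by
  intro b hb a ha
  have e : ∀ t : T, wt (b * t) = wt t := fun t => by
    refine ((hB _ _).1 (QuotientGroup.eq.2 ?_)).symm
    rw [← mul_assoc]
    exact hn.conj_mem' b hb t
  have := span_orbit irr v0 (W := LinearMap.eqLocus (mulVecLin ((a * b : T) : G F).val)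
    (mulVecLin ((b * a : T) : G F).val)) fun t ht => by
      change ((a : G F) * b) • t • v = ((b : G F) * a) • t • v
      have h1 := hwt (b * ⟨t, ht⟩) ⟨a, ha⟩
      rw [e] at h1
      rw [mul_smul, mul_smul, hwt ⟨t, ht⟩ ⟨a, ha⟩, gsmul_smul, ← mul_smul (b : G F)]
      exact h1
  refine Subtype.ext (gext fun y => ?_)
  have h1 : y ∈ LinearMap.eqLocus (mulVecLin ((a * b : T) : G F).val) (mulVecLin ((b * a : T) : G F).val) :=
    this ▸ Submodule.mem_top
  exact LinearMap.mem_eqLocus.1 h1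

/-- if the stabiliser fixes the line of `v`, its index is at least four -/
theorem four_le [Finite T] (irr : Irr T) (v0 : v ≠ 0) (hB : ∀ b ∈ B, ∃ c : F, (b : G F) • v = c • v) :
    4 ≤ B.index := by
  letI := Fintype.ofFinite (T ⧸ B)
  have h5 := span_orbit irr v0 (W := Submodule.span F (Set.range fun q : T ⧸ B => ((q.out : T) : G F) • v))
    fun t ht => by
      obtain ⟨b, hb⟩ := QuotientGroup.mk_out_eq_mul B ⟨t, ht⟩
      obtain ⟨c, hc⟩ := hB _ (B.inv_mem b.2)
      have h1 : t • v = c • ((((⟨t, ht⟩ : T) : T ⧸ B).out : T) : G F) • v := by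
        rw [← gsmul_smul, ← hc, ← mul_smul, hb]
        congr 1
        simp
      rw [h1]
      exact Submodule.smul_mem _ _ (Submodule.subset_span ⟨_, rfl⟩)
  have h6 := finrank_range_le_card (R := F) fun q : T ⧸ B => ((q.out : T) : G F) • v
  rw [Set.finrank, h5, finrank_top, ← Nat.card_eq_fintype_card] at h6
  have h7 : finrank F (V F) = 4 := by simp
  rw [h7] at h6
  exact h6

end MFh

open MFh in
theorem subMF : SubMF.{u} := by
  intro F _ _ Γ T oc sy irr
  have h2 : IsPGroup 2 (T ⧸ Subgroup.center T) := fun q => by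
    obtain ⟨t, rfl⟩ := QuotientGroup.mk_surjective q
    obtain ⟨n, hn⟩ := sy.two t t.2
    refine ⟨n, ?_⟩
    rw [← QuotientGroup.mk_pow, QuotientGroup.eq_one_iff, Subgroup.mem_center_iff]
    exact fun g => Subtype.ext (Subgroup.mem_center_iff.1 (scalars_le_center hn) g)
  haveI : Group.IsNilpotent T := Group.of_quotient_center_nilpotent h2.isNilpotent
  obtain ⟨A, hAn, hAc, hZ, hC⟩ := CL.Grp.exists_selfCentralizing_abelian_normal (Subgroup.center T)
  obtain ⟨v, χ, v0, hv⟩ := exists_common (fun a : A => ((a : T) : G F)) (fun a => oc.spl _ (sy.le a.1.2))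
    fun a b => congrArg (fun x : A => ((x : T) : G F)) (hAc.1.1 a b)
  -- the weight of `t • v`
  obtain ⟨wt, hw⟩ : ∃ wt : T → A → F, ∀ t a, wt t a = χ ⟨t⁻¹ * a * t, hAn.conj_mem' _ a.2 t⟩ := ⟨_, fun _ _ => rfl⟩
  have hwt : ∀ (t : T) (a : A), ((a : T) : G F) • (t : G F) • v = wt t a • (t : G F) • v := fun t a => by
    rw [← gsmul_smul, hw, ← hv, ← mul_smul, ← mul_smul]
    congr 1
    simp [mul_assoc]
  have hne : ∀ g : G F, g • v ≠ 0 := fun g e => v0 ((smul_eq_zero_iff_eq g).1 e)
  obtain ⟨B, hB1, hB⟩ := exists_stab wt fun s t t' e => funext fun a => by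
    have := congrFun e ⟨s⁻¹ * a * s, hAn.conj_mem' _ a.2 s⟩
    simpa only [hw, _root_.mul_inv_rev, mul_assoc] using this
  have hAB : A ≤ B := fun a ha => (hB1 a).2 (funext fun c => by
    rw [hw, hw]
    refine congrArg χ (Subtype.ext ?_)
    have : (c : T) * a = a * c := congrArg Subtype.val (hAc.1.1 c ⟨a, ha⟩)
    change a⁻¹ * c * a = 1⁻¹ * c * 1
    rw [mul_assoc, this, inv_mul_cancel_left, inv_one, one_mul, mul_one])
  have hinj : Function.Injective fun q : T ⧸ B => wt q.out := fun q q' e => by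
    rw [← q.out_eq, ← q'.out_eq]
    exact (hB _ _).2 e
  have hle : B.index ≤ 4 := by
    letI := Fintype.ofFinite (T ⧸ B)
    have h4 := (CL.LS.linearIndependent_of_weights (fun a : A => mulVecLin ((a : T) : G F).val) _ hinj
      (fun q : T ⧸ B => ((q.out : T) : G F) • v) (fun q a => hwt _ a) fun q => hne _).fintype_card_le_finrank
    rw [Subgroup.index, Nat.card_eq_fintype_card]
    simpa using h4
  have h4 : B.index = 4 := by
    obtain ⟨n, hn⟩ := h2.exists_card_eq
    have h3 : B.index ∣ 2 ^ n := (Subgroup.index_dvd_of_le (hZ.trans hAB)).trans (dvd_of_eq hn)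
    obtain ⟨k, -, hk⟩ := (Nat.dvd_prime_pow Nat.prime_two).1 h3
    by_contra h4
    haveI : B.Normal := (idx_cases hk hle h4).elim (fun e => Subgroup.index_eq_one.1 e ▸ inferInstance)
      Subgroup.normal_of_index_eq_two
    have hBA : B ≤ A := (le_cent irr v0 hwt hB).trans hC.le
    exact h4 (le_antisymm hle (four_le irr v0 fun b hb => ⟨_, hv ⟨b, hBA hb⟩⟩))
  obtain ⟨σ⟩ : Nonempty (Fin 4 ≃ T ⧸ B) := ⟨(Finite.equivFinOfCardEq h4).symm⟩
  obtain ⟨x, hx, hf⟩ := frame (fun a : A => ((a : T) : G F)) (fun i => (((σ i).out : T) : G F) • v)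
    (fun i => wt (σ i).out) (hinj.comp σ.injective) (fun i a => hwt _ a) fun i => hne _
  refine ⟨_, x, hx, fun g hg i => ?_⟩
  obtain ⟨s, hs⟩ : ∃ s : T, s = ⟨g, hg⟩ * (σ i).out := ⟨_, rfl⟩
  have e1 : g • (((σ i).out : T) : G F) • v = (s : G F) • v := by rw [hs, ← mul_smul]; rfl
  have e2 : wt (σ (σ.symm (s : T ⧸ B))).out = wt s := by
    rw [σ.apply_symm_apply]
    exact (hB _ _).1 (QuotientGroup.out_eq' _)
  obtain ⟨c, hc⟩ := hf (σ.symm (s : T ⧸ B)) ((s : G F) • v) fun a => by rw [e2]; exact hwt s a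
  exact ⟨_, c, e1.trans hc⟩

end CL.Low4
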