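/-
Project LOW4: unipotent subgroups without transvections are abelian; Heisenberg groups; the group `3² : Q₈`.
-/
import Cfsg.Agent.Low4.Defs3
import Cfsg.Agent.Low5.HDd

set_option autoImplicit false
set_option linter.unusedSectionVars false

namespace CL.Low4

open Matrix Cfsg Cfsg.Geo CL.Asch CL.SLn CL.Low Module
open scoped commutatorElement MatrixGroups

universe u

namespace N0

section Mat

variable {F : Type u} [Field F]

/-- An upper unitriangular matrix. -/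
def ut (a b c d e f : F) : Matrix (Fin 4) (Fin 4) F := !![1, a, d, f; 0, 1, b, e; 0, 0, 1, c; 0, 0, 0, 1]

theorem ut_mul (a b c d e f a' b' c' d' e' f' : F) : ut a b c d e f * ut a' b' c' d' e' f' =
    ut (a + a') (b + b') (c + c') (d + d' + a * b') (e + e' + b * c') (f + f' + a * e' + d * c') := by
  ext i j
  fin_cases i <;> fin_cases j <;> simp [ut, mul_apply, Fin.sum_univ_four] <;> ring

theorem ut_inj {a b c d e f a' b' c' d' e' f' : F} (h : ut a b c d e f = ut a' b' c' d' e' f') :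
    a = a' ∧ b = b' ∧ c = c' ∧ d = d' ∧ e = e' ∧ f = f' :=
  ⟨congrFun (congrFun h 0) 1, congrFun (congrFun h 1) 2, congrFun (congrFun h 2) 3, congrFun (congrFun h 0) 2,
    congrFun (congrFun h 1) 3, congrFun (congrFun h 0) 3⟩

theorem core {H : Type*} [Group H] (h2 : (2 : F) ≠ 0) (M : H →* Matrix (Fin 4) (Fin 4) F)
    (hM : ∀ h, ∃ a b c d e f, M h = ut a b c d e f)
    (hT : ∀ h v w, w ⬝ᵥ v = 0 → M h = 1 + vecMulVec v w → h = 1) (x y : H) : Commute x y := by
  have t : ∀ {h d e f}, M h = ut 0 0 0 d e f → d = 0 ∨ e = 0 → h = 1 := by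
    rintro h d e f k (rfl | rfl)
    · refine hT h ![f, e, 0, 0] ![0, 0, 0, 1] (by simp [dotProduct, Fin.sum_univ_four]) (k.trans ?_)
      ext i j
      fin_cases i <;> fin_cases j <;> simp [ut]
    · refine hT h ![1, 0, 0, 0] ![0, 0, d, f] (by simp [dotProduct, Fin.sum_univ_four]) (k.trans ?_)
      ext i j
      fin_cases i <;> fin_cases j <;> simp [ut]
  have cm : ∀ {x y a b c d e f a' b' c' d' e' f'}, M x = ut a b c d e f → M y = ut a' b' c' d' e' f' →
      M ⁅x, y⁆ = ut 0 0 0 (a * b' - a' * b) (b * c' - b' * c)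
        (a * e' + d * c' - a' * e - d' * c - (a * b' - a' * b) * (c + c')) := by
    intro x y a b c d e f a' b' c' d' e' f' hx hy
    obtain ⟨A, B, C, D, E, G, k⟩ := hM ⁅x, y⁆
    have k1 : M x * M y = M ⁅x, y⁆ * (M y * M x) := by
      simp only [← map_mul]; rw [commutatorElement_def]; congr 1; group
    rw [hx, hy, k, ut_mul, ut_mul, ut_mul] at k1
    obtain ⟨e1, e2, e3, e4, e5, e6⟩ := ut_inj k1
    obtain rfl : A = 0 := by linear_combination -e1
    obtain rfl : B = 0 := by linear_combination -e2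
    obtain rfl : C = 0 := by linear_combination -e3
    obtain rfl : D = a * b' - a' * b := by linear_combination -e4
    rw [k, show E = b * c' - b' * c by linear_combination -e5]
    congr 1
    linear_combination -e6
  obtain ⟨a, b, c, d, e, f, hx⟩ := hM x
  obtain ⟨a', b', c', d', e', f', hy⟩ := hM y
  have hw := cm hx hy
  have z : ∀ {u a₁ b₁ c₁ d₁ e₁ f₁}, M u = ut a₁ b₁ c₁ d₁ e₁ f₁ →
      a₁ * (b * c' - b' * c) = (a * b' - a' * b) * c₁ := fun hu => by
    have k := cm hu hw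
    simp only [mul_zero, zero_mul, sub_zero, add_zero] at k
    have k1 := congrFun (congrFun k 0) 3
    rw [t k (.inl rfl), map_one] at k1
    simp [ut] at k1
    linear_combination -k1
  refine commutatorElement_eq_one_iff_commute.1 (t hw (mul_eq_zero.1 (mul_left_cancel₀ h2 ?_)))
  linear_combination b' * z hx - b * z hy

end Mat

section Grp

theorem step {H : Type*} [Group H] [Finite H] {p : ℕ} {s : Set H} (hK : IsPGroup p (Subgroup.closure s)) {y : H}
    (hy : y ^ p = 1) (h : ∀ a ∈ s, y * a * y⁻¹ ∈ Subgroup.closure s) : IsPGroup p (Subgroup.closure (insert y s)) := by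
  rw [Set.insert_eq, Subgroup.closure_union, ← Subgroup.zpowers_eq_closure]
  refine IsPGroup.to_sup_of_normal_right' ?_ hK (Subgroup.zpowers_le.2 (Subgroup.mem_normalizer_fintype fun n hn =>
    (Subgroup.closure_le ((Subgroup.closure s).comap (MulAut.conj y).toMonoidHom)).2 h hn))
  rintro ⟨_, k, rfl⟩
  exact ⟨1, Subtype.ext (show (y ^ k) ^ p ^ 1 = 1 by
    rw [pow_one, ← zpow_natCast, zpow_comm, zpow_natCast, hy, _root_.one_zpow])⟩

theorem heis {H : Type*} [Group H] [Finite H] {p : ℕ} {x y z : H} (hx : x ^ p = 1) (hy : y ^ p = 1) (hz : z ^ p = 1)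
    (e : z = ⁅x, y⁆) (h1 : Commute z x) (h2 : Commute z y) : IsPGroup p (Subgroup.closure {y, x, z}) := by
  have m : ∀ {s : Set H} {a}, a ∈ s → a ∈ Subgroup.closure s := fun h => Subgroup.subset_closure h
  have k := step (s := ∅) (by rw [Subgroup.closure_empty]; exact IsPGroup.of_bot) hz fun _ h => h.elim
  rw [insert_empty_eq] at k
  refine step (step k hx ?_) hy ?_
  · rintro a rfl
    rw [← h1.eq, mul_inv_cancel_right]
    exact m rfl
  · rintro a (rfl | rfl)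
    · rw [show y * a * y⁻¹ = z⁻¹ * a by rw [e, commutatorElement_def]; group]
      exact mul_mem (inv_mem (m (.inr rfl))) (m (.inl rfl))
    · rw [← h2.eq, mul_inv_cancel_right]
      exact m (.inr rfl)

theorem inv6 {H : Type*} [Group H] {s x : H} (h : s * (s * x * s⁻¹) * s⁻¹ = x⁻¹) (h3 : x ^ 3 = 1) (h1 : x ≠ 1) :
    s ^ 6 * x ≠ x * s ^ 6 := fun e => by
  have k : s ^ 2 * x * (s ^ 2)⁻¹ = x⁻¹ := by rw [← h, pow_two]; group
  have k' : s ^ 2 * x⁻¹ * (s ^ 2)⁻¹ = x := by rw [← conj_inv, k, inv_inv]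
  have k6 : s ^ 6 * x * (s ^ 6)⁻¹ = s ^ 2 * (s ^ 2 * (s ^ 2 * x * (s ^ 2)⁻¹) * (s ^ 2)⁻¹) * (s ^ 2)⁻¹ := by group
  rw [k, k', k, e, mul_inv_cancel_right] at k6
  rw [pow_succ, pow_two, mul_eq_one_iff_eq_inv.2 k6, one_mul] at h3
  exact h1 h3

theorem perm4 {n : ℕ} (hn : n ≤ 4) : ∀ a : Equiv.Perm (Fin n), a ^ 6 ≠ 1 → Equiv.Perm.sign a = -1 := by
  interval_cases n <;> decide +kernel

end Grp

section Lift

variable {F : Type u} [Field F] {Γ : Subgroup (G F)}

theorem one_of {c : Γ} (h1 : (c : PQ Γ) = 1) (hd : (c : G F) ∈ specialLinear (Fin 4) F) (h3 : c ^ 3 = 1) : c = 1 := by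
  have h4 : c ^ 4 = 1 := Subtype.ext (pow_card_eq_one_of_scalar (mk_eq_one_iff.1 h1) hd)
  rwa [pow_succ, h3, one_mul] at h4

theorem det_comm (a b : Γ) : ((⁅a, b⁆ : Γ) : G F) ∈ specialLinear (Fin 4) F :=
  (map_commutatorElement (GeneralLinearGroup.det.comp Γ.subtype) a b).trans
    (commutatorElement_eq_one_iff_mul_comm.2 (mul_comm _ _))

theorem cen {c : Γ} (h1 : (c : PQ Γ) = 1) (g : Γ) : Commute g c :=
  Subgroup.mem_center_iff.1 (scalars_subgroupOf_le_center Γ ((QuotientGroup.eq_one_iff c).1 h1)) g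

theorem comm_pow {a b : Γ} (h3 : (a : PQ Γ) ^ 3 = 1) (h : Commute ⁅a, b⁆ a) : ⁅a, b⁆ ^ 3 = 1 := by
  have h4 := Low5.HDc.pow_mul_eq rfl h 3
  rw [← (cen (c := a ^ 3) h3 b).eq, mul_assoc] at h4
  exact mul_eq_right.1 h4.symm

theorem mk_comm (a b : Γ) : ((⁅a, b⁆ : Γ) : PQ Γ) = ⁅(a : PQ Γ), (b : PQ Γ)⁆ :=
  map_commutatorElement (QuotientGroup.mk' _) a b

theorem lift {a b : Γ} (h3 : (a : PQ Γ) ^ 3 = 1) (h : Commute (a : PQ Γ) b) : Commute a b := by
  have h1 := (mk_comm a b).trans (commutatorElement_eq_one_iff_commute.2 h)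
  exact commutatorElement_eq_one_iff_commute.1 (one_of h1 (det_comm a b) (comm_pow h3 (cen h1 a).symm))

theorem hs_lift {x y : Γ} {z : PQ Γ} (h : Hs (x : PQ Γ) y z) :
    ((⁅x, y⁆ : Γ) : PQ Γ) = z ∧ Commute ⁅x, y⁆ x ∧ Commute ⁅x, y⁆ y ∧ ⁅x, y⁆ ^ 3 = 1 := by
  obtain ⟨hx, hy, rfl, -, h1, h2⟩ := h
  rw [← mk_comm] at h1 h2
  exact ⟨mk_comm x y, (lift hx h1.symm).symm, (lift hy h2.symm).symm, comm_pow hx (lift hx h1.symm).symm⟩

end Lift

end N0

open N0 in
theorem subN0 : SubN0.{u} := by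
  intro F _ _ U h2 hT hU x hx y hy
  have : Fact (ringChar F).Prime := ⟨CharP.char_is_prime F _⟩
  let ρ : U →* End F (V F) := (DistribMulAction.toModuleEnd F (V F)).comp U.subtype
  obtain ⟨b₀, hb₀, hfl⟩ := Low5.HDd.exists_flag ringChar.Nat.cast_ringChar hU ρ 4 (by simp)
  let b := basisOfLinearIndependentOfCardEqFinrank hb₀ (by simp)
  have hb : b₀ = b := (coe_basisOfLinearIndependentOfCardEqFinrank _ _).symm
  rw [hb] at hfl
  let M : U →* Matrix (Fin 4) (Fin 4) F := (LinearMap.toMatrixAlgEquiv b : End F (V F) →* _).comp ρ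
  have hM : ∀ s i j, j ≤ i → M s i j = if i = j then 1 else 0 := fun s i j hij => by
    have h1 : b.repr (ρ s (b j) - b j) i = 0 := by
      by_contra h
      exact absurd (b.mem_span_image.1 (hfl s j) (Finsupp.mem_support_iff.2 h)) (not_lt.2 hij)
    rw [map_sub, Finsupp.sub_apply, sub_eq_zero] at h1
    rw [show M s i j = _ from LinearMap.toMatrixAlgEquiv_apply b _ i j, h1, b.repr_self, Finsupp.single_apply]
    exact if_congr eq_comm rfl rfl
  refine (core h2 M (fun s => ⟨M s 0 1, M s 1 2, M s 2 3, M s 0 2, M s 1 3, M s 0 3, ?_⟩) (fun s v w h0 e => ?_)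
    ⟨x, hx⟩ ⟨y, hy⟩).map U.subtype
  · ext i j
    fin_cases i <;> fin_cases j <;> first | rfl | exact hM s _ _ (by decide)
  · let φ : Dual F (V F) := dotProductBilin F F w ∘ₗ b.equivFun.toLinearMap
    have k : ∀ y, (s : G F) • y = y + φ y • b.equivFun.symm v := fun y => b.equivFun.injective (by
      have := LinearMap.toMatrix_mulVec_repr b b (ρ s) y
      rw [show LinearMap.toMatrix b b (ρ s) = M s from rfl, e, add_mulVec, one_mulVec, vecMulVec_mulVec] at this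
      rw [map_add, LinearEquiv.map_smul b.equivFun (φ y), LinearEquiv.apply_symm_apply]
      exact this.symm.trans (by simp [φ]))
    refine Subtype.ext (gext fun y => ?_)
    rcases not_tv hT s.2 ((congrArg (w ⬝ᵥ ·) (b.equivFun.apply_symm_apply v)).trans h0) k with h | h <;>
      simp [k, h, -Basis.equivFun_symm_apply]

open N0 in
theorem subHe (h : SubN0.{u}) : SubHe.{u} := by
  intro F _ _ Γ h2 hT
  classical
  have A : (3 : F) = 0 → ∀ x y z : PQ Γ, ¬ Hs x y z := fun h3 x y z k => by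
    have hc := coprime_card_scalars_char Γ Nat.prime_three (by exact_mod_cast h3)
    obtain ⟨x, rfl, hx⟩ := exists_lift hc x k.1
    obtain ⟨y, rfl, hy⟩ := exists_lift hc y k.2.1
    obtain ⟨e, h1, h4, h5⟩ := hs_lift k
    have hr : ringChar F = 3 := CharP.ringChar_of_prime_eq_zero Nat.prime_three (by exact_mod_cast h3)
    have := h F ((Subgroup.closure {y, x, ⁅x, y⁆}).map Γ.subtype) h2
      (fun ⟨g, hg, t⟩ => hT ⟨g, Subgroup.map_subtype_le _ hg, t⟩) (hr ▸ (heis hx hy h5 rfl h1 h4).map _)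
      x ⟨x, Subgroup.subset_closure (.inr (.inl rfl)), rfl⟩ y ⟨y, Subgroup.subset_closure (.inl rfl), rfl⟩
    refine k.2.2.2.1 ?_
    rw [← e, (commutatorElement_eq_one_iff_mul_comm (g₁ := x)).2 (Subtype.ext this), QuotientGroup.mk_one]
  refine ⟨A, fun ⟨x, y, z, g, k, hg⟩ => ?_⟩
  by_cases h3 : (3 : F) = 0
  · exact A h3 x y z k
  obtain ⟨x, rfl⟩ := QuotientGroup.mk_surjective x
  obtain ⟨y, rfl⟩ := QuotientGroup.mk_surjective y
  obtain ⟨g, rfl⟩ := QuotientGroup.mk_surjective g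
  obtain ⟨rfl, hx, hy, hz⟩ := hs_lift k
  have hz1 := k.2.2.2.1
  have hd := det_comm x y
  set z : Γ := ⁅x, y⁆ with hzdef
  have hg' : g * z * g⁻¹ = z⁻¹ := by
    have e1 : ((z * (g * z * g⁻¹) : Γ) : PQ Γ) = 1 := (congrArg ((z : PQ Γ) * ·) hg).trans (mul_inv_cancel _)
    have e2 : Commute z⁻¹ (z * (g * z * g⁻¹)) := cen e1 _
    refine eq_inv_of_mul_eq_one_right (one_of e1
      (mul_mem hd ((MonoidHom.normal_ker _).conj_mem _ hd _)) ?_)
    have e3 := e2.mul_pow 3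
    rw [inv_mul_cancel_left, conj_pow, inv_pow, hz, mul_one, mul_inv_cancel, inv_one, one_mul] at e3
    exact e3.symm
  let K := AlgebraicClosure F
  let ρ : Γ →* End K (Fin 4 → K) := (extRep (Fin 4) F K).comp Γ.subtype
  have hρ : Function.Injective ρ := (extRep_injective K).comp Subtype.val_injective
  have hK : ((3 : ℕ) : K) ≠ 0 := by
    rw [← map_natCast (algebraMap F K)]; exact (map_ne_zero _).mpr (by exact_mod_cast h3)
  obtain ⟨b, μ, hb, hμ⟩ := CL.Char.exists_eigenbasis_of_pow_eq_one (ρ z) hK (by rw [← map_pow, hz, map_one])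
  obtain ⟨j, hj⟩ : ∃ j, μ j ≠ 1 := by
    by_contra hn
    push Not at hn
    have h2 : ρ z = ρ 1 := by
      rw [map_one]
      exact b.ext fun i => by rw [hb, hn, one_smul, End.one_apply]
    exact hz1 (by rw [hρ h2, QuotientGroup.mk_one])
  have := Fact.mk Nat.prime_three
  have hdim : ∀ (ν : K) (v : Fin 4 → K), ν ^ 3 = 1 → ν ≠ 1 → v ≠ 0 → ρ z v = ν • v →
      3 ≤ finrank K ((ρ z).eigenspace ν) := fun ν v h1 h2 hv hv' => by
    refine Nat.le_of_dvd (Nat.pos_of_ne_zero fun h0 => hv ?_) ?_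
    · have := End.mem_eigenspace_iff.2 hv'
      rwa [Submodule.finrank_eq_zero.1 h0, Submodule.mem_bot] at this
    · rw [← orderOf_eq_prime h1 h2]
      exact orderOf_dvd_of_pow_eq_one (Low5.HDc.pow_finrank ρ hzdef hx hy ν)
  have h1 := hdim _ _ (hμ j) hj (b.ne_zero j) (hb j)
  have h5 : finrank K (Fin 4 → K) = 4 := by simp
  have h0 : μ j ≠ 0 := fun h0 => by simpa [h0] using hμ j
  have h4 : ρ z⁻¹ (b j) = (μ j)⁻¹ • b j := by
    have := congrArg (ρ z⁻¹) (hb j)
    rw [← End.mul_apply, ← map_mul, inv_mul_cancel, map_one, End.one_apply, map_smul] at this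
    rw [eq_inv_smul_iff₀ h0, ← this]
  have h6 := hdim (μ j)⁻¹ (ρ g⁻¹ (b j)) (by rw [inv_pow, hμ, inv_one]) (by simpa using hj) (fun e0 => b.ne_zero j (by
    have := congrArg (ρ g) e0
    rwa [← End.mul_apply, ← map_mul, mul_inv_cancel, map_one, End.one_apply, map_zero] at this)) (by
    rw [← End.mul_apply, ← map_mul, show z * g⁻¹ = g⁻¹ * z⁻¹ by rw [← hg']; group, map_mul, End.mul_apply, h4,
      map_smul])
  have hne : μ j ≠ (μ j)⁻¹ := fun e0 => hj (by
    have := hμ j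
    rwa [pow_succ, pow_two, mul_eq_one_iff_eq_inv₀ h0 |>.2 e0, one_mul] at this)
  have := Submodule.finrank_add_finrank_le_of_disjoint (End.disjoint_genEigenspace (ρ z) hne 1 1)
  change finrank K ((ρ z).eigenspace _) + finrank K ((ρ z).eigenspace _) ≤ _ at this
  omega

open N0 in
theorem subF9 : SubF9.{u} := by
  rintro F _ _ Γ h3 ⟨x, y, g, h, hx, hy, h1, hc, gx, gy, kx, ky⟩
  classical
  let B : Subgroup (PQ Γ) := Subgroup.closure {x, y}
  have mx : x ∈ B := Subgroup.subset_closure (.inl rfl)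
  have my : y ∈ B := Subgroup.subset_closure (.inr rfl)
  have hB : ∀ a ∈ B, ∀ b ∈ B, Commute a b := fun a ha b hb => by
    refine Subgroup.closure_induction₂ (p := fun a b _ _ => Commute a b) ?_ (fun _ _ => .one_left _)
      (fun _ _ => .one_right _) (fun _ _ _ _ _ _ => .mul_left) (fun _ _ _ _ _ _ => .mul_right)
      (fun _ _ _ _ => .inv_left) (fun _ _ _ _ => .inv_right) ha hb
    rintro _ _ (rfl | rfl) (rfl | rfl)
    exacts [.refl _, hc, hc.symm, .refl _]
  have hB3 : ∀ a ∈ B, a ^ 3 = 1 := fun a ha => by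
    induction ha using Subgroup.closure_induction with
    | mem a ha => rcases ha with rfl | rfl <;> assumption
    | one => exact one_pow _
    | mul a b ha hb h1 h2 => rw [(hB a ha b hb).mul_pow, h1, h2, one_mul]
    | inv a _ h1 => rw [inv_pow, h1, inv_one]
  let A : Set (G F) := {a | ∃ a' : Γ, (a' : PQ Γ) ∈ B ∧ (a' : G F) = a}
  obtain ⟨n, π, hn, hπ⟩ := exists_weight_perm A (by
    rintro _ ⟨a, ha, rfl⟩ _ ⟨b, hb, rfl⟩
    exact congrArg Subtype.val (lift (hB3 _ ha) (hB _ ha _ hb)).eq) (by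
    rintro _ ⟨a, ha, rfl⟩
    obtain ⟨c, hc⟩ := scal_range.ge (mk_eq_one_iff.1 (hB3 _ ha) : ((a ^ 3 : Γ) : G F) ∈ _)
    refine ⟨3 * (Fintype.card F - 1), ?_, ?_⟩
    · rw [Nat.cast_mul, Nat.cast_pred Fintype.card_pos, FiniteField.cast_card_eq_zero]
      simpa using h3
    · rw [pow_mul, ← Subgroup.coe_pow, ← hc, ← map_pow, ← Fintype.card_units, pow_card_eq_one, map_one])
  have N : ∀ {s : Γ}, (s : PQ Γ) * x * (s : PQ Γ)⁻¹ ∈ B → (s : PQ Γ) * y * (s : PQ Γ)⁻¹ ∈ B →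
      (s : G F) ∈ Subgroup.normalizer A := fun {s} k1 k2 => Subgroup.mem_normalizer_fintype (by
    rintro _ ⟨a, ha, rfl⟩
    exact ⟨s * a * s⁻¹, (Subgroup.closure_le (B.comap (MulAut.conj (s : PQ Γ)).toMonoidHom)).2
      (by rintro _ (rfl | rfl) <;> assumption) ha, rfl⟩)
  obtain ⟨x, rfl⟩ := QuotientGroup.mk_surjective x
  have S : ∀ {s : Γ} (hs : (s : G F) ∈ Subgroup.normalizer A),
      (s : PQ Γ) * ((s : PQ Γ) * x * (s : PQ Γ)⁻¹) * (s : PQ Γ)⁻¹ = (x : PQ Γ)⁻¹ →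
      Equiv.Perm.sign (π ⟨s, hs⟩) = -1 := fun {s} hs k => perm4 (by simpa using hn) _ fun e => inv6 k hx h1
    (congrArg (QuotientGroup.mk : Γ → PQ Γ) (a₁ := s ^ 6 * x) (a₂ := x * s ^ 6)
      (Subtype.ext (hπ _ ((map_pow π _ 6).trans e) x ⟨x, mx, rfl⟩)))
  obtain ⟨g, rfl⟩ := QuotientGroup.mk_surjective g
  obtain ⟨h, rfl⟩ := QuotientGroup.mk_surjective h
  have x2 : (x : PQ Γ) * x = (x : PQ Γ)⁻¹ := by rw [eq_inv_iff_mul_eq_one, ← hx, pow_three, mul_assoc]
  have ng := N (gx ▸ my) (gy ▸ inv_mem mx)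
  have nh := N (kx ▸ mul_mem mx my) (ky ▸ mul_mem mx (inv_mem my))
  have s1 := S ng (by rw [gx, gy])
  have s2 := S nh (by rw [kx, ← conj_mul, kx, ky, mul_assoc, ← mul_assoc y, ← hc.eq, mul_inv_cancel_right, x2])
  have c1 : ∀ a : PQ Γ, ((g * h : Γ) : PQ Γ) * a * ((g * h : Γ) : PQ Γ)⁻¹ =
      g * ((h : PQ Γ) * a * (h : PQ Γ)⁻¹) * (g : PQ Γ)⁻¹ := fun a => by rw [QuotientGroup.mk_mul]; group
  have s3 := S (s := g * h) (mul_mem ng nh) (by
    have e1 : ((g * h : Γ) : PQ Γ) * x * ((g * h : Γ) : PQ Γ)⁻¹ = y * (x : PQ Γ)⁻¹ := by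
      rw [c1, kx, ← conj_mul, gx, gy]
    have e2 : ((g * h : Γ) : PQ Γ) * y * ((g * h : Γ) : PQ Γ)⁻¹ = y * x := by
      rw [c1, ky, ← conj_mul, ← conj_inv, gx, gy, inv_inv]
    rw [e1, ← conj_mul, ← conj_inv, e1, e2, _root_.mul_inv_rev, inv_inv, ← mul_assoc, mul_assoc y, x2,
      ← hc.inv_left.eq, mul_inv_cancel_right])
  rw [show (⟨(g * h : Γ), mul_mem ng nh⟩ : Subgroup.normalizer A) = ⟨g, ng⟩ * ⟨h, nh⟩ from rfl, map_mul, map_mul,
    s1, s2] at s3
  exact absurd s3 (by decide)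

end CL.Low4
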