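/-
Project LOW4: `SL₂(7)` in dimension four is its own normaliser modulo scalars.
-/
import Cfsg.Agent.Low4.Defs3
import Cfsg.Agent.Low.DataL
import Cfsg.Agent.S0255

set_option autoImplicit false
set_option linter.unusedSectionVars false

namespace CL.Low4

open Matrix Cfsg Cfsg.Geo CL.Asch CL.SLn CL.Low Module
open scoped commutatorElement MatrixGroups

universe u

namespace N27a

/-- two classes of elements of order seven in a simple group of order 168 -/
theorem conj7 {S : Type*} [Group S] [Finite S] [IsSimpleGroup S] (h : Nat.card S = 168) {x y : S}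
    (hx : orderOf x = 7) (hy : orderOf y = 7) : IsConj x y ∨ IsConj x⁻¹ y := by
  obtain ⟨-, -, -, -, h7, hc⟩ := Cfsg.Agent.S1006.result h
  have hi : orderOf x⁻¹ = 7 := by rw [orderOf_inv, hx]
  have hd : Disjoint {g | IsConj x g} {g | IsConj x⁻¹ g} :=
    Set.disjoint_left.mpr fun g h1 h2 => (hc x hx).2 (h1.trans h2.symm)
  have ho : ∀ {a g : S}, IsConj a g → orderOf g = orderOf a := fun {a g} e => by
    obtain ⟨c, rfl⟩ := isConj_iff.mp e
    exact (MulAut.conj c).orderOf_eq a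
  have : {g | IsConj x g} ∪ {g | IsConj x⁻¹ g} = {g | orderOf g = 7} := by
    refine Set.eq_of_subset_of_ncard_le (Set.union_subset (fun g hg => (ho hg).trans hx)
      fun g hg => (ho hg).trans hi) ?_
    rw [Set.ncard_union_eq hd]
    exact le_of_eq (h7.trans (congrArg₂ (· + ·) (hc x hx).1 (hc _ hi).1).symm)
  exact (Set.ext_iff.mp this y).mpr hy

theorem conj_inv {S : Type*} [Group S] {a b : S} (h : IsConj a b) : IsConj a⁻¹ b⁻¹ := by
  obtain ⟨c, rfl⟩ := isConj_iff.mp h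
  exact isConj_iff.mpr ⟨c, by group⟩

theorem outer {S : Type*} [Group S] (β : S ≃* S) {x z g : S} (hg : β x = g * x⁻¹ * g⁻¹)
    (h : IsConj x z ∨ IsConj x⁻¹ z) : IsConj z⁻¹ (β z) := by
  have h1 : IsConj x⁻¹ (β x) := isConj_iff.mpr ⟨g, hg.symm⟩
  rcases h with h | h
  · exact (conj_inv h).symm.trans (h1.trans (β.toMonoidHom.map_isConj h))
  · have h2 := β.toMonoidHom.map_isConj h
    rw [map_inv] at h2
    exact (conj_inv h).symm.trans ((conj_inv h1).trans h2)

theorem scalar_eq_one {F : Type u} [Field F] {P : Subgroup (G F)} (hP : QS P) {w : P}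
    (hw : (w : G F) ∈ scalars (Fin 4) F) (h7 : w ^ 7 = 1) : w = 1 := by
  have h4 : w ^ 4 = 1 := Subtype.ext (pow_card_eq_one_of_scalar hw (hP.le_SL w.2))
  calc w = w ^ 7 * w := by rw [h7, one_mul]
    _ = (w ^ 4) ^ 2 := by rw [← pow_succ, ← pow_mul]
    _ = 1 := by rw [h4, one_pow]

end N27a

theorem subN27 : SubN27.{u} := by
  intro F _ _ P hP h7 K _ _ hK ⟨e0⟩ x y b hT h hh
  obtain ⟨e1⟩ := Cfsg.Agent.S0255.result (F := K) (K := ZMod 2) hK (ZMod.card 2)
  obtain ⟨π, c⟩ := exists_cov (e0.trans e1)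
  have : IsSimpleGroup (ProjectiveSpecialLinearGroup (Fin 3) (ZMod 2)) :=
    @MulEquiv.isSimpleGroup _ _ _ _ hP.simple (e0.trans e1).symm
  obtain ⟨β, hβ⟩ := c.exists_aut hh
  rcases aut_L32 β with ⟨g, hg⟩ | ⟨x0, g, hx0, hg⟩
  · exact c.mem_sup_of_inner hP hh fun l => (hβ l).symm.trans (hg _)
  exfalso
  have hz : x * y ∈ P := hT.gen ▸ mul_mem (Subgroup.subset_closure (by simp)) (Subgroup.subset_closure (by simp))
  have z7 : (⟨x * y, hz⟩ : P) ^ 7 = 1 := Subtype.ext hT.z7
  have key : tr (x * y) = tr (x * y)⁻¹ := by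
    by_cases h1 : π ⟨x * y, hz⟩ = 1
    · have h2 : x * y = 1 := congrArg Subtype.val (N27a.scalar_eq_one hP ((c.ker _).1 h1) z7)
      rw [h2, inv_one]
    have := Fact.mk (show Nat.Prime 7 by decide)
    have ho : orderOf (π ⟨x * y, hz⟩) = 7 := orderOf_eq_prime (by rw [← map_pow, z7, map_one]) h1
    obtain ⟨k, hk⟩ := isConj_iff.mp (N27a.outer β hg (N27a.conj7 card_L32 hx0 ho))
    obtain ⟨k, rfl⟩ := c.surj k
    rw [hβ, ← map_inv, ← map_inv, ← map_mul, ← map_mul] at hk
    obtain ⟨w, hw, e, hc⟩ := c.exists_mul hk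
    have w7 : w ^ 7 = 1 := by
      have h3 : nAut hh ⟨x * y, hz⟩ ^ 7 = 1 := by rw [← map_pow, z7, map_one]
      rwa [e, (show Commute _ w from hc _).mul_pow, conj_pow, inv_pow, z7, inv_one, mul_one, mul_inv_cancel,
        one_mul] at h3
    rw [N27a.scalar_eq_one hP hw w7, mul_one] at e
    rw [← tr_cj h (x * y), ← tr_cj k (x * y)⁻¹]
    exact congrArg tr (congrArg Subtype.val e)
  rw [hT.tz, hT.tz'] at key
  exact h7 (by linear_combination 4 * hT.hb - (1 + 2 * b) * key)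

end CL.Low4
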