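/-
Project LOW4: involutions of the projective group when there are no reflections.
-/
import Cfsg.Agent.Low4.Defs3

set_option autoImplicit false
set_option linter.unusedSectionVars false

namespace CL.Low4

open Matrix Cfsg Cfsg.Geo CL.Asch CL.SLn CL.Low Module
open scoped commutatorElement MatrixGroups

universe u

namespace PXx

section Gen

variable {ι : Type} [Fintype ι] [DecidableEq ι] {F : Type u} [Field F] {a b c t : GL ι F}

/-- the eigenspace for `-1` -/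
def Ng (t : GL ι F) : Submodule F (ι → F) where
  carrier := {y | t • y = -y}
  add_mem' := fun ha hb => by rw [Set.mem_ofPred_eq, smul_add, ha, hb, neg_add]
  zero_mem' := by simp
  smul_mem' := fun a _ h => by rw [Set.mem_ofPred_eq, gsmul_smul, h, smul_neg]

theorem mem_Ng {y : ι → F} : y ∈ Ng t ↔ t • y = -y := Iff.rfl

theorem Ng_inv (h : c * t = t * c) {y : ι → F} (hy : y ∈ Ng t) : c • y ∈ Ng t := by
  rw [mem_Ng, ← mul_smul, ← h, mul_smul, mem_Ng.1 hy, smul_neg]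

theorem eq_zero (h2 : (2 : F) ≠ 0) {y : ι → F} (h : y = -y) : y = 0 :=
  (smul_eq_zero.1 (show (2 : F) • y = 0 by rw [two_smul, add_eq_zero_iff_eq_neg.2 h])).resolve_left h2

theorem split (h2 : (2 : F) ≠ 0) {W : Submodule F (ι → F)} (hW : ∀ y ∈ W, c • y ∈ W) (hc : c * c = 1)
    (h : c * b = b * c) :
    finrank F ↥(W ⊓ Ng b) = finrank F ↥(W ⊓ Ng b ⊓ Ng c) + finrank F ↥(W ⊓ Ng b ⊓ Ng (b * c)) := by
  have cc : ∀ y : ι → F, c • c • y = y := fun y => by rw [← mul_smul, hc, one_smul]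
  have h1 : W ⊓ Ng b ⊓ Ng c ⊔ W ⊓ Ng b ⊓ Ng (b * c) = W ⊓ Ng b :=
    le_antisymm (sup_le inf_le_left inf_le_left) fun y hy => by
      have hy' : c • y ∈ W ⊓ Ng b := ⟨hW y hy.1, Ng_inv h hy.2⟩
      have e : y = (2 : F)⁻¹ • (y - c • y) + (2 : F)⁻¹ • (y + c • y) := by
        rw [← smul_add, sub_add_add_cancel, ← two_smul F, inv_smul_smul₀ h2]
      refine e ▸ Submodule.add_mem_sup (Submodule.smul_mem _ _ ⟨sub_mem hy hy', ?_⟩)
        (Submodule.smul_mem _ _ ⟨add_mem hy hy', ?_⟩)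
      · rw [SetLike.mem_coe, mem_Ng, smul_sub, cc, neg_sub]
      · rw [SetLike.mem_coe, mem_Ng, mul_smul, smul_add, cc, add_comm]
        exact (add_mem hy hy').2
  have h3 : W ⊓ Ng b ⊓ Ng c ⊓ (W ⊓ Ng b ⊓ Ng (b * c)) = ⊥ := eq_bot_iff.2 fun y hy => eq_zero h2 (by
    have := mem_Ng.1 hy.2.2
    rwa [mul_smul, mem_Ng.1 hy.1.2, smul_neg, mem_Ng.1 hy.1.1.2, neg_neg] at this)
  rw [← Submodule.finrank_sup_add_finrank_inf_eq, h1, h3, finrank_bot, add_zero]

theorem tri (h2 : (2 : F) ≠ 0) {W : Submodule F (ι → F)} (hb' : ∀ y ∈ W, b • y ∈ W) (hc' : ∀ y ∈ W, c • y ∈ W)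
    (hb : b * b = 1) (hc : c * c = 1) (h : c * b = b * c) :
    ∃ y z, finrank F ↥(W ⊓ Ng b) = finrank F ↥(W ⊓ Ng b ⊓ Ng c) + y ∧
      finrank F ↥(W ⊓ Ng c) = finrank F ↥(W ⊓ Ng b ⊓ Ng c) + z ∧ finrank F ↥(W ⊓ Ng (b * c)) = y + z := by
  refine ⟨_, finrank F ↥(W ⊓ Ng c ⊓ Ng (b * c)), split h2 hc' hc h, ?_, ?_⟩
  · rw [split h2 hb' hb h.symm, h, inf_right_comm]
  · rw [split h2 hb' hb (b := b * c) (by rw [mul_assoc, h]), mul_assoc, h, ← mul_assoc, hb, one_mul,
      inf_right_comm W _ (Ng b), inf_right_comm W _ (Ng c)]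

theorem exists_sc (h2 : (2 : F) ≠ 0) (ht : t * t = 1) :
    ∃ (e : Fin (finrank F (Ng t)) → ι → F) (x : Fin (finrank F (Ng t)) → Dual F (ι → F)), Bi e x ∧ Sc e x (-1) t := by
  let B := Module.finBasis F (Ng t)
  let ε : (ι → F) →ₗ[F] Ng t := ((2 : F)⁻¹ • (LinearMap.id - toLin' (t : Matrix ι ι F))).codRestrict _ fun y =>
    Submodule.smul_mem _ _ (show t • (y - t • y) = -(y - t • y) by rw [smul_sub, ← mul_smul, ht, one_smul, neg_sub])
  have hε : ∀ y, (ε y : ι → F) = (2 : F)⁻¹ • (y - t • y) := fun _ => rfl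
  have h1 : ∀ y : Ng t, ε y = y := fun y => Subtype.ext (by
    rw [hε, mem_Ng.1 y.2, sub_neg_eq_add, ← two_smul F, inv_smul_smul₀ h2])
  refine ⟨fun i => B i, fun i => B.coord i ∘ₗ ε, ⟨fun i => by simp [h1], fun i j hij => by simp [h1, hij.symm]⟩,
    fun y => ?_⟩
  have h3 : pr (fun i => (B i : ι → F)) (fun i => B.coord i ∘ₗ ε) y = ε y := by
    rw [← B.sum_repr (ε y), Submodule.coe_sum]; rfl
  rw [h3, hε, smul_smul, show (-1 - 1 : F) * 2⁻¹ = -1 by field_simp; ring]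
  simp

theorem decomp (h2 : (2 : F) ≠ 0) {W M : Submodule F (ι → F)} (hW : ∀ y ∈ W, c • y ∈ W) (hc : c * c = 1)
    (h1 : W ⊓ Ng c ≤ M) (h3 : W ⊓ Ng (-c) ≤ M) : W ≤ M := fun y hy => by
  have cc : ∀ y : ι → F, c • c • y = y := fun y => by rw [← mul_smul, hc, one_smul]
  have e : y = (2 : F)⁻¹ • (y - c • y) + (2 : F)⁻¹ • (y + c • y) := by
    rw [← smul_add, sub_add_add_cancel, ← two_smul F, inv_smul_smul₀ h2]
  rw [e]
  refine add_mem (Submodule.smul_mem _ _ (h1 ⟨sub_mem hy (hW y hy), ?_⟩))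
    (Submodule.smul_mem _ _ (h3 ⟨add_mem hy (hW y hy), ?_⟩))
  · rw [SetLike.mem_coe, mem_Ng, smul_sub, cc, neg_sub]
  · rw [SetLike.mem_coe, mem_Ng, neg_gsmul, smul_add, cc, add_comm]

theorem scalar_of {g : GL ι F} {s : F} (h : ∀ y : ι → F, g • y = s • y) : g ∈ scalars ι F :=
  mem_scalars_of_eq_smul (c := s) (matrix_ext_mulVec fun y => by
    rw [smul_mulVec, one_mulVec]; exact h y)

theorem smul_of_scalar {g : GL ι F} (h : g ∈ scalars ι F) : ∃ s : F, ∀ y : ι → F, g • y = s • y := by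
  obtain ⟨s, hs⟩ := mem_scalars_iff'.1 h
  exact ⟨s, fun y => by rw [gsmul_def, hs, smul_mulVec, one_mulVec]⟩

theorem neg_one_scalar : (-1 : GL ι F) ∈ scalars ι F :=
  scalar_of (s := -1) fun y => by rw [neg_gsmul, one_smul, neg_one_smul]

theorem neg_scalar {g : GL ι F} : -g ∈ scalars ι F ↔ g ∈ scalars ι F := by
  rw [← neg_one_mul]; exact Subgroup.mul_mem_cancel_left _ neg_one_scalar

theorem scalar_sq [Nonempty ι] {g : GL ι F} (h : g ∈ scalars ι F) (h2 : g * g = 1) : g = 1 ∨ g = -1 := by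
  obtain ⟨c, rfl⟩ := h
  change scal ι c * scal ι c = 1 at h2
  rw [← map_mul, ← map_one (scal ι)] at h2
  have h3 : (c : F) * c = 1 := congrArg Units.val (scal_injective h2)
  change scal ι c = 1 ∨ scal ι c = -1
  rcases mul_self_eq_one_iff.1 h3 with e | e
  · left; rw [show c = 1 from Units.ext e, map_one]
  · right; exact Units.ext (by rw [coe_scal, e]; simp)

/-- the vectors on which two elements agree -/
def Eqv (g h : GL ι F) : Submodule F (ι → F) where
  carrier := {y | g • y = h • y}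
  add_mem' := fun ha hb => by rw [Set.mem_ofPred_eq, smul_add, smul_add, ha, hb]
  zero_mem' := by simp
  smul_mem' := fun a _ k => by rw [Set.mem_ofPred_eq, gsmul_smul, gsmul_smul, k]

theorem line_comm {W : Submodule F (ι → F)} (hW : finrank F W = 1) {s t : GL ι F} (hs : ∀ y ∈ W, s • y ∈ W)
    (ht : ∀ y ∈ W, t • y ∈ W) : W ≤ Eqv (s * t) (t * s) := fun y hy => by
  obtain ⟨v, -, hv⟩ := finrank_eq_one_iff'.1 hW
  obtain ⟨α, hα⟩ := hv ⟨_, hs _ v.2⟩
  obtain ⟨β, hβ⟩ := hv ⟨_, ht _ v.2⟩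
  obtain ⟨γ, hγ⟩ := hv ⟨y, hy⟩
  have e1 : s • (v : ι → F) = α • (v : ι → F) := (congrArg Subtype.val hα).symm
  have e2 : t • (v : ι → F) = β • (v : ι → F) := (congrArg Subtype.val hβ).symm
  have e3 : y = γ • (v : ι → F) := (congrArg Subtype.val hγ).symm
  rw [e3]
  refine Submodule.smul_mem _ _ ?_
  change (s * t) • (v : ι → F) = (t * s) • (v : ι → F)
  rw [mul_smul, mul_smul, e1, e2, gsmul_smul, gsmul_smul, e1, e2, smul_comm]

end Gen

variable {F : Type u} [Field F] [Fintype F] {Γ : Subgroup (G F)} (h : OC Γ) (hR : ∀ v φ, ¬ Rf Γ v φ)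

include h in
theorem neg_mem {t : G F} (hm : t ∈ Γ) : -t ∈ Γ := by
  rw [← neg_one_mul]; exact mul_mem (h.sc neg_one_scalar) hm

include h hR in
theorem dim_two {t : G F} (hm : t ∈ Γ) (ht : t * t = 1) (h1 : t ∉ scalars (Fin 4) F) : finrank F (Ng t) = 2 := by
  have h2 := h.two
  obtain ⟨e, x, hb, hs⟩ := exists_sc h2 ht
  generalize finrank F (Ng t) = k at e x hb hs
  have h5 := hb.le_card
  rw [Fintype.card_fin] at h5
  have h0 : k ≠ 0 := by
    rintro rfl
    exact h1 (scalar_of (s := 1) fun y => by simpa [pr] using hs y)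
  have h4 : k ≠ 4 := by
    rintro rfl
    refine h1 (scalar_of (s := -1) fun y => ?_)
    rw [hs, hb.pr_eq_self (by simp)]
    module
  have h1' : k ≠ 1 := by
    rintro rfl
    refine hR (e 0) ((2 : F) • x 0) ⟨by simp [hb.diag], hb.e_ne 0, fun k => h2 (by
      simpa [hb.diag] using LinearMap.congr_fun k (e 0)), t, hm, fun y => ?_⟩
    rw [hs, pr, Fin.sum_univ_one, LinearMap.smul_apply, smul_eq_mul]
    module
  have h3 : k ≠ 3 := by
    rintro rfl
    obtain ⟨d, χ, a1, a2, a3⟩ := hb.exists_snoc (by decide)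
    refine hR d ((2 : F) • χ) ⟨by simp [a3], fun e => by simp [e] at a3, fun e => h2 (by
      simpa [a3] using LinearMap.congr_fun e d), -t, neg_mem h hm, fun y => ?_⟩
    have := (hb.snoc a1 a2 a3).pr_eq_self (by decide) y
    rw [pr_snoc] at this
    rw [neg_gsmul, hs, eq_sub_of_add_eq this, LinearMap.smul_apply, smul_eq_mul]
    module
  omega

include h hR in
theorem t22 : T22 Γ := fun t hm ht h1 => by
  have := exists_sc h.two ht
  rwa [dim_two h hR hm ht h1] at this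

include h in
theorem lift : Lift Γ := fun z hz => by
  obtain ⟨g, rfl⟩ := QuotientGroup.mk_surjective z
  obtain ⟨c, hc⟩ := smul_of_scalar (mk_eq_one_iff.1 (show ((g * g : Γ) : PQ Γ) = 1 from hz))
  obtain ⟨l, hl⟩ := (h.spl g g.2).exists_eval_eq_zero (by rw [charpoly_degree_eq_dim]; simp)
  rw [eval_charpoly] at hl
  obtain ⟨v, v0, hv⟩ := exists_mulVec_eq_zero_iff.2 hl
  have e1 : (g : G F) • v = l • v := by
    rw [sub_mulVec, sub_eq_zero] at hv
    rw [gsmul_def, ← hv]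
    ext i; simp [scalar_apply, mulVec_diagonal]
  have l0 : l ≠ 0 := by
    rintro rfl
    rw [zero_smul, smul_eq_iff_eq_inv_smul, smul_zero] at e1
    exact v0 e1
  have e2 : l * l = c := by
    have := hc v
    rw [Subgroup.coe_mul, mul_smul, e1, gsmul_smul, e1, smul_smul] at this
    exact smul_left_injective F v0 this
  let s : Γ := ⟨scal (Fin 4) (Units.mk0 l l0)⁻¹, h.sc (scal_mem _)⟩
  have hs : ∀ y : V F, (s : G F) • y = l⁻¹ • y := fun y => by
    rw [gsmul_def]; change (scal (Fin 4) (Units.mk0 l l0)⁻¹ : G F).val *ᵥ y = _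
    rw [coe_scal, smul_mulVec, one_mulVec]; simp
  refine ⟨s * g, ?_, Subtype.ext (gext fun y => ?_)⟩
  · rw [QuotientGroup.mk_mul, (mk_eq_one_iff (g := s)).2 (scal_mem _), one_mul]
  · have := hc y
    rw [Subgroup.coe_mul, mul_smul] at this
    rw [Subgroup.coe_mul, Subgroup.coe_mul, mul_smul, mul_smul, mul_smul, hs, hs, gsmul_smul, this, smul_smul,
      smul_smul, ← e2, Subgroup.coe_one, one_smul]
    rw [show l⁻¹ * l⁻¹ * (l * l) = 1 by field_simp, one_smul]

theorem sgn {a t : Γ} (ht : t * t = 1) (hc : Commute (a : PQ Γ) t) (hn : ¬ Commute a t) :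
    (a : G F) * t = -((t : G F) * a) := by
  have h1 : ((a * t * a⁻¹ * t : Γ) : PQ Γ) = 1 := by
    rw [QuotientGroup.mk_mul, QuotientGroup.mk_mul, QuotientGroup.mk_mul, hc.eq, QuotientGroup.mk_inv,
      mul_inv_cancel_right, ← QuotientGroup.mk_mul, ht, QuotientGroup.mk_one]
  have h2 := mk_eq_one_iff.1 h1
  have tt : (t : G F) * t = 1 := congrArg Subtype.val ht
  have h3 := Subgroup.mem_center_iff.1 (scalars_le_center h2) (t : G F)
  simp only [Subgroup.coe_mul, Subgroup.coe_inv] at h2 h3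
  have h4 : (a : G F) * t * (a : G F)⁻¹ * t * (a * t * (a : G F)⁻¹ * t) = 1 := by
    calc (a : G F) * t * (a : G F)⁻¹ * t * (a * t * (a : G F)⁻¹ * t)
        = a * t * (a : G F)⁻¹ * (t * (a * t * (a : G F)⁻¹ * t)) := by group
      _ = a * (t * t) * (a : G F)⁻¹ * (t * t) := by rw [h3]; group
      _ = 1 := by rw [tt]; group
  have h5 : (a : G F) * t = a * t * (a : G F)⁻¹ * t * (t * a) := by
    rw [mul_assoc _ (t : G F), ← mul_assoc (t : G F), tt]; group
  rcases scalar_sq h2 h4 with e | e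
  · exact absurd (Subtype.ext (by rw [Subgroup.coe_mul, Subgroup.coe_mul, h5, e, one_mul])) hn
  · rw [h5, e, neg_one_mul]

include h hR in
theorem line {a b : G F} (ma : a ∈ Γ) (mb : b ∈ Γ) (ha : a * a = 1) (hb : b * b = 1) (hc : b * a = a * b)
    (a1 : a ∉ scalars (Fin 4) F) (b1 : b ∉ scalars (Fin 4) F) (ab : a * b ∉ scalars (Fin 4) F) :
    finrank F ↥(Ng a ⊓ Ng b) = 1 := by
  have hab : a * b * (a * b) = 1 := by rw [mul_assoc, ← mul_assoc b, hc, mul_assoc, hb, mul_one, ha]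
  obtain ⟨y, z, e1, e2, e3⟩ := tri h.two (W := ⊤) (b := a) (c := b) (fun _ _ => trivial) (fun _ _ => trivial) ha hb hc
  rw [top_inf_eq] at e1 e2 e3
  rw [top_inf_eq, dim_two h hR mb hb b1] at e2
  rw [dim_two h hR ma ha a1] at e1
  rw [dim_two h hR (mul_mem ma mb) hab ab] at e3
  omega

theorem ns {a : Γ} (k : (a : PQ Γ) ≠ 1) : (a : G F) ∉ scalars (Fin 4) F := fun e => k (mk_eq_one_iff.2 e)

theorem ns2 {a b : Γ} (ha : a * a = 1) (k : (b : PQ Γ) ≠ a) : (a : G F) * b ∉ scalars (Fin 4) F := fun e => k (by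
  have h1 : ((a * b : Γ) : PQ Γ) = 1 := mk_eq_one_iff.2 e
  rw [← one_mul b, ← ha, mul_assoc, QuotientGroup.mk_mul, h1, mul_one])

include h hR in
theorem m3 {a b c : PQ Γ} (hi : Ind3 a b c) (ab : Cm Γ a b) (ac : Cm Γ a c) : ¬ Cm Γ b c := fun bc => by
  obtain ⟨aa, bb, cc, a1, b1, ba, h4⟩ := hi
  obtain ⟨a, rfl, a2⟩ := lift h a aa
  obtain ⟨b, rfl, b2⟩ := lift h b bb
  obtain ⟨c, rfl, c2⟩ := lift h c cc
  rw [cm_mk] at ab ac bc
  simp only [E4, not_or] at h4
  obtain ⟨y, z, e1, e2, e3⟩ := tri h.two (W := Ng (a : G F)) (b := (b : G F)) (c := c)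
    (fun _ => Ng_inv (congrArg Subtype.val ab.symm)) (fun _ => Ng_inv (congrArg Subtype.val ac.symm))
    (congrArg Subtype.val b2) (congrArg Subtype.val c2) (congrArg Subtype.val bc.symm)
  rw [line h hR a.2 b.2 (congrArg Subtype.val a2) (congrArg Subtype.val b2) (congrArg Subtype.val ab.symm)
    (ns a1) (ns b1) (ns2 a2 ba)] at e1
  rw [line h hR a.2 c.2 (congrArg Subtype.val a2) (congrArg Subtype.val c2) (congrArg Subtype.val ac.symm)
    (ns a1) (ns h4.1) (ns2 a2 h4.2.1)] at e2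
  have bc2 : b * c * (b * c) = 1 := by rw [mul_assoc, ← mul_assoc c, bc.symm.eq, mul_assoc, c2, mul_one, b2]
  have ab2 : a * b * (a * b) = 1 := by rw [mul_assoc, ← mul_assoc b, ab.symm.eq, mul_assoc, b2, mul_one, a2]
  rw [← Subgroup.coe_mul, line h hR a.2 (b * c).2 (congrArg Subtype.val a2) (congrArg Subtype.val bc2)
    (congrArg Subtype.val (ab.mul_right ac).symm) (ns a1) (ns2 b2 h4.2.2.1) (by
      have := ns2 ab2 (b := c) h4.2.2.2
      rwa [Subgroup.coe_mul, mul_assoc] at this)] at e3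
  omega

include h hR in
theorem ab1 {a b s t : G F} (ma : a ∈ Γ) (mb : b ∈ Γ) (ha : a * a = 1) (hb : b * b = 1) (hc : Commute a b)
    (n1 : a ∉ scalars (Fin 4) F) (n2 : b ∉ scalars (Fin 4) F) (n3 : a * b ∉ scalars (Fin 4) F) (c1 : Commute s a)
    (c2 : Commute s b) (c3 : Commute t a) (c4 : Commute t b) : Ng a ⊓ Ng b ≤ Eqv (s * t) (t * s) :=
  line_comm (line h hR ma mb ha hb hc.symm n1 n2 n3)
    (fun _ hy => ⟨Ng_inv c1 hy.1, Ng_inv c2 hy.2⟩) fun _ hy => ⟨Ng_inv c3 hy.1, Ng_inv c4 hy.2⟩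

include h hR in
theorem ab2 {a b s t : G F} (ma : a ∈ Γ) (mb : b ∈ Γ) (ha : a * a = 1) (hb : b * b = 1) (hc : Commute a b)
    (n1 : a ∉ scalars (Fin 4) F) (n2 : b ∉ scalars (Fin 4) F) (n3 : a * b ∉ scalars (Fin 4) F) (c1 : Commute s a)
    (c2 : Commute s b) (c3 : Commute t a) (c4 : Commute t b) : Ng a ≤ Eqv (s * t) (t * s) :=
  decomp h.two (c := b) (fun _ => Ng_inv hc.symm) hb (ab1 h hR ma mb ha hb hc n1 n2 n3 c1 c2 c3 c4)
    (ab1 h hR ma (neg_mem h mb) ha (by rw [neg_mul_neg, hb]) hc.neg_right n1 (mt neg_scalar.1 n2)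
      (by rw [mul_neg]; exact mt neg_scalar.1 n3) c1 c2.neg_right c3 c4.neg_right)

include h hR in
theorem ab3 {a b s t : G F} (ma : a ∈ Γ) (mb : b ∈ Γ) (ha : a * a = 1) (hb : b * b = 1) (hc : Commute a b)
    (n1 : a ∉ scalars (Fin 4) F) (n2 : b ∉ scalars (Fin 4) F) (n3 : a * b ∉ scalars (Fin 4) F) (c1 : Commute s a)
    (c2 : Commute s b) (c3 : Commute t a) (c4 : Commute t b) : s * t = t * s := by
  have := decomp h.two (W := ⊤) (c := a) (fun _ _ => trivial) ha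
    (inf_le_right.trans (ab2 h hR ma mb ha hb hc n1 n2 n3 c1 c2 c3 c4))
    (inf_le_right.trans (ab2 h hR (neg_mem h ma) mb (by rw [neg_mul_neg, ha]) hb hc.neg_left
      (mt neg_scalar.1 n1) n2 (by rw [neg_mul]; exact mt neg_scalar.1 n3) c1.neg_right c2 c3.neg_right c4))
  exact gext fun y => this (Submodule.mem_top (x := y))

include h hR in
theorem ab {a b s t : PQ Γ} (aa : a * a = 1) (bb : b * b = 1) (a1 : a ≠ 1) (b1 : b ≠ 1) (ba : b ≠ a)
    (ab : Cm Γ a b) (sa : Cm Γ s a) (sb : Cm Γ s b) (ta : Cm Γ t a) (tb : Cm Γ t b) : Cm Γ s t := by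
  obtain ⟨a, rfl, a2⟩ := lift h a aa
  obtain ⟨b, rfl, b2⟩ := lift h b bb
  obtain ⟨s, rfl⟩ := QuotientGroup.mk_surjective s
  obtain ⟨t, rfl⟩ := QuotientGroup.mk_surjective t
  exact cm_mk.2 (Subtype.ext (ab3 h hR a.2 b.2 (congrArg Subtype.val a2) (congrArg Subtype.val b2)
    (congrArg Subtype.val (cm_mk.1 ab)) (ns a1) (ns b1) (ns2 a2 ba) (congrArg Subtype.val (cm_mk.1 sa))
    (congrArg Subtype.val (cm_mk.1 sb)) (congrArg Subtype.val (cm_mk.1 ta)) (congrArg Subtype.val (cm_mk.1 tb))))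

include h hR in
theorem dih {e f : PQ Γ} (R : Subgroup (PQ Γ)) (ee : e * e = 1) (ff : f * f = 1) (ef : Commute e f)
    (an : ¬ Cm Γ e f) (hp : IsPGroup 2 R) (hc : ∀ r ∈ R, Cm Γ r e ∧ Cm Γ r f) :
    IsCyclic R ∨ ∃ n, Nonempty (R ≃* DihedralGroup n) := by
  obtain ⟨e, rfl, e2⟩ := lift h e ee
  obtain ⟨f, rfl, f2⟩ := lift h f ff
  rw [cm_mk] at an
  have hs := sgn f2 ef an
  have e2' : (e : G F) * e = 1 := congrArg Subtype.val e2
  have e1 : (e : G F) ∉ scalars (Fin 4) F := fun k =>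
    an (Subtype.ext (Subgroup.mem_center_iff.1 (scalars_le_center k) (f : G F)).symm)
  let X : Subgroup Γ := R.comap (QuotientGroup.mk' _)
  let ψ : X →* R := (QuotientGroup.mk' _).subgroupComap _
  have hψ : Function.Surjective ψ :=
    MonoidHom.subgroupComap_surjective_of_surjective _ _ (QuotientGroup.mk'_surjective _)
  have ce : ∀ x : X, (x : G F) * e = e * x := fun x => congrArg Subtype.val (cm_mk.1 (hc _ x.2).1)
  have cf : ∀ x : X, (x : G F) * f = f * x := fun x => congrArg Subtype.val (cm_mk.1 (hc _ x.2).2)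
  obtain ⟨ρ, -, hρ⟩ := exists_plane_pgl (X.map Γ.subtype) (dim_two h hR e.2 e2' e1) (by
    rintro _ ⟨x, hx, rfl⟩ w hw
    exact Ng_inv (ce ⟨x, hx⟩) hw)
  let π : X →* PGL(2, F) := ProjGenLinGroup.mk.comp (ρ.comp (Γ.subtype.subgroupMap X))
  have hπ : ∀ x : X, π x = 1 ↔ ψ x = 1 := fun x => by
    have k1 : ψ x = 1 ↔ (x : G F) ∈ scalars (Fin 4) F :=
      Subtype.ext_iff.trans (mk_eq_one_iff (g := x.1))
    rw [k1]
    refine (hρ _).trans ⟨fun ⟨a, ha⟩ => ?_, fun k => (smul_of_scalar k).imp fun a ha w _ => ha w⟩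
    let M : Submodule F (V F) :=
      { carrier := {y | (x : G F) • y = a • y}
        add_mem' := fun h1 h2 => by rw [Set.mem_ofPred_eq, smul_add, smul_add, h1, h2]
        zero_mem' := by simp
        smul_mem' := fun c _ k => by rw [Set.mem_ofPred_eq, gsmul_smul, k, smul_comm] }
    have := decomp h.two (W := ⊤) (M := M) (c := (e : G F)) (fun _ _ => trivial) e2' (fun y hy => ha y hy.2)
      fun y hy => by
        have y1 : (e : G F) • y = y := by
          have := mem_Ng.1 hy.2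
          rwa [neg_gsmul, neg_inj] at this
        have y2 : (f : G F) • y ∈ Ng (e : G F) := by
          rw [mem_Ng, ← mul_smul, hs, neg_gsmul, mul_smul, y1]
        have y3 : (x : G F) • (f : G F) • y = a • (f : G F) • y := ha _ y2
        rw [← mul_smul, cf, mul_smul, ← gsmul_smul, smul_left_cancel_iff] at y3
        exact y3
    exact scalar_of fun y => this (Submodule.mem_top (x := y))
  let φ : R →* PGL(2, F) := ψ.liftOfSurjective hψ ⟨π, fun x hx => (hπ x).2 hx⟩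
  have hφ : Function.Injective φ := (injective_iff_map_eq_one φ).2 fun r hr => by
    obtain ⟨x, rfl⟩ := hψ r
    rw [show φ (ψ x) = π x from MonoidHom.liftOfRightInverse_comp_apply _ _ _ _ x] at hr
    exact (hπ x).1 hr
  have : Fact (Nat.Prime 2) := ⟨Nat.prime_two⟩
  obtain ⟨k, hk⟩ := IsPGroup.iff_card.1 hp
  have hpr : Fact (ringChar F).Prime := ⟨CharP.char_is_prime F _⟩
  have n3 : ∀ {K : Type} [Group K], 3 ∣ Nat.card K → ¬ Nonempty (R ≃* K) := fun k3 ⟨q⟩ => by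
    rw [← Nat.card_congr q.toEquiv, hk] at k3
    exact absurd (Nat.prime_three.dvd_of_dvd_pow k3) (by norm_num)
  rcases CL.SL2.dickson_coprime (ringChar F) φ hφ (fun k => h.two (by
    rw [hk] at k
    have := (Nat.prime_dvd_prime_iff_eq hpr.out Nat.prime_two).1 (hpr.out.dvd_of_dvd_pow k)
    have h0 := CharP.cast_eq_zero F (ringChar F)
    rwa [this] at h0)) with k | k | k | k | k
  · exact .inl k
  · exact .inr k
  · exact absurd k (n3 (by rw [nat_card_alternatingGroup]; simp; decide))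
  · exact absurd k (n3 (by rw [Nat.card_perm]; simp; decide))
  · exact absurd k (n3 (by rw [nat_card_alternatingGroup]; simp; decide))

include h hR in
theorem cx : CX (Cm Γ) where
  symm := fun ⟨x, y, h1, h2, k⟩ => ⟨y, x, h2, h1, k.symm⟩
  comm := fun ⟨_, _, h1, h2, k⟩ => h1 ▸ h2 ▸ k.map (QuotientGroup.mk' _)
  refl := fun a => by
    obtain ⟨a, rfl⟩ := QuotientGroup.mk_surjective a
    exact cm_mk.2 (Commute.refl a)
  one := fun a => by
    obtain ⟨a, rfl⟩ := QuotientGroup.mk_surjective a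
    exact (cm_mk (x := 1)).2 (Commute.one_left a)
  mul := fun {a b c} h1 h2 => by
    obtain ⟨a, rfl⟩ := QuotientGroup.mk_surjective a
    obtain ⟨b, rfl⟩ := QuotientGroup.mk_surjective b
    obtain ⟨c, rfl⟩ := QuotientGroup.mk_surjective c
    exact (cm_mk (x := a * b)).2 ((cm_mk.1 h1).mul_left (cm_mk.1 h2))
  inv := fun ⟨x, y, h1, h2, k⟩ => ⟨x⁻¹, y, by rw [← h1]; rfl, h2, k.inv_left⟩
  conj := fun g ⟨x, y, h1, h2, k⟩ => by
    obtain ⟨g, rfl⟩ := QuotientGroup.mk_surjective g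
    exact ⟨g * x * g⁻¹, g * y * g⁻¹, by rw [← h1]; rfl, by rw [← h2]; rfl, k.map (MulAut.conj g)⟩
  anti := fun {z a b} zz az bz n1 n2 => by
    obtain ⟨z, rfl, z2⟩ := lift h z zz
    obtain ⟨a, rfl⟩ := QuotientGroup.mk_surjective a
    obtain ⟨b, rfl⟩ := QuotientGroup.mk_surjective b
    have e1 := sgn z2 az (mt cm_mk.2 n1)
    have e2 := sgn z2 bz (mt cm_mk.2 n2)
    refine (cm_mk (x := a * b)).2 (Subtype.ext ?_)
    simp only [Subgroup.coe_mul]
    rw [mul_assoc, e2, mul_neg, ← mul_assoc, e1, neg_mul, neg_neg, mul_assoc]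
  anti' := fun {c a b} aa bb ca cb n1 n2 => by
    obtain ⟨a, rfl, a2⟩ := lift h a aa
    obtain ⟨b, rfl, b2⟩ := lift h b bb
    obtain ⟨c, rfl⟩ := QuotientGroup.mk_surjective c
    have e1 := sgn a2 ca (mt cm_mk.2 n1)
    have e2 := sgn b2 cb (mt cm_mk.2 n2)
    refine (cm_mk (y := a * b)).2 (Subtype.ext ?_)
    simp only [Subgroup.coe_mul]
    rw [← mul_assoc, e1, neg_mul, mul_assoc, e2, mul_neg, neg_neg, mul_assoc]
  swap := fun {x} a xx => by
    obtain ⟨x, rfl, x2⟩ := lift h x xx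
    obtain ⟨a, rfl⟩ := QuotientGroup.mk_surjective a
    refine (cm_mk (y := a * (x * a * x⁻¹))).trans (Iff.trans ?_ (cm_mk (y := x * a * x⁻¹)).symm)
    rw [inv_eq_of_mul_eq_one_right x2]
    have e : x * (a * (x * a * x)) = x * a * x * a * x := by group
    refine ⟨fun k => ?_, fun k => ?_⟩
    · have := k.eq
      rw [e] at this
      exact (mul_right_cancel this).symm
    · change _ = _
      rw [e, k.eq]
  m3 := m3 h hR
  ab := ab h hR
  dih := dih h hR

end PXx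

open PXx in
theorem subPX : SubPX.{u} := fun _ _ _ _ h hR => ⟨t22 h hR, lift h, cx h hR⟩

end CL.Low4
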