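/-
Project LOW4: no large quadratic groups.
-/
import Cfsg.Agent.Low4.Defs3

set_option autoImplicit false
set_option linter.unusedSectionVars false

namespace CL.Low4

open Matrix Cfsg Cfsg.Geo CL.Asch CL.SLn CL.Low Module
open scoped commutatorElement MatrixGroups

universe u

namespace QAh

variable {F : Type u} [Field F] {Γ : Subgroup (G F)} {W W' W₁ : Submodule F (V F)} {a b g : G F}

theorem nm_mulVec (a : G F) (y : V F) : (a.val - 1) *ᵥ y = a • y - y := by
  rw [sub_mulVec, one_mulVec, gsmul_def]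

theorem nm_ne (h : a ≠ 1) : a.val - 1 ≠ 0 := fun e => h (Units.ext (sub_eq_zero.1 e))

theorem nm_mem (ha : a ∈ UW Γ W) (y : V F) : (a.val - 1) *ᵥ y ∈ W := nm_mulVec a y ▸ ha.2.2 y

theorem nm_kill (ha : a ∈ UW Γ W) {y : V F} (hy : y ∈ W) : (a.val - 1) *ᵥ y = 0 := by
  rw [nm_mulVec, ha.2.1 y hy, sub_self]

theorem nm_mul (ha : a ∈ UW Γ W) (hb : b ∈ UW Γ W) : (a.val - 1) * (b.val - 1) = 0 :=
  matrix_ext_mulVec fun y => by rw [← mulVec_mulVec, nm_kill ha (nm_mem hb y), zero_mulVec]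

theorem ker_range (hT : ¬ HasTv Γ) (hW : finrank F W = 2) (ha : a ∈ UW Γ W) (h1 : a ≠ 1) :
    (∀ y, (a.val - 1) *ᵥ y = 0 → y ∈ W) ∧ ∀ w ∈ W, ∃ y, w = (a.val - 1) *ᵥ y := by
  have r1 : LinearMap.range (toLin' (a.val - 1)) ≤ W := by
    rintro _ ⟨y, rfl⟩; exact nm_mem ha y
  have r2 : W ≤ LinearMap.ker (toLin' (a.val - 1)) := fun y hy => nm_kill ha hy
  have k1 : finrank F (LinearMap.range (toLin' (a.val - 1))) ≠ 1 := fun k =>
    hT ⟨a, ha.1, isTv_of_rank (nm_mul ha ha) k⟩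
  have k0 : finrank F (LinearMap.range (toLin' (a.val - 1))) ≠ 0 := fun k =>
    nm_ne h1 (toLin'.map_eq_zero_iff.mp (LinearMap.range_eq_bot.mp (Submodule.finrank_eq_zero.mp k)))
  have k2 := LinearMap.finrank_range_add_finrank_ker (toLin' (a.val - 1))
  rw [finrank_fintype_fun_eq_card, Fintype.card_fin] at k2
  have k3 : 2 ≤ finrank F (LinearMap.range (toLin' (a.val - 1))) := by omega
  have k4 : finrank F (LinearMap.ker (toLin' (a.val - 1))) ≤ 2 := by omega
  have e1 := Submodule.eq_of_le_of_finrank_le r1 (hW.le.trans k3)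
  have e2 := Submodule.eq_of_le_of_finrank_le r2 (k4.trans hW.ge)
  refine ⟨fun y hy => e2 ▸ hy, fun w hw => ?_⟩
  obtain ⟨y, hy⟩ : w ∈ LinearMap.range (toLin' (a.val - 1)) := e1 ▸ hw
  exact ⟨y, hy.symm⟩

theorem eq_of_mul (hT : ¬ HasTv Γ) (hW : finrank F W = 2) (hW' : finrank F W' = 2) (ha : a ∈ UW Γ W) (a1 : a ≠ 1)
    (hb : b ∈ UW Γ W') (b1 : b ≠ 1) (e : (a.val - 1) * (b.val - 1) = 0) : W' = W := by
  refine Submodule.eq_of_le_of_finrank_le (fun w hw => ?_) (by omega)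
  obtain ⟨y, rfl⟩ := (ker_range hT hW' hb b1).2 w hw
  exact (ker_range hT hW ha a1).1 _ (by rw [mulVec_mulVec, e, zero_mulVec])

theorem opp (hT : ¬ HasTv Γ) (hW : finrank F W = 2) (hW' : finrank F W' = 2) (ha : a ∈ UW Γ W) (a1 : a ≠ 1)
    (hb : b ∈ UW Γ W') (b1 : b ≠ 1) (hd : W ⊓ W' = ⊥) (e : (a.val - 1) * (b.val - 1) * (a.val - 1) = a.val - 1) :
    (a.val - 1) * (b.val - 1) + (b.val - 1) * (a.val - 1) = 1 := by
  have ka := (ker_range hT hW ha a1).1
  have kb := (ker_range hT hW' hb b1).1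
  have aa := nm_mul ha ha
  have bb := nm_mul hb hb
  have mb := nm_mem hb
  generalize a.val - 1 = E at *
  generalize b.val - 1 = N at *
  have z : ∀ y, y ∈ W → y ∈ W' → y = 0 := fun y h h' => (Submodule.eq_bot_iff _).1 hd y ⟨h, h'⟩
  have h1 : N * (E * N + N * E - 1) = 0 := matrix_ext_mulVec fun y => by
    rw [zero_mulVec]
    refine z _ (ka _ ?_) (by rw [← mulVec_mulVec]; exact mb _)
    rw [mulVec_mulVec, show E * (N * (E * N + N * E - 1)) = E * N * E * N + E * (N * N) * E - E * N by noncomm_ring,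
      e, bb]
    simp
  rw [← sub_eq_zero]
  refine matrix_ext_mulVec fun y => ?_
  rw [zero_mulVec]
  refine z _ (ka _ ?_) (kb _ (by rw [mulVec_mulVec, h1, zero_mulVec]))
  rw [mulVec_mulVec, show E * (E * N + N * E - 1) = E * E * N + E * N * E - E by noncomm_ring, e, aa]
  simp

theorem ring_lemma {R : Type*} [Ring R] {e f n : R} (ee : e * e = 0) (h1 : e * n + n * e = 1)
    (h2 : f * n + n * f = 1) (h3 : e * n * e = e) (h4 : e * f = f * e) : e * f + e * f = 0 := by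
  have k1 : e * f = e * (f * e) * n + e * (f * n) * e := by
    conv_lhs => rw [← mul_one (e * f), ← h1]
    noncomm_ring
  have k2 : f * n = 1 - n * f := eq_sub_of_add_eq h2
  have k3 : e * (1 - n * f) * e = e * e - e * n * (f * e) := by noncomm_ring
  rw [k2, k3, ← h4, ← mul_assoc e e, ee, ← mul_assoc (e * n), h3] at k1
  simp only [zero_mul, zero_add, zero_sub] at k1
  exact eq_neg_iff_add_eq_zero.1 k1

theorem Big.exists_ne (h : Big Γ W) : ∃ a ∈ UW Γ W, a ≠ 1 := by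
  by_contra k
  push Not at k
  have := h.2
  rw [(Subgroup.eq_bot_iff_forall _).2 k, Subgroup.card_bot] at this
  omega

/-- equal or complementary -/
def Sim (W W' : Submodule F (V F)) : Prop := W = W' ∨ W ⊓ W' = ⊥

theorem Sim.symm (h : Sim W W') : Sim W' W := h.imp Eq.symm fun h => by rwa [inf_comm]

theorem Sim.trans [Fintype F] (h1 : SubD1.{u}) (h2 : SubD2.{u}) (hO : OC Γ) (hW : Big Γ W) (hW₁ : Big Γ W₁)
    (hW' : Big Γ W') (s : Sim W W₁) (s' : Sim W₁ W') : Sim W W' := by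
  rcases s with rfl | s
  · exact s'
  rcases s'.symm with rfl | s'
  · exact Or.inr s
  by_contra k
  obtain ⟨k1, k2⟩ := not_or.1 k
  obtain ⟨b, hb, b1⟩ := Big.exists_ne hW₁
  obtain ⟨a, ha, a1, e⟩ := h2 F Γ hO W W₁ hW hW₁.1 s b hb b1
  obtain ⟨c, hc, c1, e'⟩ := h2 F Γ hO W' W₁ hW' hW₁.1 s' b hb b1
  have hc' : a.val * c.val = c.val * a.val := congrArg Units.val (h1 F Γ hO.two hO.noTv W W' hW hW' k2 a ha c hc)
  have := ring_lemma (nm_mul ha ha) (opp hO.noTv hW.1 hW₁.1 ha a1 hb b1 s e)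
    (opp hO.noTv hW'.1 hW₁.1 hc c1 hb b1 s' e') e (by
      simp only [mul_sub, sub_mul, mul_one, one_mul, hc']; abel)
  rw [← two_smul F, smul_eq_zero] at this
  exact k1 (eq_of_mul hO.noTv hW.1 hW'.1 ha a1 hc c1 (this.resolve_left hO.two)).symm

/-- the image of a subspace -/
def act (g : G F) (W : Submodule F (V F)) : Submodule F (V F) :=
  W.map (DistribMulAction.toLinearEquiv F (V F) g : V F →ₗ[F] V F)

theorem mem_act {y : V F} : y ∈ act g W ↔ g⁻¹ • y ∈ W := Submodule.mem_map_equiv W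

theorem act_mul (g h : G F) (W : Submodule F (V F)) : act (g * h) W = act g (act h W) := by
  ext y; simp only [mem_act, _root_.mul_inv_rev, mul_smul]

theorem act_one (W : Submodule F (V F)) : act 1 W = W := by
  ext y; simp only [mem_act, inv_one, one_smul]

theorem finrank_act (g : G F) (W : Submodule F (V F)) : finrank F (act g W) = finrank F W :=
  LinearEquiv.finrank_map_eq _ W

theorem act_eq (h : ∀ y ∈ W, g • y ∈ W) : act g W = W := by
  refine Submodule.eq_of_le_of_finrank_le (fun y hy => ?_) (finrank_act g W).ge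
  simpa using h _ (mem_act.1 hy)

theorem Sim.act (h : Sim W W') (g : G F) : Sim (act g W) (act g W') := by
  refine h.imp (congrArg _) fun h => (Submodule.eq_bot_iff _).2 fun y hy => ?_
  have := (Submodule.eq_bot_iff _).1 h (g⁻¹ • y) ⟨mem_act.1 hy.1, mem_act.1 hy.2⟩
  rw [← smul_inv_smul g y, this, smul_zero]

theorem conj_UW (hg : g ∈ Γ) (ha : a ∈ UW Γ W) : g * a * g⁻¹ ∈ UW Γ (act g W) :=
  ⟨Γ.mul_mem (Γ.mul_mem hg ha.1) (Γ.inv_mem hg), fun w hw => by
    rw [mul_smul, mul_smul, ha.2.1 _ (mem_act.1 hw), smul_inv_smul], fun y => by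
    rw [mem_act, smul_sub, mul_smul, mul_smul, inv_smul_smul]; exact ha.2.2 _⟩

theorem Big.act [Finite F] (h : Big Γ W) (hg : g ∈ Γ) : Big Γ (act g W) := by
  refine ⟨(finrank_act g W).trans h.1, h.2.trans_le ?_⟩
  refine Nat.card_le_card_of_injective (fun a : UW Γ W => (⟨g * a * g⁻¹, conj_UW hg a.2⟩ : UW Γ (QAh.act g W))) ?_
  intro x y e
  simpa using e

theorem not_scalar (hW : finrank F W = 2) (ha : a ∈ UW Γ W) (a1 : a ≠ 1) : a ∉ scalars (Fin 4) F := by
  intro hs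
  obtain ⟨c, hc⟩ := mem_scalars_iff'.1 hs
  obtain ⟨w, hw, w0⟩ := (Submodule.ne_bot_iff W).1 (fun e => by rw [e, finrank_bot] at hW; omega)
  have h1 := ha.2.1 w hw
  rw [gsmul_def, hc, smul_mulVec, one_mulVec] at h1
  have h2 : c = 1 := smul_left_injective F w0 (h1.trans (one_smul F w).symm)
  exact a1 (Units.ext (by rw [hc, h2, one_smul]; rfl))

theorem gen (hO : OC Γ) {T : Subgroup (G F)} (hZ : scalars (Fin 4) F ≤ T) {x : G F} (hx : x ∈ Γ)
    (hs : x ∉ scalars (Fin 4) F) (hT : ∀ h ∈ Γ, h * x * h⁻¹ ∈ T) : Γ ≤ T := by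
  have := hO.simple
  let M : Subgroup Γ := (T.subgroupOf Γ).normalCore
  have h1 : (M.map (QuotientGroup.mk' ((scalars (Fin 4) F).subgroupOf Γ))).Normal :=
    (Subgroup.normalCore_normal _).map _ (QuotientGroup.mk'_surjective _)
  rcases h1.eq_bot_or_eq_top with e | e
  · have : ((⟨x, hx⟩ : Γ) : PQ Γ) ∈ M.map (QuotientGroup.mk' ((scalars (Fin 4) F).subgroupOf Γ)) :=
      ⟨⟨x, hx⟩, fun h => hT h h.2, rfl⟩
    rw [e, Subgroup.mem_bot, mk_eq_one_iff] at this
    exact absurd this hs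
  · intro g hg
    have : ((⟨g, hg⟩ : Γ) : PQ Γ) ∈ M.map (QuotientGroup.mk' ((scalars (Fin 4) F).subgroupOf Γ)) :=
      e ▸ Subgroup.mem_top _
    obtain ⟨n, hn, e'⟩ := this
    have k1 : (n : G F) ∈ T := Subgroup.normalCore_le (T.subgroupOf Γ) hn
    have k2 : (n : G F)⁻¹ * g ∈ T := hZ (Subgroup.mem_subgroupOf.mp (QuotientGroup.eq.mp e'))
    simpa using T.mul_mem k1 k2

theorem sim_act [Fintype F] (h1 : SubD1.{u}) (h2 : SubD2.{u}) (hO : OC Γ) (hW : Big Γ W) (hg : g ∈ Γ) :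
    Sim (act g W) W := by
  let T : Subgroup (G F) :=
    { carrier := {g | g ∈ Γ ∧ Sim (act g W) W}
      mul_mem' := fun {g h} k k' => ⟨Γ.mul_mem k.1 k'.1, by
        rw [act_mul]
        exact Sim.trans h1 h2 hO (Big.act (Big.act hW k'.1) k.1) (Big.act hW k.1) hW (k'.2.act g) k.2⟩
      one_mem' := ⟨Γ.one_mem, Or.inl (act_one W)⟩
      inv_mem' := fun {g} k => ⟨Γ.inv_mem k.1, by
        have := k.2.act g⁻¹
        rw [← act_mul, inv_mul_cancel, act_one] at this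
        exact this.symm⟩ }
  obtain ⟨a, ha, a1⟩ := Big.exists_ne hW
  refine (gen hO (T := T) (fun z hz => ⟨hO.sc hz, Or.inl (act_eq fun y hy => ?_)⟩) ha.1 (not_scalar hW.1 ha a1)
    (fun h hh => ?_) hg).2
  · obtain ⟨c, hc⟩ := mem_scalars_iff'.1 hz
    rw [gsmul_def, hc, smul_mulVec, one_mulVec]
    exact W.smul_mem c hy
  · have hu := conj_UW hh ha
    have hB := Big.act hW hh
    generalize h * a * h⁻¹ = u at hu
    generalize act h W = W' at hu hB
    refine ⟨hu.1, ?_⟩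
    by_cases s : Sim W W'
    · have := s.act u
      rw [act_eq (W := W') fun y hy => by rwa [hu.2.1 y hy]] at this
      exact Sim.trans h1 h2 hO (Big.act hW hu.1) hB hW this s.symm
    · have hc := h1 F Γ hO.two hO.noTv W W' hW hB (not_or.1 s).2 a ha u hu
      refine Or.inl (act_eq fun y hy => (ker_range hO.noTv hW.1 ha a1).1 _ ?_)
      rw [nm_mulVec, ← mul_smul, hc.eq, mul_smul, ha.2.1 y hy, sub_self]

theorem sim_all [Fintype F] (h1 : SubD1.{u}) (h2 : SubD2.{u}) (hO : OC Γ) (hW : Big Γ W) (hW' : Big Γ W') :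
    Sim W W' := by
  by_contra s
  obtain ⟨a, ha, a1⟩ := Big.exists_ne hW
  obtain ⟨b, hb, b1⟩ := Big.exists_ne hW'
  have := gen hO (T := Subgroup.centralizer {a}) (fun z hz => Subgroup.mem_centralizer_singleton_iff.2
    (Subgroup.mem_center_iff.1 (scalars_le_center hz) a).symm) hb.1 (not_scalar hW'.1 hb b1) fun h hh => by
      have hB := Big.act hW' hh
      have s' : ¬ Sim W (act h W') := fun k => s (Sim.trans h1 h2 hO hW hB hW' k (sim_act h1 h2 hO hW' hh))
      exact Subgroup.mem_centralizer_singleton_iff.2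
        (h1 F Γ hO.two hO.noTv W _ hW hB (not_or.1 s').2 a ha _ (conj_UW hh hb)).symm
  exact not_scalar hW.1 ha a1 (mem_scalars_of_comm_span hO.span fun l hl =>
    Subgroup.mem_centralizer_singleton_iff.1 (this hl))

theorem inv_val (ha : a ∈ UW Γ W) : (a⁻¹).val = 1 - (a.val - 1) :=
  Units.inv_eq_of_mul_eq_one_right (by
    have := nm_mul ha ha
    calc a.val * (1 - (a.val - 1)) = 1 - (a.val - 1) * (a.val - 1) := by noncomm_ring
      _ = 1 := by rw [this, sub_zero])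

/-- reindexing -/
noncomputable def re (F : Type u) [Field F] : Matrix I4 I4 F ≃ₐ[F] Matrix (Fin 4) (Fin 4) F :=
  Matrix.reindexAlgEquiv F F (finSumFinEquiv (m := 2) (n := 2))

theorem re_mulVec (N : Matrix I4 I4 F) (v : V F) :
    re F N *ᵥ v = (N *ᵥ (v ∘ finSumFinEquiv (m := 2) (n := 2))) ∘ (finSumFinEquiv (m := 2) (n := 2)).symm :=
  submatrix_mulVec_equiv N v _ (finSumFinEquiv (m := 2) (n := 2)).symm

theorem qSys [Fintype F] (h1 : SubD1.{u}) (h2 : SubD2.{u}) (hO : OC Γ) (hW : Big Γ W) :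
    QSys {N | ∃ W, Big Γ W ∧ ∃ a ∈ UW Γ W, re F N = a.val - 1} := by
  have h0 : ∀ {N}, re F N = 0 ↔ N = 0 := map_eq_zero_iff _ (re F).injective
  have hne : ∀ {N} {a : G F}, re F N = a.val - 1 → N ≠ 0 → a ≠ 1 := fun {N a} e N0 a1 =>
    N0 (h0.1 (by rw [e, a1]; simp))
  refine ⟨?_, ⟨W, hW, 1, one_mem _, by simp⟩, ?_, ?_, ?_, ?_, ?_⟩
  · rintro N ⟨W, -, a, ha, e⟩
    exact h0.1 (by rw [map_mul, e, nm_mul ha ha])
  · rintro N ⟨W, hW, a, ha, e⟩
    exact ⟨W, hW, a⁻¹, inv_mem ha, by rw [map_neg, e, inv_val ha]; abel⟩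
  · rintro N ⟨W, hW, a, ha, e⟩ N' ⟨W', hW', b, hb, e'⟩ k -
    by_cases N0 : N = 0
    · exact ⟨W', hW', b, hb, by rw [N0, zero_add, e']⟩
    by_cases N0' : N' = 0
    · exact ⟨W, hW, a, ha, by rw [N0', add_zero, e]⟩
    have k' : (a.val - 1) * (b.val - 1) = 0 := by rw [← e, ← e', ← map_mul, k, map_zero]
    obtain rfl := eq_of_mul hO.noTv hW.1 hW'.1 ha (hne e N0) hb (hne e' N0') k'
    refine ⟨W', hW, a * b, mul_mem ha hb, ?_⟩
    rw [map_add, e, e', Units.val_mul, ← add_zero (_ + _), ← k']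
    noncomm_ring
  · rintro N ⟨W, hW, a, ha, e⟩ N' ⟨W', hW', b, hb, e'⟩
    refine ⟨act a W', Big.act hW' ha.1, _, conj_UW ha.1 hb, ?_⟩
    rw [map_mul, map_mul, map_add, map_sub, map_one, e, e', ← inv_val ha, add_sub_cancel, mul_sub, sub_mul, mul_one,
      Units.mul_inv, Units.val_mul, Units.val_mul]
  · rintro N ⟨W, hW, a, ha, e⟩ N0 v hv
    obtain ⟨k1, k2⟩ := ker_range hO.noTv hW.1 ha (hne e N0)
    obtain ⟨y, hy⟩ := k2 _ (k1 (v ∘ (finSumFinEquiv (m := 2) (n := 2)).symm) (by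
      rw [← e, re_mulVec, Function.comp_assoc, Equiv.symm_comp_self, Function.comp_id, hv]; rfl))
    refine ⟨y ∘ finSumFinEquiv (m := 2) (n := 2), ?_⟩
    rw [← e, re_mulVec] at hy
    exact (finSumFinEquiv (m := 2) (n := 2)).symm.surjective.injective_comp_right hy
  · rintro N ⟨W, hW, a, ha, e⟩ N' ⟨W', hW', b, hb, e'⟩ -
    rcases sim_all h1 h2 hO hW hW' with rfl | s
    · exact Or.inl ⟨h0.1 (by rw [map_mul, e, e', nm_mul ha hb]), h0.1 (by rw [map_mul, e, e', nm_mul hb ha])⟩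
    by_cases N0' : N' = 0
    · simp [N0']
    obtain ⟨c, hc, c1, k⟩ := h2 F Γ hO W W' hW hW'.1 s b hb (hne e' N0')
    obtain ⟨E, hE⟩ := (re F).surjective (c.val - 1)
    exact Or.inr ⟨E, ⟨W, hW, c, hc, hE⟩, fun E0 => nm_ne c1 (by rw [← hE, E0, map_zero]),
      h0.1 (by rw [map_mul, hE, e, nm_mul hc ha]), h0.1 (by rw [map_mul, hE, e, nm_mul ha hc]),
      (re F).injective (by rw [map_mul, map_mul, hE, e', k])⟩

end QAh

open QAh in
theorem subQA (h1 : SubD1.{u}) (h2 : SubD2.{u}) : SubQA.{u} := by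
  intro F _ _ Γ hO W hW
  obtain ⟨D, hD, hD'⟩ := (qSys h1 h2 hO hW).exists_comm hO.two
  let T : Subgroup (G F) :=
    { carrier := {l | l.val * re F D = re F D * l.val}
      mul_mem' := fun {x y} a b => by
        change (x * y).val * _ = _ * (x * y).val
        rw [Units.val_mul, mul_assoc, b, ← mul_assoc, a, mul_assoc]
      one_mem' := by simp
      inv_mem' := fun {x} a => (Commute.units_inv_left (u := x) (a := re F D) a).eq }
  obtain ⟨a, ha, a1⟩ := Big.exists_ne hW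
  have hle := gen hO (T := T) (fun z hz => by
      obtain ⟨c, hc⟩ := mem_scalars_iff'.1 hz
      change z.val * _ = _ * z.val
      simp [hc]) ha.1 (not_scalar hW.1 ha a1) fun h hh => by
    obtain ⟨N, hN⟩ := (re F).surjective ((h * a * h⁻¹).val - 1)
    have := congrArg (re F) (hD' N ⟨_, Big.act hW hh, _, conj_UW hh ha, hN⟩)
    rw [map_mul, map_mul, hN, mul_sub, sub_mul, mul_one, one_mul, sub_left_inj] at this
    exact this.symm
  obtain ⟨c, hc⟩ := scalar_of_comm_span hO.span (x := re F D) fun l hl => hle hl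
  exact hD c ((re F).injective (by rw [hc, map_smul, map_one]))

end CL.Low4
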