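/-
Project LOW4: a frame on which all the elements `diag (i, i, 1, 1)` lie in the group.
-/
import Cfsg.Agent.Low4.Defs3

set_option autoImplicit false
set_option linter.unusedSectionVars false

namespace CL.Low4

open Matrix Cfsg Cfsg.Geo CL.Asch CL.SLn CL.Low Module
open scoped commutatorElement MatrixGroups

universe u

namespace R4

variable {F : Type u} [Field F] {Γ : Subgroup (G F)} {a b c d : V F} {p q r s p' q' r' s' : F}

/-- A diagonal element of `Γ`. -/
def Dg (Γ : Subgroup (G F)) (a b c d : V F) (p q r s : F) : Prop :=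
  ∃ g ∈ Γ, g • a = p • a ∧ g • b = q • b ∧ g • c = r • c ∧ g • d = s • d

theorem Dg.mul (h : Dg Γ a b c d p q r s) (h' : Dg Γ a b c d p' q' r' s') :
    Dg Γ a b c d (p * p') (q * q') (r * r') (s * s') := by
  obtain ⟨g, hg, h1, h2, h3, h4⟩ := h
  obtain ⟨g', hg', h1', h2', h3', h4'⟩ := h'
  refine ⟨g' * g, Γ.mul_mem hg' hg, ?_, ?_, ?_, ?_⟩ <;>
    simp only [mul_smul, gsmul_smul, h1, h2, h3, h4, h1', h2', h3', h4']

theorem Dg.congr (h : Dg Γ a b c d p q r s) (h1 : p = p') (h2 : q = q') (h3 : r = r') (h4 : s = s') :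
    Dg Γ a b c d p' q' r' s' := h1 ▸ h2 ▸ h3 ▸ h4 ▸ h

theorem Dg.scal (hs : scalars (Fin 4) F ≤ Γ) (hp : p ≠ 0) : Dg Γ a b c d p p p p := by
  have e : ∀ y : V F, CL.Asch.scal (Fin 4) (Units.mk0 p hp) • y = p • y := fun y => by
    rw [gsmul_def, coe_scal, smul_mulVec, one_mulVec]; rfl
  exact ⟨_, hs (scal_mem (Units.mk0 p hp)), e a, e b, e c, e d⟩

theorem Dg.mid (h : Dg Γ a b c d p q r s) : Dg Γ a c b d p r q s :=
  let ⟨g, hg, h1, h2, h3, h4⟩ := h
  ⟨g, hg, h1, h3, h2, h4⟩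

theorem Dg.swap (h : Dg Γ a b c d p q r s) {t : G F} (ht : t ∈ Γ) {l m : F} (e : l * m = 1) (ta : t • a = l • b)
    (tb : t • b = m • a) (tc : t • c = c) (td : t • d = d) : Dg Γ a b c d q p r s := by
  obtain ⟨g, hg, h1, h2, h3, h4⟩ := h
  refine ⟨t * g * t, Γ.mul_mem (Γ.mul_mem ht hg) ht, ?_, ?_, ?_, ?_⟩ <;>
    simp only [mul_smul, gsmul_smul, h1, h2, h3, h4, ta, tb, tc, td]
  · match_scalars; linear_combination q * e
  · match_scalars; linear_combination p * e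

/-- the complementary element -/
theorem Dg.compl (h : Dg Γ a b c d p q r s) (hs : scalars (Fin 4) F ≤ Γ) {i : F} (hi : i ^ 2 = -1) :
    Dg Γ a b c d (i * p ^ 3) (i * q ^ 3) (i * r ^ 3) (i * s ^ 3) :=
  ((Dg.scal hs (p := i) (fun e => by rw [e] at hi; simp at hi)).mul ((h.mul h).mul h)).congr
    (by ring) (by ring) (by ring) (by ring)

variable {f : Fin 4 → V F} {y : Fin 4 → Dual F (V F)}

theorem Dg.act (hb : Bi f y) (h : Dg Γ (f 0) (f 1) (f 2) (f 3) p q r s) : ∃ g ∈ Γ, ∀ w : V F, g • w =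
    w + ((p - 1) * y 0 w) • f 0 + ((q - 1) * y 1 w) • f 1 + ((r - 1) * y 2 w) • f 2 + ((s - 1) * y 3 w) • f 3 := by
  obtain ⟨g, hg, h1, h2, h3, h4⟩ := h
  refine ⟨g, hg, fun w => ?_⟩
  have e := hb.pr_eq_self (Fintype.card_fin 4).symm w
  rw [pr, Fin.sum_univ_four] at e
  generalize y 0 w = c0, y 1 w = c1, y 2 w = c2, y 3 w = c3 at e
  rw [← e]
  simp only [smul_add, gsmul_smul, h1, h2, h3, h4]
  module

theorem h3_of (hb : Bi f y) {i : F} (hi : i ^ 2 = -1) (h01 : Dg Γ (f 0) (f 1) (f 2) (f 3) i i 1 1)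
    (h02 : Dg Γ (f 0) (f 1) (f 2) (f 3) i 1 i 1) (h03 : Dg Γ (f 0) (f 1) (f 2) (f 3) i 1 1 i)
    (h12 : Dg Γ (f 0) (f 1) (f 2) (f 3) 1 i i 1) (h13 : Dg Γ (f 0) (f 1) (f 2) (f 3) 1 i 1 i)
    (h23 : Dg Γ (f 0) (f 1) (f 2) (f 3) 1 1 i i) : H3 Γ f y i := by
  have k : ∀ (j k : Fin 4) {p q r s : F}, Dg Γ (f 0) (f 1) (f 2) (f 3) p q r s →
      (∀ w : V F, ((p - 1) * y 0 w) • f 0 + ((q - 1) * y 1 w) • f 1 + ((r - 1) * y 2 w) • f 2 +
        ((s - 1) * y 3 w) • f 3 = (i - 1) • (y j w • f j + y k w • f k)) →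
      (∃ h ∈ Γ, Sc ![f j, f k] ![y j, y k] i h) ∧ ∃ h ∈ Γ, Sc ![f k, f j] ![y k, y j] i h := by
    intro j k p q r s h e
    obtain ⟨g, hg, eg⟩ := h.act hb
    refine ⟨⟨g, hg, fun w => ?_⟩, g, hg, fun w => ?_⟩
    · rw [eg, pr, Fin.sum_univ_two]
      simp only [cons_val_zero, cons_val_one]
      rw [← e]; abel
    · rw [eg, pr, Fin.sum_univ_two]
      simp only [cons_val_zero, cons_val_one]
      rw [add_comm (y k w • f k), ← e]; abel
  have k01 := k 0 1 h01 fun w => by module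
  have k02 := k 0 2 h02 fun w => by module
  have k03 := k 0 3 h03 fun w => by module
  have k12 := k 1 2 h12 fun w => by module
  have k13 := k 1 3 h13 fun w => by module
  have k23 := k 2 3 h23 fun w => by module
  refine ⟨hb, hi, fun j k hjk => ?_⟩
  fin_cases j <;> fin_cases k
  exacts [absurd rfl hjk, k01.1, k02.1, k03.1, k01.2, absurd rfl hjk, k12.1, k13.1, k02.2, k12.2, absurd rfl hjk,
    k23.1, k03.2, k13.2, k23.2, absurd rfl hjk]

theorem core (hΓ : RX Γ) (hb : Bi f y) {i : F} (hi : i ^ 2 = -1) (h01 : Dg Γ (f 0) (f 1) (f 2) (f 3) i i 1 1)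
    (hs : Rf Γ (f 0 + f 2) (y 0 + y 2)) {l l' m m' : F}
    (hr : Rf Γ (l • f 0 + l' • f 1) ((2 : F) • (m • y 0 + m' • y 1))) : H3 Γ f y i := by
  have sc := hΓ.sc
  have two := hΓ.two
  have e1 : m * l + m' * l' = 1 := mul_left_cancel₀ two (by
    have := hr.two
    simp [hb.apply] at this
    linear_combination this)
  have h12 : Dg Γ (f 0) (f 1) (f 2) (f 3) 1 i i 1 := by
    obtain ⟨t, ht, et⟩ := hs.mem
    refine (h01.mid.swap ht (l := -1) (m := -1) (by ring) ?_ ?_ ?_ ?_).mid <;> rw [et] <;> simp [hb.apply]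
  have h23 : Dg Γ (f 0) (f 1) (f 2) (f 3) 1 1 i i := (h01.compl sc hi).congr
    (by linear_combination (i ^ 2 - 1) * hi) (by linear_combination (i ^ 2 - 1) * hi) (by ring) (by ring)
  have h03 : Dg Γ (f 0) (f 1) (f 2) (f 3) i 1 1 i := (h12.compl sc hi).congr
    (by ring) (by linear_combination (i ^ 2 - 1) * hi) (by linear_combination (i ^ 2 - 1) * hi) (by ring)
  suffices h02 : Dg Γ (f 0) (f 1) (f 2) (f 3) i 1 i 1 from h3_of hb hi h01 h02 h03 h12 ((h02.compl sc hi).congr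
    (by linear_combination (i ^ 2 - 1) * hi) (by ring) (by linear_combination (i ^ 2 - 1) * hi) (by ring)) h23
  obtain ⟨t, ht, et⟩ := hr.mem
  have t0 : t • f 0 = (1 - 2 * m * l) • f 0 + (-(2 * m * l')) • f 1 := by rw [et]; simp [hb.apply]; module
  have t1 : t • f 1 = (-(2 * m' * l)) • f 0 + (1 - 2 * m' * l') • f 1 := by rw [et]; simp [hb.apply]; module
  have t2 : t • f 2 = f 2 := by rw [et]; simp [hb.apply]
  have t3 : t • f 3 = f 3 := by rw [et]; simp [hb.apply]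
  have hb2 : Bi ![f 1, f 2] ![y 1, y 2] := ⟨fun j => by fin_cases j <;> simp [hb.apply], fun j k hjk => by
    fin_cases j <;> fin_cases k <;> simp_all [hb.apply]⟩
  obtain ⟨g, hg, eg⟩ := h12.act hb
  rcases hΓ.qe _ _ i g hb2 (fun w => by
      rw [eg, pr, Fin.sum_univ_two]
      simp only [cons_val_zero, cons_val_one]
      module) hg hi _ _ hr with ⟨a1, a2⟩ | ⟨a1, a2⟩ | a1
  · have b1 : l' = 0 := by simpa [hb.apply] using (pr_eq_zero_iff hb2).1 a1 0
    have b2 : m' = 0 := by simpa [hb.apply, two] using (prD_eq_zero_iff hb2).1 a2 0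
    subst b1 b2
    have hd : Dg Γ (f 0) (f 1) (f 2) (f 3) (-1) 1 1 1 :=
      ⟨t, ht, by rw [t0]; match_scalars <;> [linear_combination -2 * e1; ring], by rw [t1]; module, by
        rw [t2, one_smul], by rw [t3, one_smul]⟩
    have h13 : Dg Γ (f 0) (f 1) (f 2) (f 3) 1 i 1 i := ((h01.mul h03).mul hd).congr
      (by linear_combination -hi) (by ring) (by ring) (by ring)
    exact (h13.compl sc hi).congr
      (by ring) (by linear_combination (i ^ 2 - 1) * hi) (by ring) (by linear_combination (i ^ 2 - 1) * hi)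
  · have b1 : l = 0 := by simpa [pr, hb.apply] using (congrArg (y 0) a1).symm
    have b2 : m = 0 := by simpa [prD, hb.apply, two] using (congrArg (fun η => η (f 0)) a2).symm
    subst b1 b2
    have hd : Dg Γ (f 0) (f 1) (f 2) (f 3) 1 (-1) 1 1 :=
      ⟨t, ht, by rw [t0]; module, by rw [t1]; match_scalars <;> [ring; linear_combination -2 * e1], by
        rw [t2, one_smul], by rw [t3, one_smul]⟩
    exact ((h01.mul h12).mul hd).congr (by ring) (by linear_combination -hi) (by ring) (by ring)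
  · have b1 : 2 * m' * l' = 1 := by
      simp [pr, hb.apply] at a1
      linear_combination a1
    have b2 : 2 * m * l = 1 := by linear_combination 2 * e1 - b1
    refine h12.swap ht (l := -(2 * m * l')) (m := -(2 * m' * l)) ?_ ?_ ?_ t2 t3
    · linear_combination (2 * m * l) * b1 + b2
    · rw [t0, b2]; module
    · rw [t1, b1]; module

end R4

open R4 in
theorem subR4 : SubR4.{u} := by
  intro F _ _ Γ hΓ e x i hb hi ⟨h, hh, hs⟩ hr
  obtain ⟨v, φ, hv, n1, n2⟩ := hΓ.mov e x hb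
  have h1 := ((hΓ.qe e x i h hb hs hh hi v φ hv).resolve_left n1).resolve_left n2
  rw [apply_pr, Fin.sum_univ_two] at h1
  have h2 := hv.two
  obtain ⟨a, ha⟩ : ∃ a, a = x 0 v • e 0 + x 1 v • e 1 := ⟨_, rfl⟩
  obtain ⟨a', ha'⟩ : ∃ a', a' = φ (e 1) • e 0 - φ (e 0) • e 1 := ⟨_, rfl⟩
  obtain ⟨α, hα⟩ : ∃ α, α = φ (e 0) • x 0 + φ (e 1) • x 1 := ⟨_, rfl⟩
  obtain ⟨α', hα'⟩ : ∃ α', α' = x 1 v • x 0 - x 0 v • x 1 := ⟨_, rfl⟩
  have hb3 : Bi ![a, a', v - a] ![α, α', φ - α] := by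
    constructor
    · intro j
      fin_cases j <;> simp [ha, ha', hα, hα', hb.apply, h2]
      · linear_combination h1
      · linear_combination h1
      · linear_combination -h1
    · intro j k hjk
      fin_cases j <;> fin_cases k <;> simp [ha, ha', hα, hα', hb.apply] at hjk ⊢ <;> ring
  obtain ⟨d, χ, d1, d2, d3⟩ := hb3.exists_snoc (by simp)
  have hb4 : Bi ![a, a', v - a, d] ![α, α', φ - α, χ] := by
    convert hb3.snoc d1 d2 d3 using 1 <;> funext j <;> fin_cases j <;> rfl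
  have x0 : x 0 = x 0 v • α + φ (e 1) • α' := by
    rw [hα, hα']; match_scalars
    · linear_combination -h1
    · ring
  have x1 : x 1 = x 1 v • α - φ (e 0) • α' := by
    rw [hα, hα']; match_scalars
    · linear_combination -h1
    · ring
  have e0 : e 0 = φ (e 0) • a + x 1 v • a' := by
    rw [ha, ha']; match_scalars
    · linear_combination -h1
    · ring
  have pa : pr e x v = a := by rw [pr, Fin.sum_univ_two, ha]
  refine ⟨_, _, core hΓ hb4 hi ⟨h, hh, hs.eig ?_, hs.eig ?_, ?_, ?_⟩ ?_ (l := φ (e 0)) (l' := x 1 v)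
    (m := x 0 v) (m' := φ (e 1)) ?_⟩
  · change pr e x a = a
    rw [← pa, hb.pr_pr]
  · change pr e x a' = a'
    rw [ha', pr_sub, pr_smul, pr_smul, hb.pr_e, hb.pr_e]
  · rw [one_smul]
    refine hs.fix ?_
    change pr e x (v - a) = 0
    rw [← pa, pr_sub, hb.pr_pr, sub_self]
  · rw [one_smul]
    refine hs.fix ((pr_eq_zero_iff hb).2 fun j => ?_)
    have c0 : α d = 0 := d1 0
    have c1 : α' d = 0 := d1 1
    change x j d = 0
    fin_cases j
    · change x 0 d = 0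
      rw [x0]; simp [c0, c1]
    · change x 1 d = 0
      rw [x1]; simp [c0, c1]
  · change Rf Γ (a + (v - a)) (α + (φ - α))
    rwa [add_sub_cancel, add_sub_cancel]
  · change Rf Γ (φ (e 0) • a + x 1 v • a') ((2 : F) • (x 0 v • α + φ (e 1) • α'))
    rwa [← x0, ← e0]

end CL.Low4
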