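/-
Project LOW4: the reflections relative to a frame carrying all `diag (i, i, 1, 1)`.
-/
import Cfsg.Agent.Low4.Defs3

set_option autoImplicit false
set_option linter.unusedSectionVars false

namespace CL.Low4

open Matrix Cfsg Cfsg.Geo CL.Asch CL.SLn CL.Low Module
open scoped commutatorElement MatrixGroups

universe u

namespace R5

variable {F : Type u} [Field F] {a b : Fin 4 → F}

/-- the pair condition in coordinates -/
def PL (a b : Fin 4 → F) : Prop := ∑ j, b j * a j = 2 ∧ ∀ j k, j ≠ k → (a j = 0 ∧ a k = 0 ∧ b j = 0 ∧ b k = 0) ∨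
  (∀ l, l ≠ j → l ≠ k → a l = 0 ∧ b l = 0) ∨ b j * a j + b k * a k = 1

def M1 (a b : Fin 4 → F) (i : Fin 4) : Prop := b i * a i = 2 ∧ ∀ l, l ≠ i → a l = 0 ∧ b l = 0
def M2 (a b : Fin 4 → F) (i j : Fin 4) : Prop :=
  i ≠ j ∧ b i * a i = 1 ∧ b j * a j = 1 ∧ ∀ l, l ≠ i → l ≠ j → a l = 0 ∧ b l = 0

theorem sum4 (f : Fin 4 → F) {j k l m : Fin 4} (h : [j, k, l, m].Nodup) : ∑ n, f n = f j + f k + f l + f m := by
  rw [(by decide : ∀ j k l m : Fin 4, [j, k, l, m].Nodup → Finset.univ = {j, k, l, m}) j k l m h]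
  simp only [List.nodup_cons, List.mem_cons, List.not_mem_nil, or_false, not_or] at h
  rw [Finset.sum_insert (by simp [h]), Finset.sum_insert (by simp [h]), Finset.sum_pair h.2.2.1]; ring

theorem ex4 : ∀ j k : Fin 4, j ≠ k → ∃ l m, [j, k, l, m].Nodup ∧ l ≠ j ∧ l ≠ k ∧ m ≠ j ∧ m ≠ k ∧ l ≠ m ∧
    ∀ n, n ≠ l → n ≠ m → n = j ∨ n = k := by decide

theorem dich0 (h : PL a b) {l m : Fin 4} (hlm : l ≠ m) (hs : ∀ n, n ≠ l → n ≠ m → a n = 0 ∧ b n = 0) :
    (∃ i, M1 a b i) ∨ ∃ i j, M2 a b i j := by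
  obtain ⟨j, k, hn, h1, h2, h3, h4, -⟩ := ex4 l m hlm
  have e := h.1
  rw [sum4 _ hn, (hs j h1 h2).1, (hs k h3 h4).1] at e
  rcases h.2 l j h1.symm with h5 | h5 | h5
  · refine .inl ⟨m, by rw [h5.1] at e; linear_combination e, fun n hn => ?_⟩
    rcases eq_or_ne n l with rfl | hl
    exacts [⟨h5.1, h5.2.2.1⟩, hs n hl hn]
  · have h6 := h5 m hlm.symm h2.symm
    refine .inl ⟨l, by rw [h6.1] at e; linear_combination e, fun n hn => ?_⟩
    rcases eq_or_ne n m with rfl | hm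
    exacts [h6, hs n hn hm]
  · rw [(hs j h1 h2).1] at h5
    exact .inr ⟨l, m, hlm, by linear_combination h5, by linear_combination e - h5, hs⟩

theorem dich (h : PL a b) : ((∃ i, M1 a b i) ∨ ∃ i j, M2 a b i j) ∨ ∀ j, 2 * (b j * a j) = 1 := by
  by_cases hc : ∀ j k, j ≠ k → b j * a j + b k * a k = 1
  · refine .inr fun j => ?_
    obtain ⟨k, l, h1, h2, h3⟩ := (by decide : ∀ j : Fin 4, ∃ k l, j ≠ k ∧ j ≠ l ∧ k ≠ l) j
    linear_combination hc j k h1 + hc j l h2 - hc k l h3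
  push Not at hc
  obtain ⟨j, k, hjk, hc⟩ := hc
  rcases h.2 j k hjk with h1 | h1 | h1
  · obtain ⟨l, m, -, -, -, -, -, hlm, h2⟩ := ex4 j k hjk
    refine .inl (dich0 h hlm fun n h3 h4 => ?_)
    rcases h2 n h3 h4 with rfl | rfl
    exacts [⟨h1.1, h1.2.2.1⟩, ⟨h1.2.1, h1.2.2.2⟩]
  · exact .inl (dich0 h hjk h1)
  · exact absurd h1 hc

theorem two_ne (h : PL a b) {l m : Fin 4} (hlm : l ≠ m) (h1 : a l ≠ 0) (h2 : a m ≠ 0) :
    b l * a l = 1 ∨ 2 * (b l * a l) = 1 := by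
  rcases dich h with (⟨i, -, hi⟩ | ⟨i, j, -, h3, h4, h5⟩) | h3
  · rcases eq_or_ne l i with rfl | hl
    exacts [absurd (hi m hlm.symm).1 h2, absurd (hi l hl).1 h1]
  · left
    by_contra hc
    exact h1 (h5 l (fun e => hc (e ▸ h3)) fun e => hc (e ▸ h4)).1
  · exact .inr (h3 l)

/-- the coordinates after the reflection in `(1, 1, 1, 1)` -/
def rf (a : Fin 4 → F) : Fin 4 → F := fun j => a j - 2⁻¹ * ∑ n, a n

theorem second (h2 : (2 : F) ≠ 0) {i j : Fin 4} (h : M2 a b i j) (h' : PL (rf a) (rf b)) : a j ^ 4 = a i ^ 4 := by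
  obtain ⟨hij, h3, h4, h5⟩ := h
  obtain ⟨l, m, hn, l1, l2, m1, m2, hlm, -⟩ := ex4 i j hij
  have ea : ∑ n, a n = a i + a j := by rw [sum4 _ hn, (h5 l l1 l2).1, (h5 m m1 m2).1]; ring
  have eb : ∑ n, b n = b i + b j := by rw [sum4 _ hn, (h5 l l1 l2).2, (h5 m m1 m2).2]; ring
  have t : (2 : F) * 2⁻¹ = 1 := mul_inv_cancel₀ h2
  by_cases h0 : a i + a j = 0
  · rw [eq_neg_of_add_eq_zero_right h0]; ring
  have h6 := two_ne h' hlm (by simpa [rf, ea, (h5 l l1 l2).1, h2] using h0)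
    (by simpa [rf, ea, (h5 m m1 m2).1, h2] using h0)
  simp only [rf, ea, eb, (h5 l l1 l2).1, (h5 l l1 l2).2] at h6
  have key : ∀ c : F, (b i + b j) * (a i + a j) = c → a i ^ 2 + a j ^ 2 = (c - 2) * (a i * a j) := fun c e => by
    linear_combination a i * a j * e - (a j * (a i + a j)) * h3 - (a i * (a i + a j)) * h4
  rcases h6 with h6 | h6
  · have h7 := key 4 (by linear_combination 4 * h6 - ((b i + b j) * (a i + a j) * (2 * 2⁻¹ + 1)) * t)
    have h8 : a j - a i = 0 := pow_eq_zero_iff (two_ne_zero) |>.1 (by linear_combination h7)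
    rw [sub_eq_zero.1 h8]
  · have h7 := key 2 (by linear_combination 2 * h6 - ((b i + b j) * (a i + a j) * (2 * 2⁻¹ + 1)) * t)
    linear_combination (a j ^ 2 - a i ^ 2) * h7

theorem third (h2 : (2 : F) ≠ 0) {j k l m : Fin 4} (hn : [j, k, l, m].Nodup) (h : ∀ n, 2 * (b n * a n) = 1)
    (h' : PL (rf a) (rf b)) : a j * b k + a k * b j = a l * b m + a m * b l ∨ (a j ^ 2 = a k ^ 2 ∧ a l ^ 2 = a m ^ 2) := by
  have t : (2 : F) * 2⁻¹ = 1 := mul_inv_cancel₀ h2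
  have ea := sum4 a hn
  have eb := sum4 b hn
  simp only [List.nodup_cons, List.mem_cons, List.not_mem_nil, or_false, not_or] at hn
  rcases h'.2 j k hn.1.1 with ⟨h3, h4, -⟩ | h3 | h3
  · simp only [rf, ea] at h3 h4
    have h5 : a l = -a m := by linear_combination -h3 - h4 - (a j + a k + a l + a m) * t
    exact .inr ⟨by rw [show a j = a k by linear_combination h3 - h4], by rw [h5]; ring⟩
  · have h4 := (h3 m (Ne.symm hn.1.2.2) (Ne.symm hn.2.1.2)).1
    replace h3 := (h3 l (Ne.symm hn.1.2.1) (Ne.symm hn.2.1.1)).1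
    simp only [rf, ea] at h3 h4
    have h5 : a j = -a k := by linear_combination -h3 - h4 - (a j + a k + a l + a m) * t
    exact .inr ⟨by rw [h5]; ring, by rw [show a l = a m by linear_combination h3 - h4]⟩
  · simp only [rf, ea, eb] at h3
    refine .inl (mul_left_cancel₀ h2 ?_)
    linear_combination (-4 : F) * h3 + h j + h k + h l + h m +
      (2 * (b j + b k + b l + b m) * (a j + a k + a l + a m) * (2 * 2⁻¹ + 1) -
        2 * (b j + b k + b l + b m) * (a j + a k) - 2 * (a j + a k + a l + a m) * (b j + b k)) * t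

variable [Fintype F] {Γ : Subgroup (G F)} {e : Fin 4 → V F} {x : Fin 4 → Dual F (V F)} {i : F} {v w : V F}
  {φ ψ : Dual F (V F)}

theorem vext (hb : Bi e x) (h : ∀ j, x j v = x j w) : v = w := by
  rw [← hb.pr_eq_self rfl v, ← hb.pr_eq_self rfl w]; simp only [pr, h]

theorem dext (hb : Bi e x) (h : ∀ j, φ (e j) = ψ (e j)) : φ = ψ := LinearMap.ext fun y => by
  rw [← hb.pr_eq_self rfl y, apply_pr, apply_pr]; simp only [h]

theorem pl (hR : RX Γ) (hH : H3 Γ e x i) (h : Rf Γ v φ) : PL (fun j => x j v) fun j => φ (e j) := by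
  obtain ⟨hb, hi, hh⟩ := hH
  refine ⟨by rw [← apply_pr, hb.pr_eq_self rfl, h.two], fun j k hjk => ?_⟩
  obtain ⟨g, hg, hs⟩ := hh j k hjk
  have hb' : Bi ![e j, e k] ![x j, x k] := ⟨by simp [Fin.forall_fin_two, hb.diag], by
    simp [Fin.forall_fin_two, hb.off j k hjk, hb.off k j hjk.symm]⟩
  rcases hR.qe _ _ i g hb' hs hg hi v φ h with ⟨h1, h2⟩ | ⟨h1, h2⟩ | h1
  · rw [pr_eq_zero_iff hb'] at h1
    rw [prD_eq_zero_iff hb'] at h2
    exact .inl ⟨h1 0, h1 1, h2 0, h2 1⟩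
  · refine .inr (.inl fun l h3 h4 => ⟨?_, ?_⟩)
    · rw [← h1]; simp [pr, hb.off l j h3, hb.off l k h4]
    · rw [← h2]; simp [prD, hb.off j l h3.symm, hb.off k l h4.symm]
  · exact .inr (.inr (by simpa [apply_pr] using h1))

theorem m1 (h2 : (2 : F) ≠ 0) (hb : Bi e x) {j : Fin 4} (h : M1 (fun j => x j v) (fun j => φ (e j)) j) :
    x j v ≠ 0 ∧ v = x j v • e j ∧ φ = (2 / x j v) • x j := by
  have h0 : x j v ≠ 0 := right_ne_zero_of_mul (h.1.symm ▸ h2)
  refine ⟨h0, vext hb fun l => ?_, dext hb fun l => ?_⟩ <;> rcases eq_or_ne l j with rfl | hl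
  · simp [hb.diag]
  · simp [hb.off l j hl, (h.2 l hl).1]
  · simpa [hb.diag, eq_div_iff h0] using h.1
  · simp [hb.off j l hl.symm, (h.2 l hl).2]

theorem m2 (hb : Bi e x) {j k : Fin 4} (h : M2 (fun j => x j v) (fun j => φ (e j)) j k) :
    x j v ≠ 0 ∧ x k v ≠ 0 ∧ v = x j v • e j + x k v • e k ∧ φ = (x j v)⁻¹ • x j + (x k v)⁻¹ • x k := by
  obtain ⟨hjk, h1, h2, h3⟩ := h
  refine ⟨right_ne_zero_of_mul_eq_one h1, right_ne_zero_of_mul_eq_one h2, vext hb fun l => ?_, dext hb fun l => ?_⟩ <;>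
    rcases eq_or_ne l j with rfl | hl
  · simp [hb.diag, hb.off l k hjk]
  · rcases eq_or_ne l k with rfl | hk
    · simp [hb.diag, hb.off l j hl]
    · simp [hb.off l j hl, hb.off l k hk, (h3 l hl hk).1]
  · simpa [hb.diag, hb.off k l hjk.symm] using eq_inv_of_mul_eq_one_left h1
  · rcases eq_or_ne l k with rfl | hk
    · simpa [hb.diag, hb.off j l hjk] using eq_inv_of_mul_eq_one_left h2
    · simp [hb.off j l hl.symm, hb.off k l hk.symm, (h3 l hl hk).2]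

theorem dichR (hR : RX Γ) (hH : H3 Γ e x i) (v : V F) (φ : Dual F (V F)) (h : Rf Γ v φ) :
    Mon e x v φ ∨ ∀ j, 2 * (φ (e j) * x j v) = 1 := by
  rcases dich (pl hR hH h) with (⟨j, h1⟩ | ⟨j, k, h1⟩) | h1
  · exact .inl (.inl ⟨j, _, m1 hR.two hH.1 h1⟩)
  · exact .inl (.inr ⟨j, k, _, _, h1.1, m2 hH.1 h1⟩)
  · exact .inr h1

theorem plR (hR : RX Γ) (hH : H3 Γ e x i) (hs : Rf Γ (∑ j, e j) ((2 : F)⁻¹ • ∑ j, x j)) (h : Rf Γ v φ) :
    PL (rf fun j => x j v) (rf fun j => φ (e j)) := by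
  convert pl hR hH (Rf.refl hs h) using 2 with j j
  · simp [rf, hH.1.apply]
  · simp [rf, hH.1.apply, mul_comm]

theorem conj (hH : H3 Γ e x i) {j k : Fin 4} (hjk : j ≠ k) (h : Rf Γ v φ) : ∃ w ψ, Rf Γ w ψ ∧
    (x j w = i * x j v ∧ ψ (e j) = -i * φ (e j)) ∧ (x k w = i * x k v ∧ ψ (e k) = -i * φ (e k)) ∧
      ∀ l, l ≠ j → l ≠ k → x l w = x l v ∧ ψ (e l) = φ (e l) := by
  obtain ⟨hb, hi, hh⟩ := hH
  obtain ⟨g, hg, hs⟩ := hh j k hjk
  obtain ⟨ψ, r, e1⟩ : ∃ ψ, Rf Γ (g • v) ψ ∧ ∀ y, ψ (g • y) = φ y :=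
    ⟨_, h.conj hg, fun y => by rw [dact_apply, inv_smul_smul]⟩
  have a := hb.off j k hjk
  have a' := hb.off k j hjk.symm
  refine ⟨_, _, r, ⟨?_, ?_⟩, ⟨?_, ?_⟩, fun l h1 h2 => ⟨?_, ?_⟩⟩
  · rw [hs]; simp [pr, hb.diag, a]; ring
  · rw [← e1, hs]; simp [pr, hb.diag, a']; linear_combination ψ (e j) * hi
  · rw [hs]; simp [pr, hb.diag, a']; ring
  · rw [← e1, hs]; simp [pr, hb.diag, a]; linear_combination ψ (e k) * hi
  · rw [hs]; simp [pr, hb.off l j h1, hb.off l k h2]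
  · rw [← e1, hs]; simp [pr, hb.off j l h1.symm, hb.off k l h2.symm]

theorem quad (hR : RX Γ) (hH : H3 Γ e x i) (hs : Rf Γ (∑ j, e j) ((2 : F)⁻¹ • ∑ j, x j)) (h : Rf Γ v φ)
    (h3 : ∀ j, 2 * (φ (e j) * x j v) = 1) {j k l m : Fin 4} (hn : [j, k, l, m].Nodup) :
    (x j v ^ 2 = x k v ^ 2 ∧ x l v ^ 2 = x m v ^ 2) ∨ (x j v ^ 2 = -x k v ^ 2 ∧ x l v ^ 2 = -x m v ^ 2) := by
  have hi := hH.2.1
  have hn' := hn
  simp only [List.nodup_cons, List.mem_cons, List.not_mem_nil, or_false, not_or] at hn'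
  obtain ⟨⟨jk, jl, jm⟩, ⟨kl, km⟩, lm, -⟩ := hn'
  obtain ⟨w', ψ', r', a1, a2, a3⟩ := conj hH jl h
  obtain ⟨w, ψ, r, b1, b2, b3⟩ := conj hH jm r'
  have c1 : x j w = -x j v := by rw [b1.1, a1.1]; linear_combination x j v * hi
  have c2 : ψ (e j) = -φ (e j) := by rw [b1.2, a1.2]; linear_combination φ (e j) * hi
  have c3 := (b3 k (Ne.symm jk) km).1.trans (a3 k (Ne.symm jk) kl).1
  have c4 := (b3 k (Ne.symm jk) km).2.trans (a3 k (Ne.symm jk) kl).2
  have c5 := (b3 l (Ne.symm jl) lm).1.trans a2.1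
  have c6 := (b3 l (Ne.symm jl) lm).2.trans a2.2
  have c7 : x m w = i * x m v := by rw [b2.1, (a3 m (Ne.symm jm) (Ne.symm lm)).1]
  have c8 : ψ (e m) = -i * φ (e m) := by rw [b2.2, (a3 m (Ne.symm jm) (Ne.symm lm)).2]
  have h4 : ∀ n, 2 * (ψ (e n) * x n w) = 1 := fun n => by
    rcases (by decide : ∀ j k l m n : Fin 4, [j, k, l, m].Nodup → n = j ∨ n = k ∨ n = l ∨ n = m) j k l m n hn with
      rfl | rfl | rfl | rfl
    · rw [c1, c2]; linear_combination h3 n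
    · rw [c3, c4]; exact h3 n
    · rw [c5, c6]; linear_combination h3 n - 2 * φ (e n) * x n v * hi
    · rw [c7, c8]; linear_combination h3 n - 2 * φ (e n) * x n v * hi
  rcases third hR.two hn h3 (plR hR hH hs h) with d1 | d1
  swap
  · exact .inl d1
  rcases third hR.two hn h4 (plR hR hH hs r) with d2 | d2 <;> simp only [c1, c2, c3, c4, c5, c6, c7, c8] at d1 d2
  · have d3 : x l v * φ (e m) + x m v * φ (e l) = 0 := mul_left_cancel₀ hR.two (by
      linear_combination -d1 - d2 + (x l v * φ (e m) + x m v * φ (e l)) * hi)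
    exact .inr ⟨by linear_combination 2 * x j v * x k v * (d1 + d3) - x j v ^ 2 * h3 k - x k v ^ 2 * h3 j,
      by linear_combination 2 * x l v * x m v * d3 - x l v ^ 2 * h3 m - x m v ^ 2 * h3 l⟩
  · exact .inl ⟨by linear_combination d2.1, by linear_combination -d2.2 + (x l v ^ 2 - x m v ^ 2) * hi⟩

end R5

open R5 in
theorem subR5 : SubR5.{u} := fun F _ _ Γ hR e x i hH => by
  obtain ⟨v, φ, h, hm⟩ := hR.nfr e x hH.1
  have h3 := (dichR hR hH v φ h).resolve_left hm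
  have h0 : ∀ j, x j v ≠ 0 := fun j => right_ne_zero_of_mul (right_ne_zero_of_mul_eq_one (h3 j))
  have hb := hH.1
  have hH' : H3 Γ (fun j => x j v • e j) (fun j => (x j v)⁻¹ • x j) i :=
    ⟨⟨fun j => by simp [hb.diag, h0 j], fun j k hjk => by simp [hb.off j k hjk]⟩, hH.2.1, fun j k hjk => by
      obtain ⟨g, hg, hs⟩ := hH.2.2 j k hjk
      refine ⟨g, hg, fun y => ?_⟩
      rw [hs]
      simp [pr, smul_smul, mul_right_comm _ (x _ y), h0]⟩
  refine ⟨_, _, hH', ?_, dichR hR hH'⟩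
  convert h using 1
  · exact hb.pr_eq_self rfl v
  · refine dext hb fun j => ?_
    have := h0 j
    have := hR.two
    simp [hb.apply]
    field_simp
    linear_combination -h3 j

open R5 in
theorem subR6 : SubR6.{u} := fun F _ _ Γ hR e x i hH hs _ v φ h => by
  have hb := hH.1
  rcases dich (pl hR hH h) with (⟨j, h1⟩ | ⟨j, k, h1⟩) | h1
  · obtain ⟨h2, h3, h4⟩ := m1 hR.two hb h1
    exact .inl ⟨j, _, h2, h3, by rw [smul_smul, ← div_eq_inv_mul]; exact h4⟩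
  · obtain ⟨h2, h3, h4, h5⟩ := m2 hb h1
    have h6 : x k v ^ 4 = x j v ^ 4 := second hR.two h1 (plR hR hH hs h)
    refine .inr (.inl ⟨j, k, -(x k v / x j v), h1.1, ?_, x j v, h2, h4.trans ?_, h5.trans ?_⟩)
    · field_simp; exact h6
    · match_scalars <;> field_simp
    · match_scalars <;> field_simp
  · have h0 : ∀ j, x j v ≠ 0 := fun j => right_ne_zero_of_mul (right_ne_zero_of_mul_eq_one (h1 j))
    have q : ∀ {j k l m : Fin 4}, [j, k, l, m].Nodup → x k v ^ 4 = x j v ^ 4 := fun {j k l m} hn => by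
      rcases quad hR hH hs h h1 hn with q | q
      · linear_combination -(x j v ^ 2 + x k v ^ 2) * q.1
      · linear_combination (x k v ^ 2 - x j v ^ 2) * q.1
    have q1 := q (j := 0) (k := 1) (l := 2) (m := 3) (by decide)
    have q2 := q (j := 0) (k := 2) (l := 1) (m := 3) (by decide)
    have q3 := q (j := 0) (k := 3) (l := 1) (m := 2) (by decide)
    have h00 := h0 0
    refine .inr (.inr ⟨fun j => x j v / x 0 v, fun j => ?_, ?_, x 0 v, h00, vext hb fun j => ?_, dext hb fun j => ?_⟩)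
    · rw [div_pow, div_eq_one_iff_eq (pow_ne_zero _ h00)]
      fin_cases j
      exacts [rfl, q1, q2, q3]
    · rw [Fin.prod_univ_four]
      field_simp
      rcases quad hR hH hs h h1 (j := 0) (k := 1) (l := 2) (m := 3) (by decide) with ⟨a, b⟩ | ⟨a, b⟩
      · linear_combination x 0 v ^ 2 * q2 - x 2 v ^ 2 * x 3 v ^ 2 * a - x 0 v ^ 2 * x 2 v ^ 2 * b
      · linear_combination x 0 v ^ 2 * q2 + x 2 v ^ 2 * x 3 v ^ 2 * a - x 0 v ^ 2 * x 2 v ^ 2 * b
    · simp [hb.apply]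
      field_simp
    · have := h0 j
      have := hR.two
      simp [hb.apply]
      field_simp
      linear_combination h1 j

end CL.Low4
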