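/-
Project LOW4: the reflections of `G₃₁` normalise an extraspecial group.
-/
import Cfsg.Agent.Low4.Defs3

set_option autoImplicit false
set_option linter.unusedSectionVars false

namespace CL.Low4

open Matrix Cfsg Cfsg.Geo CL.Asch CL.SLn CL.Low Module
open scoped commutatorElement MatrixGroups

universe u

namespace R7

/-- the Klein four-group -/
def xr : Fin 4 → Fin 4 → Fin 4 := ![![0, 1, 2, 3], ![1, 0, 3, 2], ![2, 3, 0, 1], ![3, 2, 1, 0]]
/-- the even sign vectors -/
def sg : Fin 4 → Fin 4 → ℤ := ![![1, 1, 1, 1], ![1, 1, -1, -1], ![1, -1, 1, -1], ![1, -1, -1, 1]]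

variable {F : Type u} [Field F]

/-- the signed permutations -/
def pm (a s : Fin 4) (z : V F) : V F := fun j => (sg s j : F) * z (xr a j)

theorem pm_smul (a s : Fin 4) (c : F) (z : V F) : pm a s (c • z) = c • pm a s z := by
  ext j; simp [pm, mul_left_comm]

/-- `f` normalises the set of signed permutations, up to scalars -/
structure NM (f : V F → V F) : Prop where
  smul : ∀ (c : F) z, f (c • z) = c • f z
  nrm : ∀ a s, ∃ (c : F) (a' s' : Fin 4), ∀ z, f (pm a s z) = c • pm a' s' (f z)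

theorem NM.comp {f g : V F → V F} (hf : NM f) (hg : NM g) : NM fun z => f (g z) :=
  ⟨fun c z => by rw [hg.smul, hf.smul], fun a s => by
    obtain ⟨c, a, s, h⟩ := hg.nrm a s
    obtain ⟨c', a, s, h'⟩ := hf.nrm a s
    exact ⟨c * c', a, s, fun z => by rw [h, hf.smul, h', smul_smul]⟩⟩

theorem nm_swap (i j : Fin 4) : NM fun z : V F => fun k => z (Equiv.swap i j k) :=
  ⟨fun _ _ => rfl, fun a s => by
    obtain ⟨a', s', t, h⟩ := (by decide +kernel : ∀ i j a s : Fin 4, ∃ a' s' t : Fin 4, ∀ k,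
      xr a (Equiv.swap i j k) = Equiv.swap i j (xr a' k) ∧ sg s (Equiv.swap i j k) = sg 1 t * sg s' k) i j a s
    exact ⟨(sg 1 t : F), a', s', fun z => by ext k; simp [pm, h k, mul_assoc]⟩⟩

theorem nm_s0 (h2 : (2 : F) ≠ 0) : NM fun z : V F => fun k => z k - 2⁻¹ * ∑ j, z j :=
  ⟨fun c z => by ext k; simp [← Finset.mul_sum]; ring, fun a s => ⟨if s = 0 then 1 else -1, xr a s, s, fun z => by
    ext k
    fin_cases a <;> fin_cases s <;> fin_cases k <;> simp [pm, xr, sg, Fin.sum_univ_four, h2] <;> grind⟩⟩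

theorem ev {u : V F} (h0 : u 0 ≠ 0) (h1 : u 1 ^ 2 = u 0 ^ 2) (h2 : u 2 ^ 2 = u 0 ^ 2) (h3 : u 0 * u 1 = u 2 * u 3) :
    ∃ t, ∀ j, u j = u 0 * sg t j := by
  rcases sq_eq_sq_iff_eq_or_eq_neg.1 h1 with k1 | k1 <;> rcases sq_eq_sq_iff_eq_or_eq_neg.1 h2 with k2 | k2 <;>
    rw [k1, k2] at h3
  · exact ⟨0, fun j => by fin_cases j <;> simp [sg, k1, k2] <;> grind⟩
  · exact ⟨1, fun j => by fin_cases j <;> simp [sg, k1, k2] <;> grind⟩
  · exact ⟨2, fun j => by fin_cases j <;> simp [sg, k1, k2] <;> grind⟩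
  · exact ⟨3, fun j => by fin_cases j <;> simp [sg, k1, k2] <;> grind⟩

theorem nm_diag {d : V F} (h4 : ∀ j, d j ^ 4 = 1) (hp : (∏ j, d j) ^ 2 = 1) : NM fun z : V F => fun k => d k * z k :=
  ⟨fun c z => by ext k; simp [mul_left_comm], fun a s => by
    have h0 := h4 0; have h1 := h4 1; have h2 := h4 2; have h3 := h4 3
    rw [Fin.prod_univ_four] at hp
    obtain ⟨t, ht⟩ := ev (u := fun j => d j * d (xr a j) ^ 3) (by have := h4 (xr a 0); grind)
      (by fin_cases a <;> simp [xr] <;> grind) (by fin_cases a <;> simp [xr] <;> grind)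
      (by fin_cases a <;> simp [xr] <;> grind)
    refine ⟨d 0 * d (xr a 0) ^ 3, a, xr s t, fun z => ?_⟩
    ext k
    have e1 : sg (xr s t) k = sg t k * sg s k := (by decide +kernel : ∀ s t k, sg (xr s t) k = sg t k * sg s k) s t k
    have e2 := ht k
    have e3 := h4 (xr a k)
    simp only [pm, Pi.smul_apply, smul_eq_mul, e1, Int.cast_mul] at e2 ⊢
    linear_combination (sg s k * z (xr a k) * d (xr a k)) * e2 - (d k * sg s k * z (xr a k)) * e3⟩

variable {e : Fin 4 → V F} {x : Fin 4 → Dual F (V F)}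

/-- the elements acting as multiples of signed permutations -/
def SS (x : Fin 4 → Dual F (V F)) : Set (G F) := {g | ∃ (c : F) (a s : Fin 4), ∀ y, co x (g • y) = c • pm a s (co x y)}

theorem mem_norm [Finite F] {g : G F} {f : V F → V F} (hf : NM f) (hg : ∀ y, co x (g • y) = f (co x y)) :
    g ∈ Subgroup.normalizer (Subgroup.closure (SS x) : Set (G F)) := by
  refine Subgroup.mem_normalizer_fintype fun q hq => ?_
  refine (Subgroup.closure_le ((Subgroup.closure (SS x)).comap (MulAut.conj g).toMonoidHom)).2 ?_ hq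
  rintro r ⟨c, a, s, h⟩
  obtain ⟨c', a', s', h'⟩ := hf.nrm a s
  refine Subgroup.subset_closure ⟨c * c', a', s', fun y => ?_⟩
  change co x ((g * r * g⁻¹) • y) = _
  rw [mul_smul, mul_smul, hg, h, hf.smul, h', ← hg, smul_inv_smul, smul_smul]

theorem comm (hb : Bi e x) {g h : G F} (hg : g ∈ Subgroup.closure (SS x)) (hh : h ∈ Subgroup.closure (SS x)) :
    Commute (g : G F ⧸ scalars (Fin 4) F) h := by
  induction hg using Subgroup.closure_induction with
  | one => exact Commute.one_left _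
  | mul _ _ _ _ h1 h2 => exact h1.mul_left h2
  | inv _ _ h1 => exact h1.inv_left
  | mem g hg =>
    induction hh using Subgroup.closure_induction with
    | one => exact Commute.one_right _
    | mul _ _ _ _ h1 h2 => exact h1.mul_right h2
    | inv _ _ h1 => exact h1.inv_right
    | mem h hh =>
      obtain ⟨c, a, s, hg⟩ := hg
      obtain ⟨c', a', s', hh⟩ := hh
      obtain ⟨t, ht⟩ := (by decide +kernel : ∀ a s a' s' : Fin 4, ∃ t : ℤˣ, ∀ k, xr a' (xr a k) = xr a (xr a' k) ∧
        sg s k * sg s' (xr a k) = t * (sg s' k * sg s (xr a' k))) a s a' s'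
      have e1 : g * h = h * g * scal _ (Units.map (Int.castRingHom F).toMonoidHom t) := gext fun y => by
        rw [← hb.pr_eq_self rfl (_ • y), ← hb.pr_eq_self rfl ((_ * scal _ _) • y), ← up_co, ← up_co]
        congr 1
        ext k
        have := congrArg (Int.cast : ℤ → F) (ht k).2
        simp only [mul_smul, scal_gsmul, hg, hh, map_smul, pm, Pi.smul_apply, smul_eq_mul, (ht k).1]
        push_cast at this
        simp only [Units.coe_map, RingHom.toMonoidHom_eq_coe, MonoidHom.coe_coe, eq_intCast]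
        linear_combination (c * c' * co x y (xr a (xr a' k))) * this
      change ((g * h : G F) : G F ⧸ scalars (Fin 4) F) = (h * g : G F)
      rw [e1, QuotientGroup.mk_mul_of_mem _ (scal_mem _)]

theorem refl_norm [Finite F] (h2 : (2 : F) ≠ 0) (hb : Bi e x) {v : V F} {φ : Dual F (V F)} (h : G31 e x v φ) {g : G F}
    (hg : ∀ y, g • y = y - φ y • v) : g ∈ Subgroup.normalizer (Subgroup.closure (SS x) : Set (G F)) := by
  rcases h with ⟨i, h⟩ | ⟨i, j, c, hij, hc, h⟩ | ⟨d, h4, hp, h⟩
  · refine mem_norm (nm_diag (d := fun k => if k = i then -1 else 1) (fun k => by split_ifs <;> ring) (by simp))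
      fun y => ?_
    ext k
    rw [hg, h.apply]
    by_cases hk : k = i <;> simp [hb.apply, hk]
    ring
  · have c0 : c ≠ 0 := by rintro rfl; simp at hc
    refine mem_norm ((nm_swap i j).comp (nm_diag (d := fun k => (if k = i then c else 1) * if k = j then c⁻¹ else 1)
      (fun k => by split_ifs <;> simp [mul_pow, hc]) (by rw [Finset.prod_mul_distrib]; simp [c0]))) fun y => ?_
    ext k
    rw [hg, h.apply]
    by_cases hk : k = i
    · simp [hb.apply, hk, hij, hij.symm]
    · by_cases hk' : k = j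
      · simp [hb.apply, hk', hij, hij.symm]
        field_simp
        ring
      · simp [hb.apply, hk, hk', Equiv.swap_apply_of_ne_of_ne]
  · have d0 : ∀ k, d k ≠ 0 := fun k h0 => by simpa [h0] using h4 k
    refine mem_norm ((nm_diag h4 hp).comp ((nm_s0 h2).comp (nm_diag (d := fun k => (d k)⁻¹)
      (fun k => by simp [h4]) (by simp [hp])))) fun y => ?_
    ext k
    rw [hg, h.apply]
    simp [hb.apply, mul_sub, d0]
    ring

end R7

open R7 in
theorem subR7 : SubR7.{u} := by
  rintro F _ _ Γ h e x i ⟨hb, hi, h3⟩ hG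
  set Q := Subgroup.closure (SS x) with hQ
  have hn : Γ ≤ Subgroup.normalizer (Q : Set (G F)) := h.gen.trans (sup_le
    ((Subgroup.closure_le _).2 fun g ⟨v, φ, h1, h2⟩ => refl_norm h.two hb (hG v φ h1) h2)
    (scalars_le_center.trans (Subgroup.center_le_normalizer _)))
  have : (Q.subgroupOf Γ).Normal := Subgroup.normal_subgroupOf_of_le_normalizer hn
  have hs := h.simple
  obtain ⟨g, hg, hc⟩ := h3 0 1 (by decide)
  have k1 : ∀ y, co x (g • y) = fun k => ![i, i, 1, 1] k * co x y k := fun y => by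
    ext k
    rw [hc]
    fin_cases k <;> simp [pr, hb.apply] <;> ring
  have k2 : ∀ y, co x ((g * g) • y) = (-1 : F) • pm 0 1 (co x y) := fun y => by
    ext k
    rw [mul_smul, k1, k1]
    fin_cases k <;> simp [pm, xr, sg, ← mul_assoc, ← pow_two, hi]
  rcases (Subgroup.Normal.map this (QuotientGroup.mk' ((scalars (Fin 4) F).subgroupOf Γ))
    (QuotientGroup.mk'_surjective _)).eq_bot_or_eq_top with k | k
  · have k3 : ((⟨g * g, mul_mem hg hg⟩ : Γ) : PQ Γ) = 1 :=
      Subgroup.mem_bot.1 (k.le ⟨_, Subgroup.subset_closure ⟨-1, 0, 1, k2⟩, rfl⟩)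
    obtain ⟨c, k4⟩ := mk_eq_one_iff.1 k3
    have k5 : ∀ y : V F, (g * g) • y = (c : F) • y := fun y => by
      rw [← scal_gsmul]; exact congrArg (· • y) k4.symm
    have a0 := congrFun (k2 (e 0)) 0
    have a2 := congrFun (k2 (e 2)) 2
    generalize (c : F) = c' at k5
    simp [k5, pm, xr, sg, hb.apply] at a0 a2
    exact h.two (by linear_combination a0 - a2)
  · refine h.nonab ⟨⟨fun a b => ?_⟩⟩
    obtain ⟨a, ha, rfl⟩ := k.ge (Subgroup.mem_top a)
    obtain ⟨b, hb', rfl⟩ := k.ge (Subgroup.mem_top b)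
    have e1 : ((a * b : G F) : G F ⧸ scalars (Fin 4) F) = (b * a : G F) := R7.comm hb ha hb'
    have e2 := QuotientGroup.eq.1 e1
    exact QuotientGroup.eq.2 e2

end CL.Low4
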