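/-
Project LOW4: the diagonal elements of a monomial Sylow 2-subgroup containing reflections.
-/
import Cfsg.Agent.Low4.Defs3
import Mathlib.GroupTheory.Transfer

set_option autoImplicit false
set_option linter.unusedSectionVars false
set_option linter.style.haveILetI false
set_option synthInstance.maxSize 2000
set_option linter.deprecated false

namespace CL.Low4

open Matrix Cfsg Cfsg.Geo CL.Asch CL.SLn CL.Low Module
open scoped commutatorElement MatrixGroups

universe u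

namespace RB

open Equiv

variable {F : Type u} [Field F] {T : Subgroup (G F)} {e : Fin 4 → V F} {x : Fin 4 → Dual F (V F)}

/-- the first four powers -/
def Pw (τ a : Perm (Fin 4)) : Prop := a = 1 ∨ a = τ ∨ a = τ * τ ∨ a = τ * τ * τ

instance (τ a : Perm (Fin 4)) : Decidable (Pw τ a) := by unfold Pw; infer_instance

theorem pw_iff {τ a : Perm (Fin 4)} (h : τ ^ 4 = 1) : a ∈ Subgroup.zpowers τ ↔ Pw τ a := by
  refine ⟨?_, ?_⟩
  · rintro ⟨k, rfl⟩
    have h' : τ ^ (4 : ℤ) = 1 := by exact_mod_cast h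
    have : k % 4 = 0 ∨ k % 4 = 1 ∨ k % 4 = 2 ∨ k % 4 = 2 + 1 := by omega
    simp only [zpow_eq_zpow_emod k h']
    rcases this with e | e | e | e <;> rw [e] <;> simp only [Pw, _root_.zpow_add_one, _root_.zpow_two, zpow_zero, zpow_one, true_or, or_true]
  · have := Subgroup.mem_zpowers τ
    rintro (rfl | rfl | rfl | rfl)
    exacts [one_mem _, this, mul_mem this this, mul_mem (mul_mem this this) this]

theorem four {a : Perm (Fin 4)} {n : ℕ} (h : a ^ 2 ^ n = 1) : a ^ 4 = 1 := by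
  have k : ∀ a : Perm (Fin 4), a ^ 4 = 1 ∨ a ^ 3 = 1 := by decide +kernel
  refine (k a).elim id fun h3 => ?_
  have : a = 1 := (pow_eq_one_iff_of_coprime ((by norm_num : Nat.Coprime 3 2).pow_right n)).1 ⟨h3, h⟩
  rw [this, one_pow]

/-- a semiregular cyclic subgroup of index at most two -/
theorem pick {S : Subgroup (Perm (Fin 4))} (h4 : ∀ a ∈ S, a ^ 4 = 1) (tr : ∀ j, ∃ a ∈ S, a 0 = j) :
    ∃ τ ∈ S, (∀ a ∈ Subgroup.zpowers τ, (∃ j, a j = j) → a = 1) ∧
      ∃ s ∈ S, ∀ b ∈ S, b * s ∈ Subgroup.zpowers τ ∨ b ∈ Subgroup.zpowers τ := by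
  by_cases h : ∃ τ ∈ S, τ * τ ≠ 1
  · obtain ⟨τ, hτ, h2⟩ := h
    have t4 := h4 τ hτ
    have k1 : ∀ τ : Perm (Fin 4), τ * τ ≠ 1 → τ ^ 4 = 1 → ∀ a, Pw τ a → (∃ j, a j = j) → a = 1 := by decide +kernel
    have k2 : ∀ τ : Perm (Fin 4), τ * τ ≠ 1 → τ ^ 4 = 1 → ∀ s, s ^ 4 = 1 → (s * τ) ^ 4 = 1 → ¬ Pw τ s →
        ∀ b, b ^ 4 = 1 → (b * τ) ^ 4 = 1 → Pw τ (b * s) ∨ Pw τ b := by decide +kernel
    refine ⟨τ, hτ, by simpa only [pw_iff t4] using k1 τ h2 t4, ?_⟩
    simp only [pw_iff t4]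
    by_cases h' : ∃ s ∈ S, ¬ Pw τ s
    · obtain ⟨s, hs, h'⟩ := h'
      exact ⟨s, hs, fun b hb => k2 τ h2 t4 s (h4 s hs) (h4 _ (mul_mem hs hτ)) h' b (h4 b hb) (h4 _ (mul_mem hb hτ))⟩
    · push Not at h'
      exact ⟨1, one_mem _, fun b hb => .inr (h' b hb)⟩
  · push Not at h
    obtain ⟨τ, hτ, e1⟩ := tr 1
    obtain ⟨s, hs, e2⟩ := tr 2
    have t4 := h4 τ hτ
    have k : ∀ τ : Perm (Fin 4), τ 0 = 1 → τ * τ = 1 → ∀ s : Perm (Fin 4), s 0 = 2 → s * s = 1 →
        τ * s * (τ * s) = 1 → (∀ a, Pw τ a → (∃ j, a j = j) → a = 1) ∧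
        ∀ b, b * b = 1 → b * τ * (b * τ) = 1 → b * s * (b * s) = 1 → Pw τ (b * s) ∨ Pw τ b := by decide +kernel
    obtain ⟨k1, k2⟩ := k τ e1 (h τ hτ) s e2 (h s hs) (h _ (mul_mem hτ hs))
    refine ⟨τ, hτ, by simpa only [pw_iff t4] using k1, s, hs, fun b hb => ?_⟩
    simp only [pw_iff t4]
    exact k2 b (h b hb) (h _ (mul_mem hb hτ)) (h _ (mul_mem hb hs))

theorem uniq (hb : Bi e x) {a b : F} {j k : Fin 4} (h : a • e j = b • e k) (ha : a ≠ 0) : j = k ∧ a = b := by
  have h1 := congrArg (x j) h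
  rw [map_smul, map_smul, hb.diag, smul_eq_mul, mul_one, smul_eq_mul] at h1
  by_cases e : j = k
  · subst e; exact ⟨rfl, by rwa [hb.diag, mul_one] at h1⟩
  · rw [hb.off j k e, mul_zero] at h1; exact absurd h1 ha

theorem e_ne (hb : Bi e x) (i : Fin 4) : e i ≠ 0 := fun h => by simpa [h] using hb.diag i

theorem rf_det {r : G F} {v : V F} {φ : Dual F (V F)} (h : φ v = 2) (hr : ∀ y, r • y = y - φ y • v) :
    GeneralLinearGroup.det r = -1 := by
  have e : r.val = 1 + vecMulVec v fun j => -φ (Pi.single j 1) := by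
    ext i j
    have := congrFun (hr (Pi.single j 1)) i
    rw [gsmul_def, mulVec_single_one] at this
    simpa [vecMulVec_apply, mul_comm, Matrix.one_apply, Pi.single_apply, sub_eq_add_neg] using this
  have h2 : ∑ j, v j * φ (Pi.single j 1) = 2 := by
    rw [pi_eq_sum_univ' v, map_sum] at h
    simpa using h
  refine Units.ext ?_
  rw [GeneralLinearGroup.val_det_apply, e, vecMulVec_eq Unit, det_one_add_replicateCol_mul_replicateRow,
    dotProduct_comm, dotProduct]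
  simp only [mul_neg, Finset.sum_neg_distrib, h2]
  norm_num

/-- the monomial data -/
structure MD (T : Subgroup (G F)) (e : Fin 4 → V F) (x : Fin 4 → Dual F (V F)) (σ : T →* Perm (Fin 4))
    (c : T → Fin 4 → Fˣ) : Prop where
  bi : Bi e x
  act : ∀ (g : T) i, (g : G F) • e i = (c g i : F) • e (σ g i)

theorem exists_MD (h : MonT T e x) : ∃ σ c, MD T e x σ c := by
  choose f c hc using fun g : T => h.2 g g.2
  have c0 : ∀ g i, c g i ≠ 0 := fun g i e0 => e_ne h.1 i (by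
    have := hc g i
    rwa [e0, zero_smul, smul_eq_zero_iff_eq] at this)
  letI : MulAction T (Fin 4) :=
    { smul := f
      one_smul := fun i => (uniq h.1 ((hc 1 i).symm.trans ((one_smul _ _).trans (one_smul F _).symm)) (c0 _ _)).1
      mul_smul := fun a b i => (uniq (b := c b i * c a (f b i)) (k := f a (f b i)) h.1 ((hc (a * b) i).symm.trans (by
        rw [Subgroup.coe_mul, mul_smul, hc, gsmul_smul, hc, smul_smul])) (c0 _ _)).1 }
  exact ⟨MulAction.toPermHom T (Fin 4), fun g i => Units.mk0 _ (c0 g i), h.1, hc⟩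

/-- the scalars of the squared representation -/
def sc (F : Type u) [Field F] : Fˣ →* Perm (Fin 4 × Fˣ) :=
  MonoidHom.mk' (fun l => (Equiv.refl _).prodCongr (Equiv.mulLeft l)) fun a b => by
    ext p <;> simp [mul_assoc]

theorem sc_apply (l : Fˣ) (p : Fin 4 × Fˣ) : sc F l p = (p.1, l * p.2) := rfl

namespace MD

variable {σ : T →* Perm (Fin 4)} {c : T → Fin 4 → Fˣ} (h : MD T e x σ c)
include h

theorem c_mul (a b : T) (i : Fin 4) : c (a * b) i = c a (σ b i) * c b i :=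
  Units.ext (uniq (k := σ a (σ b i)) h.bi ((h.act (a * b) i).symm.trans (by
    rw [Subgroup.coe_mul, mul_smul, h.act, gsmul_smul, h.act, smul_smul, mul_comm, Units.val_mul])) (Units.ne_zero _)).2

theorem scal_eq {g : T} {l : Fˣ} (e0 : (g : G F) = scal _ l) (i : Fin 4) : σ g i = i ∧ c g i = l := by
  have := uniq h.bi ((h.act g i).symm.trans (by rw [e0, gsmul_def, coe_scal, smul_mulVec, one_mulVec])) (Units.ne_zero _)
  exact ⟨this.1, Units.ext this.2⟩

theorem c_one (i : Fin 4) : c 1 i = 1 := (h.scal_eq (l := 1) (by simp) i).2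

theorem exists_rho : ∃ ρ : T →* Perm (Fin 4 × Fˣ), ∀ g p, ρ g p = (σ g p.1, c g p.1 ^ 2 * p.2) := by
  letI : MulAction T (Fin 4 × Fˣ) :=
    { smul := fun g p => (σ g p.1, c g p.1 ^ 2 * p.2)
      one_smul := fun p => by
        show (σ 1 p.1, c 1 p.1 ^ 2 * p.2) = p
        simp [h.c_one]
      mul_smul := fun a b p => by
        show (σ (a * b) p.1, c (a * b) p.1 ^ 2 * p.2) = (σ a (σ b p.1), c a (σ b p.1) ^ 2 * (c b p.1 ^ 2 * p.2))
        simp [h.c_mul, mul_pow, mul_assoc] }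
  exact ⟨MulAction.toPermHom T _, fun _ _ => rfl⟩

theorem trans (hi : Irr T) (i j : Fin 4) : ∃ g, σ g i = j := by
  by_contra! k
  have h1 : ∀ g : T, e (σ g i) ∈ Submodule.span F (Set.range fun g : T => e (σ g i)) := fun g =>
    Submodule.subset_span ⟨g, rfl⟩
  rcases irr_iff.1 hi (Submodule.span F (Set.range fun g : T => e (σ g i))) (fun g hg w hw => by
    refine (Submodule.span_le (p := (Submodule.span F _).comap g.val.mulVecLin)).2 ?_ hw
    rintro _ ⟨a, rfl⟩
    show g • e (σ a i) ∈ Submodule.span F _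
    rw [h.act ⟨g, hg⟩, ← Perm.mul_apply, ← map_mul]
    exact Submodule.smul_mem _ _ (h1 _)) with e0 | e0
  · exact e_ne h.bi _ ((Submodule.mem_bot F).1 (e0 ▸ h1 1))
  · have : Submodule.span F (Set.range fun g : T => e (σ g i)) ≤ LinearMap.ker (x j) := Submodule.span_le.2 (by
      rintro _ ⟨a, rfl⟩
      exact h.bi.off _ _ (k a).symm)
    simpa [h.bi.diag] using this (e0 ▸ Submodule.mem_top : e j ∈ _)

variable {r : T} {v : V F} {φ : Dual F (V F)} (hr : ∀ y, (r : G F) • y = y - φ y • v)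
include hr

theorem key (j k : Fin 4) : φ (e j) * x k v = x k (e j) - c r j * x k (e (σ r j)) := by
  have := congrArg (x k) ((h.act r j).symm.trans (hr _))
  simp only [map_smul, map_sub, smul_eq_mul] at this
  linear_combination this

theorem sw (j k : Fin 4) (hj : σ r j ≠ j) (hk : σ r k ≠ k) : k = j ∨ k = σ r j := by
  by_contra! n
  have e1 := h.key hr j j
  have e2 := h.key hr k k
  have e3 := h.key hr j k
  rw [h.bi.diag, h.bi.off _ _ hj.symm] at e1
  rw [h.bi.diag, h.bi.off _ _ hk.symm] at e2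
  rw [h.bi.off _ _ n.1, h.bi.off _ _ n.2] at e3
  exact one_ne_zero (by linear_combination (φ (e k) * x j v) * e3 - (φ (e k) * x k v) * e1 - e2 : (1 : F) = 0)

theorem diag (h2 : (2 : F) ≠ 0) (hv : φ v = 2) (e1 : σ r = 1) :
    ∃ i, x i v ≠ 0 ∧ (∀ j, j ≠ i → x j v = 0) ∧ Rf T (e i) ((2 : F) • x i) := by
  have ex : ∀ y, φ y = ∑ j, φ (e j) * x j y := fun y => by rw [← apply_pr, h.bi.pr_eq_self (by simp)]
  obtain ⟨i, hi⟩ : ∃ i, φ (e i) * x i v ≠ 0 := by
    by_contra! k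
    exact h2 (by rw [← hv, ex]; simp [k])
  have k : ∀ j k, j ≠ k → φ (e j) * x k v = 0 := fun j k n => by
    rw [h.key hr, e1, Perm.one_apply, h.bi.off _ _ n.symm, mul_zero, sub_zero]
  have k1 : ∀ j, j ≠ i → x j v = 0 := fun j n => (mul_eq_zero.1 (k i j n.symm)).resolve_left (left_ne_zero_of_mul hi)
  have k2 : ∀ y, φ y = φ (e i) * x i y := fun y => by
    rw [ex, Finset.sum_eq_single i (fun j _ n => by
      rw [(mul_eq_zero.1 (k j i n)).resolve_right (right_ne_zero_of_mul hi), zero_mul]) (by simp)]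
  have k3 : v = x i v • e i := by
    conv_lhs => rw [← h.bi.pr_eq_self (by simp) v, pr, Finset.sum_eq_single i (fun j _ n => by
      rw [k1 j n, zero_smul]) (by simp)]
  refine ⟨i, right_ne_zero_of_mul hi, k1, by simp [h.bi.diag], e_ne h.bi i, fun e0 => h2 ?_, r, r.2, fun y => ?_⟩
  · simpa [h.bi.diag] using LinearMap.congr_fun e0 (e i)
  · rw [hr, k2 y, k3, smul_smul, mul_right_comm, ← k2, hv]; rfl

end MD

theorem contra [Fintype F] (hT : SubTR.{u}) {Γ : Subgroup (G F)} (hO : OC Γ) (hS : Syl Γ T) (hr : ∃ v φ, Rf Γ v φ)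
    (T0 : Subgroup T) (hi : T0.index ∣ 2) (A : Type u) [CommGroup A] (ν : T0 →* A) (s : Fˣ →* A)
    (h1 : ∀ (g : T0) (l : Fˣ), ((g : T) : G F) = scal _ l → ν g = s (l ^ 2))
    (h2 : ∀ (r : T) (v : V F) (φ : Dual F (V F)), φ v = 2 → (∀ y, (r : G F) • y = y - φ y • v) →
      ∀ (k : ℕ) g (h : g⁻¹ * r ^ k * g ∈ T0), ν ⟨_, h⟩ = 1) : s (-1) = 1 := by
  obtain ⟨m, hm⟩ := hi
  haveI : T0.FiniteIndex := ⟨fun e => by simp [e] at hm⟩
  refine hT F Γ T hO hS hr A (s.comp (GeneralLinearGroup.det.comp T.subtype) / (powMonoidHom m).comp ν.transfer) _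
    (fun g hg => ?_) fun r v φ hv e => ?_
  · obtain ⟨l, hl⟩ := hg
    have hl' : (g : G F) = scal _ l := hl.symm
    have d : GeneralLinearGroup.det (g : G F) = l ^ 4 := Units.ext (by
      rw [GeneralLinearGroup.val_det_apply, hl', coe_scal, det_smul, det_one, mul_one, Fintype.card_fin,
        Units.val_pow_eq_pow_val])
    have k : ∀ (k : ℕ) (g₀ : T), g₀⁻¹ * g ^ k * g₀ ∈ T0 → g₀⁻¹ * g ^ k * g₀ = g ^ k := fun k g₀ _ => Subtype.ext (by
      rw [Subgroup.coe_mul, Subgroup.coe_mul, mul_assoc, Subgroup.coe_pow, ← Subgroup.mem_center_iff.1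
        (pow_mem (scalars_le_center ⟨l, hl⟩) k), Subgroup.coe_inv, inv_mul_cancel_left])
    simp only [MonoidHom.div_apply, MonoidHom.comp_apply, Subgroup.coe_subtype, powMonoidHom_apply, d]
    rw [ν.transfer_eq_pow g k, h1 _ (l ^ T0.index) (by rw [map_pow, ← hl']; rfl), ← map_pow, ← pow_mul, ← pow_mul,
      mul_left_comm, ← hm]
    exact div_self' _
  · classical
    haveI := Fintype.ofFinite (Quotient (MulAction.orbitRel (Subgroup.zpowers r) (T ⧸ T0)))
    simp only [MonoidHom.div_apply, MonoidHom.comp_apply, Subgroup.coe_subtype, powMonoidHom_apply, rf_det hv e]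
    rw [ν.transfer_eq_prod_quotient_orbitRel_zpowers_quot, Finset.prod_eq_one fun _ _ => h2 r v φ hv e _ _ _, one_pow,
      div_one]

end RB

open RB Equiv

theorem subRB (hT : SubTR.{u}) : SubRB.{u} := by
  intro F _ _ Γ T hO hS hr hI e x hM
  obtain ⟨σ, c, h⟩ := exists_MD hM
  have m1 : (-1 : Fˣ) ≠ 1 := fun e0 => hO.two (by
    have := congrArg Units.val e0
    rw [Units.val_neg, Units.val_one] at this
    linear_combination -this)
  have sc1 : ∀ g : T, (g : G F) ∈ scalars (Fin 4) F → σ g = 1 := fun g ⟨l, hl⟩ =>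
    Perm.ext fun i => (h.scal_eq hl.symm i).1
  refine ⟨fun j => ?_, by_contra fun hd => ?_⟩
  · obtain ⟨r, v, φ, hv, e0, e1⟩ : ∃ (r : T) (v : V F) (φ : Dual F (V F)), φ v = 2 ∧
        (∀ y, (r : G F) • y = y - φ y • v) ∧ σ r = 1 := by
      by_contra! k
      have sg : ∀ π : Perm (Fin 4), π ≠ 1 → (∀ j k, π j ≠ j → π k ≠ k → k = j ∨ k = π j) → Perm.sign π = -1 := by
        decide +kernel
      exact m1 (hT F Γ T hO hS hr Fˣ ((Units.map (Int.castRingHom F).toMonoidHom).comp (Perm.sign.comp σ)) _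
        (fun g hg => by simp [sc1 g hg]) fun r v φ hv e0 => Units.ext (by simp [sg _ (k r v φ hv e0) (h.sw e0)]))
    obtain ⟨i, -, -, hi⟩ := h.diag e0 hO.two hv e1
    obtain ⟨g, rfl⟩ := h.trans hI i j
    obtain ⟨r, hr, er⟩ := hi.mem
    have s1 : σ ⟨r, hr⟩ = 1 := Perm.ext fun k => by
      refine (uniq h.bi ((h.act ⟨r, hr⟩ k).symm.trans ((er _).trans (?_ : _ = (1 - 2 * x i (e k)) • e k)))
        (Units.ne_zero _)).1
      by_cases n : i = k
      · subst n; simp [sub_smul]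
      · simp [h.bi.off i k n]
    obtain ⟨i', k1, -, hi'⟩ := h.diag (r := g * ⟨r, hr⟩ * g⁻¹) (v := (g : G F) • e i)
      (φ := dact (g : G F) ((2 : F) • x i)) (fun y => by
        simp only [Subgroup.coe_mul, Subgroup.coe_inv, mul_smul, er, smul_sub, gsmul_smul, smul_inv_smul, dact_apply])
      hO.two (hi.conj g.2).two (by rw [map_mul, map_mul, s1, mul_one, map_inv, mul_inv_cancel])
    by_cases n : i' = σ g i
    · exact n ▸ hi'
    · rw [h.act, map_smul, h.bi.off _ _ n, smul_zero] at k1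
      exact absurd rfl k1
  obtain ⟨ρ, hρ⟩ := h.exists_rho
  have dg : ∀ g : T, σ g = 1 → ρ g = sc F (c g 0 ^ 2) := fun g e1 => Perm.ext fun p => by
    rw [hρ, sc_apply, e1, Perm.one_apply]
    congr 2
    by_contra n
    exact hd ⟨g, g.2, fun i => c g i, fun i => by rw [h.act, e1, Perm.one_apply], p.1, 0,
      fun e0 => n (Units.ext (by simpa using e0))⟩
  obtain ⟨_, ⟨t, rfl⟩, k1, _, ⟨s, rfl⟩, k2⟩ := pick (S := σ.range) (by
    rintro _ ⟨g, rfl⟩
    obtain ⟨n, hn⟩ := hS.two g g.2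
    exact four (n := n) (by rw [← map_pow]; exact sc1 _ hn)) fun j => let ⟨g, e⟩ := h.trans hI 0 j; ⟨_, ⟨g, rfl⟩, e⟩
  have cm' : ∀ l, Commute (ρ t) (sc F l) := fun l => Perm.ext fun p => by
    simp only [Perm.mul_apply, hρ, sc_apply, mul_left_comm]
  letI := Subgroup.closureCommGroupOfComm (k := {π | ∃ (k : ℤ) (l : Fˣ), π = ρ t ^ k * sc F l}) (by
    rintro _ ⟨k, l, rfl⟩ _ ⟨k', l', rfl⟩
    exact (((Commute.refl _).zpow_zpow k k').mul_right ((cm' l').zpow_left k)).mul_left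
      (((cm' l).symm.zpow_right k').mul_right ((Commute.all l l').map _)))
  have := contra hT hO hS hr ((Subgroup.zpowers (σ t)).comap σ) (Subgroup.index_dvd_two_iff.2
      ⟨s, fun b => by simpa only [Subgroup.mem_comap, map_mul] using k2 _ ⟨b, rfl⟩⟩)
    (Subgroup.closure {π | ∃ (k : ℤ) (l : Fˣ), π = ρ t ^ k * sc F l})
    ((ρ.comp (Subgroup.subtype _)).codRestrict _ fun g => Subgroup.subset_closure (by
      obtain ⟨k, hk⟩ := g.2
      refine ⟨k, c ((t ^ k)⁻¹ * g) 0 ^ 2, ?_⟩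
      rw [← dg ((t ^ k)⁻¹ * g) (by rw [map_mul, map_inv, map_zpow, inv_mul_eq_one]; exact hk), ← map_zpow, ← map_mul,
        mul_inv_cancel_left]
      rfl))
    ((sc F).codRestrict _ fun l => Subgroup.subset_closure ⟨0, l, by simp⟩)
    (fun g l e0 => Subtype.ext ((dg _ (sc1 _ ⟨l, e0.symm⟩)).trans (by rw [(h.scal_eq e0 0).2]; rfl)))
    fun r v φ hv e0 k g hm => Subtype.ext (by
      have fx : ∀ π : Perm (Fin 4), (∀ j k, π j ≠ j → π k ≠ k → k = j ∨ k = π j) → ∃ j, π j = j := by decide +kernel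
      obtain ⟨j, hj⟩ := fx _ (h.sw e0)
      have s1 : σ (g⁻¹ * r ^ k * g) = 1 := k1 _ hm ⟨(σ g)⁻¹ j, by
        simp [Perm.pow_apply_eq_self_of_apply_eq_self hj]⟩
      have rr : r * r = 1 := Subtype.ext (rf_sq hv e0)
      have s2 : g⁻¹ * r ^ k * g * (g⁻¹ * r ^ k * g) = 1 := by
        rw [show ∀ a b : T, a⁻¹ * b * a * (a⁻¹ * b * a) = a⁻¹ * (b * b) * a from fun _ _ => by group,
          ← (Commute.refl r).mul_pow, rr]; simp
      have s3 := h.c_mul (g⁻¹ * r ^ k * g) (g⁻¹ * r ^ k * g) 0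
      rw [s2, h.c_one, s1, Perm.one_apply, ← pow_two] at s3
      exact (dg _ s1).trans (by rw [← s3, map_one]; rfl))
  exact m1 (by simpa [sc_apply] using congrArg (fun π => (π.1 (0, 1)).2) this)

end CL.Low4
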