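/-
Project LOW4, step RC: a diagonal element `diag(i, i, 1, 1)` in a monomial Sylow 2-subgroup.
-/
import Cfsg.Agent.Low4.Defs3
import Cfsg.Agent.Low4.Basic2

set_option autoImplicit false

namespace CL.Low4

open Matrix Cfsg Cfsg.Geo CL.Asch CL.SLn CL.Low Module
open scoped commutatorElement MatrixGroups

universe u

namespace RC

variable {F : Type u} [Field F] {T : Subgroup (G F)} {e : Fin 4 → V F} {x : Fin 4 → Dual F (V F)}

/-- Some element of `T` is diagonal with entries `a` in the frame `e`. -/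
def Dg (T : Subgroup (G F)) (e : Fin 4 → V F) (a : Fin 4 → F) : Prop := ∃ g ∈ T, ∀ j, g • e j = a j • e j

theorem Dg.mul {a b c : Fin 4 → F} (ha : Dg T e a) (hb : Dg T e b) (h : ∀ j, c j = a j * b j) : Dg T e c := by
  obtain ⟨g, hg, ea⟩ := ha
  obtain ⟨g', hg', eb⟩ := hb
  refine ⟨g * g', mul_mem hg hg', fun j => ?_⟩
  rw [mul_smul, eb, gsmul_smul, ea, smul_smul, h, mul_comm]

theorem dg_scal (hs : scalars (Fin 4) F ≤ T) {c : F} (hc : c ≠ 0) : Dg T e fun _ => c := by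
  refine ⟨scal (Fin 4) (Units.mk0 c hc), hs (scal_mem _), fun j => ?_⟩
  rw [gsmul_def, coe_scal, smul_mulVec, one_mulVec, Units.val_mk0]

theorem dg_one1 (hb : Bi e x) (hr : ∀ i, Rf T (e i) ((2 : F) • x i)) (j : Fin 4) {s : F} (hs : s = 1 ∨ s = -1) :
    Dg T e fun k => if k = j then s else 1 := by
  rcases hs with rfl | rfl
  · exact ⟨1, one_mem _, fun k => by simp⟩
  · obtain ⟨g, hg, eg⟩ := (hr j).mem
    refine ⟨g, hg, fun k => ?_⟩
    rw [eg, LinearMap.smul_apply, hb.apply]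
    beta_reduce
    by_cases h : k = j
    · subst h
      rw [if_pos rfl, if_pos rfl, smul_eq_mul, mul_one, two_smul, neg_one_smul]
      abel
    · rw [if_neg h, if_neg (Ne.symm h), smul_zero, zero_smul, sub_zero, one_smul]

theorem dg_sign (hb : Bi e x) (hr : ∀ i, Rf T (e i) ((2 : F) • x i)) {s : Fin 4 → F}
    (hs : ∀ j, s j = 1 ∨ s j = -1) : Dg T e s := by
  refine (((dg_one1 hb hr 0 (hs 0)).mul (dg_one1 hb hr 1 (hs 1)) (fun _ => rfl)).mul
    (dg_one1 hb hr 2 (hs 2)) (fun _ => rfl)).mul (dg_one1 hb hr 3 (hs 3)) fun j => ?_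
  fin_cases j <;> simp

theorem Dg.adj (hb : Bi e x) (hr : ∀ i, Rf T (e i) ((2 : F) • x i)) {a b : Fin 4 → F} (ha : Dg T e a)
    (h : ∀ j, b j = a j ∨ b j = -a j) : Dg T e b := by
  classical
  refine (dg_sign hb hr (s := fun j => if b j = a j then 1 else -1) fun j => ?_).mul ha fun j => ?_
  · by_cases hj : b j = a j
    · exact Or.inl (if_pos hj)
    · exact Or.inr (if_neg hj)
  · by_cases hj : b j = a j
    · rw [if_pos hj, one_mul, hj]
    · rw [if_neg hj, neg_one_mul]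
      exact (h j).resolve_left hj

theorem Dg.ne_zero (hb : Bi e x) {a : Fin 4 → F} (ha : Dg T e a) (j : Fin 4) : a j ≠ 0 := by
  obtain ⟨g, -, eg⟩ := ha
  intro h
  have h1 := eg j
  rw [h, zero_smul, smul_eq_zero_iff_eq] at h1
  exact hb.e_ne j h1

theorem pow_smul_e {d : G F} {v : V F} {c : F} (h : d • v = c • v) (n : ℕ) : (d ^ n) • v = c ^ n • v := by
  induction n with
  | zero => simp
  | succ n ih => rw [pow_succ, mul_smul, h, gsmul_smul, ih, smul_smul, pow_succ']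

/-- The entries `i` on `J` and `1` off `J`. -/
def pat (i : F) (J : Finset (Fin 4)) : Fin 4 → F := fun j => if j ∈ J then i else 1

theorem exists_move (hi : Irr T) (hm : MonT T e x) (j : Fin 4) :
    ∃ g ∈ T, ∃ (k : Fin 4) (c : F), k ≠ j ∧ g • e j = c • e k := by
  by_contra hn
  push Not at hn
  have hW := irr_iff.mp hi (Submodule.span F {e j}) fun g hg w hw => by
    obtain ⟨a, rfl⟩ := Submodule.mem_span_singleton.mp hw
    obtain ⟨k, c, ek⟩ := hm.2 g hg j
    have hk : k = j := by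
      by_contra hk
      exact hn g hg k c hk ek
    rw [← gsmul_def, gsmul_smul, ek, hk, smul_smul]
    exact Submodule.smul_mem _ _ (Submodule.mem_span_singleton_self _)
  rcases hW with hW | hW
  · exact hm.1.e_ne j (Submodule.span_singleton_eq_bot.mp hW)
  · obtain ⟨k, hk⟩ := exists_ne j
    have h1 : e k ∈ Submodule.span F {e j} := hW ▸ Submodule.mem_top
    obtain ⟨a, ha⟩ := Submodule.mem_span_singleton.mp h1
    have h2 := congrArg (x k) ha
    rw [map_smul, hm.1.off k j hk, hm.1.diag, smul_zero] at h2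
    exact zero_ne_one h2

theorem eq_of_smul (hb : Bi e x) {j k : Fin 4} {c : F} (h : e j = c • e k) : j = k := by
  by_contra hn
  have h2 := congrArg (x j) h
  rw [map_smul, hb.off j k hn, hb.diag, smul_zero] at h2
  exact one_ne_zero h2

theorem conj_pat (hi : Irr T) (hm : MonT T e x) {i : F} {j : Fin 4} (h : Dg T e (pat i {j})) :
    ∃ k, k ≠ j ∧ Dg T e (pat i {k}) := by
  obtain ⟨g, hg, k, c, hk, ek⟩ := exists_move hi hm j
  obtain ⟨h, hh, eh⟩ := h
  refine ⟨k, hk, g * h * g⁻¹, mul_mem (mul_mem hg hh) (inv_mem hg), fun l => ?_⟩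
  obtain ⟨m, c', em⟩ := hm.2 g⁻¹ (inv_mem hg) l
  have h1 : e l = c' • g • e m := by rw [← gsmul_smul, ← em, smul_inv_smul]
  have h2 : m = j ↔ l = k := by
    constructor
    · rintro rfl
      rw [ek, smul_smul] at h1
      exact eq_of_smul hm.1 h1
    · rintro rfl
      have h3 : e j = (c * c') • e m := by rw [← smul_smul, ← em, ← gsmul_smul, ← ek, inv_smul_smul]
      exact (eq_of_smul hm.1 h3).symm
  have h3 : pat i {j} m = pat i {k} l := by
    simp only [pat, Finset.mem_singleton, h2]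
  rw [mul_smul, mul_smul, em, gsmul_smul, eh, gsmul_smul, gsmul_smul, smul_comm, ← h1, h3]

theorem sc_of_pat (hb : Bi e x) {i : F} {j k : Fin 4} (hjk : j ≠ k) (h : Dg T e (pat i {j, k})) :
    ∃ h ∈ T, Sc ![e j, e k] ![x j, x k] i h := by
  obtain ⟨h, hh, eh⟩ := h
  refine ⟨h, hh, fun y => ?_⟩
  have key : ∀ l, h • e l = e l + (i - 1) • pr ![e j, e k] ![x j, x k] (e l) := by
    intro l
    rw [eh, pr, Fin.sum_univ_two]
    simp only [Matrix.cons_val_zero, Matrix.cons_val_one, hb.apply, pat, Finset.mem_insert, Finset.mem_singleton]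
    by_cases h1 : l = j
    · subst h1
      rw [if_pos (Or.inl rfl), if_pos rfl, if_neg hjk.symm]
      module
    · by_cases h2 : l = k
      · subst h2
        rw [if_pos (Or.inr rfl), if_neg hjk, if_pos rfl]
        module
      · rw [if_neg (not_or.mpr ⟨h1, h2⟩), if_neg (Ne.symm h1), if_neg (Ne.symm h2)]
        module
  have hy : ∑ l, x l y • e l = y := hb.pr_eq_self (by simp) y
  calc h • y = h • ∑ l, x l y • e l := by rw [hy]
    _ = ∑ l, x l y • (e l + (i - 1) • pr ![e j, e k] ![x j, x k] (e l)) := by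
      rw [Finset.smul_sum]
      exact Finset.sum_congr rfl fun l _ => by rw [gsmul_smul, key]
    _ = ∑ l, x l y • e l + (i - 1) • pr ![e j, e k] ![x j, x k] (∑ l, x l y • e l) := by
      rw [pr_sum, Finset.smul_sum, ← Finset.sum_add_distrib]
      exact Finset.sum_congr rfl fun l _ => by rw [pr_smul, smul_add, smul_comm]
    _ = _ := by rw [hy]

theorem of_single (hi : Irr T) (hm : MonT T e x) {i : F} {j : Fin 4} (h : Dg T e (pat i {j})) :
    ∃ j k : Fin 4, j ≠ k ∧ ∃ h ∈ T, Sc ![e j, e k] ![x j, x k] i h := by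
  obtain ⟨k, hk, h'⟩ := conj_pat hi hm h
  refine ⟨j, k, hk.symm, sc_of_pat hm.1 hk.symm (h.mul h' fun l => ?_)⟩
  simp only [pat, Finset.mem_insert, Finset.mem_singleton]
  by_cases h1 : l = j
  · subst h1
    rw [if_pos (Or.inl rfl), if_pos rfl, if_neg hk.symm, mul_one]
  · by_cases h2 : l = k
    · rw [if_pos (Or.inr h2), if_neg h1, if_pos h2, one_mul]
    · rw [if_neg (not_or.mpr ⟨h1, h2⟩), if_neg h1, if_neg h2, one_mul]

theorem pat_compl (hs : scalars (Fin 4) F ≤ T) (hb : Bi e x) (hr : ∀ i, Rf T (e i) ((2 : F) • x i)) {i : F}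
    (h2 : i ^ 2 = -1) {J : Finset (Fin 4)} (h : Dg T e (pat i J)) : Dg T e (pat i Jᶜ) := by
  have h0 : i ≠ 0 := by
    rintro rfl
    simp at h2
  refine ((dg_scal hs h0).mul h fun _ => rfl).adj hb hr fun j => ?_
  simp only [pat, Finset.mem_compl]
  by_cases hj : j ∈ J
  · rw [if_neg (not_not.mpr hj), if_pos hj, ← sq, h2, neg_neg]
    exact Or.inr rfl
  · rw [if_pos hj, if_neg hj, mul_one]
    exact Or.inl rfl

theorem exists_four {Γ : Subgroup (G F)} (hS : Syl Γ T) (hb : Bi e x) {d : G F} (hd : d ∈ T) {δ : Fin 4 → F}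
    (ed : ∀ i, d • e i = δ i • e i) (hn : ∃ i j, δ i ^ 2 ≠ δ j ^ 2) :
    ∃ a : Fin 4 → F, Dg T e a ∧ (∀ i j, a i ^ 4 = a j ^ 4) ∧ ∃ i j, a i ^ 2 ≠ a j ^ 2 := by
  classical
  have hex : ∃ n, ∀ i j, (δ i ^ 2 ^ n) ^ 2 = (δ j ^ 2 ^ n) ^ 2 := by
    obtain ⟨n, hs⟩ := hS.two d hd
    obtain ⟨c, hc⟩ := mem_scalars_iff'.mp hs
    have h1 : ∀ i, δ i ^ 2 ^ n = c := fun i => by
      have h2 := pow_smul_e (ed i) (2 ^ n)
      rw [gsmul_def, hc, smul_mulVec, one_mulVec] at h2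
      exact (smul_left_injective F (hb.e_ne i) h2).symm
    exact ⟨n, fun i j => by rw [h1, h1]⟩
  have h0 : Nat.find hex ≠ 0 := by
    intro h
    have h1 := Nat.find_spec hex
    obtain ⟨i, j, hij⟩ := hn
    rw [h] at h1
    exact hij (by simpa using h1 i j)
  obtain ⟨m, hm⟩ := Nat.exists_eq_succ_of_ne_zero h0
  have h1 := Nat.find_spec hex
  have h2 := Nat.find_min hex (m := m) (by omega)
  rw [hm] at h1
  refine ⟨fun i => δ i ^ 2 ^ m, ⟨d ^ 2 ^ m, pow_mem hd _, fun j => pow_smul_e (ed j) _⟩, fun i j => ?_, ?_⟩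
  · have h3 := h1 i j
    rw [Nat.succ_eq_add_one, pow_succ 2 m, pow_mul, pow_mul, ← pow_mul _ 2 2, ← pow_mul _ 2 2] at h3
    exact h3
  · push Not at h2
    exact h2

end RC

open RC in
theorem subRC : SubRC.{u} := by
  classical
  rintro F _ _ Γ T - hS hi e x hm hr ⟨d, hd, δ, ed, hn⟩
  obtain ⟨a, ha, h4, j1, j2, hj⟩ := exists_four hS hm.1 hd ed hn
  have a0 := ha.ne_zero hm.1 0
  have hε : Dg T e fun j => (a 0)⁻¹ * a j := (dg_scal hS.sc (inv_ne_zero a0)).mul ha fun _ => rfl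
  set ε : Fin 4 → F := fun j => (a 0)⁻¹ * a j with hεd
  have e4 : ∀ j, ε j ^ 2 = 1 ∨ ε j ^ 2 = -1 := fun j => by
    have h1 : (ε j ^ 2) ^ 2 = 1 ^ 2 := by
      rw [hεd, ← pow_mul, mul_pow, h4 j 0, ← mul_pow, inv_mul_cancel₀ a0, one_pow, one_pow]
    exact sq_eq_sq_iff_eq_or_eq_neg.mp h1
  have e2 : ∀ j, ε j ^ 2 = 1 → a j ^ 2 = a 0 ^ 2 := fun j h => by
    have h1 : a j = a 0 * ε j := by rw [hεd, mul_inv_cancel_left₀ a0]
    rw [h1, mul_pow, h, mul_one]
  obtain ⟨j0, hj0⟩ : ∃ j, ε j ^ 2 ≠ 1 := by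
    by_contra hc
    push Not at hc
    exact hj ((e2 j1 (hc j1)).trans (e2 j2 (hc j2)).symm)
  have hi2 : ε j0 ^ 2 = -1 := (e4 j0).resolve_left hj0
  set J : Finset (Fin 4) := Finset.univ.filter fun j => ε j ^ 2 ≠ 1 with hJ
  have hP : Dg T e (pat (ε j0) J) := hε.adj hm.1 hr fun j => by
    simp only [pat, hJ, Finset.mem_filter, Finset.mem_univ, true_and]
    by_cases h : ε j ^ 2 = 1
    · rw [if_neg (not_not.mpr h)]
      exact sq_eq_sq_iff_eq_or_eq_neg.mp (by rw [h, one_pow])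
    · rw [if_pos h]
      exact sq_eq_sq_iff_eq_or_eq_neg.mp (by rw [hi2, (e4 j).resolve_left h])
  have m0 : (0 : Fin 4) ∉ J := by
    simp only [hJ, Finset.mem_filter, Finset.mem_univ, true_and, not_not, hεd]
    rw [inv_mul_cancel₀ a0, one_pow]
  have m1 : j0 ∈ J := Finset.mem_filter.mpr ⟨Finset.mem_univ _, hj0⟩
  have c1 : 0 < J.card := Finset.card_pos.mpr ⟨_, m1⟩
  have c2 : 0 < Jᶜ.card := Finset.card_pos.mpr ⟨_, Finset.mem_compl.mpr m0⟩
  have c3 : J.card + Jᶜ.card = 4 := by rw [Finset.card_add_card_compl, Fintype.card_fin]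
  have fin : (∃ j k : Fin 4, j ≠ k ∧ ∃ h ∈ T, Sc ![e j, e k] ![x j, x k] (ε j0) h) := by
    rcases (by omega : J.card = 1 ∨ J.card = 2 ∨ Jᶜ.card = 1) with h | h | h
    · obtain ⟨j, hj⟩ := Finset.card_eq_one.mp h
      exact of_single hi hm (hj ▸ hP)
    · obtain ⟨j, k, hjk, hj⟩ := Finset.card_eq_two.mp h
      exact ⟨j, k, hjk, sc_of_pat hm.1 hjk (hj ▸ hP)⟩
    · obtain ⟨j, hj⟩ := Finset.card_eq_one.mp h
      exact of_single hi hm (hj ▸ pat_compl hS.sc hm.1 hr hi2 hP)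
  obtain ⟨j, k, hjk, h⟩ := fin
  exact ⟨j, k, ε j0, hjk, hi2, h⟩

end CL.Low4
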