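/-
Project LOW4: sectional 2-rank of the projective group, and 2-constraint of the 2-local subgroups.
-/
import Cfsg.Agent.Low4.Defs3
import Cfsg.Agent.Fgs.MacW3
import Cfsg.Agent.S0629
import Cfsg.Agent.Loc.PSolv

set_option autoImplicit false
set_option linter.unusedSectionVars false

namespace CL.Low4

open Matrix Cfsg Cfsg.Geo CL.Asch CL.SLn CL.Low Module
open scoped commutatorElement MatrixGroups

universe u

namespace SRx

section Grp

variable {H : Type u} [Group H] {C : H → H → Prop}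

/-- a maximal normal subgroup of pairwise related elements -/
theorem exists_max [Finite H] (h : CX C) (S : Subgroup H) (hS : IsPGroup 2 S) :
    ∃ A : Subgroup S, A.Normal ∧ (∀ a ∈ A, ∀ b ∈ A, C a b) ∧ ∀ t : S, (∀ a ∈ A, C t a) → t ∈ A := by
  have : Fact (Nat.Prime 2) := ⟨Nat.prime_two⟩
  have := hS.isNilpotent
  obtain ⟨A, ⟨hn, hab⟩, hmax⟩ := Set.Finite.exists_maximal (s := {A : Subgroup S | A.Normal ∧
    ∀ a ∈ A, ∀ b ∈ A, C a b}) (Set.toFinite _) ⟨⊥, inferInstance, fun a ha b _ => by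
      rw [Subgroup.mem_bot.1 ha]; exact h.one _⟩
  refine ⟨A, hn, hab, ?_⟩
  let D : Subgroup S :=
    { carrier := {t | ∀ a ∈ A, C t a}
      mul_mem' := fun ha hb a k => h.mul (ha a k) (hb a k)
      one_mem' := fun a _ => h.one _
      inv_mem' := fun ha a k => h.inv (ha a k) }
  have hD : D.Normal := ⟨fun t ht g a ha => by
    have := h.conj (g : H) (ht _ (hn.conj_mem a ha g⁻¹))
    simpa [mul_assoc] using this⟩
  change D ≤ A
  by_contra hc
  obtain ⟨d, hd, hdA, hcm⟩ := CL.Grp.exists_mem_notMem_commutator_mem hc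
  have h1 : ∀ y : S, (∀ a ∈ A, C a y) → C d y → ∀ x ∈ A ⊔ Subgroup.zpowers d, C x y := fun y k1 k2 x hx =>
    (show A ⊔ Subgroup.zpowers d ≤ (h.grp (y : H)).comap S.subtype from
      sup_le k1 (Subgroup.zpowers_le.2 k2)) hx
  have hn' : (A ⊔ Subgroup.zpowers d).Normal := by
    refine ⟨fun x hx g => ?_⟩
    refine (show A ⊔ Subgroup.zpowers d ≤ (A ⊔ Subgroup.zpowers d).comap (MulAut.conj g).toMonoidHom from
      sup_le (fun a ha => Subgroup.mem_sup_left (hn.conj_mem a ha g)) (Subgroup.zpowers_le.2 ?_)) hx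
    change g * d * g⁻¹ ∈ A ⊔ Subgroup.zpowers d
    have e : g * d * g⁻¹ = ⁅d, g⁆⁻¹ * d := by rw [commutatorElement_def]; group
    rw [e]
    exact mul_mem (Subgroup.mem_sup_left (inv_mem (hcm g))) (Subgroup.mem_sup_right (Subgroup.mem_zpowers d))
  have h2 : A ⊔ Subgroup.zpowers d ≤ A := hmax ⟨hn', fun x hx y hy => h1 y
    (fun a ha => h.symm (h1 a (fun b hb => hab b hb a ha) (hd a ha) y hy))
    (h.symm (h1 d (fun a ha => h.symm (hd a ha)) (h.refl _) y hy)) x hx⟩ le_sup_left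
  exact hdA (h2 (Subgroup.mem_sup_right (Subgroup.mem_zpowers d)))

theorem bot_le [Finite H] (h : CX C) {S : Subgroup H} (hS : IsPGroup 2 S) {A : Subgroup S}
    (hab : ∀ a ∈ A, ∀ b ∈ A, C a b) {Y L : Subgroup S} (hY : Y ≤ A) (hL : ∀ y ∈ Y, y * y ∈ L) :
    L.relIndex Y ≤ 4 := by
  classical
  have cm : ∀ a ∈ A, ∀ b ∈ A, a * b = b * a := fun a ha b hb => Subtype.ext (h.comm (hab a ha b hb))
  let W : Subgroup S :=
    { carrier := {a | a ∈ A ∧ a * a = 1}
      mul_mem' := fun {a b} ha hb => ⟨mul_mem ha.1 hb.1, by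
        rw [mul_assoc, ← mul_assoc b, cm b hb.1 a ha.1, mul_assoc, hb.2, mul_one, ha.2]⟩
      one_mem' := ⟨one_mem _, mul_one _⟩
      inv_mem' := fun {a} ha => ⟨inv_mem ha.1, by rw [← _root_.mul_inv_rev, ha.2, inv_one]⟩ }
  refine (CL.Fgs.MacW.tm_relIndex_le hS (N := A) (V := W)
    (fun t ht t2 => ⟨⟨ht, t2⟩, fun g hg => cm g hg t ht⟩) (fun x hx g hg e => ?_) hY hL).trans ?_
  · rw [cm g hg x hx, mul_inv_cancel_right] at e
    nth_rewrite 2 [e]; exact mul_inv_cancel x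
  by_contra hlt
  have ex : ∀ s : Finset S, s.card ≤ 4 → ∃ g ∈ W, g ∉ s := fun s k =>
    Set.exists_mem_notMem_of_ncard_lt_ncard (s := (s : Set S)) (t := W)
      (by rw [Set.ncard_coe_finset]; exact k.trans_lt (not_le.1 hlt))
  obtain ⟨a, ha, a1⟩ := ex {1} (by simp)
  obtain ⟨b, hb, b1⟩ := ex {1, a} (Finset.card_le_two.trans (by omega))
  obtain ⟨c, hc, c1⟩ := ex {1, a, b, a * b} Finset.card_le_four
  simp only [Finset.mem_insert, Finset.mem_singleton, not_or] at a1 b1 c1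
  refine h.m3 (a := a) (b := b) (c := c) ⟨congrArg Subtype.val ha.2, congrArg Subtype.val hb.2,
    congrArg Subtype.val hc.2, fun e => a1 (Subtype.ext e), fun e => b1.1 (Subtype.ext e),
    fun e => b1.2 (Subtype.ext e), ?_⟩ (hab a ha.1 b hb.1) (hab a ha.1 c hc.1) (hab b hb.1 c hc.1)
  rintro (e | e | e | e)
  exacts [c1.1 (Subtype.ext e), c1.2.1 (Subtype.ext e), c1.2.2.1 (Subtype.ext e), c1.2.2.2 (Subtype.ext e)]

set_option synthInstance.maxSize 2000 in
theorem no_five : ∀ a : Equiv.Perm (Fin 4), a ≠ 1 → ∀ b : Equiv.Perm (Fin 4), a * b = b * a → b ≠ 1 → b ≠ a →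
    ∀ c : Equiv.Perm (Fin 4), a * c = c * a → b * c = c * b → c ≠ 1 → c ≠ a → c ≠ b →
    ∀ d : Equiv.Perm (Fin 4), a * d = d * a → b * d = d * b → c * d = d * c → d = 1 ∨ d = a ∨ d = b ∨ d = c := by
  decide +kernel

theorem card_le_four (R : Subgroup (Equiv.Perm (Fin 4))) (hR : ∀ a ∈ R, ∀ b ∈ R, a * b = b * a) :
    Nat.card R ≤ 4 := by
  classical
  by_contra hlt
  have ex : ∀ s : Finset (Equiv.Perm (Fin 4)), s.card ≤ 4 → ∃ g ∈ R, g ∉ s := fun s k =>
    Set.exists_mem_notMem_of_ncard_lt_ncard (s := (s : Set (Equiv.Perm (Fin 4)))) (t := R)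
      (by rw [Set.ncard_coe_finset]; exact k.trans_lt (not_le.1 hlt))
  obtain ⟨a, ha, a1⟩ := ex {1} (by simp)
  obtain ⟨b, hb, b1⟩ := ex {1, a} (Finset.card_le_two.trans (by omega))
  obtain ⟨c, hc, c1⟩ := ex {1, a, b} (Finset.card_le_three.trans (by omega))
  obtain ⟨d, hd, d1⟩ := ex {1, a, b, c} Finset.card_le_four
  simp only [Finset.mem_insert, Finset.mem_singleton, not_or] at a1 b1 c1 d1
  have := no_five a a1 b (hR a ha b hb) b1.1 b1.2 c (hR a ha c hc) (hR b hb c hc) c1.1 c1.2.1 c1.2.2 d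
    (hR a ha d hd) (hR b hb d hd) (hR c hc d hd)
  tauto

theorem top4 {X P : Type*} [Group X] [Group P] [Finite P] (hP : IsPGroup 2 P) (ψ : X →* P)
    (hψ : Function.Surjective ψ) (σ : X →* Equiv.Perm (Fin 4)) (A : Subgroup P) [A.Normal]
    (hk : σ.ker ≤ A.comap ψ) : CL.Fgs.MacW.Top4 A := by
  have : Fact (Nat.Prime 2) := ⟨Nat.prime_two⟩
  set B := (A.comap ψ).map σ with hB
  have h1 : B.relIndex σ.range = A.index := by
    rw [MonoidHom.range_eq_map, ← Subgroup.relIndex_comap, hB, Subgroup.comap_map_eq_self hk,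
      Subgroup.relIndex_top_right, Subgroup.index_comap_of_surjective _ hψ]
  have hBR : B ≤ σ.range := Subgroup.map_le_range _ _
  have h2 := CL.Grp.card_mul_relIndex hBR
  have h24 : Nat.card (Equiv.Perm (Fin 4)) = 24 := by rw [Nat.card_perm]; simp [Nat.factorial]
  have h3 : Nat.card σ.range ∣ 24 := h24 ▸ Subgroup.card_subgroup_dvd_card _
  rw [h1] at h2
  refine CL.Fgs.MacW.top4_of ?_ fun h8 => ?_
  · obtain ⟨k, hk⟩ := hP.index A
    have : 2 ^ k ∣ 8 * 3 := hk ▸ (Dvd.intro_left _ h2).trans h3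
    rw [hk]
    exact ((by norm_num : Nat.Coprime 2 3).pow_left k).dvd_of_dvd_mul_right this
  by_contra hc
  push Not at hc
  have hcm : ∀ a ∈ σ.range, ∀ b ∈ σ.range, ⁅a, b⁆ ∈ B := by
    rintro _ ⟨a, rfl⟩ _ ⟨b, rfl⟩
    refine ⟨⁅a, b⁆, ?_, map_commutatorElement σ a b⟩
    change ψ ⁅a, b⁆ ∈ A
    rw [map_commutatorElement]; exact hc _ _
  rw [h8] at h2
  have h4 : Nat.card B ∣ 3 := by
    rw [← h2] at h3
    exact Nat.dvd_of_mul_dvd_mul_right (by norm_num : 0 < 8) h3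
  rcases (Nat.dvd_prime Nat.prime_three).1 h4 with e | e
  · rw [Subgroup.card_eq_one] at e
    have := card_le_four σ.range fun a ha b hb => by
      have := hcm a ha b hb
      rwa [e, Subgroup.mem_bot, commutatorElement_eq_one_iff_mul_comm] at this
    rw [e, Subgroup.card_bot] at h2
    omega
  · have ht : σ.range = ⊤ := Subgroup.eq_top_of_card_eq _ (by rw [← h2, e, h24])
    have h5 := hcm (Equiv.swap 0 1) (ht ▸ Subgroup.mem_top _) (Equiv.swap 0 2 * Equiv.swap 1 3)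
      (ht ▸ Subgroup.mem_top _)
    have h6 := orderOf_dvd_iff_pow_eq_one.1 (Subgroup.orderOf_dvd_natCard B h5)
    rw [e] at h6
    revert h6
    decide +kernel

end Grp

end SRx

open SRx in
theorem subSR : SubSR.{u} := by
  intro F _ _ Γ h2 h
  classical
  have : Fact (Nat.Prime 2) := ⟨Nat.prime_two⟩
  obtain ⟨S⟩ : Nonempty (Sylow 2 (PQ Γ)) := inferInstance
  refine CL.Fgs.MacW.secRank_of_sylow S (CL.Fgs.secRank_iff.2 fun H L hs => ?_)
  obtain ⟨A, hn, hab, hmax⟩ := exists_max h (S : Subgroup (PQ Γ)) S.isPGroup'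
  let X : Subgroup Γ := (S : Subgroup (PQ Γ)).comap (QuotientGroup.mk' _)
  let ψ : X →* (S : Subgroup (PQ Γ)) := (QuotientGroup.mk' _).subgroupComap _
  have hψ : Function.Surjective ψ :=
    MonoidHom.subgroupComap_surjective_of_surjective _ _ (QuotientGroup.mk'_surjective _)
  let ι : X →* G F := Γ.subtype.comp X.subtype
  have cm : ∀ x y : X, Cm Γ (ψ x) (ψ y) ↔ ι x * ι y = ι y * ι x := fun x y =>
    (cm_mk (x := x.1) (y := y.1)).trans ⟨fun k => congrArg Subtype.val k, fun k => Subtype.ext k⟩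
  let B : Set (G F) := ι '' (A.comap ψ : Set X)
  obtain ⟨n, π, hn4, hπ⟩ := exists_weight_perm B
    (by rintro _ ⟨x, hx, rfl⟩ _ ⟨y, hy, rfl⟩; exact (cm x y).1 (hab _ hx _ hy)) (by
      rintro _ ⟨x, -, rfl⟩
      obtain ⟨k, hk⟩ := S.isPGroup' (ψ x)
      have h1 : ((x.1 ^ 2 ^ k : Γ) : PQ Γ) = 1 := by
        rw [QuotientGroup.mk_pow]; exact congrArg Subtype.val hk
      obtain ⟨c, hc⟩ := mk_eq_one_iff.1 h1
      refine ⟨2 ^ k * Fintype.card Fˣ, ?_, ?_⟩
      · rw [Nat.cast_mul, Nat.cast_pow, Fintype.card_units, Nat.cast_sub Fintype.card_pos,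
          FiniteField.cast_card_eq_zero]
        simpa using fun e => absurd e h2
      · rw [pow_mul]
        change (((x.1 ^ 2 ^ k : Γ) : G F)) ^ _ = 1
        rw [← hc, ← map_pow, pow_card_eq_one, map_one])
  have hN : ∀ x : X, ι x ∈ Subgroup.normalizer B := fun x => by
    have key : ∀ x : X, ∀ g ∈ B, ι x * g * (ι x)⁻¹ ∈ B := by
      rintro x _ ⟨y, hy, rfl⟩
      exact ⟨x * y * x⁻¹, (hn.comap ψ).conj_mem y hy x, by rw [map_mul, map_mul, map_inv]⟩
    refine fun g => ⟨key x g, fun k => ?_⟩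
    have := key x⁻¹ _ k
    simpa [mul_assoc] using this
  rw [Fintype.card_fin] at hn4
  let σ : X →* Equiv.Perm (Fin 4) :=
    (Equiv.Perm.viaEmbeddingHom (Fin.castLEEmb hn4)).comp (π.comp (ι.codRestrict _ hN))
  have hk : σ.ker ≤ A.comap ψ := fun x hx => hmax _ fun a ha => by
    obtain ⟨y, rfl⟩ := hψ a
    have h1 : π (ι.codRestrict _ hN x) = 1 :=
      Equiv.Perm.viaEmbeddingHom_injective _ ((MonoidHom.mem_ker.1 hx).trans (map_one _).symm)
    exact (cm x y).2 (hπ _ h1 _ ⟨y, ha, rfl⟩)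
  rw [CL.Fgs.MacW.relIndex_split A hs.1]
  exact (Nat.mul_le_mul (top4 S.isPGroup' ψ hψ σ A hk H L hs) (bot_le h S.isPGroup' hab inf_le_right fun y hy =>
    Subgroup.mem_inf.2 ⟨by rw [← sq]; exact hs.2.2 y hy.1, mul_mem hy.2 hy.2⟩)).trans (by norm_num)

theorem subCon : SubCon.{u} := by
  intro H _ _ hsol T hT hT1
  have : Fact (Nat.Prime 2) := ⟨Nat.prime_two⟩
  set N := Subgroup.normalizer (T : Set H) with hN
  obtain ⟨P⟩ : Nonempty (Sylow 2 (pPrimePCore 2 N)) := inferInstance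
  refine Cfsg.Agent.S0629.result P (CL.Loc.isPSolvable_of_isSolvable ?_)
  have hP := CL.Grp.isSylowIn_map_subtype P
  have hn : (T.subgroupOf N).Normal := Subgroup.normal_in_normalizer
  have hTP := hP.le_of_normalized (U := T.subgroupOf N) hT.comap_subtype
    ((CL.Grp.le_pCore (N := T.subgroupOf N) hT.comap_subtype).trans CL.Grp.pCore_le_pPrimePCore) Subgroup.le_normalizer_of_normal
  obtain ⟨t, ht⟩ : ∃ t : T, orderOf t = 2 := by
    obtain ⟨k, hk⟩ := IsPGroup.iff_card.1 hT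
    refine exists_prime_orderOf_dvd_card' 2 ?_
    rw [hk]
    refine dvd_pow_self 2 fun e => hT1 ?_
    rwa [e, pow_zero, Subgroup.card_eq_one] at hk
  have t2 : (t : H) * t = 1 := by
    have := pow_orderOf_eq_one t
    rw [ht, sq] at this
    exact congrArg Subtype.val this
  have t1 : (t : H) ≠ 1 := fun e => by
    rw [show t = 1 from Subtype.ext e, orderOf_one] at ht
    omega
  have := hsol t t2 t1
  refine Group.isSolvable_of_isSolvable_injective (f := (N.subtype.comp (Subgroup.subtype _)).codRestrict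
    (Subgroup.centralizer {(t : H)}) fun x => ?_) ?_
  · have := x.2 ⟨t, Subgroup.le_normalizer t.2⟩ (hTP t.2)
    exact Subgroup.mem_centralizer_singleton_iff.2 (congrArg Subtype.val this).symm
  · intro x y e
    exact Subtype.ext (Subtype.ext (Subtype.mk.inj e))

end CL.Low4
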