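/-
Project LOW4, step TL: a linear pair and a third root span a non-degenerate 3-space, on which the transvections give
`SL₃(K)` or `3 A₆`.
-/
import Cfsg.Agent.Low4.Defs2

set_option autoImplicit false
set_option linter.unusedSectionVars false

namespace CL.Low4

open Matrix Cfsg Cfsg.Geo CL.Asch CL.SLn CL.Low Module
open scoped commutatorElement

universe u

namespace TL

variable {ι : Type} [Fintype ι] [DecidableEq ι] {F : Type u} [Field F] {T : Subgroup (GL ι F)}
  {v w y : ι → F} {φ ψ χ : Dual F (ι → F)}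

theorem mem_desc (K : Subfield F) (c g : GL ι F) :
    g ∈ (specialLinear ι K).map (descGL K c) ↔
      g ∈ specialLinear ι F ∧ ∀ i j, ((c⁻¹ * g * c : GL ι F) : Matrix ι ι F) i j ∈ K := by
  have key : ∀ a : GL ι K, c⁻¹ * descGL K c a * c = GeneralLinearGroup.map K.subtype a := fun a => by
    simp [descGL, mul_assoc]
  have hdet : ∀ a : GL ι K, ((descGL K c a : GL ι F) : Matrix ι ι F).det = ((a : Matrix ι ι K).det : F) := fun a => by
    rw [coe_descGL, conjAlg_apply, det_mul, det_mul, mul_right_comm, ← det_mul, ← Units.val_mul, mul_inv_cancel,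
      Units.val_one, det_one, one_mul]
    exact (K.subtype.map_det _).symm
  constructor
  · rintro ⟨a, ha, rfl⟩
    refine ⟨mem_specialLinear.2 ?_, fun i j => ?_⟩
    · rw [hdet, mem_specialLinear.1 ha]; rfl
    · rw [key]; exact ((a : Matrix ι ι K) i j).2
  · rintro ⟨h1, h2⟩
    let M : Matrix ι ι K := fun i j => ⟨_, h2 i j⟩
    have hM : M.det = 1 := by
      apply Subtype.val_injective
      have h3 : c⁻¹ * g * c ∈ specialLinear ι F := by
        simpa using specialLinear_normal.conj_mem g h1 c⁻¹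
      exact (K.subtype.map_det M).trans (mem_specialLinear.1 h3)
    refine ⟨SpecialLinearGroup.toGL ⟨M, hM⟩, mem_specialLinear.2 hM, ?_⟩
    have h4 : c⁻¹ * descGL K c (SpecialLinearGroup.toGL ⟨M, hM⟩) * c = c⁻¹ * g * c := by
      rw [key]; exact Units.ext rfl
    exact mul_left_cancel (mul_right_cancel h4)

theorem entry (c g : GL ι F) (i j : ι) :
    ((c⁻¹ * g * c : GL ι F) : Matrix ι ι F) i j = (c⁻¹ • g • c • (Pi.single j 1 : ι → F)) i := by
  rw [← mul_smul, ← mul_smul, gsmul_def, mulVec_single_one]; rfl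

theorem lcfg_sl (K : Subfield F) (c : GL (Fin 3) F) :
    ∃ e x, LCfg0 ((specialLinear (Fin 3) K).map (descGL K c)) K e x := by
  have hb : Bi (fun i : Fin 3 => c • (Pi.single i 1 : Fin 3 → F)) fun i => dact c (LinearMap.proj i) :=
    ⟨fun i => by simp, fun i j h => by simp [h]⟩
  have hent : ∀ (g : GL (Fin 3) F) (v : Fin 3 → F) (φ : Dual F (Fin 3 → F)), (∀ z, g • z = z + φ z • v) → ∀ i j,
      ((c⁻¹ * g * c : GL (Fin 3) F) : Matrix (Fin 3) (Fin 3) F) i j =
        (if i = j then 1 else 0) + φ (c • (Pi.single j 1 : Fin 3 → F)) * dact c (LinearMap.proj i : Dual F _) v :=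
    fun g v φ hg i j => by
      rw [entry, hg, smul_add, inv_smul_smul, gsmul_smul]
      simp [Pi.single_apply]
  refine ⟨_, _, hb, fun a η ha hη h0 => ?_, fun v φ h _ i j => ?_⟩
  · have h1 : (∑ i, η i • dact c (LinearMap.proj i : Dual F (Fin 3 → F)))
        (∑ i, a i • c • (Pi.single i 1 : Fin 3 → F)) = 0 := by
      rw [← h0]
      simp only [LinearMap.sum_apply, LinearMap.smul_apply, map_sum, map_smul, hb.apply, smul_eq_mul]
      simp [mul_comm]
    refine Tv.of_mem h1 ((mem_desc K c _).2 ⟨tv_mem_specialLinear _ _ _, fun i j => ?_⟩)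
    rw [hent _ _ _ (tv_smul _ _ h1)]
    refine K.add_mem (by split_ifs; exacts [K.one_mem, K.zero_mem]) ?_
    simp only [LinearMap.sum_apply, LinearMap.smul_apply, map_sum, map_smul, hb.apply, smul_eq_mul]
    simpa using K.mul_mem (hη j) (ha i)
  · obtain ⟨-, g, hg, eg⟩ := h
    have h1 := ((mem_desc K c g).1 hg).2 j i
    rw [hent g v φ eg] at h1
    simpa using K.sub_mem h1 (show (if j = i then (1 : F) else 0) ∈ K by split_ifs; exacts [K.one_mem, K.zero_mem])

theorem lcfg_trans {K : Subfield F} {e : Fin 3 → ι → F} {x : Fin 3 → Dual F (ι → F)} (hb : Bi e x)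
    {a : Fin 3 → Fin 3 → F} {η : Fin 3 → Dual F (Fin 3 → F)} (h : LCfg0 (TK T e x) K a η) :
    LCfg0 T K (fun i => up e (a i)) fun i => η i ∘ₗ co x := by
  refine ⟨hb.trans h.bi, fun b θ hb' hθ h0 => ?_, fun v φ h1 h2 i j => ?_⟩
  · have h1 := (tv_TK hb).1 (h.tv b θ hb' hθ h0)
    convert h1 using 1
    · simp
    · ext z; simp
  · exact h.ex _ _ (tv_TK_of_in hb h1 ((hb.same_trans h.bi).in_iff.1 h2)) (in_of_card h.bi (by simp) _ _) i j

theorem lcfg_grp {K : Subfield F} {e : Fin 3 → ι → F} {x : Fin 3 → Dual F (ι → F)} (h : LCfg0 T K e x)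
    (hv : Rt T v φ) (hi : In e x v φ) : ∀ t ∈ K, Tv T (t • v) φ := fun t ht => by
  obtain ⟨j, hj⟩ : ∃ j, x j v ≠ 0 := by
    by_contra hn
    push Not at hn
    exact hv.ne (hi.1 ▸ (pr_eq_zero_iff h.bi).2 hn)
  obtain ⟨i, hi'⟩ : ∃ i, φ (e i) ≠ 0 := by
    by_contra hn
    push Not at hn
    exact hv.ne' (hi.2 ▸ (prD_eq_zero_iff h.bi).2 hn)
  have h1 := h.tv (fun l => t * (φ (e i) * x l v / (φ (e i) * x j v))) (fun l => φ (e l) * x j v)
    (fun l => K.mul_mem ht (K.div_mem (h.ex v φ hv.tv hi i l) (h.ex v φ hv.tv hi i j))) (fun l => h.ex v φ hv.tv hi l j)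
    (by
      have h2 := apply_pr (e := e) (x := x) φ v
      rw [hi.1, hv.tv.1] at h2
      rw [← mul_zero t, h2, Finset.mul_sum]
      exact Finset.sum_congr rfl fun l _ => by field_simp)
  have e1 : ∑ l, (t * (φ (e i) * x l v / (φ (e i) * x j v))) • e l = (t / x j v) • v := by
    rw [← congrArg (fun z => (t / x j v) • z) hi.1, pr, Finset.smul_sum]
    exact Finset.sum_congr rfl fun l _ => by rw [smul_smul]; congr 1; field_simp
  have e2 : ∑ l, (φ (e l) * x j v) • x l = x j v • φ := by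
    rw [← congrArg (fun z => x j v • z) hi.2, prD, Finset.smul_sum]
    exact Finset.sum_congr rfl fun l _ => by rw [smul_smul, mul_comm]
  rw [e1, e2] at h1
  exact h1.congr (by simp [hv.tv.1]) fun z => by
    rw [LinearMap.smul_apply, smul_smul, smul_smul, smul_eq_mul]; congr 1; field_simp

/-- The elements acting trivially on `U` and on the quotient by `U`. -/
def stab (U : Submodule F (ι → F)) : Subgroup (GL ι F) where
  carrier := {g | (∀ z, g • z - z ∈ U) ∧ ∀ z ∈ U, g • z = z}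
  one_mem' := ⟨fun z => by simp, fun z _ => one_smul _ z⟩
  mul_mem' := fun {a b} ha hb => ⟨fun z => by
    simpa [mul_smul] using U.add_mem (ha.1 (b • z)) (hb.1 z), fun z hz => by rw [mul_smul, hb.2 z hz, ha.2 z hz]⟩
  inv_mem' := fun {a} ha => ⟨fun z => by simpa using U.neg_mem (ha.1 (a⁻¹ • z)),
    fun z hz => by rw [inv_smul_eq_iff, ha.2 z hz]⟩

theorem stab_sq (h2 : (2 : F) = 0) {U : Submodule F (ι → F)} {g : GL ι F} (hg : g ∈ stab U) : g ^ 2 = 1 :=
  gext fun z => by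
    have h1 := hg.2 _ (hg.1 z)
    rw [smul_sub, sub_eq_iff_eq_add] at h1
    rw [sq, mul_smul, h1, one_smul, show g • z - z + g • z = z + (2 : F) • (g • z - z) by
      generalize g • z = z'; module, h2, zero_smul, add_zero]

theorem card_le [Finite F] (h2 : (2 : F) = 0) (hD : DihSyl T 4) (U : Submodule F (ι → F)) {α : Type*}
    (a : α → ι → F) (η : α → Dual F (ι → F)) (ht : ∀ p, Tv T (a p) (η p)) (h1 : ∀ p, a p ∈ U)
    (h3 : ∀ p, ∀ z ∈ U, η p z = 0) (hinj : ∀ p q, (∀ z, η p z • a p = η q z • a q) → p = q) : Nat.card α ≤ 8 := by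
  have hp : IsPGroup 2 ((stab U).subgroupOf T) := fun g => ⟨1, Subtype.ext (Subtype.ext (stab_sq h2 g.2))⟩
  obtain ⟨S, hS⟩ := hp.exists_le_sylow
  obtain ⟨eS⟩ := hD S
  have hc : Nat.card (S : Subgroup T) = 8 := by rw [Nat.card_congr eS.toEquiv, DihedralGroup.nat_card]
  rw [← hc]
  choose g hg hs using fun p => (ht p).2
  have hm : ∀ p, g p ∈ stab U := fun p => ⟨fun z => by rw [hs, add_sub_cancel_left]; exact U.smul_mem _ (h1 p),
    fun z hz => by rw [hs, h3 p z hz, zero_smul, add_zero]⟩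
  refine Nat.card_le_card_of_injective (fun p => (⟨⟨g p, hg p⟩, hS (hm p)⟩ : (S : Subgroup T)))
    fun p q h => hinj p q fun z => ?_
  have h4 : g p = g q := congrArg (fun s => ((s.1 : T) : GL ι F)) h
  have h5 := hs p z
  rwa [h4, hs, add_right_inj, eq_comm] at h5

theorem of_card [Finite F] {L : F → Prop} (h0 : L 0) (h1 : L 1) (h : Nat.card ({s // L s} × {s // L s}) ≤ 8) :
    ∀ t, L t → t = 0 ∨ t = 1 := fun t ht => by
  by_contra hn
  have := Fintype.ofFinite {s // L s}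
  have h3 : 2 < Fintype.card {s // L s} := Fintype.two_lt_card_iff.2 ⟨⟨0, h0⟩, ⟨1, h1⟩, ⟨t, ht⟩, by simp,
    fun e => hn (Or.inl (congrArg Subtype.val e).symm), fun e => hn (Or.inr (congrArg Subtype.val e).symm)⟩
  rw [Nat.card_prod, Nat.card_eq_fintype_card] at h
  nlinarith

theorem small [Finite F] (h2 : (2 : F) = 0) (hD : DihSyl T 4) (hv : Rt T v φ) (hw : Rt T w ψ) (h1 : φ w ≠ 0)
    (h3 : ψ v = 0) : (∀ t : F, Tv T (t • v) φ → t = 0 ∨ t = 1) ∧ ∀ t : F, Tv T (t • w) ψ → t = 0 ∨ t = 1 := by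
  obtain ⟨z, hz⟩ : ∃ z, ψ z ≠ 0 := by
    by_contra hn
    push Not at hn
    exact hw.ne' (LinearMap.ext hn)
  have a0 := hv.tv.1
  have b0 := hw.tv.1
  constructor
  · refine of_card (by simpa using Tv.zero_left) (by simpa using hv.tv) (card_le h2 hD (F ∙ v) (fun _ => v)
      (fun p => p.1.1 • φ + p.2.1 • φ w • ψ) (fun p => (p.1.2.of_smul_left a0).add_right
        ((p.2.2.comm' hw.tv (by simp [h3])).of_smul_left (by simp [h3])))
      (fun _ => Submodule.mem_span_singleton_self v) (fun p u hu => ?_) fun p q h => ?_)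
    · obtain ⟨b, rfl⟩ := Submodule.mem_span_singleton.1 hu
      simp [a0, h3]
    · have e1 : p.1.1 = q.1.1 := by
        simpa [b0, h1] using smul_left_injective F hv.ne (h w)
      have e2 : p.2.1 = q.2.1 := by
        simpa [e1, h1, hz] using smul_left_injective F hv.ne (h z)
      exact Prod.ext (Subtype.ext e1) (Subtype.ext e2)
  · refine of_card (by simpa using Tv.zero_left) (by simpa using hw.tv) (card_le h2 hD (LinearMap.ker ψ)
      (fun p => p.1.1 • w + φ (p.2.1 • w) • v) (fun _ => ψ) (fun p => p.1.2.add_left (hv.tv.comm p.2.2 h3))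
      (fun _ => by simp [b0, h3]) (fun p u hu => hu) fun p q h => ?_)
    have e0 := smul_right_injective _ hz (h z)
    have e1 : p.1.1 = q.1.1 := by simpa [a0, h1] using congrArg φ e0
    have e2 : p.2.1 = q.2.1 := by
      rw [e1, add_right_inj] at e0
      simpa [h1] using smul_left_injective F hv.ne e0
    exact Prod.ext (Subtype.ext e1) (Subtype.ext e2)

theorem irr (hv : Tv T v φ) (hw : Tv T w ψ) (hy : Tv T y χ) (h1 : φ w ≠ 0) (h2 : ψ v = 0) (h3 : ψ y ≠ 0)
    (h4 : χ v ≠ 0) (hs : ∀ z, ∃ a b c : F, z = a • v + b • w + c • y) : Irr T := irr_iff.2 fun W hW => by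
  have key : ∀ {a : ι → F} {η : Dual F (ι → F)}, Tv T a η → ∀ z ∈ W, η z ≠ 0 → a ∈ W := fun {a η} ⟨_, g, hg, eg⟩ z hz h => by
    have h5 := W.sub_mem (hW g hg z hz) hz
    rw [← gsmul_def, eg, add_sub_cancel_left] at h5
    exact (W.smul_mem_iff h).1 h5
  rw [or_iff_not_imp_left]
  intro hne
  obtain ⟨z, hz, hz0⟩ := Submodule.exists_mem_ne_zero_of_ne_bot hne
  have hvy : v ∈ W → y ∈ W := fun h => key hy v h h4
  have hyw : y ∈ W → w ∈ W := fun h => key hw y h h3
  have hwv : w ∈ W → v ∈ W := fun h => key hv w h h1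
  have h5 : v ∈ W := by
    by_contra hn
    obtain ⟨a, b, c, rfl⟩ := hs z
    have e1 : ψ (a • v + b • w + c • y) = 0 := by_contra fun h => hn (hwv (key hw _ hz h))
    have e2 : φ (a • v + b • w + c • y) = 0 := by_contra fun h => hn (key hv _ hz h)
    have e3 : χ (a • v + b • w + c • y) = 0 := by_contra fun h => hn (hwv (hyw (key hy _ hz h)))
    obtain rfl : c = 0 := by simpa [h2, hw.1, h3] using e1
    obtain rfl : b = 0 := by simpa [hv.1, h1] using e2
    obtain rfl : a = 0 := by simpa [h4] using e3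
    exact hz0 (by simp)
  refine eq_top_iff.2 fun z _ => ?_
  obtain ⟨a, b, c, rfl⟩ := hs z
  exact W.add_mem (W.add_mem (W.smul_mem _ h5) (W.smul_mem _ (hyw (hvy h5)))) (W.smul_mem _ (hvy h5))

end TL

theorem subTL (h : SubL3.{u}) : SubTL.{u} := by
  intro F _ _ P v w y φ ψ χ hv hw hy h1 h2 h3 h4
  obtain ⟨x, hb, hi⟩ := exists_bi (a := ![v, w, y]) (η := ![φ, ψ, χ]) (by
    simp [det_fin_three, hv.tv.1, hw.tv.1, hy.tv.1, h1, h2, h3, h4])
  have iv : In ![v, w, y] x v φ := hi 0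
  have iw : In ![v, w, y] x w ψ := hi 1
  have iy : In ![v, w, y] x y χ := hi 2
  have rv := rt_TK_of_in hb hv iv
  have rw' := rt_TK_of_in hb hw iw
  have ry := rt_TK_of_in hb hy iy
  have b1 : (φ ∘ₗ up ![v, w, y]) (co x w) ≠ 0 := by rwa [LinearMap.comp_apply, iw.up_co]
  have b2 : (ψ ∘ₗ up ![v, w, y]) (co x v) = 0 := by rwa [LinearMap.comp_apply, iv.up_co]
  have b3 : (ψ ∘ₗ up ![v, w, y]) (co x y) ≠ 0 := by rwa [LinearMap.comp_apply, iy.up_co]
  have b4 : (χ ∘ₗ up ![v, w, y]) (co x v) ≠ 0 := by rwa [LinearMap.comp_apply, iv.up_co]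
  have hl : LinPair (TK P ![v, w, y] x) := ⟨_, _, _, _, rv.tv, rw'.tv, rv.ne, rw'.ne', b1, b2⟩
  have hirr : Irr (TK P ![v, w, y] x) := TL.irr rv.tv rw'.tv ry.tv b1 b2 b3 b4 fun z => ⟨z 0, z 1, z 2, by
    conv_lhs => rw [← hb.co_up z]
    simp [up_apply, Fin.sum_univ_three]⟩
  rcases h F _ hirr (tvGen_TK hb) hl with ⟨K, c, hK⟩ | ⟨h5, hD, hQ, hA⟩
  · obtain ⟨a, η, hc⟩ := TL.lcfg_sl K c
    rw [← hK] at hc
    have hc' := TL.lcfg_trans hb hc
    have hs := hb.same_trans hc.bi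
    exact Or.inl ⟨K, _, _, hc', hs.in_iff.2 iv, hs.in_iff.2 iw, hs.in_iff.2 iy, TL.lcfg_grp hc' hv (hs.in_iff.2 iv),
      TL.lcfg_grp hc' hw (hs.in_iff.2 iw)⟩
  · obtain ⟨s1, s2⟩ := TL.small h5 hD rv rw' b1 b2
    refine Or.inr ⟨h5, fun t ht => s1 t ?_, fun t ht => s2 t ?_, _, x, hb, hl, hQ, hA⟩
    · rw [← map_smul]; exact tv_TK_of_in hb ht ⟨by rw [pr_smul, iv.1], iv.2⟩
    · rw [← map_smul]; exact tv_TK_of_in hb ht ⟨by rw [pr_smul, iw.1], iw.2⟩

end CL.Low4
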