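/-
Project LOW4, job TR: transfer against reflections; a Sylow 2-subgroup is irreducible.
-/
import Cfsg.Agent.Low4.Defs3
import Cfsg.Agent.Low4.Ctx

set_option autoImplicit false
set_option linter.unusedSectionVars false

namespace CL.Low4

open Matrix Cfsg Cfsg.Geo CL.Asch CL.SLn CL.Low Module
open scoped commutatorElement MatrixGroups

universe u

namespace TRx

variable {Γ A : Type*} [Group Γ] [Finite Γ] [CommGroup A] {H : Subgroup Γ} (χ : H →* A)

theorem transfer_triv {Z : Subgroup Γ} [Z.Normal] (hZ : ∀ c : H, (c : Γ) ∈ Z → χ c = 1) (hs : IsSimpleGroup (Γ ⧸ Z))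
    (hn : ¬ IsMulCommutative (Γ ⧸ Z)) (g : Γ) : MonoidHom.transfer χ g = 1 := by
  classical
  have h1 : Z ≤ (MonoidHom.transfer χ).ker := fun c hc => by
    haveI := Fintype.ofFinite (Quotient (MulAction.orbitRel (Subgroup.zpowers c) (Γ ⧸ H)))
    rw [MonoidHom.mem_ker, MonoidHom.transfer_eq_prod_quotient_orbitRel_zpowers_quot]
    exact Finset.prod_eq_one fun q _ => hZ _ (Subgroup.Normal.conj_mem' inferInstance _ (pow_mem hc _) _)
  let Θ := QuotientGroup.lift Z (MonoidHom.transfer χ) h1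
  rcases (MonoidHom.normal_ker Θ).eq_bot_or_eq_top with h | h
  · exact (hn ⟨⟨fun a b => (MonoidHom.ker_eq_bot_iff Θ).1 h (by rw [map_mul, map_mul, mul_comm])⟩⟩).elim
  · exact (MonoidHom.mem_ker.1 (h ▸ Subgroup.mem_top (g : Γ ⧸ Z)) : Θ g = 1)

theorem transfer_inv (ho : Odd H.index) {r : Γ} (hr : r * r = 1) {a : A}
    (ha : ∀ (g : Γ) (h : g⁻¹ * r * g ∈ H), χ ⟨_, h⟩ = a) (ht : MonoidHom.transfer χ r = 1) : a = 1 := by
  classical
  haveI := Fintype.ofFinite (Quotient (MulAction.orbitRel (Subgroup.zpowers r) (Γ ⧸ H)))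
  have per : ∀ q : Γ ⧸ H, Function.minimalPeriod (r • ·) q = 1 ∨ Function.minimalPeriod (r • ·) q = 2 := fun q =>
    (Nat.dvd_prime Nat.prime_two).1 (Function.IsPeriodicPt.minimalPeriod_dvd
      (show r • r • q = q by rw [← mul_smul, hr, one_smul]))
  have hsum := Subgroup.index_eq_sum_minimalPeriod H r
  have key : ∀ (g : Γ) (n : ℕ) (h : g⁻¹ * r ^ n * g ∈ H), n = 1 ∨ n = 2 → (n = 1 → a ^ 2 = 1) ∧ (a ^ 2 = 1 → χ ⟨_, h⟩ = a ^ n) := by
    rintro g n h (rfl | rfl)
    · have h' : g⁻¹ * r * g ∈ H := by simpa using h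
      refine ⟨fun _ => ?_, fun _ => ?_⟩
      · rw [← ha g h', ← map_pow]
        refine (congrArg χ (Subtype.ext ?_)).trans (map_one χ)
        change (g⁻¹ * r * g) ^ 2 = 1
        calc (g⁻¹ * r * g) ^ 2 = g⁻¹ * (r * r) * g := by rw [pow_two]; group
          _ = 1 := by rw [hr]; group
      · rw [pow_one a, ← ha g h']
        exact congrArg χ (Subtype.ext (by simp))
    · refine ⟨fun e => absurd e (by decide), fun e => ?_⟩
      rw [e]
      refine (congrArg χ (Subtype.ext ?_)).trans (map_one χ)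
      change g⁻¹ * r ^ 2 * g = 1
      rw [pow_two, hr]; group
  have a2 : a ^ 2 = 1 := by
    by_contra hne
    refine Nat.not_even_iff_odd.2 ho ?_
    rw [hsum]
    refine Finset.even_sum _ fun q _ => ?_
    rw [(per q.out).resolve_left fun e =>
      hne ((key _ _ (QuotientGroup.out_conj_pow_minimalPeriod_mem H r q.out) (per _)).1 e)]
    exact even_two
  rw [MonoidHom.transfer_eq_prod_quotient_orbitRel_zpowers_quot,
    Finset.prod_congr rfl fun q _ => (key _ _ _ (per _)).2 a2, Finset.prod_pow_eq_pow_sum, ← hsum] at ht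
  obtain ⟨m, hm⟩ := ho
  rwa [hm, pow_succ, pow_mul, a2, one_pow, one_mul] at ht

end TRx

open TRx in
theorem subTR : SubTR.{u} := by
  rintro F _ _ Γ T hΓ hT ⟨v, φ, hv⟩ A _ χ a hc hr
  obtain ⟨r, hrΓ, hrf⟩ := hv.mem
  let χ' : T.subgroupOf Γ →* A := χ.comp (Subgroup.subgroupOfEquivOfLe hT.le).toMonoidHom
  refine transfer_inv χ' hT.odd (r := ⟨r, hrΓ⟩) (Subtype.ext (rf_sq hv.two hrf)) (fun g h => ?_)
    (transfer_triv χ' (fun c h => hc _ h) hΓ.simple hΓ.nonab _)
  refine hr _ ((g : G F)⁻¹ • v) (φ ∘ₗ toLin' (g : G F).val) ?_ fun y => ?_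
  · change φ ((g : G F) • (g : G F)⁻¹ • v) = 2
    rw [smul_inv_smul, hv.two]
  · change ((g : G F)⁻¹ * r * g) • y = y - φ ((g : G F) • y) • (g : G F)⁻¹ • v
    rw [mul_smul, mul_smul, hrf, smul_sub, inv_smul_smul, gsmul_smul]

theorem subRA (hT : SubTR.{u}) : SubRA.{u} := by
  intro F _ _ Γ T hΓ hS hv
  refine irr_iff.2 fun W hW => ?_
  by_contra hne
  rw [not_or] at hne
  let ρ : T →* End F W :=
    { toFun := fun g => (toLin' (g : G F).1).restrict fun w hw => hW g g.2 w hw
      map_one' := by ext w : 2; simp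
      map_mul' := fun a b => LinearMap.ext fun w => Subtype.ext (mulVec_mulVec w.1 a.1.1 b.1.1).symm }
  let δ : T →* Fˣ := (LinearMap.det.comp ρ).toHomUnits
  let d : T →* Fˣ := GeneralLinearGroup.det.comp T.subtype
  have hc : ∀ c : T, (c : G F) ∈ scalars (Fin 4) F → ∃ s : Fˣ, δ c = s ^ finrank F W ∧ d c = s ^ 4 := fun c h => by
    obtain ⟨s, hs⟩ := (mem_scalars_iff _).1 h
    refine ⟨s, Units.ext ?_, Units.ext ?_⟩
    · have : ρ c = (s : F) • LinearMap.id := LinearMap.ext fun w => Subtype.ext (by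
        change (c : G F).1 *ᵥ w.1 = (s : F) • w.1
        rw [hs, smul_mulVec, one_mulVec])
      change LinearMap.det (ρ c) = _
      rw [this, LinearMap.det_smul, LinearMap.det_id, mul_one, Units.val_pow_eq_pow_val]
    · change (c : G F).1.det = _
      rw [hs, det_smul, det_one, mul_one, Fintype.card_fin, Units.val_pow_eq_pow_val]
  have hr : ∀ (r : T) (v : V F) (φ : Dual F (V F)), φ v = 2 → (∀ y, (r : G F) • y = y - φ y • v) →
      δ r ^ 2 = 1 ∧ d r = -1 := fun r v φ h1 h2 =>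
    ⟨by rw [← map_pow, pow_two, show r * r = 1 from Subtype.ext (rf_sq h1 h2), map_one], Units.ext (Z5Ctx.det_rf' h1 h2)⟩
  have fin : ∀ i j : ℕ, Odd i → 4 * i = finrank F W * (2 * j) → False := fun i j hi hij => by
    have := hT F Γ T hΓ hS hv Fˣ (d ^ i / δ ^ (2 * j)) (-1) (fun c h => by
      obtain ⟨s, h1, h2⟩ := hc c h
      rw [MonoidHom.div_apply, MonoidHom.pow_apply, MonoidHom.pow_apply, h1, h2, ← pow_mul, ← pow_mul, hij, div_self'])
      fun r v φ h1 h2 => by
        obtain ⟨e1, e2⟩ := hr r v φ h1 h2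
        rw [MonoidHom.div_apply, MonoidHom.pow_apply, MonoidHom.pow_apply, pow_mul, e1, e2, one_pow, div_one,
          hi.neg_one_pow]
    have e : (-1 : F) = 1 := congrArg Units.val this
    exact hΓ.two (by linear_combination -e)
  have h1 : finrank F W ≠ 0 := fun e => hne.1 (Submodule.finrank_eq_zero.1 e)
  have h2 : finrank F W < 4 := by simpa using Submodule.finrank_lt hne.2
  obtain h | h | h : finrank F W = 1 ∨ finrank F W = 2 ∨ finrank F W = 3 := by omega
  · exact fin 1 2 odd_one (by rw [h])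
  · exact fin 1 1 odd_one (by rw [h])
  · exact fin 3 2 (by decide) (by rw [h])

end CL.Low4
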