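/-
Project LOW4, job U4: an irreducible group of unitary transvections over the field with four elements that contains
`G(3, 3, 3)` and permutes no frame contains `SU₄(2)`.
-/
import Cfsg.Agent.Low4.Defs2
import Cfsg.Agent.Cls.UniMax

set_option autoImplicit false
set_option linter.unusedSectionVars false

namespace CL.Low4

open Matrix Cfsg Cfsg.Geo CL.Asch CL.SLn CL.Low Module
open scoped commutatorElement

universe u

namespace U4J

variable {F : Type u} [Field F]

/-- The standard Hermitian form over the field with four elements. -/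
def hf (c c' : V F) : F := ∑ i, c i ^ 2 * c' i

/-- A closed irreducible set of isotropic vectors, in coordinates. -/
structure Cl (ω : F) (Y : Set (V F)) : Prop where
  two : (2 : F) = 0
  hω : ω ^ 2 + ω + 1 = 0
  cube : ∀ a : F, a ≠ 0 → a ^ 3 = 1
  iso : ∀ c ∈ Y, hf c c = 0
  smul : ∀ c ∈ Y, ∀ a : F, a • c ∈ Y
  refl : ∀ c ∈ Y, ∀ c' ∈ Y, c' + hf c c' • c ∈ Y
  irr : ∀ W : Submodule F (V F), W ≠ ⊥ → W ≠ ⊤ → ∃ c ∈ Y, c ∉ W ∧ ∃ y ∈ W, hf c y ≠ 0

/-- All vectors of weight two on the first `k` coordinates lie in `Y`. -/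
def GG (Y : Set (V F)) (k : ℕ) : Prop :=
  ∀ i j : Fin 4, i ≠ j → i.val < k → j.val < k → ∀ x y : F, x ≠ 0 → y ≠ 0 → Pi.single i x + Pi.single j y ∈ Y

variable {ω : F} {Y : Set (V F)} {k : ℕ} {c c' : V F}

theorem hf_four (c c' : V F) : hf c c' =
    c 0 ^ 2 * c' 0 + c 1 ^ 2 * c' 1 + c 2 ^ 2 * c' 2 + c 3 ^ 2 * c' 3 := Fin.sum_univ_four _

theorem hf_pair {i j : Fin 4} (hij : i ≠ j) (x y : F) (c : V F) :
    hf (Pi.single i x + Pi.single j y) c = x ^ 2 * c i + y ^ 2 * c j := by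
  rw [hf, Finset.sum_eq_add i j hij] <;> simp +contextual [Pi.single_apply, hij, hij.symm]

/-- Moving an entry to a place where the vector vanishes. -/
theorem mv (h : Cl ω Y) (hG : GG Y k) (hc : c ∈ Y) {i j : Fin 4} (hi : i.val < k) (hj : j.val < k) (h1 : c i ≠ 0)
    (h2 : c j = 0) {x : F} (hx : x ≠ 0) : Function.update (Function.update c i 0) j x ∈ Y := by
  have hij : i ≠ j := fun e => h1 (e ▸ h2)
  have := h.refl _ (hG i j hij hi hj 1 (x / c i) one_ne_zero (div_ne_zero hx h1)) c hc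
  rw [hf_pair hij] at this
  convert this using 1
  funext l
  by_cases e1 : l = j
  · subst e1
    simp [h2, hij.symm, mul_div_cancel₀ _ h1]
  · by_cases e2 : l = i
    · subst e2
      simp only [Function.update_of_ne e1, Function.update_self, h2, Pi.add_apply, Pi.smul_apply, Pi.single_eq_same,
        Pi.single_eq_of_ne e1, smul_eq_mul]
      linear_combination (-c l) * h.two
    · simp [e1, e2]

theorem succ (h : Cl ω Y) (hG : GG Y k) (hk : 2 ≤ k) {i m : Fin 4} (hi : i.val < k) (hm : m.val = k) {x y : F}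
    (hx : x ≠ 0) (hy : y ≠ 0) (hc : Pi.single i x + Pi.single m y ∈ Y) : GG Y (k + 1) := by
  have step : ∀ {i j : Fin 4} {x y : F}, i.val < k → j.val < k → i ≠ j → x ≠ 0 → y ≠ 0 →
      Pi.single i x + Pi.single m y ∈ Y → ∀ x' y' : F, x' ≠ 0 → y' ≠ 0 → Pi.single j x' + Pi.single m y' ∈ Y := by
    intro i j x y hi hj hij hx hy hc x' y' hx' hy'
    have a : i ≠ m := fun e => by rw [e] at hi; omega
    have b : j ≠ m := fun e => by rw [e] at hj; omega
    have := mv h hG (h.smul _ hc (y' / y)) hi hj (by simp [a, hx, hy, hy']) (by simp [b, hij.symm]) hx'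
    convert this using 1
    funext l
    by_cases e1 : l = j
    · simp [e1, b]
    · by_cases e2 : l = i
      · simp [e2, a, hij]
      · by_cases e3 : l = m <;> simp [e1, e2, e3, a.symm, b.symm, div_mul_cancel₀ _ hy]
  have all : ∀ j : Fin 4, j.val < k → ∀ x' y' : F, x' ≠ 0 → y' ≠ 0 → Pi.single j x' + Pi.single m y' ∈ Y := by
    intro j hj
    by_cases e : i = j
    · obtain ⟨l, hl, hil⟩ : ∃ l : Fin 4, l.val < k ∧ i ≠ l := by
        by_cases e : i = 0
        · exact ⟨1, by simp; omega, by simp [e]⟩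
        · exact ⟨0, by simp; omega, e⟩
      exact step hl hj (e ▸ hil.symm) one_ne_zero one_ne_zero (step hi hl hil hx hy hc 1 1 one_ne_zero one_ne_zero)
    · exact step hi hj e hx hy hc
  intro a b hab ha hb x' y' hx' hy'
  by_cases e1 : a = m
  · have : b.val ≠ k := fun e => hab (Fin.ext (by rw [e1, hm, e]))
    rw [add_comm, e1]
    exact all b (by omega) _ _ hy' hx'
  have h1 : a.val ≠ k := fun e => e1 (Fin.ext (by rw [hm, e]))
  by_cases e2 : b = m
  · rw [e2]
    exact all a (by omega) _ _ hx' hy'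
  have h2 : b.val ≠ k := fun e => e2 (Fin.ext (by rw [hm, e]))
  exact hG a b hab (by omega) (by omega) _ _ hx' hy'

/-- Isotropic vectors have even weight. -/
theorem wt (h2 : (2 : F) = 0) (h3 : ∀ a : F, a ≠ 0 → a ^ 3 = 1) (hc : hf c c = 0) :
    c = 0 ∨ (∃ i j, i ≠ j ∧ c i ≠ 0 ∧ c j ≠ 0 ∧ c = Pi.single i (c i) + Pi.single j (c j)) ∨
      ∀ i, c i ≠ 0 := by
  classical
  let s : Finset (Fin 4) := Finset.univ.filter fun i => c i ≠ 0
  have hs : ∀ i, i ∈ s ↔ c i ≠ 0 := fun i => by simp [s]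
  have e : hf c c = s.card := by
    rw [Finset.card_filter, Nat.cast_sum]
    refine Finset.sum_congr rfl fun i _ => ?_
    by_cases a : c i = 0
    · simp [a]
    · rw [if_pos a, ← pow_succ, h3 _ a, Nat.cast_one]
  have ev : s.card % 2 = 0 := by
    by_contra ho
    obtain ⟨m, hm⟩ : ∃ m, s.card = 2 * m + 1 := ⟨s.card / 2, by omega⟩
    rw [hc, hm] at e
    push_cast at e
    exact one_ne_zero (by linear_combination -e - m * h2 : (1 : F) = 0)
  have key : ∀ s : Finset (Fin 4), s.card % 2 = 0 → s = ∅ ∨ (∃ i j, i ≠ j ∧ s = {i, j}) ∨ s = Finset.univ := by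
    decide
  rcases key s ev with e | ⟨i, j, hij, e⟩ | e
  · exact Or.inl (funext fun i => by_contra fun a => by simpa [e] using (hs i).2 a)
  · refine Or.inr (Or.inl ⟨i, j, hij, (hs i).1 (by simp [e]), (hs j).1 (by simp [e]), funext fun l => ?_⟩)
    by_cases e1 : l = i
    · simp [e1, hij]
    · by_cases e2 : l = j
      · simp [e2, hij.symm]
      · simpa [e, e1, e2] using (hs l).not
  · exact Or.inr (Or.inr fun i => (hs i).1 (by simp [e]))

theorem Cl.ω_ne (h : Cl ω Y) : ω ≠ 0 := fun e => one_ne_zero (by linear_combination h.hω - (ω + 1) * e : (1 : F) = 0)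

/-- Swapping two entries with a factor. -/
theorem sw (h : Cl ω Y) (hG : GG Y 4) (hc : c ∈ Y) {i j : Fin 4} (hij : i ≠ j) {a : F} (ha : a ≠ 0) :
    Function.update (Function.update c i (a * c j)) j (a ^ 2 * c i) ∈ Y := by
  have := h.refl _ (hG i j hij i.2 j.2 a 1 ha one_ne_zero) c hc
  rw [hf_pair hij] at this
  convert this using 1
  funext l
  by_cases e1 : l = j
  · subst e1
    simp only [Function.update_self, Pi.add_apply, Pi.smul_apply, Pi.single_eq_same, Pi.single_eq_of_ne hij.symm,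
      smul_eq_mul]
    linear_combination (-c l) * h.two
  · by_cases e2 : l = i
    · subst e2
      simp only [Function.update_of_ne e1, Function.update_self, Pi.add_apply, Pi.smul_apply, Pi.single_eq_same,
        Pi.single_eq_of_ne e1, smul_eq_mul]
      linear_combination (-c l) * h.two - c l * h.cube a ha
    · simp [e1, e2]

/-- The diagonal elements. -/
theorem dg (h : Cl ω Y) (hG : GG Y 4) (hc : c ∈ Y) {i j : Fin 4} (hij : i ≠ j) {t : F} (ht : t ≠ 0) :
    Function.update (Function.update c i (t * c i)) j (t ^ 2 * c j) ∈ Y := by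
  have := sw h hG (sw h hG hc hij (pow_ne_zero 2 ht)) hij one_ne_zero
  convert this using 1
  funext l
  by_cases e1 : l = j
  · simp [e1, hij]
  · by_cases e2 : l = i
    · subst e2
      simp only [Function.update_of_ne e1, Function.update_self]
      linear_combination (-t * c l) * h.cube t ht
    · simp [e1, e2]

theorem dg4 (h : Cl ω Y) (hG : GG Y 4) (hc : c ∈ Y) {r s t : F} (hr : r ≠ 0) (hs : s ≠ 0) (ht : t ≠ 0) :
    ![r * c 0, s * c 1, t * c 2, (r * s * t) ^ 2 * c 3] ∈ Y := by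
  have := dg h hG (dg h hG (dg h hG hc (i := 0) (j := 3) (by simp) hr) (i := 1) (j := 3) (by simp) hs)
    (i := 2) (j := 3) (by simp) ht
  convert this using 1
  funext l
  fin_cases l <;> simp
  ring

theorem step3 (h : Cl ω Y) (hG : GG Y 4) (hc : c ∈ Y) (h1 : ∀ i, c i ≠ 0) (hc' : hf c' c' = 0) : c' ∈ Y := by
  rcases wt h.two h.cube hc' with e | ⟨i, j, hij, a, b, e⟩ | a
  · simpa [e] using h.smul c hc 0
  · exact e ▸ hG i j hij i.2 j.2 _ _ a b
  obtain ⟨r, r0, hr⟩ : ∃ r : Fin 4 → F, (∀ i, r i ≠ 0) ∧ ∀ i, c' i = r i * c i :=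
    ⟨fun i => c' i / c i, fun i => div_ne_zero (a i) (h1 i), fun i => (div_mul_cancel₀ _ (h1 i)).symm⟩
  have p0 : r 0 * r 1 * r 2 ≠ 0 := mul_ne_zero (mul_ne_zero (r0 0) (r0 1)) (r0 2)
  obtain ⟨s, hs⟩ : ∃ s, s = r 0 * r 1 * r 2 * r 3 := ⟨_, rfl⟩
  have s0 : s ≠ 0 := hs ▸ mul_ne_zero p0 (r0 3)
  have s3 := h.cube s s0
  have e : (r 0 * s ^ 2 * (r 1 * s ^ 2) * (r 2 * s ^ 2)) ^ 2 * s = r 3 := by
    have : (r 0 * s ^ 2 * (r 1 * s ^ 2) * (r 2 * s ^ 2)) ^ 2 * s = (r 0 * r 1 * r 2) ^ 3 * (s ^ 3) ^ 4 * r 3 := by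
      rw [hs]; ring
    rw [this, h.cube _ p0, s3]; ring
  have k : ∀ i, r i * s ^ 2 ≠ 0 := fun i => mul_ne_zero (r0 i) (pow_ne_zero 2 s0)
  have := dg4 h hG (h.smul c hc s) (k 0) (k 1) (k 2)
  convert this using 1
  funext l
  fin_cases l <;> simp only [hr, Pi.smul_apply, smul_eq_mul] <;> simp
  · linear_combination (-r 0 * c 0) * s3
  · linear_combination (-r 1 * c 1) * s3
  · linear_combination (-r 2 * c 2) * s3
  · linear_combination (-c 3) * e

/-- All isotropic vectors on the first three coordinates lie in `Y`. -/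
theorem mem_of_three (h : Cl ω Y) (hG : GG Y 3) (h3 : c 3 = 0) (hc : hf c c = 0) : c ∈ Y := by
  rcases wt h.two h.cube hc with e | ⟨i, j, hij, a, b, e⟩ | b
  · simpa [e] using h.smul _ (hG 0 1 (by simp) (by simp) (by simp) 1 1 one_ne_zero one_ne_zero) 0
  · have lt : ∀ i : Fin 4, c i ≠ 0 → i.val < 3 := fun i hi =>
      (by decide : ∀ i : Fin 4, i ≠ 3 → i.val < 3) i fun e => hi (e ▸ h3)
    exact e ▸ hG i j hij (lt i a) (lt j b) _ _ a b
  · exact absurd h3 (b 3)

theorem step1b (h : Cl ω Y) : ∃ c ∈ Y, c 3 ^ 3 = 1 := by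
  obtain ⟨c, hc, c3, -⟩ := h.irr (LinearMap.ker (LinearMap.proj (3 : Fin 4) : V F →ₗ[F] F))
    (fun e => by simpa using (Submodule.eq_bot_iff _).1 e (Pi.single 0 1) (by simp))
    (fun e => by simpa using Submodule.eq_top_iff'.1 e (Pi.single 3 1))
  exact ⟨c, hc, h.cube _ c3⟩

/-- A unit vector lies in an orthonormal basis adapted to the decomposition `3 + 1`. -/
theorem exists_on (h : Cl ω Y) (hc : c ∈ Y) (hd : c 3 ^ 3 = 1) :
    ∃ m : Fin 4 → V F, (∀ i j, hf (m i) (m j) = if i = j then 1 else 0) ∧ (∀ i, i.val < 3 → m i 3 = 0) ∧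
      c = m 0 + m 3 := by
  have hw : c 0 ^ 3 + c 1 ^ 3 + c 2 ^ 3 = 1 := by
    have := h.iso c hc
    rw [hf_four] at this
    linear_combination this - hd - h.two
  obtain ⟨u, u0, hu⟩ : ∃ u : Fin 3 → Fin 3 → F, u 0 = ![c 0, c 1, c 2] ∧
      ∀ i j, u i 0 ^ 2 * u j 0 + u i 1 ^ 2 * u j 1 + u i 2 ^ 2 * u j 2 = if i = j then 1 else 0 := by
    have c3 := h.cube _ h.ω_ne
    have two : ∀ {a b : F}, a ≠ 0 → b ≠ 0 → a ^ 3 + b ^ 3 ≠ 1 := fun ha hb e =>
      one_ne_zero (by linear_combination e - h.cube _ ha - h.cube _ hb : (1 : F) = 0)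
    by_cases a : c 0 = 0 <;> by_cases b : c 1 = 0 <;> by_cases d : c 2 = 0
    · simp [a, b, d] at hw
    · exact ⟨![![c 0, c 1, c 2], ![1, 0, 0], ![0, 1, 0]], rfl, fun i j => by
        fin_cases i <;> fin_cases j <;> simp [a, b, ← pow_succ, h.cube _ d]⟩
    · exact ⟨![![c 0, c 1, c 2], ![1, 0, 0], ![0, 0, 1]], rfl, fun i j => by
        fin_cases i <;> fin_cases j <;> simp [a, d, ← pow_succ, h.cube _ b]⟩
    · exact (two b d (by simpa [a] using hw)).elim
    · exact ⟨![![c 0, c 1, c 2], ![0, 1, 0], ![0, 0, 1]], rfl, fun i j => by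
        fin_cases i <;> fin_cases j <;> simp [b, d, ← pow_succ, h.cube _ a]⟩
    · exact (two a d (by simpa [b] using hw)).elim
    · exact (two a b (by simpa [d] using hw)).elim
    · refine ⟨![![c 0, c 1, c 2], ![c 0, ω * c 1, ω ^ 2 * c 2], ![c 0, ω ^ 2 * c 1, ω * c 2]], rfl, fun i j => ?_⟩
      have x := h.cube _ a
      have y := h.cube _ b
      have z := h.cube _ d
      fin_cases i <;> fin_cases j <;> simp
      · linear_combination hw
      · linear_combination x + ω * y + ω ^ 2 * z + h.hω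
      · linear_combination x + ω ^ 2 * y + ω * z + h.hω
      · linear_combination x + ω ^ 2 * y + ω ^ 4 * z + h.hω + ω * c3
      · linear_combination hw + c 1 ^ 3 * c3 + c 2 ^ 3 * (ω ^ 3 + 1) * c3
      · linear_combination x + ω ^ 4 * y + ω ^ 5 * z + h.hω + (ω + ω ^ 2) * c3
      · linear_combination x + ω ^ 4 * y + ω ^ 2 * z + h.hω + ω * c3
      · linear_combination x + ω ^ 5 * y + ω ^ 4 * z + h.hω + (ω + ω ^ 2) * c3
      · linear_combination hw + c 2 ^ 3 * c3 + c 1 ^ 3 * (ω ^ 3 + 1) * c3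
  refine ⟨![![u 0 0, u 0 1, u 0 2, 0], ![u 1 0, u 1 1, u 1 2, 0], ![u 2 0, u 2 1, u 2 2, 0],
    ![0, 0, 0, c 3]], fun i j => ?_, fun i hi => by fin_cases i <;> simp_all, ?_⟩
  · fin_cases i <;> fin_cases j <;> simp [hf_four, hu]
    linear_combination hd
  · funext l
    fin_cases l <;> simp [u0]

section Form

open CL.Uni

variable [Fintype F] {σ : F →+* F} {B : V F →ₛₗ[σ] V F →ₗ[F] F} {P : Subgroup (G F)} {b : Fin 4 → V F}

/-- The image of `P` in the group of linear automorphisms. -/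
noncomputable abbrev MP (P : Subgroup (G F)) : Subgroup (V F ≃ₗ[F] V F) := P.map (glEquiv (Fin 4) F).toMonoidHom

theorem rf_cen (hB : IsHerm B 2) (h2 : (2 : F) = 0) (hP : MP P ≤ UG B) {v : V F} {φ : Dual F (V F)} (h : Rf P v φ) :
    v ∈ UCen B (MP P) ∧ φ = B v := by
  obtain ⟨g, hg, eg⟩ := h.mem
  have hg' : glEquiv (Fin 4) F g ∈ MP P := ⟨g, hg, rfl⟩
  have k : ∀ y z, B (y - φ y • v) (z - φ z • v) = B y z := fun y z => by
    rw [← eg, ← eg]; exact hP hg' y z
  obtain ⟨y, hy⟩ : ∃ y, φ y = 1 := by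
    obtain ⟨y, hy⟩ := DFunLike.ne_iff.1 h.ne'
    exact ⟨(φ y)⁻¹ • y, by rw [map_smul, smul_eq_mul, inv_mul_cancel₀ hy]⟩
  have vv : B v v = 0 := by simpa [hy, h.two, h2] using k y v
  have k1 : ∀ z, φ z * B y v = B v z := fun z => by
    have := k y z
    simp only [hy, one_smul, map_sub, map_smul, LinearMap.sub_apply, smul_eq_mul, vv] at this
    linear_combination -this - B v z * h2
  have k2 : B y v = 1 := by
    obtain ⟨z, hz⟩ := hB.exists_ne_zero h.ne
    have e := k1 y
    rw [hy, ← hB.symm y v, hB.bar.apply] at e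
    exact mul_left_cancel₀ (right_ne_zero_of_mul (k1 z ▸ hz)) (by linear_combination -e)
  have k3 : φ = B v := LinearMap.ext fun z => by rw [← k1, k2, mul_one]
  refine ⟨⟨vv, fun c g' hc e => ?_⟩, k3⟩
  rw [hB.bar.apply] at hc
  rcases mul_eq_zero.1 (show c * (c - 1) = 0 by linear_combination hc - c * h2) with rfl | e1
  · rw [show g' = 1 from LinearEquiv.ext fun z => by simp [e z]]
    exact Subgroup.one_mem _
  · rw [show g' = glEquiv (Fin 4) F g from LinearEquiv.ext fun z => by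
      rw [e z, sub_eq_zero.1 e1, glEquiv_apply, ← gsmul_def, eg, k3]
      linear_combination (norm := module) (B v z * h2) • v]
    exact hg'

theorem form_up (hB : IsHerm B 2) (hb : Bi b fun i => B (b i)) (c c' : V F) : B (up b c) (up b c') = hf c c' := by
  rw [up_apply c, map_sum B, LinearMap.sum_apply]
  exact Finset.sum_congr rfl fun i _ => by
    rw [LinearMap.map_smulₛₗ, LinearMap.smul_apply, hB.bar.apply, smul_eq_mul, ← co_apply (x := fun i => B (b i)),
      hb.co_up]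

theorem up_co' (hb : Bi b fun i => B (b i)) (v : V F) : up b (co (fun i => B (b i)) v) = v := by
  rw [up_co, hb.pr_eq_self (by simp)]

theorem cl (hB : IsHerm B 2) (hE : Ev P) (hω : ω ^ 2 + ω + 1 = 0) (hP : MP P ≤ UG B) (hb : Bi b fun i => B (b i)) :
    Cl ω (up b ⁻¹' UCen B (MP P)) where
  two := hE.two
  hω := hω
  cube a ha := mul_left_cancel₀ ha (by
    have := hB.bar_bar a
    rw [hB.bar.apply, hB.bar.apply] at this
    linear_combination this)
  iso c hc := form_up hB hb c c ▸ hc.1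
  smul c hc a := by
    rw [Set.mem_preimage, map_smul]; exact hB.smul_mem_uCen hc a
  refl c hc c' hc' := by
    have := hB.add_smul_mem_uCen hP hc hc' (c := 1) (by rw [map_one]; linear_combination hE.two)
    rwa [one_mul, form_up hB hb, ← map_smul, ← map_add] at this
  irr W h0 h1 := by
    by_contra! H
    rcases irr_rf hE.gen hE.irr (W.map (up b)) (by
      rintro v φ h _ ⟨y, hy, rfl⟩
      obtain ⟨k1, rfl⟩ := rf_cen hB hE.two hP h
      rw [← up_co' hb v] at k1 ⊢
      by_cases m : co (fun i => B (b i)) v ∈ W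
      · exact Submodule.smul_mem _ _ ⟨_, m, rfl⟩
      · rw [form_up hB hb, H _ k1 m y hy, zero_smul]
        exact Submodule.zero_mem _) with e | e
    · exact h0 ((Submodule.eq_bot_iff _).2 fun y m => hb.up_inj (by
        rw [map_zero]; exact (Submodule.eq_bot_iff _).1 e _ ⟨y, m, rfl⟩))
    · refine h1 (Submodule.eq_top_iff'.2 fun y => ?_)
      obtain ⟨y', m, e'⟩ := Submodule.eq_top_iff'.1 e (up b y)
      exact hb.up_inj e' ▸ m

theorem ext_on (hB : IsHerm B 2) {e : Fin k → V F} (hb : Bi e fun i => B (e i)) (hk : k ≠ 4) :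
    ∃ d, Bi (Fin.snoc e d : Fin (k + 1) → V F) fun i => B ((Fin.snoc e d : Fin (k + 1) → V F) i) := by
  obtain ⟨d, χ, h1, -, h3⟩ := hb.exists_snoc (by simpa using hk)
  obtain ⟨u, hu, u1⟩ := hB.exists_mem_self_eq (W := perp B (Submodule.span F (Set.range e)))
    (hB.disjoint_perp_perp (hB.disjoint_perp_iff.2 fun u hu h0 => by
      obtain ⟨a, rfl⟩ := (Submodule.mem_span_range_iff_exists_fun F).1 hu
      have : co (fun i => B (e i)) (up e a) = 0 := funext fun i =>
        hB.flip_zero (h0 _ (Submodule.subset_span ⟨i, rfl⟩))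
      rw [hb.co_up] at this
      simp [this]))
    (fun e0 => by
      have : d = 0 := (Submodule.eq_bot_iff _).1 e0 d (mem_perp_span.2 (by rintro _ ⟨i, rfl⟩; exact h1 i))
      simp [this] at h3) (map_one σ)
  have u2 : ∀ i, B (e i) u = 0 := fun i => mem_perp_span.1 hu _ ⟨i, rfl⟩
  refine ⟨u, ?_⟩
  convert hb.snoc (χ := B u) u2 (fun i => hB.flip_zero (u2 i)) u1 using 1
  funext i
  refine Fin.lastCases ?_ (fun i => ?_) i <;> simp

end Form

end U4J

open U4J CL.Uni in
theorem subU4 : SubU4.{u} := by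
  intro F _ _ P hE σ hσ f hf' hI ω e x hT
  have h2 := hE.two
  have hω := hT.hω
  have ω0 : ω ≠ 0 := fun e => one_ne_zero (by linear_combination hω - (ω + 1) * e : (1 : F) = 0)
  have ω1 : ω ^ 2 ≠ 1 := fun e => ω0 (by linear_combination hω - e - h2)
  have ω3 : ω ^ 3 = 1 := by linear_combination (ω - 1) * hω
  obtain ⟨q, hq⟩ := exists_isBar σ (fun e => ω1 (by
    have := hσ (ω ^ 2)
    rw [e, RingHom.id_apply] at this
    exact mul_left_cancel₀ (pow_ne_zero 2 ω0) (by linear_combination -this))) hf'.invol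
  obtain rfl : q = 2 := le_antisymm (not_lt.1 fun h3 => by
    obtain ⟨a, a0, ha⟩ := hq.exists_norm_ne_one h3
    have := hf'.invol a
    rw [hσ, hσ] at this
    exact ha (mul_left_cancel₀ a0 (by rw [hσ]; linear_combination this))) hq.two_le
  have hB := hf'.isHerm hq
  generalize hBe : hf'.isSL.toSesq = B at hB
  have hP : MP P ≤ UG B := by
    rintro _ ⟨g, hg, rfl⟩ u v
    rw [← hBe]
    exact hI g hg v u
  have ex : (fun i => B (e i)) = x := funext fun j => LinearMap.ext fun y => by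
    obtain ⟨i, hi⟩ := exists_ne j
    have k : ∀ a : F, a ^ 3 = 1 → x i y - a⁻¹ * x j y = B (e i) y - a ^ 2 * B (e j) y := fun a ha => by
      simpa [LinearMap.map_smulₛₗ, hσ] using DFunLike.congr_fun (rf_cen hB h2 hP (hT.rf i j hi a ha)).2 y
    have k1 := k 1 (by simp)
    rw [inv_one] at k1
    have k2 := k ω ω3
    rw [show ω⁻¹ = ω ^ 2 from inv_eq_of_mul_eq_one_right (by linear_combination ω3)] at k2
    exact mul_left_cancel₀ (sub_ne_zero.2 ω1) (by linear_combination k2 - k1)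
  obtain ⟨d, hb⟩ := ext_on hB (ex ▸ hT.bi) (by simp)
  generalize hbe : (Fin.snoc e d : Fin 4 → V F) = b at hb
  have hC := cl hB hE hω hP hb
  have up2 : ∀ (b : Fin 4 → V F) (i j : Fin 4) (s t : F), up b (Pi.single i s + Pi.single j t) = s • b i + t • b j :=
    fun b i j s t => by simp [up]
  have g3 : GG (up b ⁻¹' UCen B (MP P)) 3 := fun i j hij hi hj s t hs ht => by
    have be : ∀ (i : Fin 4) (hi : i.val < 3), b i = e ⟨i, hi⟩ := fun i hi => by
      rw [← hbe]; fin_cases i <;> first | rfl | simp at hi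
    have := hB.smul_mem_uCen (rf_cen hB h2 hP (hT.rf ⟨i, hi⟩ ⟨j, hj⟩ (fun e => hij (Fin.ext (Fin.mk.inj e)))
      (t / s) (hC.cube _ (div_ne_zero ht hs)))).1 s
    rw [Set.mem_preimage, up2, be i hi, be j hj]
    convert this using 1
    rw [smul_sub, smul_smul, mul_div_cancel₀ _ hs]
    linear_combination (norm := module) (t * h2) • e ⟨j, hj⟩
  obtain ⟨c, hc, hc1⟩ := step1b hC
  obtain ⟨m, hm, hm3, rfl⟩ := exists_on hC hc hc1
  have hb' : Bi (fun i => up b (m i)) fun i => B (up b (m i)) :=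
    ⟨fun i => by rw [form_up hB hb, hm, if_pos rfl], fun i j hij => by rw [form_up hB hb, hm, if_neg hij]⟩
  have hC' := cl hB hE hω hP hb'
  have g3' : GG (up (fun i => up b (m i)) ⁻¹' UCen B (MP P)) 3 := fun i j hij hi hj s t hs ht => by
    have iso := form_up hB hb' (Pi.single i s + Pi.single j t) (Pi.single i s + Pi.single j t)
    rw [Set.mem_preimage]
    rw [up2, ← map_smul, ← map_smul, ← map_add] at iso ⊢
    refine mem_of_three (c := s • m i + t • m j) hC g3 (by simp [hm3 i hi, hm3 j hj]) ?_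
    rw [← form_up hB hb, iso, hf_pair hij]
    simp [hij, hij.symm, ← pow_succ, hC.cube _ hs, hC.cube _ ht, one_add_one_eq_two, h2]
  have g5 : GG _ 4 := succ hC' g3' (by norm_num) (i := 0) (by simp) (m := 3) rfl one_ne_zero one_ne_zero (by
    rwa [Set.mem_preimage, up2, one_smul, one_smul, ← map_add])
  obtain ⟨b', hb', hC', g5⟩ : ∃ b' : Fin 4 → V F, (Bi b' fun i => B (b' i)) ∧ Cl ω (up b' ⁻¹' UCen B (MP P)) ∧
    GG (up b' ⁻¹' UCen B (MP P)) 4 := ⟨_, hb', hC', g5⟩
  obtain ⟨c, hc, h1⟩ : ∃ c ∈ up b' ⁻¹' UCen B (MP P), ∀ i, c i ≠ 0 := by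
    by_contra H
    refine hE.noFrame (frame_of_mon hE.gen hb' fun v φ h => ?_)
    obtain ⟨k1, rfl⟩ := rf_cen hB h2 hP h
    have hv := up_co' hb' v
    generalize co (fun i => B (b' i)) v = c at hv
    subst hv
    rcases wt h2 hC.cube (hC'.iso c k1) with e | ⟨i, j, hij, a, b, e⟩ | e
    · exact absurd (by rw [e, map_zero]) h.ne
    · have inv : ∀ a : F, a ≠ 0 → a⁻¹ = σ a := fun a ha => inv_eq_of_mul_eq_one_right (by
        rw [hσ]; linear_combination hC.cube a ha)
      refine Or.inr ⟨i, j, c i, c j, hij, a, b, by rw [← up2, ← e], ?_⟩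
      rw [e, up2, map_add, LinearMap.map_smulₛₗ, LinearMap.map_smulₛₗ, ← e, inv _ a, inv _ b]
    · exact (H ⟨c, k1, e⟩).elim
  have hle := hB.SUG_le_of_uCen (M := MP P) (by simp) fun v hv => by
    rw [← up_co' hb' v] at hv ⊢
    rw [form_up hB hb'] at hv
    exact step3 (c' := co (fun i => B (b' i)) v) hC' g5 hc h1 hv
  intro a ha
  obtain ⟨a', h1, h2⟩ := hle (x := glEquiv (Fin 4) F a) (by
    rw [mem_SUG, dt_glEquiv, ← hBe]
    exact ⟨fun u v => ha.1 v u, ha.2⟩)
  exact (glEquiv (Fin 4) F).injective h2 ▸ h1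

end CL.Low4
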