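/-
Project LOW4: a four-dimensional group with the generators of `PSp₄(3)` has its traces in `ℤ[ω]`.
-/
import Cfsg.Agent.Low4.Defs3
import Cfsg.Agent.Low4.Om

set_option autoImplicit false
set_option linter.unusedSectionVars false
set_option linter.unnecessarySeqFocus false

namespace CL.Low4

open Matrix Cfsg Cfsg.Geo CL.Asch CL.SLn CL.Low Module
open scoped commutatorElement MatrixGroups

universe u

namespace U42x

theorem pow_finrank {F : Type u} [Field F] {W : Type u} [AddCommGroup W] [Module F W] [FiniteDimensional F W]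
    (a b : W →ₗ[F] W) (ha : Function.Injective a) (hb : Function.Injective b) {c : F}
    (h : a * b = c • (b * a)) : c ^ finrank F W = 1 := by
  have e := congrArg LinearMap.det h
  rw [map_mul, LinearMap.det_smul, map_mul] at e
  have h1 : LinearMap.det a ≠ 0 := fun k =>
    (LinearMap.bot_lt_ker_of_det_eq_zero k).ne' (LinearMap.ker_eq_bot.2 ha)
  have h2 : LinearMap.det b ≠ 0 := fun k =>
    (LinearMap.bot_lt_ker_of_det_eq_zero k).ne' (LinearMap.ker_eq_bot.2 hb)
  exact mul_right_cancel₀ (mul_ne_zero h1 h2) (by linear_combination -e)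

variable {F : Type u} [Field F]

/-- The linear map of an invertible matrix. -/
def lin (g : G F) : V F →ₗ[F] V F := DistribSMul.toLinearMap F (V F) g

theorem lin_apply (g : G F) (y : V F) : lin g y = g • y := rfl

theorem dvd_finrank {x y z : G F} (hz : z = ⁅x, y⁆) (hx : Commute z x) (hy : Commute z y) {η : F}
    (hη : η ^ 2 + η + 1 = 0) (h3 : (3 : F) ≠ 0) : 3 ∣ finrank F (LinearMap.ker (lin z - η • LinearMap.id)) := by
  set W := LinearMap.ker (lin z - η • (LinearMap.id : V F →ₗ[F] V F)) with hW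
  have mem : ∀ w, w ∈ W ↔ z • w = η • w := fun w => by
    rw [hW, LinearMap.mem_ker, LinearMap.sub_apply, sub_eq_zero]; rfl
  have inv : ∀ g : G F, Commute z g → ∀ w ∈ W, lin g w ∈ W := fun g hg w hw => by
    rw [mem] at hw ⊢
    rw [lin_apply, ← mul_smul, hg.eq, mul_smul, hw, gsmul_smul]
  have inj : ∀ (g : G F) (hg : Commute z g), Function.Injective ((lin g).restrict (inv g hg)) := fun g hg a b e =>
    Subtype.ext (MulAction.injective g (congrArg Subtype.val e))
  have e := pow_finrank _ _ (inj x hx) (inj y hy) (c := η) (LinearMap.ext fun w => Subtype.ext (by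
    have k := (mem _).1 (inv y hy _ (inv x hx w.1 w.2))
    rw [lin_apply, lin_apply, ← mul_smul, ← mul_smul, hz, commutatorElement_def] at k
    show x • y • w.1 = η • y • x • w.1
    rw [← k, ← mul_smul]
    congr 1
    group))
  have h1 : η ≠ 1 := fun k => h3 (by rw [k] at hη; linear_combination hη)
  have ho : orderOf η = 3 := by
    have : Fact (Nat.Prime 3) := ⟨by norm_num⟩
    exact orderOf_eq_prime (by linear_combination (η - 1) * hη) h1
  exact ho ▸ orderOf_dvd_of_pow_eq_one e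

/-- The centre of a Heisenberg group in dimension four is a homology times a scalar. -/
theorem exists_homol {x y z : G F} (hz : z = ⁅x, y⁆) (hx : Commute z x) (hy : Commute z y) (hz3 : z ^ 3 = 1)
    (hz1 : z ≠ 1) {ω : F} (hω : ω ^ 2 + ω + 1 = 0) (h3 : (3 : F) ≠ 0) :
    ∃ (η : F) (v : V F) (φ : Dual F (V F)), η ^ 2 + η + 1 = 0 ∧ φ v = 1 - η ^ 2 ∧ ∀ w, z • w = η • (w - φ w • v) := by
  obtain ⟨η, hη, w, hw0, hw⟩ : ∃ η : F, η ^ 2 + η + 1 = 0 ∧ ∃ w : V F, w ≠ 0 ∧ z • w = η • w := by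
    obtain ⟨a, ha⟩ : ∃ a : V F, z • a ≠ a := by
      by_contra! k
      exact hz1 (gext fun a => by rw [k, one_smul])
    by_cases k : z • (z • a - a) = ω ^ 2 • (z • a - a)
    · exact ⟨ω ^ 2, by linear_combination (ω ^ 2 - ω + 1) * hω, _, sub_ne_zero.2 ha, k⟩
    · refine ⟨ω, hω, _, sub_ne_zero.2 k, ?_⟩
      have e : z • z • z • a = a := by rw [← mul_smul, ← mul_smul, ← pow_two, ← pow_succ, hz3, one_smul]
      simp only [smul_sub, gsmul_smul, e]
      generalize z • z • a = b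
      generalize z • a = c
      linear_combination (norm := module) hω • (c - b) + ((ω - 1) * hω) • (c - a)
  set N := lin z - η • (LinearMap.id : V F →ₗ[F] V F) with hN
  have hNa : ∀ w, N w = z • w - η • w := fun w => rfl
  have hd := dvd_finrank hz hx hy hη h3
  rw [← hN] at hd
  have hs := LinearMap.finrank_range_add_finrank_ker N
  have hp : 0 < finrank F (LinearMap.ker N) := finrank_pos_iff_exists_ne_zero.2
    ⟨⟨w, by rw [LinearMap.mem_ker, hNa, hw, sub_self]⟩, fun e => hw0 (congrArg Subtype.val e)⟩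
  rw [finrank_fin_fun] at hs
  have hr : finrank F (LinearMap.range N) = 1 := by omega
  obtain ⟨⟨v, hvN⟩, hv, hall⟩ := finrank_eq_one_iff'.mp hr
  have hv0 : v ≠ 0 := fun e => hv (Subtype.ext e)
  obtain ⟨ψ, hψ⟩ := exists_dual_eq_one (F := F) hv0
  have h1 : ∀ x, N x = ψ (N x) • v := fun x => by
    obtain ⟨c, hc⟩ := hall ⟨N x, x, rfl⟩
    have hc' : c • v = N x := congrArg Subtype.val hc
    rw [← hc']
    simp [hψ]
  obtain ⟨a, ha⟩ := hvN
  have eig : ∀ g : G F, Commute z g → ∃ c : F, g • v = c • v := fun g hg => ⟨ψ (N (g • a)), by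
    rw [← h1, ← ha, hNa, hNa, smul_sub, gsmul_smul, ← mul_smul, ← mul_smul, hg.eq]⟩
  obtain ⟨c, hc⟩ := eig x hx
  obtain ⟨d, hd⟩ := eig y hy
  have hzv : z • v = v := by
    have e1 : (z * (y * x)) • v = (y * x) • v := by
      rw [show z * (y * x) = x * y by rw [hz, commutatorElement_def]; group, mul_smul, mul_smul, hc, hd, gsmul_smul,
        gsmul_smul, hc, hd, smul_comm]
    rw [(hy.mul_right hx).eq, mul_smul] at e1
    exact MulAction.injective _ e1
  have h4 : η ^ 3 = 1 := by linear_combination (η - 1) * hη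
  refine ⟨η, v, (-η ^ 2) • (ψ ∘ₗ N), hη, ?_, fun w => ?_⟩
  · rw [LinearMap.smul_apply, LinearMap.comp_apply, hNa, hzv, map_sub, map_smul, hψ, smul_eq_mul, smul_eq_mul]
    linear_combination h4
  · have := h1 w
    rw [LinearMap.smul_apply, LinearMap.comp_apply, smul_eq_mul]
    generalize ψ (N w) = t at this ⊢
    rw [hNa] at this
    generalize z • w = b at this ⊢
    linear_combination (norm := module) this - (t * h4) • v

variable {h k : G F} {v w : V F} {φ ψ : Dual F (V F)} {a : F}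

theorem braid (hh : ∀ y, h • y = y - φ y • v) (hk : ∀ y, k • y = y - ψ y • w) (h1 : φ v = a) (h2 : ψ w = a)
    (hb : h * k * h = k * h * k) (hne : h ≠ k) : φ w * ψ v = a - 1 := by
  by_contra hn
  refine hne (gext fun y => ?_)
  have e := congrArg (· • y) hb
  simp only [mul_smul, hh, hk, map_sub, map_smul, smul_eq_mul, h1, h2] at e
  have : (a - 1 - φ w * ψ v) • (φ y • v - ψ y • w) = 0 := by linear_combination (norm := module) e
  rw [hh, hk, sub_eq_zero.1 ((smul_eq_zero.1 this).resolve_left fun k => hn (by linear_combination -k))]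

theorem comm (hh : ∀ y, h • y = y - φ y • v) (hk : ∀ y, k • y = y - ψ y • w) (h1 : φ v = a) (h2 : ψ w = a)
    (ha : a ≠ 0) (hb : Commute h k) (hne : h ≠ k) : φ w = 0 := by
  by_contra hn
  refine hne (gext fun y => ?_)
  have e : ∀ y, (ψ y * φ w) • v = (φ y * ψ v) • w := fun y => by
    have e := congrArg (· • y) hb.eq
    simp only [mul_smul, hh, hk, map_sub, map_smul, smul_eq_mul] at e
    linear_combination (norm := module) e
  have e1 : a • v = ψ v • w := smul_right_injective _ hn (by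
    have := e w
    rw [h2] at this
    show φ w • a • v = φ w • ψ v • w
    linear_combination (norm := module) this)
  have e2 : a * a = ψ v * φ w := by simpa [h1] using congrArg φ e1
  have e3 : ψ y * φ w * a = φ y * a * a := by
    have := congrArg φ (e y)
    simp only [map_smul, smul_eq_mul, h1] at this
    linear_combination this - φ y * e2
  have e4 : ψ y * φ w = φ y * a := mul_right_cancel₀ ha e3
  have hq : ψ v ≠ 0 := fun k => mul_ne_zero ha ha (by rw [e2, k, zero_mul])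
  rw [hh, hk]
  congr 1
  refine smul_right_injective _ (mul_ne_zero hq hn) ?_
  show (ψ v * φ w) • φ y • v = (ψ v * φ w) • ψ y • w
  linear_combination (norm := module) (ψ y * φ w) • e1 - (φ y * e2) • v - (a * e4) • v

theorem next (hh : ∀ y, h • y = y - φ y • v) (h1 : φ v = a) (ha : a ≠ 1) (hb : h * k * h = k * h * k) (hne : h ≠ k) :
    ∃ (w : V F) (ψ : Dual F (V F)), (∀ y, k • y = y - ψ y • w) ∧ ψ w = a ∧ φ w = 1 ∧ ψ v = a - 1 := by
  have hk : ∀ y, k • y = y - dact (h * k) φ y • ((h * k) • v) := fun y => by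
    have : k = h * k * h * (h * k)⁻¹ := by rw [hb]; group
    conv_lhs => rw [this]
    rw [mul_smul, mul_smul (h * k), hh ((h * k)⁻¹ • y), smul_sub, smul_inv_smul, gsmul_smul, dact_apply]
  have h2 : dact (h * k) φ ((h * k) • v) = a := by rw [dact_apply, inv_smul_smul, h1]
  have e := braid hh hk h1 h2 hb hne
  generalize dact (h * k) φ = ψ at hk h2 e
  generalize (h * k) • v = w at hk h2 e
  have h0 : φ w ≠ 0 := fun k => ha (by rw [k, zero_mul] at e; linear_combination -e)
  refine ⟨(φ w)⁻¹ • w, φ w • ψ, fun y => ?_, ?_, ?_, ?_⟩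
  · rw [hk, LinearMap.smul_apply, smul_eq_mul, smul_smul, mul_comm (φ w), mul_inv_cancel_right₀ h0]
  · rw [LinearMap.smul_apply, map_smul, h2, smul_eq_mul, smul_eq_mul, mul_inv_cancel_left₀ h0]
  · rw [map_smul, smul_eq_mul, inv_mul_cancel₀ h0]
  · rw [LinearMap.smul_apply, smul_eq_mul, e]

theorem inv_homol {ζ : F} (hζ : ζ ^ 2 + ζ + 1 = 0) (hh : ∀ y, h • y = y - φ y • v) (h1 : φ v = 1 - ζ) (y : V F) :
    h⁻¹ • y = y - (-ζ ^ 2 * φ y) • v := by
  rw [inv_smul_eq_iff, hh, map_sub, map_smul, h1, smul_eq_mul]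
  linear_combination (norm := module) ((1 - ζ) * φ y * hζ) • v

theorem traces [Finite F] (R : Subring (F × F)) {ζ : F} (hζ : ζ ^ 2 + ζ + 1 = 0) (h3 : (3 : F) ≠ 0)
    (hR : (ζ, ζ ^ 2) ∈ R) {h : Fin 4 → G F} (hi : Function.Injective h) (b0 : h 0 * h 1 * h 0 = h 1 * h 0 * h 1)
    (b1 : h 1 * h 2 * h 1 = h 2 * h 1 * h 2) (b2 : h 2 * h 3 * h 2 = h 3 * h 2 * h 3) (c02 : Commute (h 0) (h 2))
    (c03 : Commute (h 0) (h 3)) (c13 : Commute (h 1) (h 3)) (h0 : ∀ y, h 0 • y = y - φ y • v) (a0 : φ v = 1 - ζ)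
    {g : G F} (hg : g ∈ Subgroup.closure (Set.range h)) : (tr g, tr g⁻¹) ∈ R := by
  have ha : 1 - ζ ≠ 1 := fun k => by
    rw [show ζ = 0 by linear_combination -k] at hζ
    simp at hζ
  have ha0 : 1 - ζ ≠ 0 := fun k => h3 (by rw [show ζ = 1 by linear_combination -k] at hζ; linear_combination hζ)
  obtain ⟨v1, φ1, h1, a1, p01, p10⟩ := next h0 a0 ha b0 (hi.ne (by decide))
  obtain ⟨v2, φ2, h2, a2, p12, p21⟩ := next h1 a1 ha b1 (hi.ne (by decide))
  obtain ⟨v3, φ3, h3, a3, p23, p32⟩ := next h2 a2 ha b2 (hi.ne (by decide))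
  have p02 := comm h0 h2 a0 a2 ha0 c02 (hi.ne (by decide))
  have p20 := comm h2 h0 a2 a0 ha0 c02.symm (hi.ne (by decide))
  have p03 := comm h0 h3 a0 a3 ha0 c03 (hi.ne (by decide))
  have p30 := comm h3 h0 a3 a0 ha0 c03.symm (hi.ne (by decide))
  have p13 := comm h1 h3 a1 a3 ha0 c13 (hi.ne (by decide))
  have p31 := comm h3 h1 a3 a1 ha0 c13.symm (hi.ne (by decide))
  have r1 : (1 - ζ, -ζ ^ 2 * (1 - ζ)) ∈ R := by
    convert R.sub_mem R.one_mem hR using 1
    exact Prod.ext rfl (by show _ = 1 - ζ ^ 2; linear_combination (ζ - 1) * hζ)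
  have r2 : (1, -ζ ^ 2 * (1 - ζ - 1)) ∈ R := by
    convert R.one_mem using 1
    exact Prod.ext rfl (by show _ = 1; linear_combination (ζ - 1) * hζ)
  have r3 : (1 - ζ - 1, -ζ ^ 2 * 1) ∈ R := by
    convert R.neg_mem hR using 1
    exact Prod.ext (by show _ = -ζ; ring) (by show _ = -ζ ^ 2; ring)
  have r4 : ((0 : F), -ζ ^ 2 * 0) ∈ R := by
    rw [mul_zero]; exact R.zero_mem
  refine (trace_lemma R {(v, φ), (v1, φ1), (v2, φ2), (v3, φ3)} (ε := -ζ ^ 2) (fun _ => 1) (fun _ _ => one_ne_zero) ?_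
    (Subgroup.closure_mono ?_ hg)).1
  · simp only [div_one, mul_one (-ζ ^ 2)]
    rintro s (rfl | rfl | rfl | rfl) t (rfl | rfl | rfl | rfl) <;>
      simp only [a0, a1, a2, a3, p01, p10, p12, p21, p23, p32, p02, p20, p03, p30, p13, p31] <;> assumption
  · rintro _ ⟨i, rfl⟩
    fin_cases i
    · exact ⟨(v, φ), by simp, h0, inv_homol hζ h0 a0⟩
    · exact ⟨(v1, φ1), by simp, h1, inv_homol hζ h1 a1⟩
    · exact ⟨(v2, φ2), by simp, h2, inv_homol hζ h2 a2⟩
    · exact ⟨(v3, φ3), by simp, h3, inv_homol hζ h3 a3⟩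

theorem mem_omR {ω : F} (hω : ω ^ 2 + ω + 1 = 0) {c : F} (hc : c ^ 3 = 1) : (c, c ^ 2) ∈ Om.omR hω := by
  have : (c - 1) * ((c - ω) * (c - ω ^ 2)) = 0 := by
    linear_combination hc + (-c ^ 2 + c * ω - ω + 1) * hω
  rcases mul_eq_zero.1 this with e | e
  · exact ⟨1, 0, by simp [sub_eq_zero.1 e], by simp [sub_eq_zero.1 e]⟩
  rcases mul_eq_zero.1 e with e | e
  · exact ⟨0, 1, by simp [sub_eq_zero.1 e], by simp [sub_eq_zero.1 e]⟩
  · rw [sub_eq_zero.1 e]
    exact ⟨-1, -1, by push_cast; linear_combination hω, by push_cast; linear_combination (ω ^ 2 - ω + 1) * hω⟩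

theorem scal_comm (c : Fˣ) (g : G F) : Commute (scal (Fin 4) c) g :=
  (Subgroup.mem_center_iff.1 (scalars_le_center (scal_mem c)) g).symm

theorem tr_scal (c : Fˣ) (g : G F) : tr (scal (Fin 4) c * g) = c * tr g := by
  rw [tr, Units.val_mul, coe_scal, smul_mul_assoc, one_mul, trace_smul, smul_eq_mul]

/-- The statement for the lifted generators. -/
theorem lifted [Finite F] {ω : F} (hω : ω ^ 2 + ω + 1 = 0) (h3 : (3 : F) ≠ 0) {t : Fin 4 → G F} {x y : G F}
    (hi : Function.Injective t) (b0 : t 0 * t 1 * t 0 = t 1 * t 0 * t 1)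
    (b1 : t 1 * t 2 * t 1 = t 2 * t 1 * t 2) (b2 : t 2 * t 3 * t 2 = t 3 * t 2 * t 3) (c02 : Commute (t 0) (t 2))
    (c03 : Commute (t 0) (t 3)) (c13 : Commute (t 1) (t 3)) (hz : t 0 = ⁅x, y⁆) (hx : Commute (t 0) x)
    (hy : Commute (t 0) y) (hz3 : t 0 ^ 3 = 1) (hz1 : t 0 ≠ 1) {g : G F} (hg : g ∈ Subgroup.closure (Set.range t)) :
    (tr g, tr g⁻¹) ∈ Om.omR hω := by
  obtain ⟨η, v, φ, hη, a0, h0⟩ := exists_homol hz hx hy hz3 hz1 hω h3
  have h4 : η ^ 3 = 1 := by linear_combination (η - 1) * hη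
  have hη0 : η ^ 2 ≠ 0 := fun k => by
    rw [pow_eq_zero_iff two_ne_zero] at k
    simp [k] at hη
  let c : Fˣ := Units.mk0 _ hη0
  have hc : c ^ 3 = 1 := Units.ext (by
    show (η ^ 2) ^ 3 = 1
    linear_combination (η ^ 3 + 1) * h4)
  have m2 : ∀ (c d : Fˣ) (a b : G F), scal (Fin 4) c * a * (scal (Fin 4) d * b) = scal (Fin 4) (c * d) * (a * b) :=
    fun c d a b => by
      rw [map_mul, mul_assoc, mul_assoc, ← mul_assoc a, ← (scal_comm d a).eq, mul_assoc]
  have key : ∀ g ∈ Subgroup.closure (Set.range fun i => scal (Fin 4) c * t i), (tr g, tr g⁻¹) ∈ Om.omR hω :=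
    fun g hg => traces (Om.omR hω) (ζ := η ^ 2) (by linear_combination (η ^ 2 - η + 1) * hη) h3
      (mem_omR hω (by linear_combination (η ^ 3 + 1) * h4)) (fun i j e => hi (mul_left_cancel e))
      (by simp only [m2, b0]) (by simp only [m2, b1]) (by simp only [m2, b2])
      (by simp only [commute_iff_eq, m2, c02.eq]) (by simp only [commute_iff_eq, m2, c03.eq])
      (by simp only [commute_iff_eq, m2, c13.eq]) (φ := φ) (v := v) (fun y => by
        rw [mul_smul, scal_gsmul, h0, smul_smul, show (c : F) * η = 1 from by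
          show η ^ 2 * η = 1
          linear_combination h4, one_smul]) a0 hg
  obtain ⟨d, hd, hg'⟩ : ∃ d : Fˣ, d ^ 3 = 1 ∧
      scal (Fin 4) d * g ∈ Subgroup.closure (Set.range fun i => scal (Fin 4) c * t i) := by
    induction hg using Subgroup.closure_induction with
    | mem g hg =>
      obtain ⟨i, rfl⟩ := hg
      exact ⟨c, hc, Subgroup.subset_closure ⟨i, rfl⟩⟩
    | one => exact ⟨1, one_pow _, by simp⟩
    | mul a b _ _ ha hb =>
      obtain ⟨d, hd, ha⟩ := ha
      obtain ⟨e, he, hb⟩ := hb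
      exact ⟨d * e, by rw [mul_pow, hd, he, one_mul], m2 d e a b ▸ Subgroup.mul_mem _ ha hb⟩
    | inv a _ ha =>
      obtain ⟨d, hd, ha⟩ := ha
      refine ⟨d⁻¹, by rw [inv_pow, hd, inv_one], ?_⟩
      have := Subgroup.inv_mem _ ha
      rwa [(scal_comm d a).eq, _root_.mul_inv_rev, ← map_inv] at this
  have k := key _ hg'
  rw [(scal_comm d g).eq, _root_.mul_inv_rev, ← map_inv, ← (scal_comm d g).eq, tr_scal, tr_scal] at k
  have hd' : (d : F) ^ 3 = 1 := by simpa using congrArg Units.val hd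
  have hdi : (d : F) * (d⁻¹ : Fˣ) = 1 := d.mul_inv
  convert (Om.omR hω).mul_mem (mem_omR hω (c := (d : F) ^ 2) (by linear_combination ((d : F) ^ 3 + 1) * hd')) k using 1
  refine Prod.ext ?_ ?_
  · show tr g = _ * _
    linear_combination (-tr g) * hd'
  · show tr g⁻¹ = _ * _
    linear_combination (-tr g⁻¹) * hd' - (d : F) ^ 3 * tr g⁻¹ * hdi

end U42x

theorem subU42 : SubU42.{u} := by
  intro F _ _ P hP h3 ω hω ⟨t, x, y, hi, ht, b0, b1, b2, c02, c03, c13, hgen, hx3, hy3, hz, hz1, hx, hy⟩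
  have hZ := coprime_card_scalars hP.le_SL (r := 3) (by decide)
  have hC := scalars_subgroupOf_le_center P
  choose T hT hT3 using fun i => exists_lift hZ (t i) (ht i)
  obtain ⟨X, rfl, hX⟩ := exists_lift hZ x hx3
  obtain ⟨Y, rfl, hY⟩ := exists_lift hZ y hy3
  have hW : ((⁅X, Y⁆ : P) : PQ P) = t 0 := by rw [hz]; rfl
  have cX : Commute ⁅X, Y⁆ X := lift_comm hC hZ hX (by rw [hW]; exact hx.eq)
  have cY : Commute ⁅X, Y⁆ Y := lift_comm hC hZ hY (by rw [hW]; exact hy.eq)
  have hW3 : ⁅X, Y⁆ ^ 3 = 1 := by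
    have := cY.mul_pow 3
    rw [hY, mul_one, show ⁅X, Y⁆ * Y = X * Y * X⁻¹ by rw [commutatorElement_def]; group, conj_pow, hY] at this
    simpa using this.symm
  have e0 : T 0 = ⁅X, Y⁆ := lift_unique hC hZ ((hT 0).trans hW.symm) (hT3 0) hW3
  have br : ∀ i j, t i * t j * t i = t j * t i * t j → T i * T j * T i = T j * T i * T j := fun i j e => by
    have : T i * T j * T i * (T i * T j)⁻¹ = T j := lift_unique hC hZ (by
      simp only [QuotientGroup.mk_mul, QuotientGroup.mk_inv, hT, e]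
      group) (by rw [conj_pow, hT3]; simp) (hT3 j)
    rw [mul_inv_eq_iff_eq_mul.1 this, mul_assoc]
  have cm : ∀ i j, Commute (t i) (t j) → Commute (T i) (T j) := fun i j e =>
    lift_comm hC hZ (hT3 j) (by rw [hT, hT]; exact e.eq)
  have hs : (T 0 : G F) ∉ scalars (Fin 4) F := fun k => hz1 (by rw [← hT 0]; exact mk_eq_one_iff.2 k)
  have hle : P ≤ Subgroup.closure (Set.range fun i => (T i : G F)) := by
    have e1 : Subgroup.closure (Set.range fun i => (T i : G F)) = (Subgroup.closure (Set.range T)).map P.subtype := by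
      rw [MonoidHom.map_closure, ← Set.range_comp]; rfl
    have e2 : (Subgroup.closure (Set.range T)).map (QuotientGroup.mk' ((scalars (Fin 4) F).subgroupOf P)) = ⊤ := by
      rw [MonoidHom.map_closure, ← Set.range_comp, ← hgen]
      congr 2
      exact funext hT
    refine hP.le_of_normal (fun g hg a ha => ?_) (Subgroup.subset_closure ⟨0, rfl⟩) (T 0).2 hs
    have : ((⟨g, hg⟩ : P) : PQ P) ∈
        (Subgroup.closure (Set.range T)).map (QuotientGroup.mk' ((scalars (Fin 4) F).subgroupOf P)) :=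
      e2 ▸ Subgroup.mem_top _
    obtain ⟨n, hn, e'⟩ := this
    have hn' : (n : G F) ∈ Subgroup.closure (Set.range fun i => (T i : G F)) := e1 ▸ ⟨n, hn, rfl⟩
    have hz' : (n : G F)⁻¹ * g * a = a * ((n : G F)⁻¹ * g) :=
      (Subgroup.mem_center_iff.mp (scalars_le_center (Subgroup.mem_subgroupOf.mp (QuotientGroup.eq.mp e'))) a).symm
    rw [show g * a * g⁻¹ = n * ((n : G F)⁻¹ * g * a) * g⁻¹ by group, hz',
      show n * (a * ((n : G F)⁻¹ * g)) * g⁻¹ = n * a * (n : G F)⁻¹ by group]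
    exact Subgroup.mul_mem _ (Subgroup.mul_mem _ hn' ha) (Subgroup.inv_mem _ hn')
  intro l hl
  exact U42x.lifted hω h3 (t := fun i => (T i : G F)) (x := X) (y := Y)
    (fun i j e => hi (by rw [← hT, ← hT, Subtype.ext e])) (congrArg Subtype.val (br 0 1 b0))
    (congrArg Subtype.val (br 1 2 b1)) (congrArg Subtype.val (br 2 3 b2)) (congrArg Subtype.val (cm 0 2 c02).eq)
    (congrArg Subtype.val (cm 0 3 c03).eq) (congrArg Subtype.val (cm 1 3 c13).eq) (congrArg Subtype.val e0)
    (congrArg Subtype.val (e0.symm ▸ cX : Commute (T 0) X).eq)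
    (congrArg Subtype.val (e0.symm ▸ cY : Commute (T 0) Y).eq) (congrArg Subtype.val (hT3 0))
    (fun k => hs (by rw [k]; exact Subgroup.one_mem _)) (hle hl)

end CL.Low4
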