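/-
Project LOW4: the transvections on a 3-space do not generate `3 A₆`.
-/
import Cfsg.Agent.Low4.Defs2
import Cfsg.Agent.Low4.A67
import Cfsg.Agent.Transfer.Control
import Cfsg.Agent.Grp.SylowIn

set_option autoImplicit false
set_option linter.unusedSectionVars false

namespace CL.Low4

open Matrix Cfsg Cfsg.Geo CL.Asch CL.SLn CL.Low Module
open scoped commutatorElement

universe u

namespace X6

variable {F : Type u} [Field F]

theorem comm2 {T A : Matrix (Fin 2) (Fin 2) F} (hT : T * T = 0) (h0 : T ≠ 0) (hc : A * T = T * A) :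
    ∃ a b : F, A = a • 1 + b • T := by
  have k := fun i j => congrFun (congrFun hc i) j
  have k0 := k 0 0; have k1 := k 0 1; have k2 := k 1 0
  have t0 := congrFun (congrFun hT 0) 0; have t1 := congrFun (congrFun hT 1) 1
  simp only [mul_apply, Fin.sum_univ_two, Matrix.zero_apply] at k0 k1 k2 t0 t1
  by_cases hq : T 0 1 = 0
  · by_cases hr : T 1 0 = 0
    · refine absurd (Matrix.ext fun i j => ?_) h0
      simp only [hq, hr, mul_zero, add_zero, zero_add, mul_self_eq_zero] at t0 t1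
      fin_cases i <;> fin_cases j <;> assumption
    · refine ⟨A 0 0 - A 1 0 / T 1 0 * T 0 0, A 1 0 / T 1 0, Matrix.ext fun i j => ?_⟩
      fin_cases i <;> fin_cases j <;> simp <;> field_simp
      exacts [by linear_combination k0, by linear_combination k2]
  · refine ⟨A 0 0 - A 0 1 / T 0 1 * T 0 0, A 0 1 / T 0 1, Matrix.ext fun i j => ?_⟩
    fin_cases i <;> fin_cases j <;> simp <;> field_simp
    exacts [by linear_combination -k0, by linear_combination -k1]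

theorem comm_inv (h2 : (2 : F) = 0) {t g : GL (Fin 2) F} (ht : t * t = 1) (h1 : t ≠ 1) (hc : g * t = t * g) :
    ∃ a b : F, g.val = a • 1 + b • (t.val - 1) :=
  comm2 (sq_sub_one_of_two h2 ht) (fun e => h1 (Units.ext (sub_eq_zero.1 e))) (by
    rw [Matrix.mul_sub, Matrix.sub_mul, ← Units.val_mul, hc, Units.val_mul, Matrix.mul_one, Matrix.one_mul])

theorem tr_zero (h2 : (2 : F) = 0) {t g : GL (Fin 2) F} (ht : t * t = 1) (h1 : t ≠ 1) (hc : g * t = t * g) :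
    tr g = 0 := by
  obtain ⟨a, b, e⟩ := comm_inv h2 ht h1 hc
  have := (Matrix.isNilpotent_trace_of_isNilpotent ⟨2, (sq _).trans (sq_sub_one_of_two h2 ht)⟩).eq_zero
  rw [tr, e, trace_add, trace_smul, trace_smul, this, trace_one]
  simp [h2]

theorem eq_of_comm (h2 : (2 : F) = 0) {K : Subgroup (GL (Fin 2) F)} (hS : Sm K) {s t : GL (Fin 2) F} (hs : s ∈ K)
    (ht : t ∈ K) (s2 : s * s = 1) (t2 : t * t = 1) (s1 : s ≠ 1) (t1 : t ≠ 1) (hc : s * t = t * s) : s = t := by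
  obtain ⟨a, b, e⟩ := comm_inv h2 t2 t1 hc
  obtain ⟨v, φ, h1, h3, h4, h5⟩ := isTv_of_sq (by simp) t1 (sq_sub_one_of_two h2 t2)
  have e1 : ∀ y, s • y = a • y + φ y • b • v := fun y => by
    rw [gsmul_def, e, add_mulVec, smul_mulVec, smul_mulVec, sub_mulVec, one_mulVec, ← gsmul_def, h5]; module
  have e2 : (a * a) • v = (1 : F) • v := by
    have := congrArg (· • v) s2
    simpa [mul_smul, e1, h4] using this
  have e3 : a = 1 := by
    have := smul_left_injective F h1 e2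
    exact sub_eq_zero.1 (pow_eq_zero_iff two_ne_zero |>.1 (by linear_combination this + (1 - a) * h2))
  rw [e3] at e1
  simp only [one_smul] at e1
  rcases hS v φ b ⟨⟨h4, t, ht, h5⟩, h1, h3⟩ ⟨by simp [h4], s, hs, e1⟩ with rfl | rfl
  · exact absurd (gext fun y => by simp [e1]) s1
  · exact gext fun y => by rw [e1, h5, one_smul]

theorem sq_of_pow (h2 : (2 : F) = 0) {g : GL (Fin 2) F} {k : ℕ} (h : g ^ 2 ^ k = 1) : g * g = 1 := by
  have := Fact.mk Nat.prime_two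
  have : CharP F 2 := CharP.ringChar_of_prime_eq_zero Nat.prime_two (by exact_mod_cast h2) ▸ ringChar.charP F
  have h1 : (g.val - 1) ^ 2 ^ k = 0 := by
    rw [sub_pow_char_pow_of_commute _ _ (Commute.one_right _), one_pow, ← Units.val_pow_eq_pow_val, h, Units.val_one,
      sub_self]
  have h3 := (Matrix.isNilpotent_trace_of_isNilpotent ⟨_, h1⟩).eq_zero
  have h4 : (g.val - 1).det = 0 := pow_eq_zero_iff (n := 2 ^ k) (by positivity) |>.1 (by rw [← det_pow, h1, det_zero])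
  rw [trace_fin_two] at h3
  rw [det_fin_two] at h4
  simp only [Matrix.sub_apply, one_apply_eq, ne_eq, zero_ne_one, one_ne_zero, not_false_eq_true, one_apply_ne, sub_zero] at h3 h4
  refine Units.ext (Matrix.ext fun i j => ?_)
  fin_cases i <;> fin_cases j <;> simp [mul_apply, Fin.sum_univ_two]
  exacts [by linear_combination (g.val 0 0 - 1) * h3 - h4 + (g.val 0 0 - 1) * h2,
    by linear_combination g.val 0 1 * h3 + g.val 0 1 * h2, by linear_combination g.val 1 0 * h3 + g.val 1 0 * h2,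
    by linear_combination (g.val 1 1 - 1) * h3 - h4 + (g.val 1 1 - 1) * h2]

theorem dih [Finite F] (h2 : (2 : F) = 0) {K : Subgroup (GL (Fin 2) F)} (hS : Sm K) {a b c : K} (ha : orderOf a = 2)
    (hb : orderOf b = 2) (hc : orderOf c = 2) : tr (a.1 * (b.1 * c.1)) = 0 := by
  have := Fact.mk Nat.prime_two
  obtain ⟨S⟩ : Nonempty (Sylow 2 K) := inferInstance
  have h1 : ∀ s ∈ (S : Subgroup K), s * s = 1 := fun s hs => by
    obtain ⟨k, hk⟩ := S.isPGroup' ⟨s, hs⟩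
    exact Subtype.ext (sq_of_pow h2 (congrArg (fun z : (S : Subgroup K) => z.1.1) hk))
  have h3 : ∀ t : K, orderOf t = 2 → ∃ g : K, g * t * g⁻¹ ∈ (S : Subgroup K) ∧ g * t * g⁻¹ ≠ 1 := fun t ht => by
    obtain ⟨g, hg⟩ := CL.Grp.exists_conj_le_sylow S (U := Subgroup.zpowers t)
      (IsPGroup.of_card (n := 1) (by rw [Nat.card_zpowers, ht]; rfl))
    exact ⟨g, (CL.Grp.conj_smul_le_iff ..).1 hg t (Subgroup.mem_zpowers t), fun e => by
      simp [conj_eq_one_iff.1 e] at ht⟩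
  obtain ⟨g, g1, g2⟩ := h3 a ha
  generalize g * a * g⁻¹ = t at g1 g2
  have h4 : ∀ s ∈ (S : Subgroup K), s ≠ 1 → s = t := fun s hs s1 => Subtype.ext (eq_of_comm h2 hS s.2 t.2
    (congrArg Subtype.val (h1 s hs)) (congrArg Subtype.val (h1 t g1)) (fun e => s1 (Subtype.ext e))
    (fun e => g2 (Subtype.ext e)) (congrArg Subtype.val (show s * t = t * s by
      rw [← inv_eq_of_mul_eq_one_right (h1 _ (mul_mem hs g1)), _root_.mul_inv_rev,
        inv_eq_of_mul_eq_one_right (h1 s hs), inv_eq_of_mul_eq_one_right (h1 t g1)])))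
  obtain ⟨N, hN, hi, hn⟩ := CL.Transfer.thompson_transfer (S : Subgroup K) ⊥ (CL.Transfer.odd_index_sylow_two S)
    (Subgroup.relIndex_eq_two_iff_exists_notMem_and.2 ⟨t, g1, g2, fun s hs => (em (s = 1)).symm.imp_left fun e => by
      rw [h4 s hs e]; exact h1 t g1⟩) t (by rw [sq, h1 t g1]) fun g e => g2 (conj_eq_one_iff.1 e)
  have h5 : ∀ s : K, orderOf s = 2 → s ∉ N := fun s hs e => by
    obtain ⟨k, k1, k2⟩ := h3 s hs
    exact hn (h4 _ k1 k2 ▸ hN.conj_mem s e k)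
  have h6 : a * (b * c) ∉ N := by simp [Subgroup.mul_mem_iff_of_index_two hi, h5 a ha, h5 b hb, h5 c hc]
  obtain ⟨n, hn⟩ : Even (orderOf (a * (b * c))) := Nat.not_odd_iff_even.1 fun e => h6
    (CL.Transfer.mem_of_pow_mem_of_coprime (Subgroup.sq_mem_of_index_two hi _) (Nat.coprime_two_left.2 e))
  have h7 := orderOf_pos (a * (b * c))
  refine tr_zero h2 (t := ((a * (b * c)) ^ n : K)) (congrArg Subtype.val (show _ * _ = (1 : K) by
    rw [← pow_add, ← hn, pow_orderOf_eq_one])) (fun e => ?_) (congrArg Subtype.val (Commute.self_pow (a * (b * c)) n).eq)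
  exact pow_ne_one_of_lt_orderOf (x := a * (b * c)) (n := n) (by omega) (by omega) (Subtype.ext e)

variable {ι : Type} [Fintype ι] [DecidableEq ι] {P : Subgroup (GL ι F)} {k : ℕ} {e : Fin k → ι → F}
  {x : Fin k → Dual F (ι → F)} {u v w d : ι → F} {φ ψ χ : Dual F (ι → F)}

theorem rt_ord (h2 : (2 : F) = 0) (h : Rt P v φ) : ∃ g : P, orderOf g = 2 ∧ ∀ y, g.1 • y = y + φ y • v := by
  obtain ⟨h0, g, hg, eg⟩ := h.tv
  have := Fact.mk Nat.prime_two
  refine ⟨⟨g, hg⟩, orderOf_eq_prime (Subtype.ext (gext fun y => ?_)) fun e1 => h.ne' (LinearMap.ext fun y => ?_), eg⟩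
  · change (g ^ 2) • y = (1 : GL ι F) • y
    rw [sq, mul_smul, eg, eg, one_smul, map_add, map_smul, h0, smul_zero, add_zero, add_assoc, ← two_smul F, h2, zero_smul,
      add_zero]
  · have := eg y
    rw [show g = 1 from congrArg Subtype.val e1, one_smul, left_eq_add] at this
    exact (smul_eq_zero.1 this).resolve_right h.ne

theorem sm_TK (hb : Bi e x) (hS : Sm P) : Sm (TK P e x) := fun a η t h1 h2 =>
  hS (up e a) (η ∘ₗ co x) t ⟨(tv_TK hb).1 h1.tv, fun h => h1.ne (hb.up_inj (by simpa using h)), hb.comp_co_ne h1.ne'⟩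
    (by rw [← map_smul]; exact (tv_TK hb).1 h2)

theorem pair3 [Finite F] (h2 : (2 : F) = 0) (hS : Sm P) {e : Fin 2 → ι → F} {x : Fin 2 → Dual F (ι → F)} (hb : Bi e x)
    (h1 : Rt P u φ) (h3 : Rt P v ψ) (h4 : Rt P w χ) (i1 : In e x u φ) (i3 : In e x v ψ) (i4 : In e x w χ) :
    φ v * ψ u + φ w * χ u + ψ w * χ v + φ v * ψ w * χ u = 0 := by
  obtain ⟨a, a1, a2⟩ := rt_ord h2 (rt_TK_of_in hb h1 i1)
  obtain ⟨b, b1, b2⟩ := rt_ord h2 (rt_TK_of_in hb h3 i3)
  obtain ⟨c, c1, c2⟩ := rt_ord h2 (rt_TK_of_in hb h4 i4)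
  have := dih h2 (sm_TK hb hS) a1 b1 c1
  rw [tr_rank_one (v := -co x u) (fun y => by rw [a2, smul_neg, sub_neg_eq_add]),
    tr_rank_one (v := -co x v) (fun y => by rw [b2, smul_neg, sub_neg_eq_add]), ← mul_one c.1,
    tr_rank_one (v := -co x w) (fun y => by rw [c2, smul_neg, sub_neg_eq_add]), tr_one] at this
  simp only [mul_smul, one_smul, b2, c2, map_add, map_neg, map_smul, LinearMap.comp_apply, i1.up_co, i3.up_co, i4.up_co,
    h1.tv.1, h3.tv.1, h4.tv.1, smul_eq_mul, Fintype.card_fin, Nat.cast_ofNat] at this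
  linear_combination this - h2

theorem nrm {g : GL ι F} (hg : g ∈ P) {κ : GL (Fin k) F} (h1 : ∀ a, g • up e a = up e (κ • a))
    (h2 : ∀ y, co x (g • y) = κ • co x y) (l : GL (Fin k) F) (hl : l ∈ TK P e x) : κ * l * κ⁻¹ ∈ TK P e x := by
  induction hl using Subgroup.closure_induction with
  | mem A hA =>
    obtain ⟨a, η, h, eA⟩ := hA
    refine Subgroup.subset_closure ⟨κ • a, dact κ η, h1 a ▸ h.conj' hg fun y => by simp [h2], fun z => ?_⟩
    rw [mul_smul, mul_smul, eA, smul_add, smul_inv_smul, gsmul_smul, dact_apply]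
  | one => simp
  | mul a b _ _ ha hb => rw [← conj_mul]; exact mul_mem ha hb
  | inv a _ ha => rw [← conj_inv]; exact inv_mem ha

theorem moving (hI : Irr P) (hT : TvGen P) (hb : Bi e x) (h0 : 0 < k) (hk : k ≠ Fintype.card ι) :
    ∃ v φ, Rt P v φ ∧ prD e x φ ≠ 0 ∧ pr e x v ≠ v := by
  by_contra hne
  push Not at hne
  have h1 : P ≤ subspaceStabilizer (US e x) := hT.trans ((Subgroup.closure_le _).2 (by
    rintro g ⟨hg, v, φ, a1, a2, a3, a4⟩
    refine CL.SLn.mem_subspaceStabilizer_of_mapsTo fun y hy => ?_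
    refine (a4 y).symm ▸ Submodule.add_mem _ hy ?_
    by_cases h1 : prD e x φ = 0
    · rw [← mem_US.1 hy, ← prD_apply, h1, LinearMap.zero_apply, zero_smul]; exact Submodule.zero_mem _
    · exact Submodule.smul_mem _ _ (hne v φ ⟨⟨a3, g, hg, a4⟩, a1, a2⟩ h1)))
  rcases irr_iff.1 hI (US e x) fun g hg y hy => (h1 hg y).1 hy with h | h
  · exact hb.e_ne ⟨0, h0⟩ ((Submodule.mem_bot F).1 (h ▸ hb.pr_e _))
  · exact hk (hb.card_eq fun y => mem_US.1 (h ▸ Submodule.mem_top))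

/-- The splitting of a root relative to the frame. -/
structure Sp (e : Fin k → ι → F) (x : Fin k → Dual F (ι → F)) (w d : ι → F) (ψ χ : Dual F (ι → F)) : Prop where
  bi : Bi e x
  w1 : pr e x w = w
  d1 : pr e x d = 0
  p1 : ∀ y, ψ (pr e x y) = ψ y
  c1 : ∀ y, χ (pr e x y) = 0

namespace Sp

variable (h : Sp e x w d ψ χ)
include h

theorem pd : ψ d = 0 := by rw [← h.p1, h.d1, map_zero]
theorem cw : χ w = 0 := by rw [← h.w1, h.c1]
theorem cu (a : Fin k → F) : χ (up e a) = 0 := by rw [← h.bi.pr_up, h.c1]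
theorem cod : co x d = 0 := by rw [← h.bi.co_pr, h.d1, map_zero]
theorem upw : up e (co x w) = w := h.w1
theorem puc (y : ι → F) : ψ (up e (co x y)) = ψ y := h.p1 y

theorem step {ω s t : F} (hω : ω ^ 2 + ω + 1 = 0) {g : GL ι F} (hg : g ∈ P) (hs : Sc e x ω g)
    (hr : Rt P (s • w + d) (t • ψ + χ)) : Rt P ((ω * s) • w + d) ((ω ^ 2 * t) • ψ + χ) := by
  have k1 : ∀ z, ((ω ^ 2 * t) • ψ + χ) (g • z) = (t • ψ + χ) z := fun z => by
    simp only [hs z, LinearMap.add_apply, LinearMap.smul_apply, map_add, map_smul, h.p1, h.c1, smul_eq_mul]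
    linear_combination (ω - 1) * t * ψ z * hω
  have := hr.conj hg
  rwa [smul_add, gsmul_smul, hs.eig h.w1, hs.fix h.d1, smul_smul, mul_comm s,
    show dact g (t • ψ + χ) = (ω ^ 2 * t) • ψ + χ from LinearMap.ext fun y => by
      rw [dact_apply, ← k1, smul_inv_smul]] at this

end Sp

variable {e : Fin 3 → ι → F} {x : Fin 3 → Dual F (ι → F)} {ω : F}

theorem alg (h2 : (2 : F) = 0) (hω : ω ^ 2 + ω + 1 = 0) : ¬ (ω = 0 ∨ ω = 1) ∧ ω ^ 2 ≠ 0 ∧ ω ^ 3 = 1 ∧
    (∀ c t : F, c ^ 3 = ω ^ 2 → c * t = 2 + ω ^ 2 → t ^ 4 ≠ t) ∧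
    (∀ c : F, 1 * (c ^ 3 * 1) = 1 → c = 1 ∨ c = ω ∨ c = ω ^ 2) ∧
    (∀ a : F, a = 0 ∨ a = 1 → ω * a = 0 ∨ ω * a = 1 → a = 0) ∧ (5 : F) ≠ 0 ∧
    ∀ τ c a : F, τ ^ 2 = τ + 1 → c ^ 3 = 1 → a = 3 ∨ a = -1 ∨ a = 0 ∨ a = 1 ∨ a = τ ∨ a = 1 - τ →
      (c * a) ^ 4 = c * a := by
  have h1 : ¬ (ω = 0 ∨ ω = 1) := fun h => one_ne_zero (α := F) (by grind)
  have h3 : ω ^ 3 = 1 := by grind
  refine ⟨h1, pow_ne_zero 2 fun h => h1 (.inl h), h3, fun c t a b k => h1 ?_, fun c k => ?_, fun a k l => ?_,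
    fun h => one_ne_zero (α := F) (by grind), by grind⟩
  · have : t * (t ^ 3 - 1) = 0 := by linear_combination k
    rcases mul_eq_zero.1 this with k | k <;> grind
  · have : (c - 1) * ((c - ω) * (c - ω ^ 2)) = 0 := by grind
    simpa only [mul_eq_zero, sub_eq_zero] using this
  · refine k.elim id fun k => (h1 ?_).elim
    rwa [k, mul_one] at l

theorem caseA [Finite F] (h : Sp e x w d ψ χ) (h2 : (2 : F) = 0) (hω : ω ^ 2 + ω + 1 = 0) (hS : Sm P)
    (hQ : QS (TK P e x)) (hN : SelfNorm (TK P e x)) (ht : ∀ l ∈ TK P e x, tr l ^ 4 = tr l)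
    (r0 : Rt P ((1 : F) • w + d) ((1 : F) • ψ + χ)) (r1 : Rt P (ω • w + d) (ω ^ 2 • ψ + χ))
    (r2 : Rt P (ω ^ 2 • w + d) (ω • ψ + χ)) : ψ w = 0 := by
  by_contra hX
  have c0 : χ d = ψ w := by
    have := r0.tv.1
    simp only [one_smul, LinearMap.add_apply, map_add, h.pd, h.cw] at this
    linear_combination this - ψ w * h2
  have hb : Bi ![w, d] ![(ψ w)⁻¹ • ψ, (ψ w)⁻¹ • χ] := ⟨fun i => by fin_cases i <;> simp [c0, hX], fun i j k => by
    fin_cases i <;> fin_cases j <;> simp [h.pd, h.cw] at k ⊢⟩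
  have hi : ∀ s t : F, In ![w, d] ![(ψ w)⁻¹ • ψ, (ψ w)⁻¹ • χ] (s • w + d) (t • ψ + χ) := fun s t =>
    in_iff.2 ⟨by simp [pr, h.pd, h.cw, c0, hX], fun y => by simp [pr, h.pd, h.cw, c0]; field_simp⟩
  have k := pair3 h2 hS hb r1 r0 r2 (hi ..) (hi ..) (hi ..)
  simp only [LinearMap.add_apply, LinearMap.smul_apply, map_add, map_smul, h.pd, h.cw, c0, smul_eq_mul] at k
  have X1 : ψ w = 1 := by
    have : ψ w ^ 2 * (ψ w - 1) = 0 := by grind
    exact sub_eq_zero.1 ((mul_eq_zero.1 this).resolve_left (pow_ne_zero 2 hX))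
  obtain ⟨-, g0, m0, e0⟩ := r0.tv
  obtain ⟨-, g1, m1, e1⟩ := r1.tv
  have eg : ∀ y, (g0 * g1) • y = y + ((ω ^ 2 - 1) * ψ y) • w + (ω ^ 2 * χ y) • d := fun y => by
    simp only [mul_smul, e0, e1, LinearMap.add_apply, LinearMap.smul_apply, map_add, map_smul, h.pd, h.cw, c0, X1,
      smul_eq_mul]
    match_scalars <;> grind
  have h1 : (ψ ∘ₗ up e) (co x w) = 1 := (h.puc w).trans X1
  obtain ⟨κ, hκ⟩ := exists_homology h1 (alg h2 hω).2.1
  obtain ⟨l, hl, c, a1, -, a2, -⟩ := A67.hom_data hQ h1 (fun y => by rw [hκ, one_smul])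
    (hN κ (nrm (mul_mem m0 m1) (fun a => by simp [eg, hκ, h.cu, h.upw]) fun y => by simp [eg, hκ, h.cod, h.puc]))
  exact (alg h2 hω).2.2.2.1 _ _ a1 a2 (ht l hl)

theorem caseB [Finite F] (h : Sp e x w d ψ χ) (h2 : (2 : F) = 0) (hω : ω ^ 2 + ω + 1 = 0) (hS : Sm P)
    (hQ : QS (TK P e x)) (hN : SelfNorm (TK P e x)) {z : GL (Fin 3) F} (hz : z ∈ TK P e x) (ez : z.val = ω • 1)
    (r0 : Tv P ((1 : F) • w + d) ((1 : F) • ψ + χ)) (r1 : Tv P (ω • w + d) (ω ^ 2 • ψ + χ))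
    (r2 : Tv P (ω ^ 2 • w + d) (ω • ψ + χ)) (hψ : ψ ≠ 0) (hd : d ≠ 0) (hX : ψ w = 0) :
    Rt (TK P e x) (co x w) (ψ ∘ₗ up e) ∧ ∀ l ∈ TK P e x, ψ (up e (l⁻¹ • co x w)) = 0 → ψ (up e (l • co x w)) = 0 := by
  have c0 : χ d = 0 := by simpa [h.pd, h.cw, hX] using r0.1
  obtain ⟨-, g0, m0, e0⟩ := r0
  obtain ⟨-, g1, m1, e1⟩ := r1
  obtain ⟨-, g2, m2, e2⟩ := r2
  have en : ∀ y, (g1 * g2) • y = y + ψ y • d + χ y • w + (0 * χ y) • d := fun y => by
    simp only [mul_smul, e1, e2, LinearMap.add_apply, LinearMap.smul_apply, map_add, map_smul, h.pd, h.cw, c0, hX,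
      smul_eq_mul]
    match_scalars <;> grind
  have em : ∀ y, (g0 * (g1 * g2)) • y = y + ψ y • w + χ y • d := fun y => by
    simp only [mul_smul g0, e0, en, LinearMap.add_apply, LinearMap.smul_apply, map_add, map_smul, h.pd, h.cw, c0, hX,
      smul_eq_mul]
    match_scalars <;> grind
  have ek : ∀ y, (g0 * g1) • y = y + ψ y • ω • d + χ y • ω ^ 2 • w := fun y => by
    simp only [mul_smul, e0, e1, LinearMap.add_apply, LinearMap.smul_apply, map_add, map_smul, h.pd, h.cw, c0, hX,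
      smul_eq_mul]
    match_scalars <;> grind
  obtain ⟨hw, hχ⟩ : w ≠ 0 ∧ χ ≠ 0 := not_or.1 fun k => by
    have := hS d ψ ω ⟨⟨h.pd, _, mul_mem m1 m2, fun y => by rcases k with rfl | rfl <;> simp [en]⟩, hd, hψ⟩
      ⟨by simp [h.pd], _, mul_mem m0 m1, fun y => by rcases k with rfl | rfl <;> simp [ek]⟩
    exact (alg h2 hω).1 this
  have h1 : (ψ ∘ₗ up e) (co x w) = 0 := (h.puc w).trans hX
  obtain ⟨τ, eτ, sτ⟩ : ∃ τ : GL (Fin 3) F, (∀ a, τ • a = a + (ψ ∘ₗ up e) a • co x w) ∧ τ ∈ specialLinear _ F :=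
    ⟨tv _ _ h1, tv_smul _ _ h1, tv_mem_specialLinear ..⟩
  have t1 : τ ∈ TK P e x := by
    obtain ⟨l, hl, s, hs, e3⟩ := Subgroup.mem_sup_of_normal_right.1 (hN τ (nrm (mul_mem m0 (mul_mem m1 m2))
      (fun a => by simp [em, eτ, h.cu, h.upw]) fun y => by simp [em, eτ, h.cod, h.puc]))
    obtain ⟨c, hc⟩ := mem_scalars_iff'.1 hs
    have a1 := CL.SLn.mem_specialLinear.1 sτ
    rw [← e3, Units.val_mul, det_mul, CL.SLn.mem_specialLinear.1 (hQ.le_SL hl), hc, det_smul, det_one,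
      Fintype.card_fin] at a1
    refine e3 ▸ mul_mem hl ?_
    obtain rfl | rfl | rfl := (alg h2 hω).2.2.2.2.1 c a1
    · rw [show s = 1 from Units.ext (by simp [hc])]; exact one_mem _
    · rwa [show s = z from Units.ext (by rw [hc, ez])]
    · rw [show s = z * z from Units.ext (by simp [hc, ez, smul_smul, sq])]; exact mul_mem hz hz
  have t2 : Tv (TK P e x) (co x w) (ψ ∘ₗ up e) := ⟨h1, τ, t1, eτ⟩
  have t3 : Rt P d χ := by
    obtain ⟨-, g, hg, eg⟩ := (tv_TK h.bi).1 t2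
    refine ⟨⟨c0, g⁻¹ * (g0 * (g1 * g2)), mul_mem (inv_mem hg) (mul_mem m0 (mul_mem m1 m2)), fun y => ?_⟩, hd, hχ⟩
    rw [mul_smul, inv_smul_eq_iff, em, eg]
    simp only [LinearMap.comp_apply, h.puc, h.upw, map_add, map_smul, h.cod, map_zero, smul_zero, add_zero]
    abel
  refine ⟨⟨t2, fun k => hw (by rw [← h.upw, k, map_zero]), fun k => hψ (LinearMap.ext fun y => by
    rw [← h.puc]; exact LinearMap.congr_fun k _)⟩, ?_⟩
  have key : ∀ l ∈ TK P e x, ψ (up e (l • co x w)) - ψ (up e (l⁻¹ • co x w)) = 0 ∨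
      ψ (up e (l • co x w)) - ψ (up e (l⁻¹ • co x w)) = 1 := fun l hl => by
    have a1 : ∀ l : GL (Fin 3) F, emb h.bi l • d = d := fun l => by simp [emb_smul, h.d1, h.cod]
    have a2 : ∀ (l : GL (Fin 3) F) y, χ (emb h.bi l • y) = χ y := fun l y => by simp [emb_smul, h.c1, h.cu]
    have a3 : ∀ l : GL (Fin 3) F, emb h.bi l • w = up e (l • co x w) := fun l => by rw [← emb_up h.bi, h.upw]
    have hk := emb_mem_of_TK h.bi hl
    have a4 : g1 * g2 ∈ P := mul_mem m1 m2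
    have a5 := mul_mem (mul_mem hk a4) (inv_mem hk)
    have := heis_comm (a' := up e (l • co x w)) (f' := dact (emb h.bi l) ψ) (t' := 0)
      (n' := emb h.bi l * (g1 * g2) * (emb h.bi l)⁻¹) c0 h.cw (h.cu _) h.pd
      (by rw [dact_apply, ← map_inv, a1, h.pd]) en (fun y => by
        rw [mul_smul, mul_smul, en]
        simp only [smul_add, smul_inv_smul, gsmul_smul, a1, a3, dact_apply]
        rw [← map_inv, a2])
    rw [show dact (emb h.bi l) ψ w = ψ (up e (l⁻¹ • co x w)) by rw [dact_apply, ← map_inv, a3]] at this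
    exact hS d χ _ t3 ⟨by simp [c0], _, mul_mem (mul_mem a4 a5) (inv_mem (mul_mem a5 a4)), this⟩
  intro l hl h0
  have a1 := key l hl
  have a2 := key (z * l) (mul_mem hz hl)
  have a3 : ∀ a : Fin 3 → F, z • a = ω • a := fun a => by rw [gsmul_def, ez, smul_mulVec, one_mulVec]
  have a4 : ∀ a : Fin 3 → F, z⁻¹ • a = ω ^ 2 • a := fun a => by
    rw [inv_smul_eq_iff, a3, smul_smul, ← pow_succ', (alg h2 hω).2.2.1, one_smul]
  rw [_root_.mul_inv_rev, mul_smul, mul_smul, a3, a4, gsmul_smul] at a2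
  simp only [map_smul, h0, smul_eq_mul, mul_zero, sub_zero] at a1 a2
  exact (alg h2 hω).2.2.2.2.2.1 _ a1 a2

theorem conj_inv6 [Finite F] {L : Subgroup (GL (Fin 3) F)} (h2 : (2 : F) = 0) (θ : PQ L ≃* alternatingGroup (Fin 6))
    {a b : L} (ha : orderOf a = 2) (hb : orderOf b = 2) : ∃ g : L, g * a * g⁻¹ = b := by
  have hZ := coprime_card_scalars_char L Nat.prime_two (by exact_mod_cast h2)
  have k : ∀ a : L, orderOf a = 2 → ((θ a : alternatingGroup (Fin 6)) : Equiv.Perm (Fin 6)).cycleType =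
      Multiset.replicate 2 2 := fun a ha => by
    have h1 : a ^ 2 = 1 := ha ▸ pow_orderOf_eq_one a
    refine A67.cyc22 (by rw [← map_mul, ← QuotientGroup.mk_mul, ← sq, h1]; simp) fun e => ?_
    rw [MulEquiv.map_eq_one_iff, QuotientGroup.eq_one_iff] at e
    simp [eq_one_of_pow_of_coprime hZ e h1] at ha
  obtain ⟨c, hc⟩ := isConj_iff.1 (alternatingGroup.isConj_of (σ := θ a) (τ := θ b)
    (Equiv.Perm.isConj_iff_cycleType_eq.2 ((k a ha).trans (k b hb).symm))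
    (by rw [← Equiv.Perm.sum_cycleType, k a ha]; simp))
  obtain ⟨c, rfl⟩ := θ.surjective c
  obtain ⟨c, rfl⟩ := QuotientGroup.mk_surjective c
  refine ⟨c, lift_unique (scalars_subgroupOf_le_center L) hZ (θ.injective (by simpa using hc)) ?_
    (hb ▸ pow_orderOf_eq_one b)⟩
  rw [conj_pow, ← ha, pow_orderOf_eq_one, mul_one, mul_inv_cancel]

theorem not_lin [Finite F] {L : Subgroup (GL (Fin 3) F)} (h2 : (2 : F) = 0) (θ : PQ L ≃* alternatingGroup (Fin 6))
    {a : Fin 3 → F} {η : Dual F (Fin 3 → F)} (h : Rt L a η) (hs : ∀ l ∈ L, η (l⁻¹ • a) = 0 → η (l • a) = 0) :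
    ¬ LinPair L := by
  rintro ⟨v, w, φ, ψ, h1, h3, a1, a2, a3, a4⟩
  obtain ⟨t, t1, t2⟩ := rt_ord h2 h
  have k : ∀ v φ, Rt L v φ → ∃ g ∈ L, ∀ y, φ y • v = η (g⁻¹ • y) • g • a := fun v φ hr => by
    obtain ⟨s, s1, s2⟩ := rt_ord h2 hr
    obtain ⟨g, hg⟩ := conj_inv6 h2 θ t1 s1
    refine ⟨g, g.2, fun y => add_left_cancel (a := y) ?_⟩
    rw [← s2, ← hg]
    change (g.1 * t.1 * g.1⁻¹) • y = _
    rw [mul_smul, mul_smul, t2, smul_add, smul_inv_smul, gsmul_smul]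
  obtain ⟨g, hg, e1⟩ := k v φ ⟨h1, a1, fun e => a3 (by simp [e])⟩
  obtain ⟨g', hg', e2⟩ := k w ψ ⟨h3, fun e => a3 (by simp [e]), a2⟩
  have n : ∀ (g : GL (Fin 3) F) (c : F), c • g • a = 0 → c = 0 := fun g c e =>
    (smul_eq_zero.1 e).resolve_right fun k => h.ne (by rw [← inv_smul_smul g a, k, smul_zero])
  obtain ⟨y, hy⟩ : ∃ y, ψ y ≠ 0 := not_forall.1 fun k => a2 (LinearMap.ext k)
  have b1 : η (g⁻¹ • w) ≠ 0 := fun k => a1 (by simpa [k, a3] using e1 w)
  have b2 : η (g'⁻¹ • g • a) = 0 := by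
    have := e2 (φ w • v)
    rw [map_smul, a4, smul_zero, zero_smul, e1, gsmul_smul, map_smul] at this
    exact (mul_eq_zero.1 (n _ _ this.symm)).resolve_left b1
  have b3 := hs (g⁻¹ * g') (mul_mem (inv_mem hg) hg') (by rwa [_root_.mul_inv_rev, inv_inv, mul_smul])
  have := congrArg (fun z => η (g⁻¹ • z)) (e2 y)
  simp only [gsmul_smul, map_smul, ← mul_smul g⁻¹ g', b3, smul_eq_mul, mul_zero] at this
  exact mul_ne_zero hy b1 this

end X6

open X6 in
theorem subX6 : SubX6.{u} := by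
  rintro F _ _ P h2 hI hT hS e x hb hL hQ ⟨θ⟩
  obtain ⟨⟨ω, τ, hω, hτ, ⟨z, hz, ez⟩, -, ht⟩, hN, -⟩ := a6Data F _ hQ (fun h => one_ne_zero (α := F) (by linear_combination h - h2)) ⟨θ⟩
  replace hN := hN (alg h2 hω).2.2.2.2.2.2.1
  obtain ⟨y, χ, hr, h1, h3⟩ := moving hI hT hb (by norm_num) (by simp)
  have h : Sp e x (pr e x y) (y - pr e x y) (prD e x χ) (χ - prD e x χ) :=
    ⟨hb, hb.pr_pr y, by rw [pr_sub, hb.pr_pr, sub_self], fun z => by rw [prD_apply, prD_apply, hb.pr_pr],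
      fun z => by rw [LinearMap.sub_apply, prD_apply, hb.pr_pr, sub_self]⟩
  have r0 : Rt P ((1 : F) • pr e x y + (y - pr e x y)) ((1 : F) • prD e x χ + (χ - prD e x χ)) := by simpa using hr
  have hs : Sc e x ω (emb hb z) := (sc_emb hb).2 fun a => by rw [gsmul_def, ez, smul_mulVec, one_mulVec]
  have r1 := h.step hω (emb_mem_of_TK hb hz) hs r0
  rw [mul_one, mul_one] at r1
  have r2 := h.step hω (emb_mem_of_TK hb hz) hs r1
  rw [← sq, show ω ^ 2 * ω ^ 2 = ω by linear_combination ω * (alg h2 hω).2.2.1] at r2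
  obtain ⟨a1, a2⟩ := caseB h h2 hω hS hQ hN hz ez r0.tv r1.tv r2.tv h1 (sub_ne_zero.2 h3.symm)
    (caseA h h2 hω hS hQ hN (fun l hl => by
      obtain ⟨i, a, ha, e, -⟩ := ht l hl
      rw [e]
      exact (alg h2 hω).2.2.2.2.2.2.2 τ _ a hτ (by rw [← pow_mul, mul_comm, pow_mul, (alg h2 hω).2.2.1, one_pow]) ha)
      r0 r1 r2)
  exact not_lin h2 θ a1 a2 hL

end CL.Low4
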